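import Cfsg.Agent.H9.MiA1
import Cfsg.Agent.H4.Subf

/-! Absolutely irreducible groups containing a transvection. -/

set_option autoImplicit false

namespace Cfsg.Agent.H9.Mi

open Matrix Cfsg.Agent.H1.Mit

variable {T K : Type*} [Group T] [Field K] {ρ : SRep T K}

/-- the parameters of the transvections with a given centre -/
def Av (ρ : SRep T K) (v : V4 K) : AddSubgroup K where
  carrier := {c | GG ρ (tv v c)}
  zero_mem' := GG.one.congr (tv_zero v)
  add_mem' h h' := (GG.mul h h').congr (tv_mul ..).symm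
  neg_mem' h := (GG.inv h).congr (ad_tv ..).symm

theorem GG.tv_map {g : M4 K} (hg : GG ρ g) {v : V4 K} {c : K} (h : GG ρ (Mi.tv v c)) : GG ρ (Mi.tv (g *ᵥ v) c) :=
  ((hg.mul h).mul hg.inv).congr (tv_cj hg.sp v c).symm

theorem Av_map {g : M4 K} (hg : GG ρ g) (v : V4 K) : Av ρ (g *ᵥ v) = Av ρ v :=
  le_antisymm (fun c h => by
    have := hg.inv.tv_map h
    rwa [mulVec_mulVec, hg.sp.left, one_mulVec] at this) fun c h => hg.tv_map h

theorem mem_Av_smul {t c : K} {v : V4 K} : c ∈ Av ρ (t • v) ↔ t ^ 2 * c ∈ Av ρ v := by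
  change GG ρ _ ↔ GG ρ _
  rw [tv_smul]

theorem card_Av_smul {t : K} (ht : t ≠ 0) (v : V4 K) : Nat.card (Av ρ (t • v)) = Nat.card (Av ρ v) :=
  Nat.card_congr ((Equiv.mulLeft₀ (t ^ 2) (pow_ne_zero 2 ht)).subtypeEquiv fun _ => mem_Av_smul)

/-- centres with a maximal transvection group -/
structure Mx (ρ : SRep T K) (x : V4 K) : Prop where
  ne : x ≠ 0
  max : ∀ v, v ≠ 0 → Nat.card (Av ρ v) ≤ Nat.card (Av ρ x)
  ex : ∃ c ∈ Av ρ x, c ≠ 0

theorem Mx.map {x : V4 K} (h : Mx ρ x) {g : M4 K} (hg : GG ρ g) : Mx ρ (g *ᵥ x) :=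
  ⟨hg.sp.mulVec_ne h.ne, by rw [Av_map hg]; exact h.max, by rw [Av_map hg]; exact h.ex⟩

theorem Mx.smul {x : V4 K} (h : Mx ρ x) {t : K} (ht : t ≠ 0) : Mx ρ (t • x) :=
  ⟨smul_ne_zero ht h.ne, by rw [card_Av_smul ht]; exact h.max, by
    obtain ⟨c, h1, h2⟩ := h.ex
    exact ⟨c / t ^ 2, mem_Av_smul.2 (by rwa [mul_div_cancel₀ _ (pow_ne_zero 2 ht)]), by simp [h2, ht]⟩⟩

theorem Mx.card_eq {x y : V4 K} (h : Mx ρ x) (h' : Mx ρ y) : Nat.card (Av ρ x) = Nat.card (Av ρ y) :=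
  le_antisymm (h'.max _ h.ne) (h.max _ h'.ne)

theorem tv_ne (h2 : (2 : K) ≠ 0) {v : V4 K} {c : K} (hv : v ≠ 0) (hc : c ≠ 0) : tv v c ≠ 1 ∧ tv v c ≠ -1 := by
  obtain ⟨w, hw⟩ := exists_B_one hv
  constructor <;> intro e
  · have := tv_mulVec v c w
    rw [e, B_swap, hw] at this
    simp [hv, hc] at this
  · have := tv_mulVec v c v
    rw [e, neg_mulVec, one_mulVec, B_self, mul_zero, zero_smul, add_zero, neg_eq_iff_add_eq_zero, ← two_smul K] at this
    exact smul_ne_zero h2 hv this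

variable [Finite K]

theorem exists_mx (hT : ¬ ρ.NoTv) : ∃ x, Mx ρ x := by
  unfold SRep.NoTv at hT
  push Not at hT
  obtain ⟨y, X, hX, h1, h2⟩ := hT
  obtain ⟨v, c, v0, c0, rfl⟩ := exists_tv hX.sp h1 h2
  obtain ⟨x, hx, h⟩ := Set.exists_max_image {v : V4 K | v ≠ 0} (fun v => Nat.card (Av ρ v)) (Set.toFinite _) ⟨v, v0⟩
  refine ⟨x, hx, h, ?_⟩
  by_contra hne
  push Not at hne
  have k := h v v0
  rw [(AddSubgroup.eq_bot_iff_forall (Av ρ x)).2 hne, AddSubgroup.card_bot] at k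
  exact c0 (AddSubgroup.mem_bot.1 (((Av ρ v).eq_bot_of_card_le k).le ⟨y, hX⟩))

theorem gen (hy : ρ.Hyp) {x : V4 K} (hx : Mx ρ x) (S : Submonoid (M4 K)) (h1 : -1 ∈ S)
    (hS : ∀ v, Mx ρ v → ∀ c ∈ Av ρ v, tv v c ∈ S) {X : M4 K} (hX : GG ρ X) : X ∈ S := by
  have := ρ.finite
  have ng : ∀ X ∈ S, -X ∈ S := fun X h => by simpa using S.mul_mem h1 h
  let U : Subgroup T := toSub
    { carrier := {x | ∀ X, ρ.L x X → X ∈ S}
      one_mem' := fun X hX => by
        rcases hX.eq_one_iff.1 rfl with rfl | rfl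
        exacts [S.one_mem, h1]
      mul_mem' := fun {a b} ha hb X hX => by
        obtain ⟨A, hA⟩ := ρ.exL a
        obtain ⟨B, hB⟩ := ρ.exL b
        rcases (hA.mul hB).uniq hX with rfl | rfl
        exacts [S.mul_mem (ha A hA) (hb B hB), ng _ (S.mul_mem (ha A hA) (hb B hB))] }
  obtain ⟨c, ⟨y, hy'⟩, c0⟩ := hx.ex
  have := hy.simple
  have hN : Subgroup.normalClosure {y} = ⊤ := (Subgroup.normalClosure_normal.eq_bot_or_eq_top).resolve_left fun e => by
    have : y = 1 := Subgroup.mem_bot.1 (e.le (Subgroup.subset_normalClosure rfl))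
    exact (hy'.eq_one_iff.1 this).elim (tv_ne hy.two hx.ne c0).1 (tv_ne hy.two hx.ne c0).2
  have hle : Subgroup.normalClosure {y} ≤ U := (Subgroup.closure_le U).2 fun x hx' => by
    obtain ⟨a, rfl, ha⟩ := Group.mem_conjugatesOfSet_iff.1 hx'
    obtain ⟨g, rfl⟩ := isConj_iff.1 ha
    obtain ⟨G, hG⟩ := ρ.exL g
    intro X hX
    have := hS _ (hx.map ⟨_, hG⟩) c (GG.tv_map ⟨_, hG⟩ ⟨_, hy'⟩)
    rw [← tv_cj hG.sp] at this
    rcases (hG.conj hy').uniq hX with rfl | rfl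
    exacts [this, ng _ this]
  obtain ⟨z, hz⟩ := hX
  exact hle (hN.ge trivial) X hz

theorem irr_tv (hy : ρ.Hyp) {x : V4 K} (hx : Mx ρ x) (U : Submodule K (V4 K)) (hU : x ∈ U)
    (h : ∀ v, Mx ρ v → ∀ c ∈ Av ρ v, ∀ u ∈ U, tv v c *ᵥ u ∈ U) : U = ⊤ :=
  (hy.irr U fun z X hX => gen hy hx
    { carrier := {X | ∀ u ∈ U, X *ᵥ u ∈ U}
      one_mem' := fun u hu => by simpa using hu
      mul_mem' := fun ha hb u hu => by rw [← mulVec_mulVec]; exact ha _ (hb u hu) }
    (fun u hu => by simpa [neg_mulVec] using hu) h ⟨z, hX⟩).resolve_left fun e => hx.ne ((Submodule.mem_bot K).1 (e.le hU))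

theorem span_top (hy : ρ.Hyp) {x : V4 K} (hx : Mx ρ x) {l : K} (l0 : l ≠ 0) :
    Submodule.span K {v | v = x ∨ Mx ρ v ∧ l * B x v = 1} = ⊤ := by
  refine irr_tv hy hx _ (Submodule.subset_span (Or.inl rfl)) fun y hy c hc u hu => ?_
  by_cases h : B x y = 0
  · refine Submodule.span_induction (p := fun u _ => tv y c *ᵥ u ∈ _) ?_ (by simp)
      (fun a b _ _ ha hb => by rw [mulVec_add]; exact add_mem ha hb)
      (fun t a _ ha => by rw [mulVec_smul]; exact Submodule.smul_mem _ _ ha) hu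
    rintro v (rfl | ⟨h1, h2⟩)
    · exact Submodule.subset_span (Or.inl (by simp [tv_mulVec, h]))
    · exact Submodule.subset_span (Or.inr ⟨h1.map hc, by simp [tv_mulVec, h, h2]⟩)
  · rw [tv_mulVec]
    refine add_mem hu (Submodule.smul_mem _ _ ((Submodule.smul_mem_iff _ (inv_ne_zero (mul_ne_zero l0 h))).1 ?_))
    exact Submodule.subset_span (Or.inr ⟨hy.smul (inv_ne_zero (mul_ne_zero l0 h)), by
      rw [B_smul_right]; field_simp⟩)

theorem trIn_of_edges (hy : ρ.Hyp) {x : V4 K} (hx : Mx ρ x) (E : Subfield K)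
    (h : ∀ v w, Mx ρ v → Mx ρ w → ∀ c ∈ Av ρ v, ∀ d ∈ Av ρ w, c * d * B v w ^ 2 ∈ E) : ρ.TrIn E := by
  obtain ⟨l, hl, l0⟩ := hx.ex
  have k1 : ∀ v, Mx ρ v → l * B x v = 1 → ∀ c ∈ Av ρ v, c / l ∈ E := fun v hv e c hc => by
    have : c / l = l * c * B x v ^ 2 := by field_simp; linear_combination (-c * (1 + l * B x v)) * e
    exact this ▸ h x v hx hv l hl c hc
  have k2 : ∀ v ∈ {v | v = x ∨ Mx ρ v ∧ l * B x v = 1}, ∀ w ∈ {v | v = x ∨ Mx ρ v ∧ l * B x v = 1},
      l * B v w ∈ E := by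
    rintro v (rfl | ⟨hv, e⟩) w (rfl | ⟨hw, e'⟩)
    · simp
    · simp [e']
    · rw [B_swap, mul_neg, e]; simp
    obtain ⟨c, hc, c0⟩ := hv.ex
    obtain ⟨d, hd, d0⟩ := hw.ex
    have a1 := h _ _ hv hw c hc d hd
    have a2 := h _ _ (hv.map hl) hw c (GG.tv_map hl hc) d hd
    have a3 := mul_mem (k1 v hv e c hc) (k1 w hw e' d hd)
    have h2 := hy.two
    have : l * B v w = (c * d * B v w ^ 2 - c * d * B (tv x l *ᵥ v) w ^ 2 + c / l * (d / l)) /
        (2 * (c / l * (d / l))) := by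
      have b1 : B x v = l⁻¹ := eq_inv_of_mul_eq_one_right e
      have b2 : B x w = l⁻¹ := eq_inv_of_mul_eq_one_right e'
      simp only [tv_mulVec, B_add_left, B_smul_left, B_swap v x, b1, b2]
      field_simp
      ring
    rw [this]
    exact div_mem (add_mem (sub_mem a1 a2) a3) (mul_mem (ofNat_mem E 2) a3)
  obtain ⟨S, hS, hS'⟩ := trace_mem E l0 (span_top hy hx l0) k2
  refine fun z X hX => hS X (gen hy hx S.toSubmonoid (S.neg_mem S.one_mem) (fun y hy c hc => hS' _ ?_) ⟨z, hX⟩)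
  intro v hv w hw
  by_cases e : B x y = 0
  · refine k2 v hv _ ?_
    rcases hw with rfl | ⟨h1, h2⟩
    · exact Or.inl (by simp [tv_mulVec, e])
    · exact Or.inr ⟨h1.map hc, by simp [tv_mulVec, e, h2]⟩
  · have t0 := mul_ne_zero l0 e
    have y1 := hy.smul (inv_ne_zero t0)
    have y2 : l * B x ((l * B x y)⁻¹ • y) = 1 := by rw [B_smul_right]; field_simp
    have a1 := k1 _ y1 y2 ((l * B x y) ^ 2 * c) (mem_Av_smul.2 (by convert hc using 1; field_simp))
    have a2 := k2 v hv _ (Or.inr ⟨y1, y2⟩)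
    have a3 := k2 w hw _ (Or.inr ⟨y1, y2⟩)
    convert add_mem (k2 v hv w hw) (mul_mem a1 (mul_mem a2 a3)) using 1
    simp only [tv_mulVec, B_add_right, B_smul_right]
    field_simp

theorem all_of_full (hy : ρ.Hyp) {x : V4 K} (hx : Mx ρ x) (h : Av ρ x = ⊤) (v : V4 K) : Av ρ v = ⊤ := by
  have h2 := hy.two
  have f : ∀ v, Mx ρ v → Av ρ v = ⊤ := fun v hv => AddSubgroup.eq_top_of_card_eq _ (by
    rw [hv.card_eq hx, h, AddSubgroup.card_top])
  have a1 : ∀ {v w}, Mx ρ v → Mx ρ w → B v w ≠ 0 → ∀ t : K, Mx ρ (v + t • w) := fun {v w} hv hw e t => by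
    have := hv.map ((f w hw).ge (AddSubgroup.mem_top (t / B v w)))
    rwa [tv_mulVec, div_mul_cancel₀ _ e] at this
  have a2 : ∀ {v}, Mx ρ v → B x v = 1 → ∀ t : K, Mx ρ (v + t • x) := fun hv e t =>
    a1 hv hx (by rw [B_swap, e]; simp) t
  have a3 : ∀ {v w}, Mx ρ v → Mx ρ w → B x v = 1 → B x w = 1 → ∀ t : K, Mx ρ (v + t • (w - v)) :=
    fun {v w} hv hw e e' t => by
      have k : ∀ {w}, Mx ρ w → B v w ≠ 0 → Mx ρ (v + t • (w - v)) := fun {w} hw e => by
        by_cases ht : t = 1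
        · simpa [ht] using hw
        · convert a1 (hv.smul (sub_ne_zero.2 (Ne.symm ht))) hw (by simp [e, sub_ne_zero.2 (Ne.symm ht)]) t using 1
          module
      by_cases e1 : B v w = 0
      · convert a2 (k (a2 hw e' 1) (by simp [e1, B_swap v x, e])) (by simp [e, e']) (-t) using 1
        module
      · exact k hw e1
  have sp := span_top hy hx one_ne_zero
  obtain ⟨y, hy', e⟩ : ∃ y, Mx ρ y ∧ B x y = 1 := by
    by_contra hne
    push Not at hne
    refine hx.ne (B_nd fun w => Submodule.span_induction (p := fun u _ => B x u = 0) ?_ (by simp)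
      (fun a b _ _ ha hb => by simp [ha, hb]) (fun t a _ ha => by simp [ha]) (sp.ge (Submodule.mem_top (x := w))))
    rintro v (rfl | ⟨h1, h2⟩)
    · simp
    · exact absurd (by simpa using h2) (hne v h1)
  let D : Submodule K (V4 K) :=
    { carrier := {u | Mx ρ (y + (u - B x u • y))}
      zero_mem' := by simpa using hy'
      smul_mem' := fun t u hu => by
        change Mx ρ _
        convert a3 hy' hu e (by simp [e]) t using 1
        simp only [B_smul_right]
        module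
      add_mem' := fun {a b} ha hb => by
        change Mx ρ _
        convert a3 hy' (a3 ha hb (by simp [e]) (by simp [e]) 2⁻¹) e (by simp [e]) 2 using 1
        simp only [B_add_right]
        match_scalars <;> field_simp <;> ring }
  have hD : ∀ u, B x u ≠ 0 → Mx ρ u := fun u hu => by
    have : (B x u)⁻¹ • u ∈ D := (sp.ge.trans (Submodule.span_le.2 (by
      rintro v (rfl | ⟨h1, h2⟩)
      · simpa [D] using a2 hy' e 1
      · rw [one_mul] at h2
        simpa [D, h2] using h1))) trivial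
    simpa [hu] using (show Mx ρ _ from this).smul hu
  by_cases v0 : v = 0
  · exact eq_top_iff.2 fun c _ => GG.one.congr (by simp [v0, tv, r1])
  by_cases e1 : B x v = 0
  swap
  · exact f v (hD v e1)
  obtain ⟨z, z1, z2⟩ : ∃ z, B x z ≠ 0 ∧ B v z ≠ 0 := by
    obtain ⟨w, hw⟩ := exists_B_ne v0
    by_cases b1 : B x w = 0
    · by_cases b2 : B v y = 0
      · exact ⟨w + y, by simp [b1, e], by simp [b2, hw]⟩
      · exact ⟨y, by simp [e], b2⟩
    · exact ⟨w, b1, hw⟩
  exact f v (by simpa using a1 (hD (v + z) (by simp [e1, z1])) (hD z z1) (by simp [z2]) (-1))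

theorem golden (hy : ρ.Hyp) {x y : V4 K} (hx : Mx ρ x) (e : B x y = 1) (h3 : (3 : K) = 0) {β γ : K}
    (hβ : GG ρ (em x y 1 β 0 1)) (hγ : GG ρ (em x y 1 0 γ 1)) (h : (β * γ) ^ 2 = -1)
    (hc : Nat.card (Av ρ x) ≤ 3) : False := by
  have h2 := hy.two
  have β0 : β ≠ 0 := fun e => by simp [e] at h
  have γ0 : γ ≠ 0 := fun e => by simp [e] at h
  have S := s2_em ρ e
  have m1 := S.mul' (x := 1 + β * γ) (y := β) (z := γ) (w := 1) ⟨by simp, hβ⟩ ⟨by simp, hγ⟩
    (by ring) (by ring) (by ring) (by ring)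
  have m2 := S.mul' (x := 0) (y := β * (β * γ - 1)) (z := γ * (β * γ - 1)) (w := 1 + β * γ) m1 m1
    (by linear_combination -h - β * γ * h3) (by linear_combination -β * h3) (by linear_combination -γ * h3) (by ring)
  have m4 := S.mul' (x := -1) (y := β) (z := γ) (w := -(1 + β * γ)) m2 m2
    (by linear_combination (2 - β * γ) * h - h3) (by linear_combination -β * h + β * h3)
    (by linear_combination -γ * h + γ * h3) (by linear_combination (1 - β * γ) * h - (1 + β * γ) * h3)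
  have m5 := S.mul' (x := -1) (y := 0) (z := 0) (w := -1) m4 m1 (by ring) (by ring) (by ring) (by ring)
  let U : Submodule K (V4 K) :=
    { carrier := {u | u = B u y • x - B u x • y}
      zero_mem' := by simp
      add_mem' := fun {a b} ha hb => by
        change _ = _ at ha hb ⊢
        rw [B_add_left, B_add_left]
        linear_combination (norm := module) ha + hb
      smul_mem' := fun t a ha => by
        change _ = _ at ha ⊢
        rw [B_smul_left, B_smul_left]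
        linear_combination (norm := module) t • ha }
  obtain ⟨z, hz, c, hc', n1, n2, c0⟩ : ∃ z, Mx ρ z ∧ ∃ c ∈ Av ρ z, z ∉ U ∧ (B z x ≠ 0 ∨ B z y ≠ 0) ∧ c ≠ 0 := by
    by_contra hne
    push Not at hne
    have := irr_tv hy hx U (by simp [U, e]) fun z hz c hc u hu => by
      rw [tv_mulVec]
      by_cases h1 : z ∈ U
      · exact add_mem hu (U.smul_mem _ h1)
      by_cases h2 : B z x = 0 ∧ B z y = 0
      · have : B u z = 0 := by rw [show u = _ from hu]; simp [B_swap _ z, h2.1, h2.2]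
        simpa [this] using hu
      · simpa [hne z hz c hc h1 (not_and_or.1 h2)] using hu
    have k := fun i : Fin 4 => congrFun (show Pi.single i (1 : K) ∈ U from this.ge trivial) i
    have k0 := k 0
    have k1 := k 1
    have k2 := k 2
    have k3 := k 3
    simp [B] at k0 k1 k2 k3 e
    exact h2 (by linear_combination k0 + k1 + k2 + k3 + 2 * e)
  obtain ⟨r, hr⟩ : ∃ r, r = z - (B z y • x - B z x • y) := ⟨_, rfl⟩
  have r0 : r ≠ 0 := hr ▸ sub_ne_zero.2 n1
  have rx : B r x = 0 := by simp [hr, B_swap y x, e]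
  have ry : B r y = 0 := by simp [hr, e]
  have mv : ∀ {α β γ δ a b : K}, GG ρ (em x y α β γ δ) → GG ρ (tv (a • x + b • y + r) c) →
      GG ρ (tv ((α * a + β * b) • x + (γ * a + δ * b) • y + r) c) := fun {α β γ δ a b} g k => by
    convert g.tv_map k using 2
    simp only [em_mulVec, B_add_left, B_smul_left, B_self, e, B_swap y x, rx, ry]
    module
  have cm : ∀ {a b a' b' : K}, GG ρ (tv (a • x + b • y + r) c) → GG ρ (tv (a' • x + b' • y + r) c) →
      8 * c ^ 2 * (a' * b - b' * a) ∈ Av ρ r := fun {a b a' b'} k k' => by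
    have n : ∀ {a b : K}, GG ρ (tv (a • x + b • y + r) c) → GG ρ (tv (a • x + b • y - r) c) := fun k => by
      convert mv m5.2 k using 1
      rw [← tv_neg]
      congr 1
      module
    convert comm_tv (by simp [B_swap _ r, rx, ry]) (by simp [B_swap _ r, rx, ry]) k (n k) k' (n k') using 1
    simp only [B_add_left, B_add_right, B_smul_left, B_smul_right, B_self, e, B_swap y x]
    change GG ρ _ ↔ _
    congr! 3
    ring
  obtain ⟨a, b, a0, b0, k⟩ : ∃ a b : K, a ≠ 0 ∧ b ≠ 0 ∧ GG ρ (tv (a • x + b • y + r) c) := by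
    have k : GG ρ (tv (B z y • x + (-B z x) • y + r) c) := by
      convert hc' using 1
      change _ ↔ GG ρ _
      congr! 2
      rw [hr]; module
    by_cases h1 : B z x = 0
    · exact ⟨_, _, by simpa [h1] using n2, by simpa [h1, γ0] using n2, mv hγ k⟩
    by_cases h2 : B z y = 0
    · exact ⟨_, _, by simp [h1, h2, β0], by simp [h1], mv hβ k⟩
    · exact ⟨_, _, h2, neg_ne_zero.2 h1, k⟩
  have h8 : 8 * c ^ 2 ≠ 0 := mul_ne_zero (by
    rw [show (8 : K) = 2 * 2 * 2 by norm_num]; simp [h2]) (pow_ne_zero 2 c0)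
  have u1 : 8 * c ^ 2 * (β * b ^ 2) ∈ Av ρ r := by convert cm k (mv hβ k) using 2; ring
  have u2 : 8 * c ^ 2 * (γ * a ^ 2) ∈ Av ρ r := by convert neg_mem (cm k (mv hγ k)) using 1; ring
  have u3 : 8 * c ^ 2 * (β * γ * a * b) ∈ Av ρ r := by
    convert add_mem (sub_mem (cm k (mv m1.2 k)) u1) u2 using 1; ring
  have key : ∀ t ∈ Av ρ r, t ≠ 0 → t ^ 2 = (8 * c ^ 2 * (β * b ^ 2)) ^ 2 := fun t ht t0 => by
    have p0 : 8 * c ^ 2 * (β * b ^ 2) ≠ 0 := mul_ne_zero h8 (by simp [β0, b0])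
    generalize 8 * c ^ 2 * (β * b ^ 2) = p at u1 p0
    by_contra hne
    rw [sq_eq_sq_iff_eq_or_eq_neg, not_or] at hne
    have p1 : p ≠ -p := fun e => mul_ne_zero h2 p0 (by linear_combination e)
    have : ({t, 0, p, -p} : Set K) ⊆ Av ρ r := by
      rintro _ (rfl | rfl | rfl | rfl)
      exacts [ht, zero_mem _, u1, neg_mem u1]
    have h4 := (Set.ncard_le_ncard this).trans (((Nat.card_coe_set_eq _).symm.le.trans (hx.max r r0)).trans hc)
    rw [Set.ncard_insert_of_notMem (by simp [t0, hne]), Set.ncard_insert_of_notMem (by simp [p0, p0.symm]),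
      Set.ncard_pair p1] at h4
    omega
  have q2 := key _ u2 (mul_ne_zero h8 (by simp [γ0, a0]))
  have q3 := key _ u3 (mul_ne_zero h8 (by simp [β0, γ0, a0, b0]))
  rw [mul_pow, mul_pow (8 * c ^ 2), mul_right_inj' (pow_ne_zero 2 h8)] at q2 q3
  have q4 : γ ^ 2 * a ^ 2 = b ^ 2 := mul_left_cancel₀ (pow_ne_zero 2 (mul_ne_zero β0 b0)) (by linear_combination q3)
  exact mul_ne_zero h2 (pow_ne_zero 4 b0) (by
    linear_combination γ ^ 2 * q2 - (γ ^ 2 * a ^ 2 + b ^ 2) * q4 + b ^ 4 * h)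

theorem edge (hy : ρ.Hyp) {x y : V4 K} (hx : Mx ρ x) {c d : K} (hc : c ∈ Av ρ x) (hd : d ∈ Av ρ y)
    (h : c * d * B x y ^ 2 ≠ 0) : ∃ E : Subfield K, Nat.card E = Nat.card (Av ρ x) ∧ c * d * B x y ^ 2 ∈ E := by
  have b0 : B x y ≠ 0 := fun e => h (by simp [e])
  have c0 : c ≠ 0 := fun e => h (by simp [e])
  have d0 : B x y ^ 2 * d ≠ 0 := fun e => h (by linear_combination c * e)
  have e : B x ((B x y)⁻¹ • y) = 1 := by simp [b0]
  have hβ : GG ρ (em x ((B x y)⁻¹ • y) 1 (-c) 0 1) := by rw [em_up, neg_neg]; exact hc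
  have hγ : GG ρ (em x ((B x y)⁻¹ • y) 1 0 (B x y ^ 2 * d) 1) := by
    rw [em_lo, tv_smul]; convert hd using 1; change _ ↔ GG ρ _; congr! 2; field_simp
  rcases (s2_em ρ e).dk hy.two (neg_ne_zero.2 c0) d0 ⟨by simp, hβ⟩ ⟨by simp, hγ⟩ with ⟨E, hE, -⟩ | ⟨h3, h4, h5⟩
  · refine ⟨E, (Nat.card_congr ((Equiv.mulRight₀ _ (neg_ne_zero.2 d0)).subtypeEquiv fun t => ?_)).symm, ?_⟩
    · have := hE (-t)
      rw [em_up, neg_neg] at this
      change GG ρ _ ↔ _
      simpa using this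
    · convert neg_mem ((hE _).1 ⟨by simp, hβ⟩) using 1; ring
  · refine (golden hy hx e h3 hβ hγ h4 ?_).elim
    have : (Av ρ x : Set K) ⊆ {0, c, -c} := fun t ht => by
      rcases h5 (-t) ⟨by simp, by rw [em_up, neg_neg]; exact ht⟩ with e | e | e
      · exact Or.inl (neg_eq_zero.1 e)
      · exact Or.inr (Or.inl (neg_injective e))
      · exact Or.inr (Or.inr (neg_injective e))
    exact (Nat.card_coe_set_eq _).le.trans ((Set.ncard_le_ncard this).trans ((Set.ncard_insert_le _ _).trans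
      (Nat.succ_le_succ ((Set.ncard_insert_le _ _).trans (by simp)))))

theorem pkgA (h : ρ.Hyp) (hT : ¬ ρ.NoTv) :
    (∀ X, Sp X → ∃ x, ρ.L x X) ∨ ∃ E : Subfield K, E ≠ ⊤ ∧ ρ.TrIn E := by
  obtain ⟨x, hx⟩ := exists_mx hT
  by_cases hf : Av ρ x = ⊤
  · exact Or.inl fun X hX => all_sp (fun v c => (all_of_full h hx hf v).ge (AddSubgroup.mem_top c)) hX
  right
  by_cases he : ∃ E : Subfield K, Nat.card E = Nat.card (Av ρ x)
  · obtain ⟨E, hE⟩ := he
    refine ⟨E, fun e => hf (AddSubgroup.eq_top_of_card_eq _ (by rw [← hE, e, H4.Subf.card_top])),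
      trIn_of_edges h hx E fun v w hv _ c hc d hd => ?_⟩
    by_cases e : c * d * B v w ^ 2 = 0
    · rw [e]; exact zero_mem E
    obtain ⟨E', h1, h2⟩ := edge h hv hc hd e
    rw [H4.Subf.mem_iff_pow] at h2 ⊢
    rwa [hE, hx.card_eq hv, ← h1]
  · obtain ⟨c, hc, c0⟩ := hx.ex
    refine absurd (B_nd fun w => Submodule.span_induction (p := fun u _ => B x u = 0) ?_ (by simp)
      (fun a b _ _ ha hb => by simp [ha, hb]) (fun t a _ ha => by simp [ha])
      ((span_top h hx one_ne_zero).ge (Submodule.mem_top (x := w)))) hx.ne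
    rintro v (rfl | ⟨h1, h2⟩)
    · simp
    · obtain ⟨d, hd, d0⟩ := h1.ex
      rw [one_mul] at h2
      obtain ⟨E, hE, -⟩ := edge h hx hc hd (by simp [h2, c0, d0])
      exact absurd ⟨E, hE⟩ he

end Cfsg.Agent.H9.Mi
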