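import Cfsg.Agent.H9.MiB5

/-! Quadratic elements in an absolutely irreducible group without transvections. -/

set_option autoImplicit false

namespace Cfsg.Agent.H9.Mi

open Matrix Cfsg.Agent.H1.Mit Polynomial

variable {T K : Type*} [Group T] [Field K] [Finite K] {ρ : SRep T K}

omit [Finite K] in
theorem up_cj {Z : M2 K} (h : sg Z = Z) (A : M2 K) : up Z * up A * ad (up Z) = up A := by
  rw [ad_up, up_mul, up_mul, h]; congr 1; abel

omit [Finite K] in
theorem lo_cj {Z : M2 K} (h : sg Z = Z) (A : M2 K) : lo Z * lo A * ad (lo Z) = lo A := by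
  rw [ad_lo, lo_mul, lo_mul, h]; congr 1; abel

omit [Finite K] in
theorem sg_inv {Z m : M2 K} (h : sg Z = Z) (m2 : Z * m = 1) : sg m = m := by
  have : sg m * Z = 1 := by rw [← h, ← sg_mul, m2, sg_one]
  rw [← mul_one (sg m), ← m2, ← mul_assoc, this, one_mul]

namespace HH

variable (h : HH ρ) (h1 : GG ρ (up 1)) (l1 : GG ρ (lo 1))
include h h1

theorem lo_one {B : M2 K} (hB : GG ρ (lo B)) (b0 : B ≠ 0) : GG ρ (lo 1) := by
  obtain ⟨B', k, e⟩ := h.moufang' h1 hB one_ne_zero b0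
  rwa [(mul_one B').symm.trans e] at k

include l1

omit h [Finite K] in
theorem wy_mem : GG ρ (wy K) := ((h1.mul l1.lo_neg).mul h1).congr (by simp [wy, up, lo, blk_mul])

omit h [Finite K] in
theorem lo_of_up {A : M2 K} (hA : GG ρ (up A)) : GG ρ (lo A) := by
  simpa using ((((wy_mem h1 l1).mul hA).mul (wy_mem h1 l1).inv).congr (wy_up A).symm).lo_neg

omit h [Finite K] in
theorem up_of_lo {A : M2 K} (hA : GG ρ (lo A)) : GG ρ (up A) := by
  simpa using ((((wy_mem h1 l1).mul hA).mul (wy_mem h1 l1).inv).congr (wy_lo A).symm).up_neg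

theorem sq {Z : M2 K} (hZ : sg Z = Z) (hY : GG ρ (up Z * lo 1 * ad (up Z))) : GG ρ (up (Z * Z)) := by
  have e : up Z * lo 1 * ad (up Z) = 1 + blk Z (-(Z * Z)) 1 (-Z) := by
    rw [ad_up, hZ, one_eq_blk]
    simp only [up, lo, blk_mul, blk_add, blk_inj]
    refine ⟨?_, ?_, ?_, ?_⟩ <;> noncomm_ring
  by_cases hd : Z.det = 0
  · obtain ⟨v, hv, ev⟩ := Matrix.exists_mulVec_eq_zero_iff.2 hd
    have := h.ul_zero l1 one_ne_zero (e ▸ hY) (e ▸ (qd_lo 1).cj (sp_up.2 hZ)) hv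
      (by rw [neg_mulVec, ← mulVec_mulVec, ev, mulVec_zero, neg_zero]) (by rw [neg_mulVec, ev, neg_zero])
    rw [this, mul_zero, up_zero]
    exact GG.one
  · obtain ⟨m, m1, m2⟩ := inv2 hd
    have sm := sg_inv hZ m2
    have hP : Sp (lo m) := sp_lo.2 sm
    have k1 : GG (ρ.cj _ hP) (up (-(Z * Z))) := GG_cj.2 (hY.congr (by
      rw [e, ad_lo, sm, one_eq_blk]
      simp only [up, lo, blk_mul, blk_add, blk_inj]
      refine ⟨?_, by simp, ?_, ?_⟩
      · simp [mul_assoc, m2]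
      · simp [add_mul, mul_assoc, m2, m1]
      · simp [← mul_assoc, m1, add_comm]))
    have z0 : -(Z * Z) ≠ 0 := fun e => hd (by simp [cancel_l hd (neg_eq_zero.1 e)])
    obtain ⟨B, hB, eB⟩ := (h.cj hP).moufang' k1 (GG_cj.2 (l1.congr (lo_cj sm 1))) z0 one_ne_zero
    obtain ⟨A, hA, eA⟩ := h.moufang h1 ((GG_cj.1 hB).congr (lo_cj sm B).symm) one_ne_zero
      (fun e => by simp [e] at eB)
    have : A = -(Z * Z) := by rw [← mul_one A, ← eB, ← mul_assoc, eA, one_mul]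
    simpa [this] using hA.up_neg

theorem sq' {A : M2 K} (hA : GG ρ (up A)) : GG ρ (up (A * A)) := h.sq h1 l1 hA.up_sg ((hA.mul l1).mul hA.inv)

theorem jor {A B : M2 K} (hA : GG ρ (up A)) (hB : GG ρ (up B)) : GG ρ (up (A * B + B * A)) :=
  (((h.sq' h1 l1 (hA.up_add hB)).up_sub (h.sq' h1 l1 hA)).up_sub (h.sq' h1 l1 hB)).congr (by
    congr 1; noncomm_ring)

theorem z_mem {Z C : M2 K} (hZ : sg Z = Z) (c0 : C ≠ 0) (hY : GG ρ (up Z * lo C * ad (up Z))) :
    GG ρ (up Z) := by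
  have hP := sp_up.2 hZ
  have k := GG_cj.1 ((h.cj hP).lo_one (GG_cj.2 (h1.congr (up_cj hZ 1))) (GG_cj.2 hY) c0)
  have k1 := h.sq h1 l1 hZ k
  have k2 := h.sq h1 l1 (Z := 1 + Z) (by simp [hZ]) (((h1.mul k).mul h1.inv).congr (by
    rw [← up_mul, ad_mul]; simp only [mul_assoc]))
  exact GG.up_half h.two (((k2.up_sub k1).up_sub h1).congr (by congr 1; noncomm_ring))

theorem comm {x y : M2 K} (hx : GG ρ (up x)) (hy : GG ρ (up y)) : x * y = y * x := by
  by_contra hne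
  have sx := congrFun (congrFun hx.up_sg 0) 0
  have sy := congrFun (congrFun hy.up_sg 0) 0
  simp [sg] at sx sy
  obtain ⟨d, hd⟩ : ∃ d, d = x 0 1 * y 1 0 - y 0 1 * x 1 0 := ⟨_, rfl⟩
  have d0 : d ≠ 0 := fun e => hne (by
    ext i j; fin_cases i <;> fin_cases j <;> simp [mul_apply, Fin.sum_univ_two, sx, sy]
    · linear_combination e - hd
    · ring
    · ring
    · linear_combination hd - e)
  have hD : ∀ {z : M2 K}, GG ρ (up z) → GG ρ (up !![0, 2 * d * z 0 1; -(2 * d * z 1 0), 0]) := fun {z} hz => by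
    have sz := congrFun (congrFun hz.up_sg 0) 0
    simp [sg] at sz
    refine ((h.jor h1 l1 hx (h.jor h1 l1 hy hz)).up_sub (h.jor h1 l1 hy (h.jor h1 l1 hx hz))).congr ?_
    congr 1
    ext i j; fin_cases i <;> fin_cases j <;> simp [mul_apply, Fin.sum_univ_two, sx, sy, sz, hd] <;> ring
  have hA := hD hx
  have hB := hD hA
  obtain ⟨b, hb⟩ : ∃ b, b = 2 * d * x 0 1 := ⟨_, rfl⟩
  obtain ⟨c, hc⟩ : ∃ c, c = -(2 * d * x 1 0) := ⟨_, rfl⟩
  rw [← hb, ← hc] at hA hB
  have bc : b * c ≠ 0 := by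
    have := hA.up_det h.tv fun e => by
      have e1 := congrFun (congrFun e 0) 1
      have e2 := congrFun (congrFun e 1) 0
      simp [hb, hc, h.two, d0] at e1 e2
      exact d0 (by rw [hd, e1, e2]; ring)
    simpa [det_fin_two] using this
  simp only [of_apply, cons_val', cons_val_one, cons_val_zero, cons_val_fin_one] at hB
  let Z : Subring K :=
    { carrier := {t | GG ρ (up (t • 1))}
      one_mem' := by simpa using h1
      zero_mem' := by simpa [up_zero] using GG.one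
      add_mem' := fun k k' => (GG.up_add k k').congr (by rw [add_smul])
      neg_mem' := fun k => (GG.up_neg k).congr (by rw [neg_smul])
      mul_mem' := fun k k' => GG.up_half h.two ((h.jor h1 l1 k k').congr (by simp [smul_smul, mul_comm])) }
  have sm : ∀ t ∈ Z, ∀ {A : M2 K}, GG ρ (up A) → GG ρ (up (t • A)) := fun t k A k' =>
    GG.up_half h.two ((h.jor h1 l1 k k').congr (by simp))
  have z1 : b * c ∈ Z := (h.sq' h1 l1 hA).congr (by
    congr 1; ext i j; fin_cases i <;> fin_cases j <;> simp [mul_comm])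
  have z2 : -(4 * d ^ 2 * (b * c)) ∈ Z := (h.sq' h1 l1 hB).congr (by
    congr 1; ext i j; fin_cases i <;> fin_cases j <;> simp <;> ring)
  have := Fintype.ofFinite Z
  have := Fintype.ofFinite K
  have hodd : Fintype.card Z % 2 = 1 := by
    have k1 : Nat.card Z ∣ Nat.card K := Z.toAddSubgroup.card_addSubgroup_dvd_card
    have k2 := FiniteField.odd_card_of_char_ne_two (F := K) fun e => h.two (by
      simpa [e] using CharP.cast_eq_zero K (ringChar K))
    rw [Nat.card_eq_fintype_card, Nat.card_eq_fintype_card] at k1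
    exact Nat.odd_iff.1 ((Nat.odd_iff.2 k2).of_dvd_nat k1)
  have n1 : (-⟨_, z1⟩ : Z) ≠ 0 := fun e => bc (by simpa using congrArg Subtype.val e)
  obtain ⟨s, t, e⟩ := FiniteField.exists_root_sum_quadratic (R := Z) (f := X ^ 2)
    (g := C (-⟨_, z1⟩) * X ^ 2 + C 0 * X + C (-⟨_, z2⟩)) (by simp) (degree_quadratic n1) hodd
  have e' : s.1 ^ 2 - b * c * t.1 ^ 2 + 4 * d ^ 2 * (b * c) = 0 := by
    have := congrArg Subtype.val e
    simp at this
    linear_combination this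
  have k := ((sm _ s.2 h1).up_add (sm _ t.2 hA)).up_add hB
  refine k.up_det h.tv (fun e => ?_) ?_
  · have e1 := congrFun (congrFun e 0) 1
    have e2 := congrFun (congrFun e 1) 0
    simp at e1 e2
    exact mul_ne_zero (mul_ne_zero (mul_ne_zero h.two h.two) d0) bc (by linear_combination c * e1 - b * e2)
  · simp [det_fin_two]
    linear_combination e'

theorem exists_comm : ∃ c : M2 K, (∀ t : K, c ≠ t • 1) ∧ ∀ A, GG ρ (up A) → c * A = A * c := by
  by_cases hs : ∃ c, GG ρ (up c) ∧ ∀ t : K, c ≠ t • 1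
  · obtain ⟨c, k, k'⟩ := hs
    exact ⟨c, k', fun A hA => h.comm h1 l1 k hA⟩
  · push Not at hs
    refine ⟨!![0, 1; 0, 0], fun t e => by simpa using congrFun (congrFun e 0) 1, fun A hA => ?_⟩
    obtain ⟨t, rfl⟩ := hs A hA
    simp

end HH

omit [Finite K] in
theorem scalar_of_qd (hy : ρ.Hyp) {C Y : M4 K} (hY : GG ρ Y) (q : Qd Y) (y1 : Y ≠ 1)
    (hC : ∀ Y, GG ρ Y → Qd Y → C * Y = Y * C) : ∃ t : K, C = t • 1 := by
  let S : Subgroup T :=
    { carrier := {x | ∀ X, ρ.L x X → C * X = X * C}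
      one_mem' := fun X hX => by rcases hX.eq_one_iff.1 rfl with rfl | rfl <;> simp
      mul_mem' := fun {a b} ha hb X hX => by
        obtain ⟨A, hA⟩ := ρ.exL a
        obtain ⟨B, hB⟩ := ρ.exL b
        have : C * (A * B) = A * B * C := by rw [← mul_assoc, ha A hA, mul_assoc, hb B hB, mul_assoc]
        rcases (hA.mul hB).uniq hX with rfl | rfl <;> simp [this]
      inv_mem' := fun {a} ha X hX => by
        have e := ha _ (by simpa using hX.inv)
        calc C * X = X * ad X * C * X := by rw [hX.sp.right, one_mul]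
          _ = X * C * (ad X * X) := by rw [mul_assoc X, ← e]; simp only [mul_assoc]
          _ = _ := by rw [hX.sp.left, mul_one] }
  obtain ⟨y, hy'⟩ := hY
  have := hy.simple
  have hN : Subgroup.normalClosure {y} = ⊤ := (Subgroup.normalClosure_normal.eq_bot_or_eq_top).resolve_left fun e => by
    have : y = 1 := Subgroup.mem_bot.1 (e.le (Subgroup.subset_normalClosure rfl))
    rcases hy'.eq_one_iff.1 this with e | e
    · exact y1 e
    · exact q.neg_false hy.two (by simp [e, Qd])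
  have hle : Subgroup.normalClosure {y} ≤ S := (Subgroup.closure_le S).2 fun x hx => by
    obtain ⟨a, rfl, ha⟩ := Group.mem_conjugatesOfSet_iff.1 hx
    obtain ⟨g, rfl⟩ := isConj_iff.1 ha
    obtain ⟨G, hG⟩ := ρ.exL g
    intro X hX
    have := hC _ ⟨_, hG.conj hy'⟩ (q.cj hG.sp)
    rcases (hG.conj hy').uniq hX with rfl | rfl <;> simp [this]
  exact hy.scalar fun x X hX => hle (hN.ge trivial) X hX

theorem HH.norm_false (h : HH ρ) (hy : ρ.Hyp) (h1 : GG ρ (up 1)) {B : M2 K} (hB : GG ρ (lo B)) (b0 : B ≠ 0) :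
    False := by
  have l1 := h.lo_one h1 hB b0
  obtain ⟨c, hc, k⟩ := h.exists_comm h1 l1
  have k1 : ∀ A, GG ρ (up A) → Commute (blk c 0 0 c) (up A) := fun A hA => by
    simp [Commute, SemiconjBy, up, blk_mul, k A hA]
  have k2 : ∀ A, GG ρ (lo A) → Commute (blk c 0 0 c) (lo A) := fun A hA => by
    simp [Commute, SemiconjBy, lo, blk_mul, k A (HH.up_of_lo h1 l1 hA)]
  obtain ⟨t, ht⟩ := scalar_of_qd hy (C := blk c 0 0 c) h1 (qd_up 1) (by rw [← up_zero, Ne, up_inj]; exact one_ne_zero)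
    fun Y hY q => by
      rcases h.claim h1 one_ne_zero hY q with ⟨A, rfl⟩ | ⟨Z, C, hZ, c0, rfl⟩
      · exact k1 A hY
      · have z := h.z_mem h1 l1 hZ c0 hY
        have z' : GG ρ (lo C) := ((z.inv.mul hY).mul z).congr (by
          rw [← mul_assoc, ← mul_assoc, z.sp.left, one_mul, mul_assoc, z.sp.left, mul_one])
        rw [ad_up, hZ]
        exact ((k1 Z z).mul_right (k2 C z')).mul_right (k1 _ z.up_neg)
  rw [one_eq_blk, blk_smul, blk_inj] at ht
  exact hc t ht.1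

theorem HH.one_false (h : HH ρ) (hy : ρ.Hyp) (h1 : GG ρ (up 1)) : False := by
  by_cases hc : ∃ Z C, sg Z = Z ∧ C ≠ 0 ∧ GG ρ (up Z * lo C * ad (up Z))
  · obtain ⟨Z, C, hZ, c0, k⟩ := hc
    exact (h.cj (sp_up.2 hZ)).norm_false (hy.cj _) (GG_cj.2 (h1.congr (up_cj hZ 1))) (GG_cj.2 k) c0
  let U : Submodule K (V4 K) :=
    { carrier := {v | ∃ p, v = v2 p 0}
      zero_mem' := ⟨0, (v2_eq_zero.2 ⟨rfl, rfl⟩).symm⟩
      add_mem' := by rintro _ _ ⟨p, rfl⟩ ⟨q, rfl⟩; exact ⟨p + q, by rw [v2_add, add_zero]⟩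
      smul_mem' := by rintro t _ ⟨p, rfl⟩; exact ⟨t • p, by rw [v2_smul, smul_zero]⟩ }
  rcases hy.irr U (fun x X hX v ⟨p, hp⟩ => by
    have g : GG ρ X := ⟨x, hX⟩
    obtain ⟨a, b, c, d, rfl⟩ := exists_blk X
    rcases h.claim h1 one_ne_zero ((g.mul h1).mul g.inv) ((qd_up 1).cj g.sp) with ⟨A, e⟩ | ⟨Z, C, hZ, c0, e⟩
    · obtain rfl := ll_zero h.two h.tv h1 one_ne_zero g.sp (Or.inl e)
      exact ⟨a *ᵥ p, by rw [hp, blk_mulVec]; simp only [mulVec_zero, zero_mulVec, add_zero]⟩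
    · exact absurd ⟨Z, C, hZ, c0, e ▸ (g.mul h1).mul g.inv⟩ hc) with e | e
  · have : v2 (1 : Fin 2 → K) 0 = 0 := (Submodule.mem_bot K).1 (e.le ⟨1, rfl⟩)
    exact one_ne_zero (v2_eq_zero.1 this).1
  · obtain ⟨p, hp⟩ : v2 (0 : Fin 2 → K) 1 ∈ U := e.ge trivial
    exact one_ne_zero (v2_inj.1 hp).2

omit [Finite K] in
theorem up_map {E : Type*} [Field E] (φ : K →+* E) (A : M2 K) : (up A).map φ = up (A.map φ) := by
  ext i j; fin_cases i <;> fin_cases j <;> simp [up, blk]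

universe u in
theorem exists_sqrt {K : Type u} [Field K] [Finite K] (ρ : SRep T K) (c : K) :
    ∃ (E : Type u) (_ : Field E) (_ : Finite E) (φ : K →+* E), (ρ.map φ).Split ∧ ∃ r, r * r = φ c := by
  obtain ⟨E, _, _, φ, h1, h2⟩ := SRep.exists_split ρ (X ^ 2 - C c) (X_pow_sub_C_ne_zero two_pos c)
  refine ⟨E, _, ‹_›, φ, h1, ?_⟩
  obtain ⟨r, hr⟩ := h2.exists_eval_eq_zero (by rw [degree_map, degree_X_pow_sub_C two_pos]; simp)
  exact ⟨r, by simp at hr; linear_combination hr⟩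

theorem HH.sqrt_false (h : HH ρ) (hy : ρ.Hyp) {A : M2 K} (hA : GG ρ (up A)) {δ τ : K} (d0 : δ ≠ 0)
    (hδ : δ * δ = A.det) (t0 : τ ≠ 0) (hτ : τ * τ = A.trace + 2 * δ) : False := by
  have e : (τ⁻¹ • (A + δ • 1)) * (τ⁻¹ • (A + δ • 1)) = A := by
    have e1 : (A + δ • 1) * (A + δ • 1) = (τ * τ) • A := by
      rw [det_fin_two] at hδ
      rw [hτ, trace_fin_two]
      ext i j; fin_cases i <;> fin_cases j <;> simp [mul_apply, Fin.sum_univ_two]
      · linear_combination hδ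
      · ring
      · ring
      · linear_combination hδ
    rw [Matrix.smul_mul, Matrix.mul_smul, e1, smul_smul, smul_smul]
    convert one_smul K A using 2
    field_simp
  have hs : sg (τ⁻¹ • (A + δ • 1)) = τ⁻¹ • (A + δ • 1) := by simp [hA.up_sg]
  generalize τ⁻¹ • (A + δ • 1) = s at e hs
  obtain ⟨m, m1, m2⟩ := inv2 (A := s) fun e' => mul_ne_zero d0 d0 (by rw [hδ, ← e, det_mul, e', mul_zero])
  have sm := sg_inv hs m2
  have hP : Sp (blk s 0 0 m) := by simp [Sp, ad_blk, blk_mul, one_eq_blk, hs, sm, m1, m2]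
  exact (h.cj hP).one_false (hy.cj hP) (GG_cj.2 (hA.congr (by simp [up, ad_blk, blk_mul, hs, sm, m1, m2, e])))

theorem pkgB (h : ρ.Hyp) (hT : ρ.NoTv) : ρ.SmallU := by
  refine ⟨hT, or_iff_not_imp_right.2 fun hB x X hX q => ?_⟩
  by_contra x1
  obtain ⟨P, A, hP, a0, e⟩ := coords hT ⟨x, hX⟩ q x1
  have hA : GG (ρ.cj P hP) (up A) := e ▸ GG.cj ⟨x, hX⟩ hP
  have dA := hA.up_det (hT.cj hP) a0
  obtain ⟨E, _, _, φ, -, δ, hδ⟩ := exists_sqrt (ρ.cj P hP) A.det
  have h1 := (h.cj hP).map φ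
  have d0 : δ ≠ 0 := fun e => dA (φ.injective (by rw [← hδ, e, map_zero, mul_zero]))
  obtain ⟨δ, d0, hδ, t0⟩ : ∃ δ : E, δ ≠ 0 ∧ δ * δ = φ A.det ∧ φ A.trace + 2 * δ ≠ 0 := by
    by_cases e : φ A.trace + 2 * δ = 0
    · exact ⟨-δ, neg_ne_zero.2 d0, by simpa using hδ, fun e' =>
        mul_ne_zero (mul_ne_zero h1.two h1.two) d0 (by linear_combination e - e')⟩
    · exact ⟨δ, d0, hδ, e⟩
  obtain ⟨F, _, _, ψ, hs, τ, hτ⟩ := exists_sqrt ((ρ.cj P hP).map φ) (φ A.trace + 2 * δ)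
  have k := (hA.map φ).map ψ
  rw [up_map, up_map] at k
  refine HH.sqrt_false ⟨(h1.map ψ).two, ((hT.cj hP).map φ).map ψ, fun e => hB ⟨?_, e.2⟩, hs⟩ (h1.map ψ) k
    (δ := ψ δ) (τ := τ) (by simpa using d0) ?_ (fun e => t0 (ψ.injective (by rw [← hτ, e, map_zero, mul_zero]))) ?_
  · exact φ.injective (ψ.injective (by rw [map_ofNat, map_ofNat, e.1, map_zero, map_zero]))
  · rw [← map_mul, hδ]; simp [det_fin_two]
  · rw [hτ]; simp [trace_fin_two, map_ofNat]

end Cfsg.Agent.H9.Mi
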