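import Cfsg.Agent.H1.M4Out
import Cfsg.Agent.H1.M4L3
import Cfsg.Agent.H4.ZAb
import Cfsg.Agent.H4.Subf
import Cfsg.Agent.H4.Small

/-! The outcome `L₂(q)`. -/

set_option autoImplicit false

namespace Cfsg.Agent.H9.Mi

open Cfsg.Agent.H1.Mit Cfsg.Agent.MH Subgroup MulAction Pointwise

theorem trace_pow_char {K : Type*} [Field K] {p : ℕ} [Fact p.Prime] [CharP K p] (M : M4 K) (k : ℕ) :
    (M ^ p ^ k).trace = M.trace ^ p ^ k := by
  have h : (M ^ p ^ k).charpoly = M.charpoly.map (iterateFrobenius K p k) := by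
    apply Polynomial.expand_injective (pow_pos (Fact.out : p.Prime).pos k)
    rw [← Polynomial.map_expand, Polynomial.map_iterateFrobenius_expand]
    unfold Matrix.charpoly
    rw [AlgHom.map_det, ← Matrix.det_pow]
    apply congr_arg Matrix.det
    refine matPolyEquiv.injective ?_
    rw [map_pow, Matrix.matPolyEquiv_charmatrix, sub_pow_char_pow_of_commute, ← Polynomial.C_pow]
    · exact (id (matPolyEquiv_eq_X_pow_sub_C (p ^ k) M) :)
    · exact (Polynomial.C M).commute_X
  rw [Matrix.trace_eq_neg_charpoly_coeff, Matrix.trace_eq_neg_charpoly_coeff, h, Polynomial.coeff_map, ← map_neg,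
    iterateFrobenius_def]

theorem psl_of_CA {G : Type*} [Group G] [Finite G] [IsSimpleGroup G] {p q l : ℕ} [Fact p.Prime] (S : Sylow p G)
    (hCA : CA (S : Subgroup G)) (hq : Nat.card S = q) (hN : Nat.card (Nm (S : Subgroup G)) = q * l)
    (hl : 2 * l + 1 = q) (h3 : 2 ≤ l) (hc : Nat.card G = q * l * (q + 1))
    (K : Type) [Field K] (hK : Nat.card K = q) : Nonempty (G ≃* H4.Mob.PS K) := by
  have c9 : ∀ P : Sylow p G, Nat.card P = q := fun P => by
    rw [P.card_eq_multiplicity, ← S.card_eq_multiplicity, hq]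
  have hCA' : ∀ P : Sylow p G, ∀ y ∈ P, y ≠ 1 → centralizer {y} = (P : Subgroup G) := fun P y hy h1 => by
    obtain ⟨g, rfl⟩ := exists_smul_eq G S P
    have hm : ∀ x, x ∈ g • S ↔ g⁻¹ * x * g ∈ S := fun x => by
      change x ∈ MulAut.conj g • (S : Subgroup G) ↔ _
      rw [mem_pointwise_smul_iff_inv_smul_mem]; simp; rfl
    have : centralizer _ = _ := hCA _ ((hm y).1 hy) (fun h => h1 (by
      rw [mul_assoc, inv_mul_eq_one] at h; exact mul_right_cancel (h.symm.trans (one_mul g).symm)))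
    ext x
    change _ ↔ x ∈ g • S
    rw [hm]
    change _ ↔ _ ∈ (S : Subgroup G)
    rw [← this, mem_centralizer_singleton_iff, mem_centralizer_singleton_iff]
    simp only [mul_assoc, mul_inv_cancel_left, mul_right_inj]
    simp only [← mul_assoc, mul_left_inj]
  have hfree : ∀ P Q : Sylow p G, Q ≠ P → ∀ x ∈ P, x • Q = Q → x = 1 := fun P Q hQ x hx h => by
    by_contra h1
    have h2 : IsPGroup p (zpowers x) := P.2.to_le (zpowers_le.2 hx)
    have h3 : x ∈ zpowers x ⊓ normalizer (Q : Set G) := ⟨mem_zpowers x, Sylow.smul_eq_iff_mem_normalizer.1 h⟩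
    rw [h2.inf_normalizer_sylow Q] at h3
    exact hQ (Sylow.ext ((hCA' Q x h3.2 h1).symm.trans (hCA' P x hx h1)))
  have hSS : ∀ P : Sylow p G, ∀ x ∈ P, x • P = P := fun P x hx =>
    Sylow.smul_eq_iff_mem_normalizer.2 (le_normalizer hx)
  have hne : ∀ P Q : Sylow p G, Q ≠ P → ∀ x ∈ P, x • Q ≠ P := fun P Q hQ x hx h => hQ (by
    rw [← hSS P x hx] at h; exact smul_left_cancel _ h)
  have hcompl : ∀ P : Sylow p G, ({P}ᶜ : Set (Sylow p G)).ncard + 1 = Nat.card (Sylow p G) := fun P => by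
    rw [← Set.ncard_add_ncard_compl {P}, Set.ncard_singleton, add_comm]
  have ql : 0 < q * l := Nat.mul_pos (by omega) (by omega)
  have hn : Nat.card (Sylow p G) = q + 1 := by
    have h1 := H4.Small.card_normalizer_sylow S
    change _ * Nat.card (Nm (S : Subgroup G)) = _ at h1
    rw [hN, hc, mul_comm] at h1
    exact Nat.eq_of_mul_eq_mul_left ql h1
  have hreg : ∀ P Q T : Sylow p G, Q ≠ P → T ≠ P → ∃ u ∈ P, u • Q = T := fun P Q T hQ hT => by
    have : Function.Bijective fun u : P => (⟨u.1 • Q, hne P Q hQ u.1 u.2⟩ : ({P}ᶜ : Set (Sylow p G))) := by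
      refine Function.Injective.bijective_of_nat_card_le (fun u v e => Subtype.ext ?_) ?_
      · have e : u.1 • Q = v.1 • Q := congrArg Subtype.val e
        have := hfree P Q hQ (v.1⁻¹ * u.1) (P.1.mul_mem (P.1.inv_mem v.2) u.2) (by rw [mul_smul, e, inv_smul_smul])
        exact (inv_mul_eq_one.1 this).symm
      · have := hcompl P
        have h9 := c9 P
        change ({P}ᶜ : Set (Sylow p G)).ncard ≤ Nat.card (P : Subgroup G)
        omega
    obtain ⟨u, hu⟩ := this.2 ⟨T, hT⟩
    exact ⟨u.1, u.2, congrArg Subtype.val hu⟩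
  have three : ∀ (g : G) (a b c : Sylow p G), a ≠ b → b ≠ c → a ≠ c → g • a = a → g • b = b → g • c = c → g = 1 := by
    intro g a b c hab hbc hac ha hb hc'
    obtain ⟨u, hu, rfl⟩ := hreg a b c hab.symm hac.symm
    have hu1 : u ≠ 1 := by rintro rfl; simp at hbc
    have h1 : g * u * g⁻¹ ∈ a := (mem_normalizer_iff.1 (Sylow.smul_eq_iff_mem_normalizer.1 ha) u).1 hu
    have h2 := hfree a b hab.symm (u⁻¹ * (g * u * g⁻¹)) (a.1.mul_mem (a.1.inv_mem hu) h1) (by
      rw [mul_smul, mul_smul, inv_smul_eq_iff.2 hb.symm, mul_smul, hc', inv_smul_smul])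
    have h3 : g ∈ centralizer {u} := by
      rw [mem_centralizer_singleton_iff, ← mul_inv_eq_iff_eq_mul, (inv_mul_eq_one.1 h2).symm]
    rw [hCA' a u hu hu1] at h3
    exact hfree a b hab.symm g h3 hb
  have : Nontrivial (Sylow p G) := Finite.one_lt_card_iff_nontrivial.1 (by omega)
  obtain ⟨T, hT⟩ := exists_ne S
  have hZ : H4.ZBasic.ZT G (Sylow p G) := ⟨fun g hg => by
    obtain ⟨c, h1, h2⟩ := H4.ZBasic.exists_third (by omega) S T
    exact three g S T c hT.symm h2.symm h1.symm (hg _) (hg _) (hg _), fun a b c d hab hcd => by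
    obtain ⟨g, rfl⟩ := exists_smul_eq G a c
    obtain ⟨u, hu, e⟩ := hreg a b (g⁻¹ • d) hab.symm (by
      intro h; rw [inv_smul_eq_iff] at h; exact hcd h.symm)
    exact ⟨g * u, by rw [mul_smul, hSS a u hu], by rw [mul_smul, e, smul_inv_smul]⟩, three⟩
  let Z : H4.ZKer.ZK G (Sylow p G) := ⟨hZ, S, T, hT.symm, S, hSS S,
    fun h e u hu => (mem_normalizer_iff.1 (Sylow.smul_eq_iff_mem_normalizer.1 e) u).1 hu,
    fun y hy => hreg S T y hT hy, fun u hu => hfree S T hT u hu⟩
  have h2 := Z.card_G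
  have hF : Nat.card Z.F = q := hq
  have h4 : Nat.card Z.H = l := by
    rw [hF, hc] at h2
    exact Nat.eq_of_mul_eq_mul_left (show 0 < (q + 1) * q by positivity [show 0 < q by omega]) (by linarith)
  have : IsMulCommutative Z.F := ⟨⟨fun a b => Subtype.ext (hCA.comm a.2 b.2)⟩⟩
  have n1 : Z.H ≠ ⊥ := fun e => by rw [e, card_bot] at h4; omega
  rcases H4.ZAb.abelian_kernel Z n1 (fun N hN ht => by
    rcases hN.eq_bot_or_eq_top with rfl | rfl
    · obtain ⟨g, hg⟩ := ht.exists_smul_eq S T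
      rw [show g = 1 from Subsingleton.elim _ _, one_smul] at hg
      exact absurd hg hT.symm
    · obtain ⟨⟨x, hx⟩, x1⟩ := ne_bot_iff_exists_ne_one.1 n1
      exact ⟨S, ne_bot_iff_exists_ne_one.2 ⟨⟨⟨x, trivial⟩, hx.1⟩, fun e =>
        x1 (Subtype.ext (congrArg (fun y => y.1.1) e))⟩⟩) with h | ⟨-, h⟩
  · omega
  · exact h K (hK.trans hF.symm)

variable {T K : Type*} [Group T] [Field K] {ρ : SRep T K} {u : T} {p q l : ℕ}

theorem pkgF [Finite K] (h : ρ.Hyp) (o : ρ.OutL u p q l) : (∃ E : Subfield K, Nat.card E ≤ q ∧ ρ.TrIn E) ∧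
    ∀ (F : Type*) [Field F], Nat.card F = q → Nonempty (T ≃* Matrix.ProjectiveSpecialLinearGroup (Fin 2) F) := by
  classical
  have := ρ.finite
  have := Fact.mk o.pp
  have := h.simple
  have : CharP K p := (CharP.charP_iff_prime_eq_zero o.pp).2 o.p0
  obtain ⟨hCA, hp, -⟩ := o.nq.uni h.two o.pp o.p0 o.up o.u1
  have hU : IsPGroup p (Cn u) := fun x => ⟨1, Subtype.ext (by simpa using hp x x.2)⟩
  obtain ⟨k, hk⟩ := hU.exists_card_eq
  have hq := o.cq.symm.trans hk
  have ql := o.ql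
  have l3 := o.three
  refine ⟨⟨(iterateFrobenius K p k).eqLocusField (RingHom.id K), ?_, fun x X hX => ?_⟩, fun F _ hF => ?_⟩
  · have n0 := FiniteField.X_pow_card_sub_X_ne_zero K (p := q) (by omega)
    refine (Nat.card_coe_set_eq _).le.trans ((Set.ncard_le_ncard (t := (Polynomial.X ^ q - Polynomial.X :
      Polynomial K).roots.toFinset) fun x hx => ?_).trans ?_)
    · have : x ^ p ^ k = x := hx
      rw [← hq] at this
      simp [n0, this]
    · rw [Set.ncard_coe_finset]
      exact (Multiset.toFinset_card_le _).trans ((Polynomial.card_roots' _).trans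
        (FiniteField.X_pow_card_sub_X_natDegree_eq K (by omega)).le)
  · have sq : ∀ n, x ^ n = 1 → X ^ (2 * n) = 1 := fun n e => by
      rw [pow_mul']
      rcases (hX.pow n).eq_one_iff.1 e with e | e <;> simp [e]
    rcases o.ord x with e | e | e
    · have e1 := trace_pow_char (p := p) X 1
      have i : ∀ a : K, (X ^ p).trace = a → a ∈ (⊥ : Subfield K) → X.trace = a := fun a e2 ha => by
        refine frobenius_inj K p ?_
        rw [pow_one] at e1
        rw [frobenius_def, ← e1, e2]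
        exact ((bot_le (a := (frobenius K p).eqLocusField (RingHom.id K))) ha).symm
      rcases (hX.pow p).eq_one_iff.1 e with e | e
      · rw [i 4 (by simp [e]) (ofNat_mem _ 4)]; exact ofNat_mem _ 4
      · rw [i (-4) (by simp [e]) (neg_mem (ofNat_mem _ 4))]; exact neg_mem (ofNat_mem _ 4)
    · change X.trace ^ p ^ k = X.trace
      rw [← trace_pow_char, ← hq, ← ql, pow_succ, sq l e, one_mul]
    · change X.trace ^ p ^ k = X.trace
      have e1 := sq _ e
      rw [show 2 * (l + 1) = q + 1 by omega, pow_succ] at e1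
      rw [← trace_pow_char, ← hq, ← mul_one (X ^ q), ← hX.sp.right, ← mul_assoc, e1, one_mul, trace_ad]
  · have : Finite F := Nat.finite_of_card_ne_zero (by omega)
    obtain ⟨F₀, _, _, h1, ⟨e⟩⟩ := H4.Subf.exists_model F
    let S : Sylow p T := ⟨Cn u, hU, fun {P} hP hle => le_antisymm (by
      obtain ⟨z, hz, h1, h2⟩ := exists_center o.pp hP fun e => o.u1 (e.le (hle (self_mem_Cn u)))
      rwa [hCA z (mem_Cn_comm.1 (h2 (hle (self_mem_Cn u)))) fun e => o.pp.one_lt.ne' (by
        rw [← h1, e, orderOf_one])] at h2) hle⟩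
    obtain ⟨f⟩ := psl_of_CA S hCA o.cq o.cl ql (by omega) o.card F₀ (by rw [Nat.card_eq_fintype_card, h1, hF])
    exact ⟨f.trans (H4.MobCard.psCongr e).symm⟩

end Cfsg.Agent.H9.Mi
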