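import Cfsg.Agent.H2.UG1

/-!
Shared definitions for the maximal subgroups of `SU₇(q)`.
-/

set_option autoImplicit false

namespace Cfsg.Agent.H9.U7

open Module Subgroup Cfsg.Agent.Form Cfsg.Agent.H7 Cfsg.Agent.H6.SU Cfsg.Agent.H5.Zas1 Cfsg.Agent.H4.CAG

/-- the order of `SU₇(q)` -/
def NU7 (q : ℕ) : ℕ :=
  q ^ 21 * (q ^ 2 - 1) * (q ^ 3 + 1) * (q ^ 4 - 1) * (q ^ 5 + 1) * (q ^ 6 - 1) * (q ^ 7 + 1)

/-- `(q ^ 7 + 1) / (q + 1)` -/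
def t7 (q : ℕ) : ℕ := (q ^ 7 + 1) / (q + 1)

theorem t7_mul (q : ℕ) : (q + 1) * t7 q = q ^ 7 + 1 :=
  Nat.mul_div_cancel' (by simpa using Odd.nat_add_dvd_pow_add_pow q 1 (n := 7) (by decide))

theorem t7_eq (q : ℕ) : t7 q + q ^ 5 + q ^ 3 + q = q ^ 6 + q ^ 4 + q ^ 2 + 1 :=
  Nat.eq_of_mul_eq_mul_left q.succ_pos (by rw [Nat.succ_eq_add_one, mul_add, mul_add, mul_add, t7_mul]; ring)

theorem t7_int (q : ℕ) : (t7 q : ℤ) = q ^ 6 - q ^ 5 + q ^ 4 - q ^ 3 + q ^ 2 - q + 1 := by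
  have : (t7 q + q ^ 5 + q ^ 3 + q : ℤ) = q ^ 6 + q ^ 4 + q ^ 2 + 1 := by exact_mod_cast t7_eq q
  linear_combination this

theorem w_cases (q : ℕ) : (Nat.gcd 7 (q + 1) = 1 ∧ q % 7 ≠ 6) ∨ (Nat.gcd 7 (q + 1) = 7 ∧ q % 7 = 6) := by
  by_cases h : q % 7 = 6
  · exact Or.inr ⟨Nat.gcd_eq_left (by omega), h⟩
  · exact Or.inl ⟨(Nat.Prime.coprime_iff_not_dvd (by norm_num)).2 (by omega), h⟩

variable {F : Type*} [Field F] {σ : F →+* F} {hσ : ∀ a, σ (σ a) = a}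
  {V : Type*} [AddCommGroup V] [Module F V]

/-- a seven-dimensional unitary space over the field with `q ^ 2` elements -/
structure Un7 (S : PQ (FP.unit σ hσ) V) (q : ℕ) : Prop where
  card : Nat.card F = q ^ 2
  pow : ∀ a, σ a = a ^ q
  ne : ∃ a, σ a ≠ a
  nd : S.Nondeg
  dim : finrank F V = 7

/-- the data attached to a proper overgroup of the normaliser of a Singer cycle -/
structure SgD7 (S : PQ (FP.unit σ hσ) V) (q : ℕ) (K T : Subgroup (V ≃ₗ[F] V)) {Γ : Type*} [Group Γ]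
    (π : K →* Γ) (X : Subgroup Γ) : Prop where
  le : K ≤ sisom S
  surj : Function.Surjective π
  ker : ∀ g : K, π g = 1 ↔ ∃ c : F, ∀ v, g.1 v = c • v
  ca : CA X
  gen : ∀ L : Subgroup Γ, L.Normal → X ≤ L → L = ⊤
  genK : ∀ L : Subgroup K, L.Normal → (∀ g : K, g.1 ∈ T → g ^ Nat.card X = 1 → g ∈ L) → L = ⊤
  ne : ∃ g, g ∉ Nm X
  wt : wt X = 1 ∨ wt X = 7
  card : Nat.gcd 7 (q + 1) * Nat.card X = t7 q
  dvd : Nat.gcd 7 (q + 1) * Nat.card Γ ∣ NU7 q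
  cyc : IsCyclic T
  tle : T ≤ S.isom
  tcard : Nat.card T = q ^ 7 + 1
  free : ∀ x ∈ T, ∀ v, x v = v → x = 1 ∨ v = 0
  sc : ∀ x : V ≃ₗ[F] V, ∀ c : F, c * σ c = 1 → (∀ v, x v = c • v) → x ∈ T
  lift : ∀ x ∈ X, ∃ g : K, g.1 ∈ T ∧ π g = x ∧ g ^ Nat.card X = 1
  phi : ∃ φ ∈ S.isom, ∀ g ∈ T, φ * g * φ⁻¹ = g ^ q ^ 2
  irr : H2.UG.Irr1 K

end Cfsg.Agent.H9.U7
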