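import Cfsg.Agent.H9.TU2

/-! The unitary case. -/

set_option autoImplicit false

namespace Cfsg.Agent.H9.TU

open Module Cfsg.Agent.H7 Cfsg.Agent.H5.TA Cfsg.Agent.Form Cfsg.Agent.H6.SU Matrix

variable {K V : Type*} [Field K] [Finite K] [AddCommGroup V] [Module K V]
  {M : Subgroup (V ≃ₗ[K] V)} {O : Dual K V → V → Prop}

theorem TC.su {φ0 : Dual K V} {v0 : V} {σ : K →+* K} {E0 E1 : Subfield K} (h : TC M O φ0 v0 σ E0 E1) {Q : ℕ}
    (hσ : ∀ x, σ x = x ^ Q) (hc : Nat.card E1 = Q ^ 2) (fx : ∀ a, σ a = a → a ∈ E0)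
    (h2 : ∀ φ v, O φ v → ∀ a ∈ E0, Has M (a • φ) v)
    (mono : ∀ b : Basis (Fin 4) K V, (∀ φ v, O φ v → ∀ i, ∃ j, ∃ a : K, b i + φ (b i) • v = a • b j) → False)
    {φ ψ : Dual K V} {v w : V} (o1 : O φ v) (o2 : O ψ w) (n1 : φ0 v ≠ 0) (n2 : φ0 w ≠ 0)
    (hn : σ (φ w / (φ v0 * φ0 w)) ≠ φ w / (φ v0 * φ0 w)) : IsSU M := by
  have : FiniteDimensional K V := Module.finite_of_finrank_pos (by rw [h.hy.dim]; norm_num)
  have : Finite V := Module.finite_of_finite K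
  let τ : E1 →+* E1 := σ.restrict E1 E1 h.mem
  have cτ : ∀ a, (τ a : K) = σ a := fun _ => rfl
  have hτ : ∀ a, τ (τ a) = a := fun a => Subtype.ext (h.inv _ a.2)
  have hne : ∃ a, τ a ≠ a := ⟨⟨_, (h.tri _ _ _ _ o1 o2 n1 n2).1⟩, fun e => hn (congrArg Subtype.val e)⟩
  obtain ⟨ε, ε0, hε⟩ := exists_tr_zero hne hτ
  have ε1 : (ε : K) ≠ 0 := fun e => ε0 (Subtype.ext e)
  have ε2 : σ ε = -ε := by
    have : (ε : K) + σ ε = 0 := congrArg Subtype.val hε
    linear_combination this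
  obtain ⟨θ, hθ⟩ := exists_tr_one hne hτ
  let W : Submodule E1 V :=
    { carrier := {x | ∃ ξ, Gm O φ0 v0 σ E1 x ξ}
      zero_mem' := ⟨_, .zero⟩
      add_mem' := fun ⟨_, a⟩ ⟨_, b⟩ => ⟨_, a.add b⟩
      smul_mem' := fun c _ ⟨_, a⟩ => ⟨_, a.smul c.1 c.2⟩ }
  have : FiniteDimensional E1 W := Module.Finite.of_finite
  choose L hL using fun x : W => x.2
  let S : PQ (FP.unit τ hτ) W := PQ.ofHerm τ hτ θ hθ (fun x y => ε * ⟨L y x, (h.pr (hL x) (hL y)).1⟩)
    (fun x y z => Subtype.ext (by simp [mul_add]))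
    (fun c x y => Subtype.ext (by simp [Subfield.smul_def]; ring))
    (fun x y => Subtype.ext (by simp [cτ, ε2, (h.pr (hL y) (hL x)).2]))
  have hB : ∀ (x y : W) {ξ}, Gm O φ0 v0 σ E1 y ξ → (S.B x y : K) = ε * ξ x := fun x y ξ g => by
    rw [h.uniq g (hL y)]; rfl
  have hB' : ∀ (x : W) {y ξ} (g : Gm O φ0 v0 σ E1 y ξ), (S.B x ⟨y, ξ, g⟩ : K) = ε * ξ x := fun x y ξ g => hB _ _ g
  have hS : S.Nondeg := fun x hx => Subtype.ext (h.eq_zero fun y η g => by
    simpa [hx, ε1] using (hB x ⟨y, η, g⟩ g).symm)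
  let M' : Subgroup (W ≃ₗ[E1] W) :=
    { carrier := {G | ∃ g ∈ M, ∀ x : W, (G x : V) = g x}
      one_mem' := ⟨1, one_mem _, fun _ => rfl⟩
      mul_mem' := fun ⟨g, hg, e⟩ ⟨g', hg', e'⟩ => ⟨g * g', mul_mem hg hg', fun x => by simp [e, e']⟩
      inv_mem' := fun {G} ⟨g, hg, e⟩ => ⟨g⁻¹, inv_mem hg, fun x => by
        simpa [LinearEquiv.eq_symm_apply] using (e (G⁻¹ x)).symm⟩ }
  have res : ∀ g : V ≃ₗ[K] V, (∀ x : W, g x ∈ W) → ∃ G : W ≃ₗ[E1] W, ∀ x : W, (G x : V) = g x := fun g hg =>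
    ⟨LinearEquiv.ofInjectiveEndo ⟨⟨fun x => ⟨g x, hg x⟩, fun x y => Subtype.ext (by simp)⟩,
      fun c x => Subtype.ext (by simp [Subfield.smul_def])⟩
      fun x y e => Subtype.ext (g.injective (congrArg Subtype.val e)), fun _ => rfl⟩
  have resM : ∀ g ∈ M, ∀ x : W, g x ∈ W := fun g hg x => ⟨_, (h.inv_gm hg).2 (hL x)⟩
  have ctr : ∀ {ψ w x ξ} {s t : K}, O ψ w → ∀ g : Gm O φ0 v0 σ E1 x ξ, w = s • x → ψ = t • ξ → s * t ∈ E0 →
      Ctr S M' ⟨x, ξ, g⟩ := fun {ψ w x ξ s t} o g e1 e2 e => by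
    have s0 : s ≠ 0 := fun e' => (h.cls.tv o).v0 (by simp [e1, e'])
    have t0 : t ≠ 0 := fun e' => (h.cls.tv o).φ0 (by simp [e2, e'])
    refine ctr_iff.2 ⟨Subtype.ext ?_, fun c hc => ?_⟩
    · simpa [hB' _ g, e1, e2, s0, t0, ε1] using (h.cls.tv o).zero
    · have c2 : σ c = -c := by
        have : (c : K) + σ c = 0 := congrArg Subtype.val hc
        linear_combination this
      obtain ⟨k, hk, e'⟩ := h2 _ _ o (c * ε / (s * t)) (fx _ (by rw [map_div₀, map_mul, c2, ε2, h.fix _ e]; ring))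
      obtain ⟨G, hG⟩ := res k (resM k hk)
      refine ⟨G, ⟨k, hk, hG⟩, fun z => Subtype.ext ?_⟩
      simp only [hG, e', e1, e2, Submodule.coe_add, Submodule.coe_smul, Subfield.smul_def, Subfield.coe_mul,
        hB' _ g, LinearMap.smul_apply, smul_smul, smul_eq_mul]
      congr 2
      field_simp
  have g0 : Gm O φ0 v0 σ E1 v0 φ0 := .gen (Or.inl ⟨rfl, rfl⟩)
  have g1 : ∀ {φ v}, O φ v → φ0 v ≠ 0 → Gm O φ0 v0 σ E1 ((φ0 v)⁻¹ • v) (-(φ v0)⁻¹ • φ) := fun o n =>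
    .gen (Or.inr ⟨_, _, o, n, rfl, rfl⟩)
  have c0 : Ctr S M' ⟨v0, φ0, g0⟩ := ctr (s := 1) (t := 1) h.o0 g0 (by simp) (by simp) (by simp)
  have c1 : ∀ {φ v} (o : O φ v) (n : φ0 v ≠ 0), Ctr S M' ⟨_, _, g1 o n⟩ := fun {φ v} o n =>
    ctr (s := φ0 v) (t := -φ v0) o (g1 o n) (by simp [smul_smul, n]) (by simp [smul_smul, h.ne h.o0 o n])
      (by simpa using h.pair _ _ o)
  have hsp : ∀ Y : Submodule E1 W, (∀ z, Ctr S M' z → z ∈ Y) → Y = ⊤ := fun Y hY => by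
    refine eq_top_iff.2 ?_
    rintro ⟨x, ξ, g⟩ -
    induction g with
    | gen g =>
      rcases g with ⟨rfl, rfl⟩ | ⟨φ, v, o, n, rfl, rfl⟩
      · exact hY _ c0
      · exact hY _ (c1 o n)
    | zero => exact zero_mem Y
    | add _ _ a b => exact add_mem a b
    | smul a ha _ b => exact Y.smul_mem ⟨a, ha⟩ b
  have h4' : 4 ≤ finrank E1 W := by
    let b := Module.finBasis E1 W
    have := finrank_le_of_span_eq_top (R := K) (v := fun i => (b i : V)) (by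
      by_contra hne
      obtain ⟨x, hx⟩ : ∃ x, x ∉ Submodule.span K (Set.range fun i => (b i : V)) := by
        by_contra k
        push Not at k
        exact hne (eq_top_iff.2 fun x _ => k x)
      obtain ⟨φ, h1, h2⟩ := exists_dual_one hx
      have := h.ker_zero (ψ := φ) fun y ξ g => h2 y (by
        have e : y = ∑ i, b.repr ⟨y, ξ, g⟩ i • (b i : V) := by
          simpa only [AddSubmonoidClass.coe_finsetSum, Submodule.coe_smul] using
            congrArg Subtype.val (b.sum_repr ⟨y, ξ, g⟩).symm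
        rw [e]
        exact sum_mem fun i _ => Submodule.smul_mem _ (b.repr ⟨y, ξ, g⟩ i).1 (Submodule.subset_span ⟨i, rfl⟩))
      simp [this] at h1)
    rwa [h.hy.dim, Fintype.card_fin] at this
  have bas : ∀ e : Fin 4 → W, (∀ i j, S.B (e i) (e j) = if i = j then 1 else 0) →
      ∃ b : Basis (Fin 4) K V, (∀ i, b i = e i) ∧ ∀ (z : W) j, b.repr z j = S.B z (e j) := fun e he => by
    have k : ∀ i j, (ε : K) * L (e j) (e i) = if i = j then 1 else 0 := fun i j => by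
      rw [← hB _ _ (hL _), he]; split_ifs <;> rfl
    have li : LinearIndependent K fun i => (e i : V) := Fintype.linearIndependent_iff.2 fun g hg j => by
      have := congrArg (fun z => (ε : K) * L (e j) z) hg
      simpa [Finset.mul_sum, mul_left_comm (ε : K), k] using this
    let b := basisOfLinearIndependentOfCardEqFinrank li (by simp [h.hy.dim])
    have hb : ∀ i, b i = e i := fun i => by simp [b]
    refine ⟨b, hb, fun z j => ?_⟩
    have : b.coord j = (ε : K) • L (e j) := b.ext fun i => by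
      rw [LinearMap.smul_apply, smul_eq_mul, Basis.coord_apply, b.repr_self, hb, k, Finsupp.single_apply]
    rw [hB _ _ (hL _), ← Basis.coord_apply, this]; rfl
  have on : ∀ e : Fin 4 → W, (∀ i j, S.B (e i) (e j) = if i = j then 1 else 0) → ON S e := fun e he => by
    obtain ⟨b, hb, hr⟩ := bas e he
    refine ⟨he, fun x => Subtype.ext ?_⟩
    rw [← b.sum_repr x]
    simp [hr, hb, Subfield.smul_def]
  obtain ⟨e, he⟩ := orth4 hne hS h4'
  have hon := on e he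
  have sp : Submodule.span E1 (Set.range e) = ⊤ := eq_top_iff.2 fun x _ =>
    hon.sum x ▸ sum_mem fun i _ => Submodule.smul_mem _ _ (Submodule.subset_span ⟨i, rfl⟩)
  have h4 : finrank E1 W = 4 := le_antisymm (by simpa using finrank_le_of_span_eq_top sp) h4'
  have m1 := h.ne h.o0 o1 n1
  have m2 := h.ne h.o0 o2 n2
  rcases su4 hne hS h4 on hsp c0 (c1 o1 n1) (c1 o2 n2)
    (fun e' => by simpa [hB' _ (g1 o1 n1), m1, ε1] using congrArg Subtype.val e')
    (fun e' => by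
      have := congrArg Subtype.val e'
      simp only [Subfield.coe_add, Subfield.coe_mul, hB' _ (g1 o1 n1), hB' _ (g1 o2 n2), hB' _ g0,
        Subfield.coe_zero, map_smul, LinearMap.smul_apply, smul_eq_mul] at this
      refine hn ?_
      rw [← neg_inj, ← (h.tri _ _ _ _ o1 o2 n1 n2).2]
      field_simp at this ⊢
      refine mul_left_cancel₀ (pow_ne_zero 3 ε1) ?_
      linear_combination this) with hle | ⟨e', he', hm⟩
  swap
  · exfalso
    obtain ⟨b, hb, -⟩ := bas e' he'.B_e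
    refine mono b fun φ v o i => ?_
    obtain ⟨x, ξ, s, t, g, e1, e2, e⟩ := h.sc o
    obtain ⟨j, a, k⟩ := hm _ (ctr o g e1 e2 e) (⟨s * t, h.le e⟩ / ε) (Subtype.ext (by
      simp only [Subfield.coe_add, cτ, Subfield.coe_div, map_div₀, ε2, h.fix _ e, Subfield.coe_zero]; ring)) i
    refine ⟨j, a, ?_⟩
    have := congrArg Subtype.val k
    simp only [Submodule.coe_add, Submodule.coe_smul, Subfield.smul_def, Subfield.coe_mul, Subfield.coe_div,
      hB' _ g] at this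
    rw [hb, hb, ← this, e1, e2, smul_smul, LinearMap.smul_apply, smul_eq_mul]
    congr 2
    field_simp
  obtain ⟨b, hb, hr⟩ := bas e he
  have ent : ∀ {g : V ≃ₗ[K] V} {G : W ≃ₗ[E1] W}, (∀ x : W, (G x : V) = g x) → ∀ i j,
      LinearMap.toMatrix b b (g : V →ₗ[K] V) i j = S.B (G (e j)) (e i) := fun {g G} hG i j => by
    rw [LinearMap.toMatrix_apply, ← hr, hG, hb]; rfl
  have uni : ∀ {g : V ≃ₗ[K] V} {G : W ≃ₗ[E1] W}, (∀ x : W, (G x : V) = g x) → ∀ j k,
      ((LinearMap.toMatrix b b (g : V →ₗ[K] V))ᵀ * (LinearMap.toMatrix b b (g : V →ₗ[K] V)).map (· ^ Q)) j k =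
        S.B (G (e j)) (G (e k)) := fun {g G} hG j k => by
    rw [hon.B_sum, Matrix.mul_apply]
    simp [ent hG, cτ, hσ]
  refine ⟨E1, Q, b, hc, fun g => ⟨fun hg => ?_, fun ⟨d1, d2, d3⟩ => ?_⟩⟩
  · obtain ⟨G, hG⟩ := res g (resM g hg)
    refine ⟨?_, fun i j => by rw [ent hG]; exact SetLike.coe_mem _, Matrix.ext fun j k => ?_⟩
    · rw [LinearMap.det_toMatrix, ← LinearEquiv.coe_det, (h.inv_gm hg).1, Units.val_one]
    · rw [uni hG, hB _ _ (hG _ ▸ (h.inv_gm hg).2 (hL (e k))), hG]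
      simp only [LinearMap.comp_apply, LinearEquiv.coe_coe, LinearEquiv.symm_apply_apply]
      rw [← hB _ _ (hL _), he, Matrix.one_apply]
      split_ifs <;> rfl
  · obtain ⟨G, hG⟩ := res g fun x => by
      rw [← b.sum_repr x, map_sum]
      refine sum_mem fun j _ => ?_
      rw [hr, map_smul, ← b.sum_repr (g (b j))]
      refine W.smul_mem (S.B x (e j)) (sum_mem fun i _ => ?_)
      have := d2 i j
      rw [LinearMap.toMatrix_apply] at this
      rw [hb i]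
      exact W.smul_mem ⟨_, this⟩ (e i).2
    have k : ∀ j k, S.B (G (e j)) (G (e k)) = S.B (e j) (e k) := fun j k => Subtype.ext (by
      rw [← uni hG, d3, he, Matrix.one_apply]
      split_ifs <;> rfl)
    obtain ⟨g', hg', e'⟩ := hle (mem_sisom.2 ⟨(PQ.unit_mem_isom _ G).2 fun x y => by
      rw [← hon.sum x, ← hon.sum y]
      simp only [map_sum, map_smul, PQ.B_sum_left, PQ.B_sum_right, PQ.B_smul_left, Bsr, k], Units.ext (by
      have li : LinearIndependent E1 e := linearIndependent_of_top_le_span_of_card_eq_finrank sp.ge (by simp [h4])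
      let c := Basis.mk li sp.ge
      have hc : ∀ z j, c.repr z j = S.B z (e j) := fun z j => by
        conv_lhs => rw [← hon.sum z]
        simp only [← Basis.mk_apply li sp.ge, map_sum, map_smul, Basis.repr_self, c]
        simp [Finsupp.single_apply]
      apply E1.subtype.injective
      rw [LinearEquiv.coe_det, ← LinearMap.det_toMatrix c, RingHom.map_det, Units.val_one, map_one, ← d1]
      congr 1
      ext i j
      rw [ent hG, RingHom.mapMatrix_apply, Matrix.map_apply, LinearMap.toMatrix_apply, hc]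
      simp [c])⟩)
    rwa [show g = g' from LinearEquiv.toLinearMap_injective (b.ext fun i => by
      rw [hb]; exact (hG _).symm.trans (e' _))]

theorem unit (h : Hy M) (u : Uq M) (c : Cls M O) (E0 : Subfield K)
    (h1 : ∀ φ v ψ w, O φ v → O ψ w → φ w * ψ v ∈ E0) (h2 : ∀ φ v, O φ v → ∀ a ∈ E0, Has M (a • φ) v)
    (mono : ∀ b : Basis (Fin 4) K V, (∀ φ v, O φ v → ∀ i, ∃ j, ∃ a : K, b i + φ (b i) • v = a • b j) → False) :
    SD M ∨ IsSU M := by
  obtain ⟨φ0, v0, o⟩ := c.ex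
  obtain ⟨σ, hσ⟩ := MH.exists_frob E0
  have fx : ∀ a, a ∈ E0 ↔ σ a = a := fun a => by rw [hσ]; exact H4.Subf.mem_iff_pow E0
  have z := (c.tv o).zero
  have key : ∀ φ v ψ w, O φ v → O ψ w → φ0 v ≠ 0 → φ0 w ≠ 0 →
      σ (ψ v / (ψ v0 * φ0 v)) = -(φ w / (φ v0 * φ0 w)) := fun φ v ψ w o1 o2 n1 n2 => by
    have m1 : φ v0 ≠ 0 := fun e => n1 (u.ns (c.tv o) (c.tv o1) e)
    have m2 : ψ v0 ≠ 0 := fun e => n2 (u.ns (c.tv o) (c.tv o2) e)
    obtain ⟨α, hα⟩ : ∃ α, α = -(φ w / (φ v0 * φ0 w)) := ⟨_, rfl⟩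
    obtain ⟨β, hβ⟩ : ∃ β, β = ψ v / (ψ v0 * φ0 v) := ⟨_, rfl⟩
    have cj : ∀ a ∈ E0, ∃ φ' v', O φ' v' ∧ φ' w = -(φ v0 * φ0 w) * (α + a) ∧ ψ v' = ψ v0 * φ0 v * (β + a) :=
      fun a ha => ⟨_, _, c.conj o1 (h2 _ _ o a ha) (by simp [z]), by simp [hα]; field_simp; ring,
        by simp [hβ]; field_simp⟩
    have pr : ∀ a ∈ E0, (α + a) * (β + a) ∈ E0 := fun a ha => by
      obtain ⟨φ', v', o', e1, e2⟩ := cj a ha
      have := E0.div_mem (neg_mem (h1 _ _ _ _ o' o2)) (mul_mem (h1 _ _ _ _ o o1) (h1 _ _ _ _ o o2))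
      convert this using 1
      rw [e1, e2]; field_simp
    have p0 := (fx _).1 (pr 0 (zero_mem _))
    have p1 := (fx _).1 (pr 1 (one_mem _))
    simp only [add_zero, map_mul, map_add, map_one] at p0 p1
    rw [← hα, ← hβ]
    rcases mul_eq_zero.1 (show (σ β - α) * (σ β - β) = 0 by linear_combination σ β * p1 - (σ β + 1) * p0) with e | e
    · exact sub_eq_zero.1 e
    · have e := sub_eq_zero.1 e
      obtain ⟨φ', v', o', e1, e2⟩ := cj (-β) (neg_mem ((fx _).2 e))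
      have := u.ns (c.tv o') (c.tv o2) (by rw [e2]; simp)
      rw [e1] at this
      rw [e]
      linear_combination -((mul_eq_zero.1 this).resolve_left (by simp [m1, n2]))
  by_cases hn : ∃ φ v ψ w, O φ v ∧ O ψ w ∧ φ0 v ≠ 0 ∧ φ0 w ≠ 0 ∧
    σ (φ w / (φ v0 * φ0 w)) ≠ φ w / (φ v0 * φ0 w)
  · obtain ⟨φ, v, ψ, w, o1, o2, n1, n2, hn⟩ := hn
    let E1 := Asch.fixSub (σ.comp σ)
    have m : ∀ φ v ψ w, O φ v → O ψ w → φ0 v ≠ 0 → φ0 w ≠ 0 → φ w / (φ v0 * φ0 w) ∈ E1 :=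
      fun φ v ψ w o1 o2 n1 n2 => by
        change σ (σ _) = _
        rw [key _ _ _ _ o2 o1 n2 n1, map_neg, key _ _ _ _ o1 o2 n1 n2, neg_neg]
        rfl
    exact Or.inr (TC.su (E1 := E1) ⟨h, u, c, o, fun a ha => by
        change σ (σ a) = a
        rw [(fx a).1 ha, (fx a).1 ha], fun a => (fx a).1, fun _ k => k, fun a k => congrArg σ k,
      fun φ v o' => h1 _ _ _ _ o o', fun φ v ψ w o1 o2 n1 n2 =>
        ⟨m _ _ _ _ o1 o2 n1 n2, by rw [key _ _ _ _ o2 o1 n2 n1, neg_neg]⟩⟩ hσ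
      (MH.card_quad (fun x => by rw [← hσ, ← hσ]; rfl) (m _ _ _ _ o1 o2 n1 n2) fun k => hn ((fx _).1 k))
      (fun a => (fx a).2) h2 mono o1 o2 n1 n2 hn)
  · push Not at hn
    refine Or.inl (TC.sd (E0 := ⊤) ⟨h, u, c, o, le_rfl, fun _ _ => rfl, fun _ _ => rfl, fun _ _ => trivial,
      fun _ _ _ => trivial, fun φ v ψ w o1 o2 n1 n2 => ⟨trivial, ?_⟩⟩)
    rw [RingHom.id_apply, ← hn _ _ _ _ o1 o2 n1 n2, key _ _ _ _ o2 o1 n2 n1, neg_neg]

end Cfsg.Agent.H9.TU
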