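import Cfsg.Agent.H9.QB3
import Cfsg.Agent.H7.M4D

/-! Quadratic elements in a quasisimple absolutely irreducible subgroup of `GL₄` without transvections. -/

set_option autoImplicit false

namespace Cfsg.Agent.H9.QB

open Matrix Cfsg.Agent.H9.Mi Cfsg.Agent.Asch Cfsg.Agent.H2.M4 Cfsg.Agent.H7.M4 Module commutatorElement

variable {K : Type*} [Field K]

/-- global hypotheses -/
structure B0 (P : Subgroup (G4 K)) : Prop where
  two : (2 : K) ≠ 0
  perf : ⁅P, P⁆ = P
  simple : IsSimpleGroup (bar P)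
  full : Full (Geo.matrixSet P)
  spl : ∀ x ∈ P, x.val.charpoly.Splits
  tv : NoTv P

theorem rank_cj (Q : G4 K) (X : M4 K) : (cj Q X).rank = X.rank := by
  rw [cj_apply, Matrix.rank_mul_eq_left_of_isUnit_det _ _ (Ne.isUnit (Q⁻¹).det_ne_zero),
    Matrix.rank_mul_eq_right_of_isUnit_det _ _ (Ne.isUnit Q.det_ne_zero)]

theorem eq_zero_of_rank {X : M4 K} (h : X.rank = 0) : X = 0 := by
  rw [Matrix.rank, Submodule.finrank_eq_zero, LinearMap.range_eq_bot] at h
  exact Matrix.ext_iff_mulVec.2 fun v => by simpa using LinearMap.congr_fun h v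

theorem B0.cg {P : Subgroup (G4 K)} (h : B0 P) (Q : G4 K) : B0 (cg Q P) where
  two := h.two
  perf := by rw [H7.M4.cg, ← Subgroup.map_commutator, h.perf]
  simple := by
    have := h.simple
    exact (barCg Q P).symm.isSimpleGroup
  full := by
    refine eq_top_iff.2 fun X _ => ?_
    have := h.full.induction (p := fun X => Asch.cj Q X ∈ Submodule.span K (Geo.matrixSet (H7.M4.cg Q P)))
      (by rintro _ ⟨x, hx, rfl⟩; exact Submodule.subset_span ⟨_, cg_mem hx, (cj_coe _ _).symm⟩) (by simp)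
      (fun x y hx hy => by rw [map_add]; exact add_mem hx hy)
      (fun c x hx => by rw [map_smul]; exact Submodule.smul_mem _ _ hx) (Asch.cj Q⁻¹ X)
    rwa [Asch.cj_cj_inv] at this
  spl := by
    rintro _ ⟨x, hx, rfl⟩
    have : ((MulAut.conj Q).toMonoidHom x).val.charpoly = x.val.charpoly := by
      change (Q.val * x.val * (Q⁻¹).val).charpoly = _
      rw [Matrix.charpoly_mul_comm, ← Matrix.mul_assoc, Units.inv_mul, Matrix.one_mul]
    rw [this]; exact h.spl x hx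
  tv := by
    rintro _ ⟨x, hx, rfl⟩
    have : ((MulAut.conj Q).toMonoidHom x).val - 1 = Asch.cj Q (x.val - 1) := by
      rw [map_sub, map_one, cj_coe]; rfl
    rw [this, rank_cj]; exact h.tv x hx

/-- the set of matrices of a group with the global hypotheses -/
def Good (G : M4 K → Prop) : Prop := ∃ P, B0 P ∧ ∀ X, G X ↔ X ∈ Geo.matrixSet P

namespace Good

variable {G : M4 K → Prop} (h : Good G)
include h

theorem cj {Q Q' : M4 K} (e : Q' * Q = 1) : Good fun X => G (Q * X * Q') := by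
  obtain ⟨P, hP, k⟩ := h
  let q : G4 K := ⟨Q', Q, e, mul_eq_one_comm.1 e⟩
  refine ⟨_, hP.cg q, fun X => (k _).trans ⟨?_, ?_⟩⟩
  · rintro ⟨g, hg, e'⟩
    refine ⟨_, cg_mem hg, ?_⟩
    change Q' * g.val * Q = X
    rw [show g.val = _ from e', show Q' * (Q * X * Q') * Q = Q' * Q * X * (Q' * Q) by simp only [mul_assoc], e,
      one_mul, mul_one]
  · rintro ⟨g, hg, rfl⟩
    exact ⟨_, mem_cg.1 hg, rfl⟩

theorem qh : QH G := by
  obtain ⟨P, hP, k⟩ := h
  simp only [funext fun X => propext (k X)]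
  refine ⟨hP.two, ⟨1, one_mem _, rfl⟩, ?_, ?_, ?_, ?_⟩
  · rintro _ _ ⟨x, hx, rfl⟩ ⟨y, hy, rfl⟩
    exact ⟨_, mul_mem hx hy, rfl⟩
  · rintro _ ⟨x, hx, rfl⟩
    exact ⟨_, ⟨_, inv_mem hx, rfl⟩, x.inv_mul⟩
  · rintro u v ⟨x, hx, e⟩
    have h1 := hP.tv x hx
    rw [show x.val = _ from e, add_sub_cancel_left] at h1
    have h2 := rank_vecMulVec_le u v
    exact eq_zero_of_rank (by omega)
  · rintro _ ⟨g, hg, rfl⟩
    obtain ⟨x, hx⟩ := (hP.spl g hg).exists_eval_eq_zero (by rw [charpoly_degree_eq_dim]; simp)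
    rw [eval_charpoly] at hx
    obtain ⟨u, hu, e⟩ := Matrix.exists_mulVec_eq_zero_iff.2 hx
    refine ⟨x, u, hu, ?_⟩
    rw [sub_mulVec, sub_eq_zero] at e
    rw [← e]
    ext i; simp [mulVec_diagonal]

theorem irr (W : Submodule K (Fin 4 → K)) (hW : ∀ X, G X → ∀ v ∈ W, X *ᵥ v ∈ W) : W = ⊥ ∨ W = ⊤ := by
  obtain ⟨P, hP, k⟩ := h
  exact hP.full.irred W fun X hX => hW X ((k X).2 hX)

theorem idx [Finite K] (S : M4 K → Prop) (h1 : S 1) (h2 : ∀ X Y, G X → G Y → S X → S Y → S (X * Y))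
    (h3 : ∀ X Y, G X → G Y → ¬ S X → ¬ S Y → S (X * Y)) {X : M4 K} (hX : G X) : S X := by
  obtain ⟨P, hP, k⟩ := h
  have m : ∀ {x : G4 K}, x ∈ P → G x.val := fun hx => (k _).2 ⟨_, hx, rfl⟩
  let H : Subgroup (G4 K) := toSub
    { carrier := {x | x ∈ P ∧ S x.val}
      one_mem' := ⟨one_mem _, h1⟩
      mul_mem' := fun a b => ⟨mul_mem a.1 b.1, h2 _ _ (m a.1) (m b.1) a.2 b.2⟩ }
  have k3 : ∀ {x y}, x ∈ P → y ∈ P → x ∉ H → y ∉ H → x * y ∈ H := fun hx hy a b =>
    ⟨mul_mem hx hy, h3 _ _ (m hx) (m hy) (fun e => a ⟨hx, e⟩) fun e => b ⟨hy, e⟩⟩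
  have : ⁅P, P⁆ ≤ H := Subgroup.commutator_le.2 fun x hx y hy => by
    rw [commutatorElement_def]
    by_cases a : x ∈ H <;> by_cases b : y ∈ H
    · exact mul_mem (mul_mem (mul_mem a b) (inv_mem a)) (inv_mem b)
    · exact k3 (mul_mem (mul_mem hx hy) (inv_mem hx)) (inv_mem hy)
        (by rwa [H.mul_mem_cancel_right (inv_mem a), H.mul_mem_cancel_left a]) (by rwa [inv_mem_iff])
    · exact mul_mem (k3 (mul_mem hx hy) (inv_mem hx) (by rwa [H.mul_mem_cancel_right b]) (by rwa [inv_mem_iff]))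
        (inv_mem b)
    · rw [mul_assoc]
      exact mul_mem (k3 hx hy a b) (k3 (inv_mem hx) (inv_mem hy) (by rwa [inv_mem_iff]) (by rwa [inv_mem_iff]))
  rw [hP.perf] at this
  obtain ⟨x, hx, rfl⟩ := (k X).1 hX
  exact (this hx).2

theorem cen {C U : M4 K} (hU : G U) (u0 : ∀ t : K, U ≠ t • 1)
    (hC : ∀ X X', G X → X' * X = 1 → C * (X * U * X') = X * U * X' * C) : ∃ t : K, C = t • 1 := by
  obtain ⟨P, hP, k⟩ := h
  obtain ⟨u, hu, rfl⟩ := (k U).1 hU
  have := hP.simple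
  let S : Subgroup (G4 K) :=
    { carrier := {x | C * x.val = x.val * C}
      one_mem' := by simp
      mul_mem' := fun {a b} ha hb => by
        change C * (a.val * b.val) = a.val * b.val * C
        rw [← mul_assoc, ha, mul_assoc, hb, mul_assoc]
      inv_mem' := fun {a} ha => (Commute.units_inv_right ha :) }
  let y : bar P := ⟨pr u, mem_bar hu⟩
  have hN : Subgroup.normalClosure {y} = ⊤ := (Subgroup.normalClosure_normal.eq_bot_or_eq_top).resolve_left fun e => by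
    have : y = 1 := Subgroup.mem_bot.1 (e.le (Subgroup.subset_normalClosure rfl))
    obtain ⟨t, ht⟩ := pr_eq_one'.1 (congrArg Subtype.val this)
    exact u0 t ht
  have hle : Subgroup.normalClosure {y} ≤ (bar S).subgroupOf (bar P) := (Subgroup.closure_le _).2 fun x hx => by
    obtain ⟨a, rfl, ha⟩ := Group.mem_conjugatesOfSet_iff.1 hx
    obtain ⟨⟨_, g, hg, rfl⟩, rfl⟩ := isConj_iff.1 ha
    exact ⟨g * u * g⁻¹, hC _ _ ((k _).2 ⟨g, hg, rfl⟩) g.inv_mul, rfl⟩
  refine hP.full.isSc ?_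
  rintro _ ⟨x, hx, rfl⟩
  obtain ⟨s, hs, e⟩ : pr x ∈ bar S := hle (hN.ge (Subgroup.mem_top (⟨pr x, mem_bar hx⟩ : bar P)))
  obtain ⟨c, hc⟩ := pr_eq_iff.1 e.symm
  change C * x.val = x.val * C
  rw [hc, Matrix.mul_smul, Matrix.smul_mul, show C * s.val = s.val * C from hs]

end Good

theorem two_span {W U : Submodule K (Fin 4 → K)} (hW : finrank K W = 2) {x y : Fin 4 → K} (hx : x ∈ W) (hy : y ∈ W)
    (x0 : x ≠ 0) (hxy : ∀ t : K, t • x ≠ y) (hx' : x ∈ U) (hy' : y ∈ U) : W ≤ U := by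
  have li : LinearIndependent K ![y, x] := linearIndependent_fin2.2 ⟨x0, hxy⟩
  have e : Submodule.span K (Set.range ![y, x]) = W := Submodule.eq_of_le_of_finrank_eq
    (Submodule.span_le.2 (by rintro _ ⟨i, rfl⟩; fin_cases i <;> simpa)) (by rw [finrank_span_eq_card li, hW]; simp)
  rw [← e]
  exact Submodule.span_le.2 (by rintro _ ⟨i, rfl⟩; fin_cases i <;> simpa)

/-- the standard centre -/
def ell (K : Type*) [Field K] : Submodule K (Fin 4 → K) := Submodule.span K (Set.range ![Pi.single 0 1, Pi.single 1 1])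

theorem mem_ell {v : Fin 4 → K} : v ∈ ell K ↔ ∃ p, v = v2 p 0 := by
  rw [ell, Submodule.mem_span_range_iff_exists_fun]
  refine exists_congr fun p => ?_
  rw [eq_comm, show ∑ i, p i • (![Pi.single 0 1, Pi.single 1 1] : Fin 2 → Fin 4 → K) i = v2 p 0 by
    ext i; fin_cases i <;> simp [v2]]

theorem finrank_ell : finrank K (ell K) = 2 := by
  rw [ell, finrank_span_eq_card]
  · simp
  · rw [LinearIndependent.pair_iff]
    intro s t e
    exact ⟨by simpa using congrFun e 0, by simpa using congrFun e 1⟩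

theorem Good.opp {G : M4 K → Prop} (h : Good G) : ∃ a b c d, G (blk a b c d) ∧ c.det ≠ 0 := by
  by_contra hne
  push Not at hne
  have q := h.qh
  let L : M4 K → Submodule K (Fin 4 → K) := fun X => (ell K).map (toLin' X)
  have fL : ∀ {X}, G X → finrank K (L X) = 2 := fun {X} hX => by
    obtain ⟨Y, -, e⟩ := q.inv hX
    rw [← finrank_ell (K := K)]
    refine (LinearEquiv.finrank_eq (Submodule.equivMapOfInjective _ (fun u v e' => ?_) _)).symm
    simpa [← mul_assoc, e] using congrArg (Y *ᵥ ·) e'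
  have mL : ∀ {X Y v}, v ∈ L Y → X *ᵥ v ∈ L (X * Y) := by
    rintro X Y _ ⟨v, hv, rfl⟩
    exact ⟨v, hv, by simp⟩
  have meet : ∀ {X Y}, G X → G Y → ∃ v, v ≠ 0 ∧ v ∈ L X ∧ v ∈ L Y := fun {X Y} hX hY => by
    obtain ⟨X', hX', e⟩ := q.inv hX
    obtain ⟨Y', -, e'⟩ := q.inv hY
    obtain ⟨a, b, c, d, e1⟩ := exists_blk (X' * Y)
    obtain ⟨p, hp, e2⟩ := Matrix.exists_mulVec_eq_zero_iff.2 (hne a b c d (e1 ▸ q.mul hX' hY))
    refine ⟨Y *ᵥ v2 p 0, fun e0 => hp ?_, ⟨v2 (a *ᵥ p) 0, mem_ell.2 ⟨_, rfl⟩, ?_⟩, ⟨_, mem_ell.2 ⟨_, rfl⟩, rfl⟩⟩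
    · have := congrArg (Y' *ᵥ ·) e0
      simpa [e', v2_eq_zero] using this
    · have : (X' * Y) *ᵥ v2 p 0 = v2 (a *ᵥ p) 0 := by simp [e1, blk_mulVec, e2]
      rw [toLin'_apply, ← this, mulVec_mulVec, ← mul_assoc, mul_eq_one_comm.1 e, one_mul]
  have hI : ∀ v, v ≠ 0 → ∃ X, G X ∧ v ∉ L X := fun v v0 => by
    by_contra k
    push Not at k
    rcases h.irr (⨅ X, ⨅ _ : G X, L X) (fun Y hY v hv => by
      simp only [Submodule.mem_iInf] at hv ⊢
      intro X hX
      obtain ⟨Y', hY', e⟩ := q.inv hY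
      have := mL (X := Y) (hv _ (q.mul hY' hX))
      rwa [← mul_assoc, mul_eq_one_comm.1 e, one_mul] at this) with e | e
    · exact v0 ((Submodule.mem_bot K).1 (e.le (by simpa only [Submodule.mem_iInf] using k)))
    · have : L 1 = ⊤ := top_le_iff.1 (e.ge.trans (iInf₂_le 1 q.one))
      have h2 := fL q.one
      rw [this] at h2
      simp at h2
  have hS : ∀ U : Submodule K (Fin 4 → K), U ≠ ⊤ → ∃ X, G X ∧ ¬ L X ≤ U := fun U hU => by
    by_contra k
    push Not at k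
    rcases h.irr (⨆ X, ⨆ _ : G X, L X) (fun Y hY v hv => by
      have : (⨆ X, ⨆ _ : G X, L X) ≤ (⨆ X, ⨆ _ : G X, L X).comap (toLin' Y) :=
        iSup₂_le fun X hX v hv => (le_iSup₂_of_le (f := fun X (_ : G X) => L X) _ (q.mul hY hX) le_rfl) (mL hv)
      exact this hv) with e | e
    · have : L 1 = ⊥ := le_bot_iff.1 ((le_iSup₂_of_le (f := fun X (_ : G X) => L X) 1 q.one le_rfl).trans e.le)
      have h2 := fL q.one
      rw [this] at h2
      simp at h2
    · exact hU (top_le_iff.1 (e.ge.trans (iSup₂_le k)))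
  obtain ⟨v, v0, hv, -⟩ := meet q.one q.one
  obtain ⟨Y, hY, hv'⟩ := hI v v0
  obtain ⟨x, x0, x1, x2⟩ := meet q.one hY
  have st : ∀ {X}, G X → x ∉ L X → L X ≤ L 1 ⊔ L Y := fun {X} hX hx => by
    obtain ⟨y, y0, y1, y2⟩ := meet q.one hX
    obtain ⟨z, z0, z1, z2⟩ := meet hY hX
    refine two_span (fL hX) z2 y2 z0 (fun t e => ?_) (Submodule.mem_sup_right z1) (Submodule.mem_sup_left y1)
    refine hv' (two_span (fL q.one) y1 x1 y0 (fun s e' => hx ?_) (e ▸ Submodule.smul_mem _ _ z1) x2 hv)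
    exact e' ▸ Submodule.smul_mem _ _ y2
  have nt : L 1 ⊔ L Y ≠ ⊤ := fun e => by
    have h1 := Submodule.finrank_sup_add_finrank_inf_eq (L 1) (L Y)
    rw [e, fL q.one, fL hY, finrank_top, finrank_fin_fun] at h1
    have h2 : L 1 ⊓ L Y = ⊥ := Submodule.finrank_eq_zero.1 (by omega)
    exact x0 ((Submodule.mem_bot K).1 (h2.le ⟨x1, x2⟩))
  obtain ⟨X3, h3, n3⟩ := hI x x0
  obtain ⟨X4, h4, n4⟩ := hS _ nt
  obtain ⟨y, y0, y3, y4⟩ := meet h3 h4
  exact n4 (two_span (fL h4) y4 (not_not.1 fun k => n4 (st h4 k)) y0 (fun t e => n3 (e ▸ Submodule.smul_mem _ _ y3))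
    (st h3 n3 y3) (Submodule.mem_sup_left x1))

theorem det_add_vmv (x y p q : Fin 2 → K) :
    (vecMulVec x p + vecMulVec y q).det = (x 0 * y 1 - x 1 * y 0) * (p 0 * q 1 - p 1 * q 0) := by
  simp [det_fin_two, vecMulVec]; ring

theorem two_rank1 {a c : M2 K} (ha : a.det = 0) (hc : c.det = 0) (hac : (a + c).det = 0)
    (hi : ∀ v, a *ᵥ v = 0 → c *ᵥ v = 0 → v = 0) :
    ∃ x p q : Fin 2 → K, a = vecMulVec x p ∧ c = vecMulVec x q ∧ p 0 * q 1 - p 1 * q 0 ≠ 0 := by
  have key : ∀ {x y p q : Fin 2 → K}, a = vecMulVec x p → c = vecMulVec y q → p 0 * q 1 - p 1 * q 0 ≠ 0 :=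
    fun {x y p q} e1 e2 e => by
      obtain ⟨v, hv, e'⟩ := (Matrix.exists_mulVec_eq_zero_iff (M := !![p 0, p 1; q 0, q 1])).2 (by simpa using e)
      have f1 := congrFun e' 0
      have f2 := congrFun e' 1
      simp [mulVec, dotProduct] at f1 f2
      refine hv (hi v ?_ ?_)
      · ext i; simp [e1, mulVec, dotProduct, vecMulVec]; linear_combination x i * f1
      · ext i; simp [e2, mulVec, dotProduct, vecMulVec]; linear_combination y i * f2
  obtain ⟨x, p, e1⟩ := rank1 ha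
  obtain ⟨y, q, e2⟩ := rank1 hc
  rw [e1, e2, det_add_vmv] at hac
  obtain ⟨z, s, e3⟩ := rank1 (A := !![x 0, y 0; x 1, y 1])
    (by simp; linear_combination (mul_eq_zero.1 hac).resolve_right (key e1 e2))
  have k := fun i j => congrFun (congrFun e3 i) j
  have k1 := k 0 0
  have k2 := k 0 1
  have k3 := k 1 0
  have k4 := k 1 1
  simp [vecMulVec] at k1 k2 k3 k4
  have f1 : a = vecMulVec z (s 0 • p) := by
    rw [e1]; ext i j; fin_cases i <;> simp [vecMulVec, k1, k3, mul_assoc]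
  have f2 : c = vecMulVec z (s 1 • q) := by
    rw [e2]; ext i j; fin_cases i <;> simp [vecMulVec, k2, k4, mul_assoc]
  exact ⟨z, _, _, f1, f2, key f1 f2⟩

theorem cj_up {a b c d a' b' c' d' m : M2 K} (e : blk a' b' c' d' * blk a b c d = 1) (m1 : m * c = 1) :
    blk a b c d * up 1 * blk a' b' c' d' = up (a * m) * lo (c * c') * up (-(a * m)) := by
  have e' := mul_eq_one_comm.1 e
  have e1 := e
  rw [blk_mul, one_eq_blk, blk_inj] at e1
  have e2 : d' = -(c' * (a * m)) := by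
    rw [← mul_one d', ← mul_eq_one_comm.1 m1, ← mul_assoc, ← mul_assoc, ← neg_mul,
      eq_neg_of_add_eq_zero_right e1.2.2.1]
  have e3 : a = a * m * c := by rw [mul_assoc, m1, mul_one]
  rw [← add_sub_cancel 1 (up (1 : M2 K)), up_sub_one, mul_add, add_mul, mul_one, e', e2]
  generalize a * m = Z at e3
  subst e3
  simp only [up, lo, one_eq_blk, blk_mul, blk_add, blk_inj]
  refine ⟨?_, ?_, ?_, ?_⟩ <;> noncomm_ring

theorem Good.norm_false [Finite K] {G : M4 K → Prop} (h : Good G) (hb : Big G) (h1 : G (up 1)) (l1 : G (lo 1)) :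
    False := by
  have q := h.qh
  have zm : ∀ {a b c d m : M2 K}, G (blk a b c d) → m * c = 1 → G (up (a * m)) := fun {a b c d m} k m1 => by
    obtain ⟨X', hX', e⟩ := q.inv k
    obtain ⟨a', b', c', d', rfl⟩ := exists_blk X'
    have k1 := q.mul (q.mul k h1) hX'
    have e1 := cj_up e m1
    refine q.z_mem hb h1 l1 (fun e0 => ?_) (e1 ▸ k1)
    rw [e0, lo_zero, mul_one, up_mul, add_neg_cancel, up_zero] at e1
    have : up (1 : M2 K) = up 0 := by
      calc _ = blk a' b' c' d' * blk a b c d * up 1 * (blk a' b' c' d' * blk a b c d) := by rw [e, one_mul, mul_one]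
        _ = blk a' b' c' d' * (blk a b c d * up 1 * blk a' b' c' d') * blk a b c d := by simp only [mul_assoc]
        _ = _ := by rw [e1, mul_one, e, up_zero]
    exact one_ne_zero (up_inj.1 this)
  have iv : ∀ {a b d : M2 K}, G (blk a b 0 d) → a.det ≠ 0 ∧ d.det ≠ 0 := fun {a b d} k => by
    obtain ⟨X', -, e⟩ := q.inv k
    obtain ⟨a', b', c', d', rfl⟩ := exists_blk X'
    have e' := mul_eq_one_comm.1 e
    rw [blk_mul, one_eq_blk, blk_inj] at e e'
    exact ⟨fun e0 => by simpa [e0] using congrArg det e.1, fun e0 => by simpa [e0] using congrArg det e'.2.2.2⟩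
  let S : M4 K → Prop := fun X => ∀ a b c d, X = blk a b c d → c = 0 ∨ c.det ≠ 0
  have sS : ∀ {a b c d}, S (blk a b c d) ↔ c = 0 ∨ c.det ≠ 0 := fun {a b c d} =>
    ⟨fun k => k a b c d rfl, fun k _ _ _ _ e => (blk_inj.1 e).2.2.1 ▸ k⟩
  have s0 : ∀ {a b d Y}, G (blk a b 0 d) → S Y → S (blk a b 0 d * Y) := fun {a b d Y} k hY => by
    obtain ⟨a', b', c', d', rfl⟩ := exists_blk Y
    rw [blk_mul, sS]
    exact (sS.1 hY).imp (fun e => by simp [e]) fun e => by simp [e, (iv k).2]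
  have s1 : ∀ {Y}, G Y → S Y → S (blk 0 (-1) 1 0 * Y) := fun {Y} k hY => by
    obtain ⟨a', b', c', d', rfl⟩ := exists_blk Y
    rw [blk_mul, sS]
    rcases sS.1 hY with rfl | e
    · exact Or.inr (by simpa using (iv k).1)
    · obtain ⟨m, m1, -⟩ := inv2 e
      by_cases a0 : a' * m = 0
      · left
        simpa [mul_assoc, m1] using congrArg (· * c') a0
      · right
        have := q.up_det (zm k m1) a0
        rw [det_mul] at this
        simpa using left_ne_zero_of_mul this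
  have w := q.wy_mem h1 l1
  have w' := q.wy_mem' h1 l1
  have sm : ∀ X Y, G X → G Y → S X → S Y → S (X * Y) := fun X Y hX hY k k' => by
    obtain ⟨a, b, c, d, rfl⟩ := exists_blk X
    rcases sS.1 k with rfl | e
    · exact s0 hX k'
    · obtain ⟨m, m1, -⟩ := inv2 e
      have z := zm hX m1
      have k1 := q.mul w (q.mul (q.up_neg z) hX)
      have e1 : blk 0 1 (-1) 0 * (up (-(a * m)) * blk a b c d) = blk c d 0 (a * m * d - b) := by
        simp [up, blk_mul, mul_assoc, m1, sub_eq_add_neg]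
      rw [e1] at k1
      have := s0 z (s1 (q.mul k1 hY) (s0 k1 k'))
      rwa [← e1, ← mul_assoc, ← mul_assoc, ← mul_assoc, ← mul_assoc, mul_assoc _ (blk 0 (-1) 1 0),
        show blk 0 (-1) 1 0 * blk 0 1 (-1) 0 = (1 : M4 K) by simp [blk_mul, one_eq_blk], mul_one,
        show blk 1 (a * m) 0 1 = up (a * m) from rfl, up_mul, add_neg_cancel, up_zero, one_mul] at this
  have nl : ∀ {U U' X}, G U → U' * U = 1 → S U' → G X → ¬ S X → ¬ S (U * X) := fun {U U' X} hU e k hX n k' =>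
    n (by simpa [← mul_assoc, e] using sm _ _ (q.inv' hU (mul_eq_one_comm.1 e)) (q.mul hU hX) k k')
  have nr : ∀ {U U' X}, G U → U * U' = 1 → S U' → G X → ¬ S X → ¬ S (X * U) := fun {U U' X} hU e k hX n k' =>
    n (by simpa [mul_assoc, e] using sm _ _ (q.mul hX hU) (q.inv' hU e) k' k)
  have nd : ∀ {a b c d}, ¬ S (blk a b c d) → c.det = 0 := fun n => not_not.1 fun e => n (sS.2 (Or.inr e))
  have sw : S (blk 0 1 (-1) 0) := sS.2 (Or.inr (by simp [det_fin_two]))
  have sl : S (lo (-1)) := sS.2 (Or.inr (by simp [det_fin_two]))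
  have all : ∀ {X}, G X → S X := h.idx S (one_eq_blk (K := K) ▸ sS.2 (Or.inl rfl)) sm fun X Y hX hY n n' => by
    obtain ⟨X', -, eX⟩ := q.inv hX
    obtain ⟨Y', -, eY⟩ := q.inv hY
    obtain ⟨a', b', c', d', rfl⟩ := exists_blk X
    obtain ⟨a, b, c, d, rfl⟩ := exists_blk Y
    have n1 := nl w' (U' := blk 0 1 (-1) 0) (by simp [blk_mul, one_eq_blk]) sw hY n'
    have n2 := nl l1 (U' := lo (-1)) (by simp [lo_mul, lo_zero]) sl hY n'
    have n3 := nr w' (U' := blk 0 1 (-1) 0) (by simp [blk_mul, one_eq_blk]) sw hX n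
    have n4 := nr l1 (U' := lo (-1)) (by simp [lo_mul, lo_zero]) sl hX n
    rw [lo, blk_mul] at n2 n4
    rw [blk_mul] at n1 n3
    obtain ⟨x, p, p', e1, e2, e3⟩ := two_rank1 (a := a) (c := c) (by simpa using nd n1) (nd n') (by simpa using nd n2)
      fun v f1 f2 => by
        have : (Y' * blk a b c d) *ᵥ v2 v 0 = 0 := by
          rw [← mulVec_mulVec, blk_mulVec, f1, f2]
          simp [v2_eq_zero.2 ⟨rfl, rfl⟩]
        rw [eY, one_mulVec, v2_eq_zero] at this
        exact this.1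
    obtain ⟨y, r, r', f1, f2, f3⟩ := two_rank1 (a := c'ᵀ) (c := d'ᵀ) (by simpa using nd n) (by simpa using nd n3)
      (by rw [← transpose_add, det_transpose]; simpa using nd n4)
      fun v f1 f2 => by
        have t : (blk a' b' c' d')ᵀ = blk a'ᵀ c'ᵀ b'ᵀ d'ᵀ := by ext i j; fin_cases i <;> fin_cases j <;> rfl
        have : (blk a' b' c' d' * X')ᵀ *ᵥ v2 0 v = 0 := by
          rw [transpose_mul, ← mulVec_mulVec, t, blk_mulVec, f1, f2]
          simp [v2_eq_zero.2 ⟨rfl, rfl⟩]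
        rw [mul_eq_one_comm.1 eX, transpose_one, one_mulVec, v2_eq_zero] at this
        exact this.2
    rw [blk_mul, sS, ← transpose_transpose c', ← transpose_transpose d', f1, f2, e1, e2]
    simp only [transpose_vecMulVec, vecMulVec_mul_vecMulVec]
    by_cases e : y ⬝ᵥ x = 0
    · simp [e]
    · right
      rw [det_add_vmv]
      refine mul_ne_zero f3 fun e' => mul_ne_zero (mul_ne_zero e e) e3 ?_
      simp only [Pi.smul_apply, smul_eq_mul] at e'
      linear_combination e'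
  obtain ⟨c0, hc, k⟩ := q.exists_comm hb h1 l1
  have k1 : ∀ A, G (up A) → Commute (blk c0 0 0 c0) (up A) := fun A hA => by
    simp [Commute, SemiconjBy, up, blk_mul, k A hA]
  have k2 : ∀ A, G (lo A) → Commute (blk c0 0 0 c0) (lo A) := fun A hA => by
    simp [Commute, SemiconjBy, lo, blk_mul, k A (q.up_of_lo h1 l1 hA)]
  obtain ⟨t, ht⟩ := h.cen (C := blk c0 0 0 c0) h1
    (fun t e => by simpa [up, blk] using congrFun (congrFun e 0) 2) fun X X' hX e => by
      have hY := q.mul (q.mul hX h1) (q.inv' hX (mul_eq_one_comm.1 e))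
      obtain ⟨a, b, c, d, rfl⟩ := exists_blk X
      obtain ⟨a', b', c', d', rfl⟩ := exists_blk X'
      rcases sS.1 (all hX) with rfl | e1
      · have e2 := e
        rw [blk_mul, one_eq_blk, blk_inj] at e2
        obtain rfl : c' = 0 := cancel_r (iv hX).1 (by simpa using e2.2.2.1)
        have e3 : blk a b 0 d * up 1 * blk a' b' 0 d' = up (a * d') := by
          rw [← add_sub_cancel 1 (up (1 : M2 K)), up_sub_one, mul_add, add_mul, mul_one,
            mul_eq_one_comm.1 e]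
          simp [up, one_eq_blk, blk_mul, blk_add]
        rw [e3] at hY ⊢
        exact k1 _ hY
      · obtain ⟨m, m1, -⟩ := inv2 e1
        have z := zm hX m1
        rw [cj_up e m1] at hY ⊢
        have z' : G (lo (c * c')) := by
          have := q.mul (q.mul (q.up_neg z) hY) z
          rwa [← mul_assoc, ← mul_assoc, up_mul, neg_add_cancel, up_zero, one_mul, mul_assoc, up_mul,
            neg_add_cancel, up_zero, mul_one] at this
        exact ((k1 _ z).mul_right (k2 _ z')).mul_right (k1 _ (q.up_neg z))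
  rw [one_eq_blk, blk_smul, blk_inj] at ht
  exact hc t ht.1

theorem Good.big_false [Finite K] {G : M4 K → Prop} (h : Good G) (hb : Big G) (h1 : G (up 1)) : False := by
  have q := h.qh
  obtain ⟨a, b, c, d, hX, hc⟩ := h.opp
  obtain ⟨X', hX', e⟩ := q.inv hX
  obtain ⟨a', b', c', d', rfl⟩ := exists_blk X'
  obtain ⟨m, m1, -⟩ := inv2 hc
  have hY := q.mul (q.mul hX h1) hX'
  have e1 := cj_up e m1
  have c0 : c * c' ≠ 0 := fun e0 => by
    rw [e0, lo_zero, mul_one, up_mul, add_neg_cancel, up_zero] at e1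
    have : up (1 : M2 K) = up 0 := by
      calc _ = blk a' b' c' d' * blk a b c d * up 1 * (blk a' b' c' d' * blk a b c d) := by rw [e, one_mul, mul_one]
        _ = blk a' b' c' d' * (blk a b c d * up 1 * blk a' b' c' d') * blk a b c d := by simp only [mul_assoc]
        _ = _ := by rw [e1, mul_one, e, up_zero]
    exact one_ne_zero (up_inj.1 this)
  rw [e1] at hY
  generalize a * m = Z at hY
  generalize c * c' = B at hY c0
  have h' := h.cj (Q := up Z) (Q' := up (-Z)) (by rw [up_mul, neg_add_cancel, up_zero])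
  obtain ⟨B', k, e1, e2⟩ := h'.qh.moufang (hb.tr Z) (A := 1)
    (by rwa [up_mul, up_mul, add_comm Z, add_neg_cancel_right]) one_ne_zero hY c0
  exact (h'.cj (Q := blk 1 0 0 B) (Q' := blk 1 0 0 B') (by simp [blk_mul, e1, one_eq_blk])).norm_false
    ((hb.tr Z).dg e1) (by simpa [up, blk_mul, e2] using k) (by simpa [lo, blk_mul, e2] using hY)

theorem coords {N : M4 K} (h : N * N = 0) (hr : 2 ≤ N.rank) :
    ∃ Q Q' : M4 K, Q' * Q = 1 ∧ Q * blk 0 1 0 0 * Q' = N := by
  obtain ⟨x, hx⟩ : ∃ x, N *ᵥ x ≠ 0 := by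
    by_contra k
    push Not at k
    rw [show N = 0 from Matrix.ext_iff_mulVec.2 fun v => by simp [k]] at hr
    simp at hr
  obtain ⟨y, hy⟩ : ∃ y, ∀ t : K, t • N *ᵥ x ≠ N *ᵥ y := by
    by_contra k
    push Not at k
    have : LinearMap.range N.mulVecLin ≤ K ∙ (N *ᵥ x) := by
      rintro _ ⟨y, rfl⟩
      exact Submodule.mem_span_singleton.2 (k y)
    have h2 := Submodule.finrank_mono this
    rw [finrank_span_singleton hx] at h2
    exact absurd (hr.trans h2) (by norm_num)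
  have li := LinearIndependent.pair_iff.1 (linearIndependent_fin2.2 (⟨hx, hy⟩ :
    (![N *ᵥ y, N *ᵥ x] : Fin 2 → Fin 4 → K) 1 ≠ 0 ∧ ∀ a : K, a • ![N *ᵥ y, N *ᵥ x] 1 ≠ ![N *ᵥ y, N *ᵥ x] 0))
  let Q : M4 K := (Matrix.of ![N *ᵥ y, N *ᵥ x, y, x])ᵀ
  have hQ : ∀ v, Q *ᵥ v = v 0 • N *ᵥ y + v 1 • N *ᵥ x + v 2 • y + v 3 • x := fun v => by
    ext i; simp [Q, mulVec, dotProduct, Fin.sum_univ_four, mul_comm]
  have hN : ∀ v, N *ᵥ (Q *ᵥ v) = v 2 • N *ᵥ y + v 3 • N *ᵥ x := fun v => by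
    simp [hQ, mulVec_add, mulVec_smul, h]
  have d : Q.det ≠ 0 := fun e => by
    obtain ⟨v, hv, e⟩ := Matrix.exists_mulVec_eq_zero_iff.2 e
    obtain ⟨a, b⟩ := li _ _ (by rw [← hN, e, mulVec_zero])
    obtain ⟨c, d⟩ := li (v 0) (v 1) (by simpa [hQ, a, b] using e)
    exact hv (by ext i; fin_cases i <;> simp [*])
  refine ⟨Q, Q⁻¹, nonsing_inv_mul _ (Ne.isUnit d), ?_⟩
  have : Q * blk 0 1 0 0 = N * Q := Matrix.ext_iff_mulVec.2 fun v => by
    rw [← mulVec_mulVec, ← mulVec_mulVec, hN, hQ]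
    simp [blk, mulVec, dotProduct, Fin.sum_univ_four]
  rw [this, mul_assoc, mul_nonsing_inv _ (Ne.isUnit d), mul_one]

theorem sq_of [Finite K] {P : Subgroup (G4 K)} (two : (2 : K) ≠ 0) (perf : ⁅P, P⁆ = P) (simple : IsSimpleGroup (PQ P))
    (full : Full (Geo.matrixSet P)) (spl : ∀ x ∈ P, x.val.charpoly.Splits) (ntv : NoTv P) : SQ P := by
  intro u hu u1 hq
  have h0 : Good fun X => X ∈ Geo.matrixSet P :=
    ⟨P, ⟨two, perf, (pqEquiv P).symm.isSimpleGroup, full, spl, ntv⟩, fun _ => Iff.rfl⟩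
  obtain ⟨Q, Q', e, eN⟩ := coords (N := u.val - 1) (by rwa [← pow_two]) (by
    have h1 := ntv u hu
    have h2 : (u.val - 1).rank ≠ 0 := fun h3 => u1 (Units.ext (sub_eq_zero.1 (eq_zero_of_rank h3)))
    omega)
  have e' := mul_eq_one_comm.1 e
  have eu : ∀ A, Q * up A * Q' = 1 + Q * blk 0 A 0 0 * Q' := fun A => by
    rw [← up_sub_one, mul_sub, sub_mul, mul_one, e', add_sub_cancel]
  have e1 : Q * up 1 * Q' = u.val := by rw [eu, eN, add_sub_cancel]
  have h := h0.cj e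
  have q := h.qh
  have hb : ¬ Big _ := fun k => h.big_false k (⟨u, hu, e1.symm⟩ : Q * up 1 * Q' ∈ Geo.matrixSet P)
  unfold Big at hb
  push Not at hb
  obtain ⟨A, hA, a0, k⟩ := hb
  have h3 : (3 : K) = 0 := by
    by_contra h3
    have := k (A + A) (q.up_add hA hA) (by rw [← two_smul K]; exact smul_ne_zero two a0) (by simpa using a0)
    refine smul_ne_zero h3 a0 ?_
    rw [show (3 : K) = 1 + 1 + 1 by norm_num, add_smul, add_smul, one_smul, this, neg_add_cancel]
  refine ⟨h3, fun y hy a b => ?_⟩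
  obtain ⟨y1, y2, y3, y4, eY⟩ := exists_blk (Q' * (y.val - 1) * Q)
  have eY' : y.val - 1 = Q * blk y1 y2 y3 y4 * Q' := by
    rw [← eY, show Q * (Q' * (y.val - 1) * Q) * Q' = Q * Q' * (y.val - 1) * (Q * Q') by simp only [mul_assoc], e',
      one_mul, mul_one]
  have c : ∀ {X Y : M4 K}, Q * X * Q' * (Q * Y * Q') = 0 → X * Y = 0 := fun {X Y} k => by
    calc _ = Q' * Q * X * (Q' * Q) * Y * (Q' * Q) := by simp [e]
      _ = Q' * (Q * X * Q' * (Q * Y * Q')) * Q := by simp only [mul_assoc]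
      _ = 0 := by simp [k]
  rw [eY', ← eN] at a b
  replace a := c a
  replace b := c b
  simp [blk_mul, blk_eq_zero] at a b
  obtain ⟨rfl, rfl⟩ := a
  obtain rfl := b.2
  have ey : Q * up y2 * Q' = y.val := by rw [eu, ← eY', add_sub_cancel]
  have k1 := k 1 ⟨u, hu, e1.symm⟩ one_ne_zero
  have k2 := k y2 ⟨y, hy, ey.symm⟩
  have : y2 = 0 ∨ y2 = 1 ∨ y2 = -1 := by
    by_cases z : y2 = 0
    · exact Or.inl z
    by_cases f1 : 1 = A <;> by_cases f2 : y2 = A
    · simp [f1, f2]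
    · simp [f1, k2 z f2]
    · simp [k1 f1, f2]
    · simp [k1 f1, k2 z f2]
  rcases this with rfl | rfl | rfl
  · rw [show y = 1 from Units.ext (by rw [← ey, up_zero, mul_one, e']; rfl)]
    exact one_mem _
  · rw [show y = u from Units.ext (by rw [← ey, e1])]
    exact Subgroup.mem_zpowers u
  · rw [show y = u⁻¹ from eq_inv_of_mul_eq_one_left (Units.ext (by
      rw [Units.val_mul, ← ey, ← e1, show Q * up (-1) * Q' * (Q * up 1 * Q') = Q * (up (-1) * (Q' * Q) * up 1) * Q' by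
        simp only [mul_assoc], e, mul_one, up_mul, neg_add_cancel, up_zero, mul_one, e']; rfl))]
    exact inv_mem (Subgroup.mem_zpowers u)

end Cfsg.Agent.H9.QB
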