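import Cfsg.Agent.H5.CKd

/-! Cameron-Kantor, general dimension: the last counting step. -/

set_option autoImplicit false
set_option linter.unusedSectionVars false

namespace Cfsg.Agent.H5.CK

open Module

variable {F V W Γ : Type*} [Field F] [Fintype F] [AddCommGroup V] [Module F V] [Finite V]
  [AddCommGroup W] [Module F W] [Finite W] [Group Γ] [Finite Γ]
  [DistribMulAction Γ V] [SMulCommClass Γ F V] [DistribMulAction Γ W] [SMulCommClass Γ F W]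
  {B : V →ₗ[F] W →ₗ[F] F}

theorem r3c_arith {Q κ m : ℕ} (c6 : 1 < Q) (c1 : κ ∣ m) (c2 : Q ∣ κ + 1) (c3 : Q ≤ κ) (c4 : m + 1 = Q ^ 2) :
    m ≤ κ := by
  obtain ⟨t, rfl⟩ := c1
  obtain ⟨t, rfl⟩ : ∃ s, t = s + 1 := ⟨t - 1, by rcases t with _ | t <;> simp at c4 ⊢; nlinarith⟩
  have c8 := c2.mul_right (t + 1)
  rw [show (κ + 1) * (t + 1) = t + Q * Q by rw [← sq, ← c4]; ring, Nat.dvd_add_left (dvd_mul_right Q Q)] at c8
  rw [Nat.eq_zero_of_dvd_of_lt c8 (by nlinarith)]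
  simp

theorem r3c (h : NT Γ B 2 2) (h7 : 7 ≤ finrank F V) (hα : ¬ Al Γ B) (Δ : V → V → Set V)
    (eqv : ∀ (g : Γ) x y z, z ∈ Δ x y → g • z ∈ Δ (g • x) (g • y))
    (card : ∀ {x y}, x ≠ 0 → y ∉ F ∙ x → (Δ x y).ncard = Fintype.card F ^ 6)
    (con : ∀ {x φ y u v}, Fl B x φ → y ∈ NN Γ B x φ → y ∉ F ∙ x → u ∈ NN Γ B x φ → u ≠ 0 →
      v ∈ NN Γ B x φ → v ∉ F ∙ u → Δ u v = Δ x y)
    (sub : ∀ {x φ y}, Fl B x φ → y ∈ NN Γ B x φ → y ∉ F ∙ x → (NN Γ B x φ : Set V) ⊆ Δ x y) : False := by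
  have H := h.toHyp
  have q1 := Fintype.one_lt_card (α := F)
  have sf := fun (x : V) => Submodule.mem_span_singleton_self (R := F) x
  obtain ⟨D, hD⟩ : ∃ D : V → W → Set V, ∀ x φ z, z ∈ D x φ ↔ ∀ y ∈ NN Γ B x φ, y ∉ F ∙ x → z ∈ Δ x y :=
    ⟨fun x φ => {z | ∀ y ∈ NN Γ B x φ, y ∉ F ∙ x → z ∈ Δ x y}, fun _ _ _ => Iff.rfl⟩
  have eD : ∀ {x φ y}, Fl B x φ → y ∈ NN Γ B x φ → y ∉ F ∙ x → D x φ = Δ x y := fun f a b =>
    Set.ext fun z => (hD _ _ z).trans ⟨fun c => c _ a b, fun c y' a' b' =>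
      con f a b (H.x_mem_N f) f.x0 a' b' ▸ c⟩
  have nD : ∀ {x φ z}, Fl B x φ → z ∈ NN Γ B x φ → z ∈ D x φ := fun f a =>
    (hD _ _ _).2 fun y b c => sub f b c a
  have cD : ∀ {x φ}, Fl B x φ → (D x φ).ncard = Fintype.card F ^ 6 := fun f => by
    obtain ⟨y, a, b⟩ := h.exists_N f
    rw [eD f a b, card f.x0 b]
  have kD : ∀ {x φ z}, Fl B x φ → z ∈ D x φ → B z φ = 0 := fun {x φ z} f hz => by
    obtain ⟨y, a, b⟩ := h.exists_N f
    refine (h.mem_S f.x0 b).1 ?_ φ f a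
    by_contra hc
    have s1 := (Submodule.span_singleton_le_iff_mem _ _).2 (H.x_mem_N f)
    have := Set.ncard_le_ncard (s := {v | v ∈ (⊤ : Submodule F V) ∧ v ∉ SX F Γ x y}) (t := Δ x y) fun v hv => by
      obtain ⟨g, hg, rfl⟩ := H.SX_tr f.x0 b hc hv.2
      obtain ⟨c, d, -, e⟩ := GL2_mem b hg
      rw [← con f a b (s1 (mem_SS_span_iff.1 hg.1)) (smul_ne f.x0)
        (e ▸ Submodule.add_mem _ (s1 (Submodule.smul_mem _ c (sf x))) (Submodule.smul_mem _ d a))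
        fun e => b ((span_smul_iff f.x0 (sf _)).1 e)]
      exact eqv g _ _ _ (eD f a b ▸ hz)
    have c1 := ncard_diff (le_top : SX F Γ x y ≤ ⊤)
    have c2 := h.dS f.x0 b
    rw [card f.x0 b] at this
    rw [finrank_top, ← c2, pow_add] at c1
    have c3 := Nat.pow_le_pow_right q1.le (show 5 ≤ finrank F (SX F Γ x y) by omega)
    have c4 : 0 < Fintype.card F ^ 5 := by positivity
    generalize Fintype.card F ^ finrank F (SX F Γ x y) = t at *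
    rw [pow_succ] at this
    generalize Fintype.card F ^ 5 = s at *
    generalize Fintype.card F = q at *
    nlinarith [Nat.mul_le_mul c3 (show q + 2 ≤ q ^ 2 by nlinarith), Nat.mul_le_mul_right q c3]
  have oD : ∀ {x φ y}, Fl B x φ → y ∈ NN Γ B x φ → y ≠ 0 → D y φ = D x φ := fun {x φ y} f a b => by
    obtain ⟨w, w1, w2⟩ := h.exists_N f
    obtain ⟨v, v1, v2, v3⟩ : ∃ v ∈ NN Γ B x φ, v ∈ NN Γ B y φ ∧ v ∉ F ∙ y := by
      by_cases c : y ∈ F ∙ x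
      · exact ⟨w, w1, h.pre.NN_congr (H.Fl_N f a b) c (Submodule.mem_span_singleton_self φ) ▸ w1, fun e =>
          w2 ((Submodule.span_singleton_le_iff_mem _ _).2 c e)⟩
      · exact ⟨x, H.x_mem_N f, H.N_symm f a b, not_mem_span_symm f.x0 c⟩
    rw [eD (H.Fl_N f a b) v2 v3, eD f w1 w2, con f w1 w2 a b v1 v3]
  have zD : ∀ {x φ}, Fl B x φ → {z | z ∈ D x φ ∧ z ≠ 0}.ncard + 1 = Fintype.card F ^ 6 := fun f => by
    rw [← cD f, ← Set.ncard_sdiff_singleton_add_one (nD f (Submodule.zero_mem _))]; rfl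
  have clD : ∀ {x φ u}, Fl B x φ → u ∈ D x φ → u ≠ 0 → D u φ = D x φ := fun {x φ u} f hu u0 => by
    obtain ⟨c1, c2⟩ := h.cls (φ := φ) (fun x => {z | z ∈ D x φ ∧ z ≠ 0}) (fun g hg x f z a =>
      ⟨(hD _ _ _).2 fun y b c => by
        rw [← smul_inv_smul g y] at b c ⊢
        exact eqv g _ _ _ ((hD _ _ _).1 a.1 _ ((h.pre.NN_iff f (sf _) (mem_SS_span_iff.1 hg)).1 b)
          fun e => c ((span_smul_iff f.x0 (sf _)).2 e)), smul_ne a.2⟩)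
      (fun x f z a => ⟨a.2, f.f0, kD f a.1⟩) (fun x y f a b => by rw [oD f a b]) f
    obtain ⟨y, y1, y2⟩ := h.exists_N f
    have fy := H.Fl_N f y1 (ne_zero_of_not_mem y2)
    obtain ⟨z, z1, z2⟩ := SetLike.not_le_iff_exists.1 fun e => hα (H.al_of f y1 y2
      (Submodule.eq_of_le_of_finrank_le e (by rw [h.dN f, h.dN fy])))
    have z0 := ne_zero_of_not_mem z2
    have c3 := Set.ncard_le_ncard (s := insert z {v | v ∈ NN Γ B x φ ∧ v ≠ 0})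
      (t := {y | Fl B y φ ∧ {z | z ∈ D y φ ∧ z ≠ 0} = {z | z ∈ D x φ ∧ z ≠ 0}}) (by
        rintro v (rfl | hv)
        · exact ⟨H.Fl_N fy z1 z0, by rw [oD fy z1 z0, oD f y1 fy.x0]⟩
        · exact ⟨H.Fl_N f hv.1 hv.2, by rw [oD f hv.1 hv.2]⟩)
    rw [Set.ncard_insert_of_notMem fun e => z2 e.1, ncard_ne, h.dN f] at c3
    have c4 := zD f
    have c5 := Set.eq_of_subset_of_ncard_le
      (s := {y | Fl B y φ ∧ {z | z ∈ D y φ ∧ z ≠ 0} = {z | z ∈ D x φ ∧ z ≠ 0}}) (t := {z | z ∈ D x φ ∧ z ≠ 0})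
      (fun v hv => hv.2 ▸ ⟨nD hv.1 (H.x_mem_N hv.1), hv.1.x0⟩) (r3c_arith (Nat.one_lt_pow (by omega) q1) c1 c2 c3 (by rw [c4, ← pow_mul]))
    have c6 := (c5.ge ⟨hu, u0⟩).2
    ext z
    by_cases e : z = 0
    · exact e ▸ iff_of_true (nD ⟨u0, f.f0, kD f hu⟩ (Submodule.zero_mem _)) (nD f (Submodule.zero_mem _))
    · simpa [e] using Set.ext_iff.1 c6 z
  obtain ⟨x, φ, f⟩ := H.exists_Fl
  obtain ⟨s, hs⟩ : ∃ s, s + 1 = Fintype.card F ^ 2 := ⟨_, Nat.succ_pred_eq_of_pos (by positivity)⟩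
  have e1 : ∀ {A : ℕ}, A + Fintype.card F = Fintype.card F ^ (2 + 1) → s * Fintype.card F ≤ A := fun e => by
    rw [pow_succ, ← hs, add_mul, one_mul, add_left_inj] at e
    exact e.ge
  have b1 := dc_le {ψ | (Fl B x ψ ∧ D x ψ = D x φ) ∧ ψ ∉ F ∙ φ} (D x φ)
    (fun ψ y => y ∈ NN Γ B x ψ ∧ y ∉ F ∙ x) (s * Fintype.card F) s
    (fun ψ a => (e1 (h.dN a.1.1 ▸ ncard_diff_pt f.x0 (H.x_mem_N a.1.1))).trans
      (Set.ncard_le_ncard fun y b => ⟨a.1.2 ▸ nD a.1.1 b.1, b⟩)) fun y _ => by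
      by_cases c : y ∈ F ∙ x
      · simp [c]
      have := ncard_ne (EE2 Γ B x y)
      rw [h.dE f.x0 c, ← hs, add_left_inj] at this
      exact this ▸ Set.ncard_le_ncard fun ψ a => ⟨h.E_of a.1.1.1 a.2.1 c, a.1.1.1.f0⟩
  have b2 := dc_le {z | z ∈ D x φ ∧ z ≠ 0} {ψ | (Fl B x ψ ∧ D x ψ = D x φ) ∧ ψ ∉ F ∙ φ}
    (fun u ψ => ψ ∈ NN Γ B.flip φ u) (s * Fintype.card F) s (fun u a => by
      have fu : Fl B u φ := ⟨a.2, f.f0, kD f a.1⟩
      refine (e1 (h.dN' fu ▸ ncard_diff_pt f.f0 (H.self_N' fu))).trans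
        (Set.ncard_le_ncard fun ψ b => ⟨⟨?_, b.2⟩, b.1⟩)
      have f' := H.Fl_N' fu b.1 (ne_zero_of_not_mem b.2)
      have b' := not_mem_span_symm f.f0 b.2
      obtain ⟨t, t1, t2⟩ := H7.exists_mem_notMem_of_finrank_lt (U := TT Γ B φ ψ) (W := F ∙ u) (by
        rw [finrank_span_singleton a.2, h.dT f.f0 b.2]; omega)
      have t0 := ne_zero_of_not_mem t2
      have t3 := (h.mem_T f.f0 b.2 t0).1 t1
      have ft : Fl B t φ := ⟨t0, f.f0, t3.1⟩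
      have t4 := h.TN le_rfl f' (H.flip.N_symm fu.flip b.1 f'.f0) b' ((h.mem_T f'.f0 b' t0).2
        ⟨(H.Fl_N' ft t3.2 f'.f0).inc, H.flip.N_symm ft.flip t3.2 f'.f0⟩)
      have e : D u ψ = D x φ := by rw [eD f' t4 t2, ← eD fu (h.TN le_rfl fu b.1 b.2 t1) t2, clD f a.1 a.2]
      have ex : x ∈ D u ψ := e ▸ nD f (H.x_mem_N f)
      exact ⟨⟨f.x0, f'.f0, kD f' ex⟩, (clD f' ex f.x0).trans e⟩) fun ψ a => by
      have := ncard_ne (TT Γ B φ ψ)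
      rw [h.dT f.f0 a.2, ← hs, add_left_inj] at this
      exact this ▸ Set.ncard_le_ncard fun u b => ⟨(h.mem_T f.f0 a.2 b.1.2).2 ⟨kD f b.1.1, b.2⟩, b.1.2⟩
  have b3 := zD f
  rw [cD f, ← b3] at b1
  have s0 : 0 < s := by nlinarith
  have b4 : 2 ^ 6 ≤ Fintype.card F ^ 6 := Nat.pow_le_pow_left q1 6
  rw [← b3] at b4
  rw [mul_comm s, ← mul_assoc] at b1 b2
  have b5 := Nat.le_of_mul_le_mul_right b1 s0
  have b6 := Nat.le_of_mul_le_mul_right b2 s0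
  nlinarith

end Cfsg.Agent.H5.CK
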