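import Cfsg.Agent.H1.M4Def
import Cfsg.Agent.MH.PG

/-! Dickson's lemma for subgroups of `SL₂` given as predicates on the entries. -/

set_option autoImplicit false

namespace Cfsg.Agent.H9.Mi

open Cfsg.Agent.H4.Mob Cfsg.Agent.MH

variable {K : Type*} [Field K]

/-- A submonoid of a finite group is a subgroup. -/
def toSub {G : Type*} [Group G] [Finite G] (S : Submonoid G) : Subgroup G :=
  { S with
    inv_mem' := fun {g} hg => by
      have h : g⁻¹ = g ^ (orderOf g - 1) := by
        rw [inv_eq_iff_mul_eq_one, ← pow_succ', Nat.sub_add_cancel (orderOf_pos g), pow_orderOf_eq_one]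
      rw [h]
      exact S.pow_mem hg _ }

theorem exists_cast_neg [Finite K] : ∃ n : ℕ, (n : K) = -1 := by
  have := Fintype.ofFinite K
  refine ⟨Fintype.card K - 1, ?_⟩
  rw [Nat.cast_sub Fintype.card_pos, FiniteField.cast_card_eq_zero]
  simp

theorem exists_cast_half [Finite K] (h2 : (2 : K) ≠ 0) : ∃ n : ℕ, (n : K) * 2 = 1 := by
  have := Fintype.ofFinite K
  have h0 := FiniteField.cast_card_eq_zero K
  rcases Nat.even_or_odd' (Fintype.card K) with ⟨k, hk | hk⟩
  · exfalso
    obtain ⟨p, hp⟩ := CharP.exists K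
    obtain ⟨n, hp', hn⟩ := FiniteField.card K p
    have h1 : 2 ∣ p ^ (n : ℕ) := by rw [← hn, hk]; exact Dvd.intro _ rfl
    have h3 := (Nat.prime_dvd_prime_iff_eq Nat.prime_two hp').mp (Nat.prime_two.dvd_of_dvd_pow h1)
    subst h3
    exact h2 (CharP.cast_eq_zero K 2)
  · refine ⟨k + 1, ?_⟩
    rw [hk] at h0
    push_cast at h0 ⊢
    linear_combination h0

/-- A set of matrices of determinant one closed under multiplication. -/
structure S2 (R : K → K → K → K → Prop) : Prop where
  one : R 1 0 0 1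
  mul : ∀ {a b c d a' b' c' d'}, R a b c d → R a' b' c' d' →
    R (a * a' + b * c') (a * b' + b * d') (c * a' + d * c') (c * b' + d * d')
  det : ∀ {a b c d}, R a b c d → a * d - b * c = 1

namespace S2

variable {R : K → K → K → K → Prop}

theorem mul' (h : S2 R) {a b c d a' b' c' d' x y z w : K} (h1 : R a b c d) (h2 : R a' b' c' d')
    (e1 : x = a * a' + b * c') (e2 : y = a * b' + b * d') (e3 : z = c * a' + d * c')
    (e4 : w = c * b' + d * d') : R x y z w := by
  rw [e1, e2, e3, e4]; exact h.mul h1 h2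

theorem add (h : S2 R) {b b' : K} (h1 : R 1 b 0 1) (h2 : R 1 b' 0 1) : R 1 (b + b') 0 1 :=
  h.mul' h1 h2 (by ring) (by ring) (by ring) (by ring)

theorem nsmul (h : S2 R) {b : K} (h1 : R 1 b 0 1) (n : ℕ) : R 1 (n * b) 0 1 := by
  induction n with
  | zero => simpa using h.one
  | succ n ih => exact h.mul' ih h1 (by ring) (by push_cast; ring) (by ring) (by ring)

theorem neg [Finite K] (h : S2 R) {b : K} (h1 : R 1 b 0 1) : R 1 (-b) 0 1 := by
  obtain ⟨n, hn⟩ := exists_cast_neg (K := K)
  have := h.nsmul h1 n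
  rwa [hn, neg_one_mul] at this

theorem of_neg [Finite K] (h : S2 R) (h2 : (2 : K) ≠ 0) {b : K} (h1 : R (-1) (-b) 0 (-1)) : R 1 b 0 1 := by
  obtain ⟨n, hn⟩ := exists_cast_half h2
  have h3 : R 1 (2 * b) 0 1 := h.mul' h1 h1 (by ring) (by ring) (by ring) (by ring)
  have := h.nsmul h3 n
  rwa [← mul_assoc, hn, one_mul] at this

theorem swap (h : S2 R) : S2 fun a b c d => R d c b a where
  one := h.one
  mul h1 h2 := h.mul' h1 h2 (by ring) (by ring) (by ring) (by ring)
  det h1 := by linear_combination h.det h1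

/-- the image in the projective group -/
def pg [Finite K] (h : S2 R) : Subgroup (PG K) :=
  toSub
    { carrier := {g | ∃ a b c d e, R a b c d ∧ g = mob a b c d e}
      one_mem' := ⟨1, 0, 0, 1, by simp, h.one, (mob_eq_one.2 ⟨rfl, rfl, rfl⟩).symm⟩
      mul_mem' := by
        rintro _ _ ⟨a, b, c, d, e, h1, rfl⟩ ⟨a', b', c', d', e', h2, rfl⟩
        exact ⟨_, _, _, _, _, h.mul h1 h2, mob_mul _ _⟩ }

theorem mem_pg [Finite K] (h : S2 R) {a b c d : K} {e : a * d - b * c ≠ 0} :
    mob a b c d e ∈ h.pg ↔ ∃ u : K, R (u * a) (u * b) (u * c) (u * d) := by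
  constructor
  · rintro ⟨a', b', c', d', e', h1, h2⟩
    obtain ⟨u, rfl, rfl, rfl, rfl⟩ := mob_eq_mob.1 h2
    exact ⟨u, h1⟩
  · rintro ⟨u, h1⟩
    exact ⟨_, _, _, _, by rw [h.det h1]; exact one_ne_zero, h1, mob_eq_mob.2 ⟨u, rfl, rfl, rfl, rfl⟩⟩

theorem tr_mem [Finite K] (h : S2 R) (h2 : (2 : K) ≠ 0) {b : K} : tr b ∈ h.pg ↔ R 1 b 0 1 := by
  rw [tr, aff, mem_pg]
  constructor
  · rintro ⟨u, h1⟩
    have h3 : (u - 1) * (u + 1) = 0 := by linear_combination h.det h1
    rcases mul_eq_zero.1 h3 with e | e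
    · obtain rfl : u = 1 := by linear_combination e
      simpa using h1
    · obtain rfl : u = -1 := by linear_combination e
      exact h.of_neg h2 (by simpa using h1)
  · intro h1
    exact ⟨1, by simpa using h1⟩

theorem low_mem [Finite K] (h : S2 R) {c : K} (h1 : R 1 0 c 1) : low c ∈ h.pg :=
  h.mem_pg.2 ⟨1, by simpa using h1⟩

theorem neg_one [Finite K] (h : S2 R) {c : K} (hc : c ≠ 0) (h1 : R 1 c⁻¹ 0 1) (h3 : R 1 0 c 1) :
    R (-1) 0 0 (-1) := by
  have h4 := h.neg h1
  have h5 : R 0 (-c⁻¹) c 1 := h.mul' h4 h3 (by field_simp; ring) (by ring) (by ring) (by ring)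
  have h6 : R 0 (-c⁻¹) c 0 := h.mul' h5 h4 (by ring) (by ring) (by ring) (by field_simp; ring)
  exact h.mul' h6 h6 (by field_simp; ring) (by ring) (by ring) (by field_simp; ring)

theorem dk [Finite K] (h : S2 R) (h2 : (2 : K) ≠ 0) {b c : K} (hb : b ≠ 0) (hc : c ≠ 0)
    (h1 : R 1 b 0 1) (h3 : R 1 0 c 1) :
    (∃ E : Subfield K, (∀ β, R 1 β 0 1 ↔ β * c ∈ E) ∧ (∀ γ, R 1 0 γ 1 → b * γ ∈ E) ∧
      R (-1) 0 0 (-1) ∧ ∀ κ ∈ E, κ ≠ 0 → R κ 0 0 κ⁻¹) ∨
    ((3 : K) = 0 ∧ (b * c) ^ 2 = -1 ∧ ∀ β, R 1 β 0 1 → β = 0 ∨ β = b ∨ β = -b) := by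
  have hbb : -b ≠ b := fun e => hb (by
    have : 2 * b = 0 := by linear_combination -e
    exact (mul_eq_zero.1 this).resolve_left h2)
  rcases lc0 h.pg hb (neg_ne_zero.2 hb) hbb hc ((h.tr_mem h2).2 h1) ((h.tr_mem h2).2 (h.neg h1))
    (h.low_mem h3) with ⟨E, a, ha, e1, e2, e3⟩ | ⟨e1, e2, e3⟩
  · left
    have k1 : ∀ β γ, R 1 β 0 1 → R 1 0 γ 1 → β * γ ∈ E := by
      intro β γ hβ hγ
      convert E.mul_mem (e1 β ((h.tr_mem h2).2 hβ)) (e2 γ (h.low_mem hγ)) using 1
      field_simp
    have k2 : ∀ κ ∈ E, κ ≠ 0 → R κ 0 0 κ⁻¹ ∨ R (-κ) 0 0 (-κ⁻¹) := by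
      intro κ hκ h0
      obtain ⟨u, h4⟩ := h.mem_pg.1 (e3 κ hκ h0)
      have h5 : (u * κ - 1) * (u * κ + 1) = 0 := by linear_combination h.det h4
      rcases mul_eq_zero.1 h5 with e | e
      · obtain rfl : u = κ⁻¹ := eq_inv_of_mul_eq_one_left (by linear_combination e)
        left
        rwa [mul_zero, mul_one, show κ⁻¹ * κ ^ 2 = κ by field_simp] at h4
      · obtain rfl : u = -κ⁻¹ := by
          rw [← neg_eq_iff_eq_neg]
          exact eq_inv_of_mul_eq_one_left (by linear_combination -e)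
        right
        rwa [mul_zero, mul_one, show -κ⁻¹ * κ ^ 2 = -κ by field_simp] at h4
    have k3 : ∀ κ ∈ E, R 1 (κ ^ 2 * b) 0 1 := by
      intro κ hκ
      by_cases h0 : κ = 0
      · simpa [h0] using h.one
      rcases k2 κ hκ h0 with h4 | h4 <;> rcases k2 κ⁻¹ (E.inv_mem hκ) (inv_ne_zero h0) with h5 | h5
      · exact h.mul' (h.mul h4 h1) h5 (by field_simp; ring) (by field_simp; ring) (by ring)
          (by field_simp; ring)
      · exact h.of_neg h2 (h.mul' (h.mul h4 h1) h5 (by field_simp; ring) (by field_simp; ring)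
          (by ring) (by field_simp; ring))
      · exact h.of_neg h2 (h.mul' (h.mul h4 h1) h5 (by field_simp; ring) (by field_simp; ring)
          (by ring) (by field_simp; ring))
      · exact h.mul' (h.mul h4 h1) h5 (by field_simp; ring) (by field_simp; ring) (by ring)
          (by field_simp; ring)
    have k4 : ∀ e ∈ E, R 1 (e * b) 0 1 := by
      intro e he
      have two : (2 : K) ∈ E := by simp
      have := h.add (k3 _ (E.div_mem (E.add_mem he E.one_mem) two))
        (h.neg (k3 _ (E.div_mem (E.sub_mem he E.one_mem) two)))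
      convert this using 1
      field_simp
      ring
    have k5 : ∀ β, R 1 β 0 1 ↔ β * c ∈ E := fun β => ⟨fun hβ => k1 β c hβ h3, fun hβ => by
      convert k4 _ (E.div_mem hβ (k1 b c h1 h3)) using 1
      field_simp⟩
    have k6 := h.neg_one hc ((k5 _).2 (by rw [inv_mul_cancel₀ hc]; exact E.one_mem)) h3
    refine ⟨E, k5, fun γ hγ => k1 b γ h1 hγ, k6, fun κ hκ h0 => (k2 κ hκ h0).elim id fun h4 => ?_⟩
    exact h.mul' k6 h4 (by ring) (by ring) (by ring) (by ring)
  · have e2' : ∀ β, R 1 β 0 1 → β = 0 ∨ β = b ∨ β = -b := fun β hβ => e2 β ((h.tr_mem h2).2 hβ)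
    have e3' : ∀ γ, R 1 0 γ 1 → γ ≠ 0 → (b * γ) ^ 4 = 1 :=
      fun γ hγ h0 => e3 b γ ((h.tr_mem h2).2 h1) (h.low_mem hγ) hb h0
    by_cases h4 : (b * c) ^ 2 = -1
    · exact Or.inr ⟨e1, h4, e2'⟩
    left
    have h5 : (b * c) ^ 2 = 1 := by
      have : ((b * c) ^ 2 - 1) * ((b * c) ^ 2 + 1) = 0 := by linear_combination e3' c h3 hc
      exact sub_eq_zero.1 ((mul_eq_zero.1 this).resolve_right fun e => h4 (by linear_combination e))
    let E : Subfield K :=
      { carrier := {x | x ^ 3 = x}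
        one_mem' := by simp
        zero_mem' := by simp
        mul_mem' := fun {x y} hx hy => by
          change (x * y) ^ 3 = x * y
          rw [mul_pow, hx, hy]
        add_mem' := fun {x y} hx hy => by
          change (x + y) ^ 3 = x + y
          change x ^ 3 = x at hx
          change y ^ 3 = y at hy
          linear_combination hx + hy + (x ^ 2 * y + x * y ^ 2) * e1
        neg_mem' := fun {x} hx => by
          change (-x) ^ 3 = -x
          change x ^ 3 = x at hx
          linear_combination -hx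
        inv_mem' := fun x hx => by
          change x⁻¹ ^ 3 = x⁻¹
          rw [inv_pow, hx] }
    have hE : ∀ x, x ∈ E ↔ x ^ 3 = x := fun x => Iff.rfl
    have hE' : ∀ x, x ∈ E → x = 0 ∨ x = 1 ∨ x = -1 := by
      intro x hx
      have : x * ((x - 1) * (x + 1)) = 0 := by linear_combination (hE x).1 hx
      rcases mul_eq_zero.1 this with e | e
      · exact Or.inl e
      · exact Or.inr ((mul_eq_zero.1 e).imp sub_eq_zero.1 eq_neg_of_add_eq_zero_left)
    have k5 : ∀ β, R 1 β 0 1 ↔ β * c ∈ E := by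
      intro β
      constructor
      · intro hβ
        rw [hE]
        rcases e2' β hβ with rfl | rfl | rfl
        · simp
        · linear_combination β * c * h5
        · linear_combination -b * c * h5
      · intro hβ
        have h6 : b * c ∈ E := by rw [hE]; linear_combination b * c * h5
        have h7 : β = β * c / (b * c) * b := by field_simp
        rcases hE' _ (E.div_mem hβ h6) with e | e | e <;> rw [h7, e]
        · simpa using h.one
        · simpa using h1
        · simpa using h.neg h1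
    have k6 := h.neg_one hc ((k5 _).2 (by rw [inv_mul_cancel₀ hc]; exact E.one_mem)) h3
    refine ⟨E, k5, fun γ hγ => ?_, k6, fun κ hκ h0 => ?_⟩
    · rw [hE]
      by_cases h0 : γ = 0
      · simp [h0]
      by_cases h6 : c + γ = 0
      · obtain rfl : γ = -c := by linear_combination h6
        linear_combination -b * c * h5
      have h7 := e3' γ hγ h0
      have h8 := e3' _ (h.swap.add h3 hγ) h6
      by_contra h9
      have h10 : (b * γ) ^ 2 = -1 := by
        have : ((b * γ) ^ 2 - 1) * ((b * γ) ^ 2 + 1) = 0 := by linear_combination h7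
        refine eq_neg_of_add_eq_zero_left ((mul_eq_zero.1 this).resolve_left fun e => h9 ?_)
        linear_combination b * γ * e
      apply h2
      have h11 : (b * (c + γ)) ^ 2 = 2 * (b * c) * (b * γ) := by linear_combination h5 + h10
      have h12 : (b * (c + γ)) ^ 4 = -4 := by
        rw [show (b * (c + γ)) ^ 4 = ((b * (c + γ)) ^ 2) ^ 2 by ring, h11]
        linear_combination 4 * (b * γ) ^ 2 * h5 + 4 * h10
      linear_combination h12 - h8 - e1
    · rcases hE' κ hκ with e | rfl | rfl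
      · exact absurd e h0
      · simpa using h.one
      · simpa using k6

end S2

end Cfsg.Agent.H9.Mi
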