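import Cfsg.Agent.H9.FAdapt
import Cfsg.Agent.H9.Count

/-! Conjugation into a subgroup, and indices. -/

set_option autoImplicit false
set_option linter.unusedSectionVars false

namespace Cfsg.Agent.H9.Cj

open Module Polynomial Cfsg.Agent.Form Cfsg.Agent.H9.Types Cfsg.Agent.H9.FAdapt
open scoped MatrixGroups

universe u v

section group
variable {Γ : Type*} [Group Γ]

theorem relIndex_eq_card {X : Type*} (G St : Subgroup Γ) (φ : Γ → X)
    (h : ∀ g ∈ G, ∀ g' ∈ G, φ g = φ g' ↔ g⁻¹ * g' ∈ St) (R : X → Prop)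
    (hR : ∀ y, R y ↔ ∃ g ∈ G, φ g = y) : St.relIndex G = Nat.card {y // R y} := by
  refine Nat.card_congr (Equiv.ofBijective (Quotient.lift
    (fun g : G => (⟨φ g, (hR _).2 ⟨g, g.2, rfl⟩⟩ : {y // R y})) fun a b hab =>
      Subtype.ext ((h _ a.2 _ b.2).2
        (QuotientGroup.leftRel_apply (s := St.subgroupOf G).1 hab))) ⟨?_, ?_⟩)
  · rintro ⟨a⟩ ⟨b⟩ hab
    exact Quotient.sound (QuotientGroup.leftRel_apply.2 ((h _ a.2 _ b.2).1 (congrArg Subtype.val hab)))
  · rintro ⟨y, hy⟩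
    obtain ⟨g, hg, rfl⟩ := (hR y).1 hy
    exact ⟨Quotient.mk _ ⟨g, hg⟩, rfl⟩

variable [Finite Γ]

theorem relIndex_dvd_index (H N : Subgroup Γ) [N.Normal] : H.relIndex N ∣ H.index := by
  have h1 := Subgroup.relIndex_mul_index (inf_le_right : H ⊓ N ≤ N)
  have h2 := Subgroup.relIndex_mul_index (inf_le_left : H ⊓ N ≤ H)
  have h3 := Subgroup.relIndex_mul_index (le_sup_right : N ≤ H ⊔ N)
  rw [Subgroup.inf_relIndex_right] at h1
  rw [Subgroup.inf_relIndex_left] at h2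
  rw [Subgroup.relIndex_sup_right] at h3
  refine ⟨(H ⊔ N).index, Nat.eq_of_mul_eq_mul_left (n := N.relIndex H)
    (Nat.pos_of_ne_zero Subgroup.index_ne_zero_of_finite) ?_⟩
  rw [h2, ← h1, ← h3]; ring

theorem relIndex_dvd_of_normal (H : Subgroup Γ) {N G : Subgroup Γ} (h : N ≤ G)
    [(N.subgroupOf G).Normal] : H.relIndex N ∣ H.relIndex G := by
  rw [← Subgroup.relIndex_subgroupOf h]
  exact relIndex_dvd_index _ _

theorem relIndex_eq_of_card {L K : Subgroup Γ} (h : L ≤ K) {m : ℕ}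
    (hm : Nat.card L * m = Nat.card K) : L.relIndex K = m := by
  have := (L.subgroupOf K).index_mul_card
  rw [Nat.card_congr (Subgroup.subgroupOfEquivOfLe h).toEquiv, ← hm, mul_comm] at this
  exact Nat.eq_of_mul_eq_mul_left Nat.card_pos this

theorem card_mul_relIndex {L K : Subgroup Γ} (h : L ≤ K) :
    Nat.card L * L.relIndex K = Nat.card K := by
  rw [← Nat.card_congr (Subgroup.subgroupOfEquivOfLe h).toEquiv, mul_comm]
  exact (L.subgroupOf K).index_mul_card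

end group

variable {F : Type u} [Field F] {V : Type v} [AddCommGroup V] [Module F V]

/-- `f` is conjugate by an element of `K` to a map with the property `HP`. -/
def CjIn (K : Subgroup (V ≃ₗ[F] V)) (HP : End F V → Prop) (f : End F V) : Prop :=
  ∃ g ∈ K, ∃ f', HP f' ∧ ∀ x, g (f' x) = f (g x)

theorem CjIn.conj {K : Subgroup (V ≃ₗ[F] V)} {HP : End F V → Prop} {f : End F V}
    (h : CjIn K HP f) : ∃ f', HP f' ∧ Conj f' f :=
  let ⟨g, _, f', h1, h2⟩ := h; ⟨f', h1, g, h2⟩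

theorem CjIn.of_smul {K : Subgroup (V ≃ₗ[F] V)} {HP : End F V → Prop}
    (hP : ∀ (f : End F V) (b : F), b ≠ 0 → HP f → HP (b • f)) (f : End F V) (b : F) (hb : b ≠ 0)
    (h : CjIn K HP (b • f)) : CjIn K HP f :=
  let ⟨g, h0, f', h1, h2⟩ := h
  ⟨g, h0, b⁻¹ • f', hP _ _ (inv_ne_zero hb) h1, fun x => by simp [h2, hb]⟩

/-- The special linear group. -/
noncomputable abbrev SLV (F : Type u) [Field F] (V : Type v) [AddCommGroup V] [Module F V] :
    Subgroup (V ≃ₗ[F] V) := LinearEquiv.det.ker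

theorem mem_SLV {g : V ≃ₗ[F] V} : g ∈ SLV F V ↔ LinearMap.det (g : End F V) = 1 := by
  rw [MonoidHom.mem_ker, ← LinearEquiv.coe_det, Units.val_eq_one]

variable [FiniteDimensional F V]

theorem det_eq_one_iff (f : End F V) :
    LinearMap.det f = 1 ↔ ∃ g ∈ SLV F V, (g : End F V) = f :=
  ⟨fun h => ⟨LinearEquiv.ofBijective f (OrdR.bijective_of_det_ne_zero (by simp [h])),
    mem_SLV.2 h, rfl⟩, by rintro ⟨g, hg, rfl⟩; exact mem_SLV.1 hg⟩

/-- Adjusting the determinant of a conjugating element by the centraliser. -/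
theorem cj_of_equiv {HP : End F V → Prop} {f f' : End F V} (h : HP f') (e : V ≃ₗ[F] V)
    (he : ∀ x, e (f' x) = f (e x)) {k : End F V} (hk : ∀ x, k (f x) = f (k x))
    (hd : LinearMap.det k * LinearMap.det (e : End F V) = 1) : CjIn (SLV F V) HP f := by
  obtain ⟨g, h1, h2⟩ := (det_eq_one_iff (k * (e : End F V))).1 (by rw [map_mul, hd])
  have h3 : ∀ x, g x = k (e x) := fun x => congrArg (fun y : End F V => y x) h2
  exact ⟨g, h1, f', h, fun x => by rw [h3, h3, he, hk]⟩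

theorem cj_of_conj {HP : End F V → Prop} {f f' : End F V} (h : HP f') (hc : Conj f' f)
    (hk : ∀ c : F, ∃ k : End F V, (∀ x, k (f x) = f (k x)) ∧ LinearMap.det k = c) :
    CjIn (SLV F V) HP f := by
  obtain ⟨e, he⟩ := hc
  obtain ⟨k, h1, h2⟩ := hk (LinearMap.det (e : End F V))⁻¹
  exact cj_of_equiv h e he h1 (by rw [h2, inv_mul_cancel₀ (LinearEquiv.isUnit_det' e).ne_zero])

theorem card_equiv [Fintype F] {q : ℕ} (hq : Fintype.card F = q) :
    Nat.card (V ≃ₗ[F] V) = q ^ (finrank F V).choose 2 * Count.P q (finrank F V) := by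
  let e := (Module.finBasis F V).equivFun
  have h : (V ≃ₗ[F] V) ≃ ((Fin (finrank F V) → F) ≃ₗ[F] (Fin (finrank F V) → F)) :=
    ⟨fun g => (e.symm.trans g).trans e, fun g => (e.trans g).trans e.symm,
      fun g => LinearEquiv.ext fun x => by simp, fun g => LinearEquiv.ext fun x => by simp⟩
  rw [Nat.card_congr h, ← Nat.card_congr glEquiv.toEquiv, Matrix.card_GL_field,
    hq, Count.prod_pow_sub_pow q le_rfl, Count.prod_eq_P, Finset.prod_pow_eq_pow_sum,
    Finset.sum_range_id, Nat.choose_two_right]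

variable {ι : Type} [Fintype ι] [DecidableEq ι]

theorem forall_cj_iff (G H : Subgroup (GL ι F)) (K : Subgroup ((ι → F) ≃ₗ[F] (ι → F)))
    (hK : ∀ x, x ∈ G ↔ glEquiv x ∈ K) (HP A : End F (ι → F) → Prop)
    (hH : ∀ x : GL ι F, x ∈ H ↔ HP (Matrix.toLin' (x : Matrix ι ι F)))
    (hA : ∀ f, A f ↔ ∃ g ∈ K, (g : End F (ι → F)) = f) (r : ℕ) :
    (∀ x ∈ G, (∃ z : F, ((x ^ r : GL ι F) : Matrix ι ι F) = z • (1 : Matrix ι ι F)) →
      (∀ z : F, (x : Matrix ι ι F) ≠ z • (1 : Matrix ι ι F)) → ∃ g ∈ G, g⁻¹ * x * g ∈ H) ↔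
    ∀ f, A f → (∃ c : F, f ^ r = c • 1) → (∀ c : F, f ≠ c • 1) → CjIn K HP f := by
  rw [← forall_gl_iff (· ∈ G) A (fun f => (hA f).trans (exists_gl_iff K _ hK f)) r]
  refine forall₂_congr fun x _ => imp_congr_right fun _ => imp_congr_right fun _ => ?_
  constructor
  · rintro ⟨g, h1, h2⟩
    refine ⟨_, (hK g).1 h1, _, (hH _).1 h2, fun v => ?_⟩
    simp only [← glEquiv_coe, LinearEquiv.coe_coe, ← LinearEquiv.mul_apply, ← map_mul]
    congr 2; group
  · rintro ⟨g, h1, f', h2, h3⟩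
    obtain ⟨g, rfl⟩ := glEquiv.surjective g
    refine ⟨g, (hK g).2 h1, (hH _).2 ?_⟩
    convert h2 using 1
    refine LinearMap.ext fun v => (glEquiv g).injective ?_
    simp only [h3, ← glEquiv_coe, LinearEquiv.coe_coe, ← LinearEquiv.mul_apply, ← map_mul]
    congr 2; group

theorem mem_sl_iff (x : GL ι F) : x ∈ Geo.specialLinear ι F ↔ glEquiv x ∈ SLV F (ι → F) :=
  mem_specialLinear_iff x

theorem forall_cj_sl (H : Subgroup (GL ι F)) (HP : End F (ι → F) → Prop)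
    (hH : ∀ x : GL ι F, x ∈ H ↔ HP (Matrix.toLin' (x : Matrix ι ι F))) (r : ℕ) :
    (∀ x ∈ Geo.specialLinear ι F,
      (∃ z : F, ((x ^ r : GL ι F) : Matrix ι ι F) = z • (1 : Matrix ι ι F)) →
      (∀ z : F, (x : Matrix ι ι F) ≠ z • (1 : Matrix ι ι F)) →
        ∃ g ∈ Geo.specialLinear ι F, g⁻¹ * x * g ∈ H) ↔
    ∀ f : End F (ι → F), LinearMap.det f = 1 → (∃ c : F, f ^ r = c • 1) → (∀ c : F, f ≠ c • 1) →
      CjIn (SLV F _) HP f :=
  forall_cj_iff _ H _ mem_sl_iff HP _ hH det_eq_one_iff r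

theorem range_toGL : (Matrix.SpecialLinearGroup.toGL :
    Matrix.SpecialLinearGroup ι F →* GL ι F).range = Geo.specialLinear ι F := by
  ext x
  refine ⟨by rintro ⟨y, rfl⟩; exact Units.ext y.2, fun h => ⟨⟨x, congrArg Units.val h⟩, ?_⟩⟩
  exact Units.ext rfl

theorem index_comap_toGL (H : Subgroup (GL ι F)) : (H.comap (Matrix.SpecialLinearGroup.toGL :
    Matrix.SpecialLinearGroup ι F →* GL ι F)).index = H.relIndex (Geo.specialLinear ι F) := by
  rw [Subgroup.index_comap, range_toGL]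

theorem forall_cj_sl' (H : Subgroup (GL ι F)) (HP : End F (ι → F) → Prop)
    (hH : ∀ x : GL ι F, x ∈ H ↔ HP (Matrix.toLin' (x : Matrix ι ι F))) (r : ℕ) :
    (∀ x : Matrix.SpecialLinearGroup ι F,
      (∃ z : F, ((x ^ r : Matrix.SpecialLinearGroup ι F) : Matrix ι ι F) = z • (1 : Matrix ι ι F)) →
      (∀ z : F, (x : Matrix ι ι F) ≠ z • (1 : Matrix ι ι F)) →
        ∃ P : Matrix.SpecialLinearGroup ι F, P⁻¹ * x * P ∈ H.comap (Matrix.SpecialLinearGroup.toGL :
          Matrix.SpecialLinearGroup ι F →* GL ι F)) ↔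
    ∀ f : End F (ι → F), LinearMap.det f = 1 → (∃ c : F, f ^ r = c • 1) → (∀ c : F, f ≠ c • 1) →
      CjIn (SLV F _) HP f := by
  rw [← forall_cj_sl H HP hH r, ← range_toGL]
  simp only [MonoidHom.mem_range, forall_exists_index, forall_apply_eq_imp_iff,
    exists_exists_eq_and, Subgroup.mem_comap, map_mul, map_inv, ← map_pow]
  rfl

theorem relIndex_dvd {G H : Subgroup (GL ι F)} {K : Subgroup ((ι → F) ≃ₗ[F] (ι → F))}
    (hK : ∀ x, x ∈ G ↔ glEquiv x ∈ K) (L : Subgroup ((ι → F) ≃ₗ[F] (ι → F)))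
    (hL : ∀ x, glEquiv x ∈ L → x ∈ H) : H.relIndex G ∣ L.relIndex K := by
  have h1 : G.map (glEquiv (ι := ι) (F := F)).toMonoidHom = K := by
    rw [show G = K.comap (glEquiv (ι := ι) (F := F)).toMonoidHom from Subgroup.ext hK,
      Subgroup.map_comap_eq_self_of_surjective glEquiv.surjective]
  rw [← h1, ← Subgroup.relIndex_comap]
  exact Subgroup.relIndex_dvd_of_le_left _ hL

theorem relIndex_sl_dvd [Finite F] {H : Subgroup (GL ι F)} (L : Subgroup ((ι → F) ≃ₗ[F] (ι → F)))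
    (hL : ∀ x, glEquiv x ∈ L → x ∈ H) : H.relIndex (Geo.specialLinear ι F) ∣ L.index :=
  have := Imprim.finite_linearEquiv (F := F) (V := ι → F)
  (relIndex_dvd mem_sl_iff L hL).trans (relIndex_dvd_index _ _)

end Cfsg.Agent.H9.Cj
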