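import Cfsg.Agent.H8.L5c

/-! The degree equation for an abelian self-centralising subgroup. -/

set_option autoImplicit false
set_option linter.unusedSectionVars false

namespace Cfsg.Agent.H9.Deg

open Cfsg MulAction Subgroup Finset Cfsg.Agent.H5.Zas1 Cfsg.Agent.H5.Char
  Cfsg.Agent.H5.TI Cfsg.Agent.H4.CAG Cfsg.Agent.H2.Tr Cfsg.Agent.H8.L5c
open scoped ComplexConjugate

variable {G : Type*} [Group G] [Fintype G] {X : Subgroup G}

attribute [local instance] ftSub

open Classical in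
theorem degeq (h : CA X) (hN : ∀ K : Subgroup G, K.Normal → X ≤ K → K = ⊤) (he : 1 < wt X)
    (h1 : wt X * (wt X + 2) + 1 < Nat.card X) :
    ∃ (d k : ℕ) (s : ℤ) (A : Finset (Irr G)) (z : Irr G → ℤ), s * s = 1 ∧ d ∣ Nat.card G ∧
      s * d ≠ wt X ∧ ∑ φ ∈ A, z φ * z φ + 1 = wt X ∧ 1 + ∑ φ ∈ A, z φ * deg φ = s * d ∧
      (∀ φ ∈ A, z φ ≠ 0 ∧ (Nat.card X : ℤ) ∣ deg φ - z φ ∧ Nat.card X ≤ deg φ + 1) ∧
      Nat.card X ≤ wt X * k + 1 ∧ 1 + ∑ φ ∈ A, deg φ * deg φ + k * (d * d) ≤ Nat.card G := by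
  obtain ⟨x, hx, x1⟩ : ∃ x ∈ X, x ≠ 1 := by
    by_contra hc
    push Not at hc
    rw [(eq_bot_iff_forall _).2 hc, card_bot] at h1
    omega
  have a3 : ∀ ψ₀, ψ₀ ≠ triv X → (univ.filter fun ψ' => ψ' ≠ triv X ∧ ¬ h.isTI.Rel ψ' ψ₀).card +
      wt X + 1 = Nat.card X := fun ψ₀ h0 => by
    rw [← card_rel h h0, ← card_irr_comm h.comm', ← card_univ,
      ← card_filter_add_card_filter_not (s := univ) (fun ψ' => h.isTI.Rel ψ' ψ₀),
      ← card_filter_add_card_filter_not (s := univ.filter fun ψ' => ¬ h.isTI.Rel ψ' ψ₀)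
        (fun ψ' => ψ' = triv X), filter_filter, filter_filter]
    rw [show (univ.filter fun ψ' => ¬ h.isTI.Rel ψ' ψ₀ ∧ ψ' = triv X) = {triv X} by
      ext μ
      simp only [mem_filter, mem_univ, true_and, mem_singleton]
      exact ⟨fun a => a.2, fun a => ⟨fun r => rel_ne_triv h h0 r a, a⟩⟩]
    simp only [and_comm, card_singleton]
    ring
  obtain ⟨χ, hF⟩ : ∃ χ : Irr G, ¬ Flat X χ := by
    obtain ⟨ψ₁, b1⟩ := exists_ne_triv h hx x1
    have := a3 ψ₁ b1
    obtain ⟨ψ₂, b2⟩ := card_pos.1 (show 0 < (univ.filter fun ψ' => ψ' ≠ triv X ∧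
      ¬ h.isTI.Rel ψ' ψ₁).card by rw [mul_add] at h1; omega)
    obtain ⟨b2, b3⟩ := (mem_filter.1 b2).2
    obtain ⟨a, b, hab, e⟩ := two h b2 b1 b3
    refine ⟨a, fun hF => ?_⟩
    have := e a
    rw [hF ψ₂ ψ₁ b2 b1, if_pos rfl, if_neg hab] at this
    omega
  obtain ⟨ψ₀, h0, s, hs, hβ⟩ := special h hF
  have : Nonempty (Irr G) := ⟨χ⟩
  choose! β hβ1 hβ2 using hβ
  let D : Finset (Irr X) := univ.filter fun ψ' => ψ' ≠ triv X ∧ ¬ h.isTI.Rel ψ' ψ₀
  have hD : ∀ ψ', ψ' ∈ D ↔ ψ' ≠ triv X ∧ ¬ h.isTI.Rel ψ' ψ₀ := fun ψ' => by simp [D]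
  have hs0 : s ≠ 0 := by rintro rfl; simp at hs
  have a3 : D.card + wt X + 1 = Nat.card X := a3 ψ₀ h0
  have a1 : ∀ ψ' ∈ D, deg (β ψ') = deg χ := fun ψ' hψ' => by
    obtain ⟨b1, b2⟩ := (hD _).1 hψ'
    have e : ∑ φ : Irr G, ((mult φ ψ₀ : ℤ) - mult φ ψ') * deg φ = 0 := by
      have c1 := sum_deg_mult ψ₀
      have c2 := sum_deg_mult ψ'
      rw [deg_one h] at c1 c2
      simp only [sub_mul, sum_sub_distrib]
      exact_mod_cast sub_eq_zero.2 (congrArg (Nat.cast : ℕ → ℤ) (c1.trans c2.symm))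
    simp only [hβ2 ψ' b1 b2, mul_sub, sub_mul, sum_sub_distrib, mul_ite, ite_mul, zero_mul, mul_zero,
      mul_one, sum_ite_eq', mem_univ, if_true] at e
    have : (deg χ - deg (β ψ') : ℤ) * s = 0 := by linear_combination e
    have := (mul_eq_zero.1 this).resolve_right hs0
    omega
  have a2 : ∀ ψ' ∈ D, ∀ ψ, (mult χ ψ : ℤ) - mult (β ψ') ψ =
      s * ((if h.isTI.Rel ψ ψ₀ then 1 else 0) - (if h.isTI.Rel ψ ψ' then 1 else 0)) := fun ψ' hψ' ψ => by
    obtain ⟨b1, b2⟩ := (hD _).1 hψ'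
    have e := gram2 h ψ₀ ψ' (ψ := ψ) h0 b1
    simp only [hβ2 ψ' b1 b2, mul_sub, sub_mul, sum_sub_distrib, mul_ite, ite_mul, zero_mul, mul_zero,
      mul_one, sum_ite_eq', mem_univ, if_true] at e
    rw [← e]
    linear_combination (-(mult χ ψ : ℤ) + mult (β ψ') ψ) * hs
  have a4 : D.card ≤ wt X * (D.image β).card :=
    card_le_mul_card_image (f := β) D (wt X) fun b hb => by
      obtain ⟨ψ', hψ', rfl⟩ := mem_image.1 hb
      obtain ⟨b1, b2⟩ := (hD _).1 hψ'
      rw [← card_rel h b1]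
      refine card_le_card fun μ hμ => ?_
      obtain ⟨c1, c2⟩ := mem_filter.1 hμ
      have e1 := a2 μ c1 μ
      have e2 := a2 ψ' hψ' μ
      rw [c2, e2, if_pos (IsTI.Rel.refl _ _)] at e1
      have e3 := mul_left_cancel₀ hs0 e1
      simp only [mem_filter, mem_univ, true_and]
      by_contra hr
      rw [if_neg hr] at e3
      omega
  have a5 : ∀ φ, φ ≠ χ → φ ∉ D.image β → Flat X φ := fun φ e1 e2 => by
    have d1 : ∀ ψ, ψ ≠ triv X → mult φ ψ = mult φ ψ₀ := fun ψ ht => by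
      by_cases r : h.isTI.Rel ψ ψ₀
      · exact r.mult_eq φ
      have e := hβ2 ψ ht r φ
      rw [if_neg e1, if_neg fun e' => e2 (mem_image.2 ⟨ψ, (hD _).2 ⟨ht, r⟩, e'.symm⟩)] at e
      omega
    exact fun ψ ψ' a b => (d1 ψ a).trans (d1 ψ' b).symm
  let z : Irr G → ℤ := fun φ => (mult φ (triv X) : ℤ) - mult φ ψ₀
  have zt : z (triv G) = 1 := by simp [z, mult_triv, h0.symm]
  have z1 : ∑ φ, z φ * z φ = wt X + 1 := by
    have := h.sum_sq h0
    rw [card_Nm] at this
    refine mul_right_cancel₀ (b := (Nat.card X : ℤ)) (by exact_mod_cast Nat.card_pos.ne') ?_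
    rw [this]; push_cast; ring
  have z2 : ∑ φ, z φ * deg φ = 0 := by
    have c1 := sum_deg_mult ψ₀
    have c2 := sum_deg_mult (triv X)
    rw [deg_one h] at c1 c2
    simp only [z, sub_mul, sum_sub_distrib]
    exact_mod_cast sub_eq_zero.2 (congrArg (Nat.cast : ℕ → ℤ) (c2.trans c1.symm))
  have z3 : ∀ ψ' ∈ D, mult (β ψ') (triv X) = mult χ (triv X) ∧ z (β ψ') = z χ + s := fun ψ' hψ' => by
    have e1 := a2 ψ' hψ' (triv X)
    have e2 := a2 ψ' hψ' ψ₀
    rw [if_neg fun r => rel_ne_triv h h0 r rfl, if_neg fun r => rel_ne_triv h ((hD _).1 hψ').1 r rfl] at e1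
    rw [if_pos (IsTI.Rel.refl _ _), if_neg fun r => ((hD _).1 hψ').2 r.symm] at e2
    simp only [z]
    omega
  have tF : Flat X (triv G) := fun ψ ψ' a b => by rw [mult_triv, mult_triv, if_neg a.symm, if_neg b.symm]
  have tχ : triv G ≠ χ := fun e => hF (e ▸ tF)
  have bF : ∀ φ ∈ D.image β, ¬ Flat X φ := fun φ hφ hf => by
    obtain ⟨ψ', hψ', rfl⟩ := mem_image.1 hφ
    obtain ⟨b1, b2⟩ := (hD _).1 hψ'
    have := hβ2 ψ' b1 b2 (β ψ')
    rw [hf ψ₀ ψ' h0 b1, if_neg (hβ1 ψ' b1 b2), if_pos rfl] at this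
    omega
  have bχ : χ ∉ D.image β := fun hφ => by
    obtain ⟨ψ', hψ', e⟩ := mem_image.1 hφ
    exact hβ1 ψ' ((hD _).1 hψ').1 ((hD _).1 hψ').2 e
  have z4 : z χ + s = 0 := by
    by_contra hc
    have e1 := sum_le_sum_of_subset_of_nonneg (f := fun φ => z φ * z φ)
      (subset_univ (insert (triv G) (D.image β))) fun _ _ _ => mul_self_nonneg _
    rw [sum_insert fun e => bF _ e tF, z1, zt, sum_congr rfl (g := fun _ => (z χ + s) * (z χ + s))
      fun b hb => by
        obtain ⟨ψ', hψ', rfl⟩ := mem_image.1 hb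
        rw [(z3 _ hψ').2], sum_const, nsmul_eq_mul] at e1
    have e2 := mul_le_mul_of_nonneg_left (show (1 : ℤ) ≤ _ from mul_self_pos.2 hc)
      (Int.natCast_nonneg (D.image β).card)
    have e3 : (D.image β).card ≤ wt X := by zify; linarith
    have := Nat.mul_le_mul_left (wt X) e3
    rw [mul_add] at h1
    omega
  let A : Finset (Irr G) := univ.filter fun φ => z φ ≠ 0 ∧ φ ≠ triv G ∧ φ ≠ χ
  have hA : ∀ φ, φ ∈ A ↔ z φ ≠ 0 ∧ φ ≠ triv G ∧ φ ≠ χ := fun φ => by simp [A]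
  have hAβ : ∀ φ ∈ A, φ ∉ D.image β := fun φ hφ hb => by
    obtain ⟨ψ', hψ', rfl⟩ := mem_image.1 hb
    exact ((hA _).1 hφ).1 ((z3 _ hψ').2.trans z4)
  have hsum : ∀ f : Irr G → ℤ, ∑ φ, z φ * f φ = f (triv G) - s * f χ + ∑ φ ∈ A, z φ * f φ := fun f => by
    rw [← sum_subset (subset_univ (insert (triv G) (insert χ A))) fun φ _ hφ => by
      simp only [mem_insert, hA, not_or, not_and] at hφ
      by_contra hc
      exact hφ.2.2 (left_ne_zero_of_mul hc) hφ.1 hφ.2.1,
      sum_insert (by simp [hA, tχ]), sum_insert (by simp [hA]), zt, show z χ = -s by omega]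
    ring
  have dt : deg (triv G) = 1 := by
    have := deg_eq (triv G)
    rw [triv_apply] at this
    exact_mod_cast this.symm
  have hfl : ∀ φ, φ ≠ triv G → Flat X φ → Nat.card X ≤ deg φ + 1 - mult φ (triv X) := fun φ b1 b2 => by
    have c4 := b2.deg_eq h h0
    have c5 : mult φ ψ₀ ≠ 0 := fun e => b1 (b2.eq_triv h hN h0 e)
    have c8 := Nat.mul_le_mul_right (Nat.card X - 1) (Nat.one_le_iff_ne_zero.2 c5)
    omega
  refine ⟨deg χ, (D.image β).card + 1, s, A, z, hs, deg_dvd χ, fun hd => ?_, ?_, ?_, fun φ hφ => ?_, ?_, ?_⟩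
  · -- the exceptional degree is not the weight
    have a8 : s = 1 := by
      rcases mul_self_eq_one_iff.1 hs with rfl | rfl <;> omega
    subst a8
    have a11 : deg χ = wt X := by omega
    have a6 : mult χ (triv X) = 0 := by
      have e1 := deg_sum h χ
      have e2 : ∑ ψ ∈ insert (triv X) (univ.filter fun μ => h.isTI.Rel μ ψ₀), mult χ ψ ≤ deg χ :=
        e1 ▸ sum_le_sum_of_subset (subset_univ _)
      rw [sum_insert (by simpa using fun r => rel_ne_triv h h0 r rfl), sum_congr rfl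
        (g := fun _ => mult χ ψ₀) fun μ hμ => (mem_filter.1 hμ).2.mult_eq χ, sum_const, card_rel h h0,
        smul_eq_mul] at e2
      have := Nat.mul_le_mul_left (wt X) (show 1 ≤ mult χ ψ₀ by simp only [z] at z4; omega)
      omega
    have a9 : mult χ ψ₀ = 1 := by simp only [z] at z4; omega
    have a10 : ∀ ψ, mult χ ψ = if h.isTI.Rel ψ ψ₀ then 1 else 0 := fun ψ => by
      split_ifs with r
      · rw [r.mult_eq, a9]
      by_cases ht : ψ = triv X
      · rw [ht, a6]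
      have := hβ2 ψ ht r χ
      rw [if_pos rfl, if_neg (hβ1 ψ ht r).symm, a9] at this
      omega
    obtain ⟨n', hn'⟩ := ch_mul_inv χ
    have b1 : n' (triv G) = 1 := by
      have := hn'.inner (triv G)
      have e := inner_irr χ χ
      rw [if_pos rfl] at e
      simp only [classInner, conj_irr, triv_apply, map_one, mul_one] at this e
      exact_mod_cast this.symm.trans e
    have b2 : ∑ φ, n' φ * mult φ (triv X) = wt X := by
      have := (hn'.res X).inner (triv X)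
      have e := (ch_res χ X).norm
      simp only [classInner, conj_irr, triv_apply, map_one, mul_one] at this e
      have e2 : ∑ φ, n' φ * mult φ (triv X) = ∑ ψ : Irr X, mult χ ψ * mult χ ψ := by
        exact_mod_cast this.symm.trans e
      rw [e2, ← card_rel h h0, card_filter]
      exact sum_congr rfl fun ψ _ => by rw [a10]; split_ifs <;> rfl
    have b3 : ∑ φ, n' φ * deg φ = wt X * wt X := by
      have := hn'.one
      simp only [inv_one, deg_eq, a11] at this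
      exact_mod_cast this.symm
    obtain ⟨φ, c1, c2⟩ : ∃ φ, φ ≠ triv G ∧ n' φ * mult φ (triv X) ≠ 0 := by
      by_contra hc
      push Not at hc
      rw [sum_eq_single (triv G) (fun φ _ a => hc φ a) (by simp), b1, mult_triv, if_pos rfl] at b2
      omega
    have c3 : Flat X φ := a5 φ (by rintro rfl; exact c2 (by rw [a6, mul_zero])) fun hb => by
      obtain ⟨ψ', hψ', rfl⟩ := mem_image.1 hb
      exact c2 (by rw [(z3 _ hψ').1, a6, mul_zero])
    have c4 := hfl φ c1 c3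
    have c6 : n' φ * deg φ ≤ wt X * wt X := b3 ▸ single_le_sum (f := fun φ => n' φ * deg φ)
      (fun _ _ => Nat.zero_le _) (mem_univ φ)
    have c7 := Nat.mul_le_mul_right (deg φ) (Nat.one_le_iff_ne_zero.2 (mul_ne_zero_iff.1 c2).1)
    rw [mul_add] at h1
    omega
  · have := hsum z
    rw [z1, zt, show z χ = -s by omega] at this
    linear_combination -this - hs
  · have := hsum fun φ => deg φ
    rw [z2, dt] at this
    linear_combination -this
  · obtain ⟨b1, b2, b3⟩ := (hA φ).1 hφ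
    have c3 := a5 φ b3 (hAβ φ hφ)
    have c4 := hfl φ b2 c3
    refine ⟨b1, ⟨mult φ ψ₀, ?_⟩, by omega⟩
    rw [c3.deg_eq h h0]
    have : 1 ≤ Nat.card X := Nat.card_pos
    simp only [z]
    push_cast [Nat.cast_sub this]
    ring
  · rw [mul_add]; omega
  · have e1 : ∑ φ ∈ insert (triv G) (A ∪ insert χ (D.image β)), deg φ * deg φ ≤ Nat.card G :=
      sum_sq_deg (G := G) ▸ sum_le_sum_of_subset (subset_univ _)
    rw [sum_insert (by
      simp only [mem_union, mem_insert, hA, not_or]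
      exact ⟨by simp, tχ, fun e => bF _ e tF⟩), sum_union (disjoint_left.2 fun φ hφ hb => by
        rcases mem_insert.1 hb with e | e
        exacts [((hA φ).1 hφ).2.2 e, hAβ φ hφ e]), sum_insert bχ, dt,
      sum_congr (s₁ := D.image β) rfl (g := fun _ => deg χ * deg χ) fun b hb => by
        obtain ⟨ψ', hψ', rfl⟩ := mem_image.1 hb
        rw [a1 _ hψ'], sum_const, smul_eq_mul] at e1
    rw [add_mul]
    omega

end Cfsg.Agent.H9.Deg
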