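import Cfsg.Agent.H9.FOrth
import Cfsg.Agent.H9.Unip

/-! Unipotent isometries: orthogonal decomposition into Jordan blocks and models. -/

set_option autoImplicit false
set_option linter.unusedSectionVars false

namespace Cfsg.Agent.H9.FUnip

open Module Polynomial Cfsg.Agent.Form Cfsg.Agent.Form.PQ Cfsg.Agent.H9.FIdx
open Cfsg.Agent.H9.FClass Cfsg.Agent.H9.FOrd Cfsg.Agent.H9.Types Cfsg.Agent.H9.FInv
open Cfsg.Agent.H9.FSS Cfsg.Agent.H9.FModel

universe u v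

variable {F : Type u} [Field F] {P : FP F} {V : Type v} [AddCommGroup V] [Module F V]
  {S : PQ P V} {f : End F V}

/-- The Jordan type of a unipotent map on a subspace. -/
def JT (f : End F V) (W : Submodule F V) (μ : Multiset ℕ) : Prop :=
  (∀ e ∈ μ, 0 < e) ∧ finrank F W = μ.sum ∧
    ∀ k, finrank F ↥(W ⊓ LinearMap.ker ((f - 1) ^ k)) = (μ.map fun e => min e k).sum

theorem JT.unique {W : Submodule F V} {μ ν : Multiset ℕ} (h : JT f W μ) (h' : JT f W ν) : μ = ν :=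
  eq_of_sum_min_eq h.1 h'.1 fun k => (h.2.2 k).symm.trans (h'.2.2 k)

theorem aeval_N (k : ℕ) : aeval f ((X - C 1 : F[X]) ^ k) = (f - 1) ^ k := by simp

theorem N_mem {U : Submodule F V} (hU : ∀ x ∈ U, f x ∈ U) (k : ℕ) {x : V} (hx : x ∈ U) :
    ((f - 1) ^ k) x ∈ U := aeval_N (f := f) k ▸ aeval_mem hU _ hx

theorem jt_of_hasType {W : Submodule F V} (hW : ∀ x ∈ W, f x ∈ W) {μ : Multiset ℕ}
    (h : HasType (f.restrict hW : End F W) (jordan 1 μ)) (h0 : ∀ e ∈ μ, 0 < e) : JT f W μ :=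
  ⟨h0, h.finrank_jordan, fun k => by
    rw [← aeval_N, ← finrank_ker_aeval_restrict hW, aeval_X_sub_C_pow, h.finrank_ker_jordan]⟩

theorem jt_top {μ : Multiset ℕ} (h : HasType f (jordan 1 μ)) (h0 : ∀ e ∈ μ, 0 < e) : JT f ⊤ μ :=
  ⟨h0, by rw [finrank_top, h.finrank_jordan], fun k => by
    rw [top_inf_eq, ← h.finrank_ker_jordan, one_smul]⟩

theorem le_of_sum_min {μ : Multiset ℕ} {k : ℕ} (h : (μ.map fun e => min e k).sum = μ.sum) :
    ∀ e ∈ μ, e ≤ k := fun e he => by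
  by_contra h1
  have := Multiset.sum_lt_sum (s := μ) (f := fun e => min e k) (g := id)
    (fun _ _ => min_le_left _ _) ⟨e, he, by simp; omega⟩
  simp [h] at this

variable [FiniteDimensional F V]

theorem JT.le_iff {W : Submodule F V} {μ : Multiset ℕ} (h : JT f W μ) {k : ℕ} :
    (∀ e ∈ μ, e ≤ k) ↔ ∀ x ∈ W, ((f - 1) ^ k) x = 0 := by
  constructor
  · intro h1
    have := Submodule.eq_of_le_of_finrank_eq (inf_le_left : W ⊓ LinearMap.ker ((f - 1) ^ k) ≤ W)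
      (by rw [h.2.2, h.2.1, Multiset.map_congr rfl fun e he => min_eq_left (h1 e he),
        Multiset.map_id'])
    exact fun x hx => (this.ge hx).2
  · intro h1
    exact le_of_sum_min (by rw [← h.2.2, ← h.2.1, inf_eq_left.2 (show W ≤ _ from h1)])

theorem exists_jt {W : Submodule F V} (hW : ∀ x ∈ W, f x ∈ W) {k : ℕ}
    (h : ∀ x ∈ W, ((f - 1) ^ k) x = 0) : ∃ μ, JT f W μ := by
  obtain ⟨μ, h1, h2⟩ := exists_hasType_jordan (f.restrict hW : End F W) 1 (k := k)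
    (LinearMap.ext fun x => Subtype.ext (by
      rw [← aeval_X_sub_C_pow, aeval_restrict, aeval_N, h x x.2]; rfl))
  exact ⟨μ, jt_of_hasType hW h2 fun e he => (h1 e he).1⟩

theorem JT.nil {W : Submodule F V} {μ : Multiset ℕ} (h : JT f W μ) :
    ∀ x ∈ W, ((f - 1) ^ μ.sum) x = 0 := h.le_iff.1 fun _ he => Multiset.le_sum_of_mem he

theorem JT.sub {W U : Submodule F V} {μ : Multiset ℕ} (h : JT f W μ) (hU : ∀ x ∈ U, f x ∈ U)
    (hle : U ≤ W) : ∃ ν, JT f U ν := exists_jt hU fun x hx => h.nil x (hle hx)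

theorem JT.sup {U W : Submodule F V} {μ ν : Multiset ℕ} (h : JT f U μ) (h' : JT f W ν)
    (hU : ∀ x ∈ U, f x ∈ U) (hW : ∀ x ∈ W, f x ∈ W) (hd : Disjoint U W) :
    JT f (U ⊔ W) (μ + ν) := by
  refine ⟨fun e he => (Multiset.mem_add.1 he).elim (h.1 e) (h'.1 e),
    by rw [finrank_sup_of_disjoint hd, h.2.1, h'.2.1, Multiset.sum_add], fun k => ?_⟩
  rw [Multiset.map_add, Multiset.sum_add, ← h.2.2, ← h'.2.2,
    ← finrank_sup_of_disjoint (hd.mono inf_le_left inf_le_left)]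
  refine congrArg (fun U : Submodule F V => finrank F U) (le_antisymm (fun x hx => ?_) (sup_le (inf_le_inf_right _ le_sup_left)
    (inf_le_inf_right _ le_sup_right)))
  obtain ⟨a, ha, b, hb, rfl⟩ := Submodule.mem_sup.1 hx.1
  have h1 : ((f - 1) ^ k) a = -((f - 1) ^ k) b := eq_neg_of_add_eq_zero_left
    ((map_add ((f - 1) ^ k) a b).symm.trans hx.2)
  have h2 := (Submodule.disjoint_def.1 hd) _ (N_mem hU k ha) (h1 ▸ neg_mem (N_mem hW k hb))
  exact Submodule.add_mem_sup ⟨ha, h2⟩ ⟨hb, neg_eq_zero.1 (h1 ▸ h2)⟩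

theorem jt_of_le_Cx {U : Submodule F V} (h : U ≤ Cx f) :
    JT f U (Multiset.replicate (finrank F U) 1) := by
  obtain ⟨μ, h1⟩ := exists_jt (inv_of_le_Cx h) (k := 1) fun x hx => by simpa using h hx
  have h2 := (h1.le_iff (k := 1)).2 fun x hx => by simpa using h hx
  have h3 : μ = Multiset.replicate (Multiset.card μ) 1 :=
    Multiset.eq_replicate_card.2 fun e he => le_antisymm (h2 e he) (h1.1 e he)
  rwa [h1.2.1, h3, Multiset.sum_replicate, smul_eq_mul, mul_one, ← h3]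

theorem jt_bot : JT f ⊥ 0 := by simpa using jt_of_le_Cx (f := f) bot_le

theorem JT.split (hS : S.Nondeg) (hf : S.IsIso S f) {W U : Submodule F V} {μ : Multiset ℕ}
    (h : JT f W μ) (hWn : S.NondegOn W) (hW : ∀ x ∈ W, f x ∈ W) (hUn : S.NondegOn U)
    (hU : ∀ x ∈ U, f x ∈ U) (hle : U ≤ W) :
    ∃ ν ν', μ = ν + ν' ∧ JT f U ν ∧ JT f (W ⊓ S.perp U) ν' := by
  obtain ⟨ν, h1⟩ := h.sub hU hle
  have h3 := inv_inf hW (inv_perp hS hf hU)
  obtain ⟨ν', h2⟩ := h.sub h3 inf_le_left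
  have := h1.sup h2 hU h3 (disjoint_of_le_perp hUn inf_le_right)
  rw [(hUn.inf_perp hWn hle).2] at this
  exact ⟨ν, ν', h.unique this, h1, h2⟩

omit [FiniteDimensional F V] in
theorem exists_fixed {U : Submodule F V} (hU : ∀ x ∈ U, f x ∈ U) (k : ℕ) :
    ∀ x ∈ U, x ≠ 0 → ((f - 1) ^ k) x = 0 → ∃ z ∈ U, z ≠ 0 ∧ f z = z := by
  induction k with
  | zero => exact fun x _ h0 h => absurd h h0
  | succ k ih =>
    intro x hx h0 h
    by_cases h1 : f x = x
    · exact ⟨x, hx, h0, h1⟩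
    · exact ih _ (sub_mem (hU x hx) hx) (sub_ne_zero.2 h1) (by rwa [pow_succ] at h)

theorem nondegOn_of_fixed (hS : S.Nondeg) (hf : S.IsIso S f) {U : Submodule F V}
    (hU : ∀ x ∈ U, f x ∈ U) {k : ℕ} (hk : ∀ x ∈ U, ((f - 1) ^ k) x = 0)
    (h : ∀ z ∈ U, f z = z → z ∈ S.perp U → z = 0) : S.NondegOn U := fun x hx h1 => by
  by_contra h0
  obtain ⟨z, a1, a2, a3⟩ := exists_fixed (inv_inf hU (inv_perp hS hf hU)) k x ⟨hx, h1⟩ h0 (hk x hx)
  exact a2 (h z a1.1 a3 a1.2)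

omit [FiniteDimensional F V] in
theorem B_N_left (hf : S.IsIso S f) (i : ℕ) : ∀ x y : V,
    S.B (((f - 1) ^ i) x) y = (-1) ^ i * S.B ((f ^ i) x) (((f - 1) ^ i) y) := by
  induction i with
  | zero => simp
  | succ i ih =>
    intro x y
    have h1 : ∀ x y, S.B ((f - 1) x) y = -S.B (f x) ((f - 1) y) := fun x y => by
      simp only [LinearMap.sub_apply, End.one_apply, S.B_sub_left, S.B_sub_right, hf.1]; ring
    have h2 : (f ^ i) ((f - 1) x) = (f - 1) ((f ^ i) x) := by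
      rw [← End.mul_apply, ← End.mul_apply,
        ((Commute.refl f).sub_right (Commute.one_right f)).pow_left i]
    rw [pow_succ, End.mul_apply, ih, h2, h1, pow_succ', pow_succ' f, ← pow_succ, pow_succ' (f - 1)]
    simp only [End.mul_apply]; ring

omit [FiniteDimensional F V] in
theorem fixed_N {a : ℕ} {u : V} (hu : ((f - 1) ^ (a + 1)) u = 0) :
    f (((f - 1) ^ a) u) = ((f - 1) ^ a) u := by
  rw [pow_succ', End.mul_apply, LinearMap.sub_apply, sub_eq_zero] at hu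
  exact hu

omit [FiniteDimensional F V] in
theorem beta_swap (hf : S.IsIso S f) {a : ℕ} {u : V} (hu : ((f - 1) ^ (a + 1)) u = 0) (v : V) :
    S.B v (((f - 1) ^ a) u) = (-1) ^ a * P.ε * P.σ (S.B u (((f - 1) ^ a) v)) := by
  have h1 := B_N_left hf a v u
  have h2 : (f ^ a) (((f - 1) ^ a) u) = ((f - 1) ^ a) u :=
    (End.pow_apply f a _).trans (Function.iterate_fixed (fixed_N hu) a)
  rw [← h2, (isIso_pow hf a).1, S.B_swap] at h1
  rw [mul_assoc, h1, ← mul_assoc, ← mul_pow]; simp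

theorem jt_cyc {a : ℕ} {v : V} (h : ((f - 1) ^ (a + 1)) v = 0) (h0 : ((f - 1) ^ a) v ≠ 0) :
    JT f (cyc f v) {a + 1} := by
  refine jt_of_hasType (inv_cyc v) (hasType_cyc ((monic_X_sub_C 1).pow _) (by rwa [aeval_N])
    fun k hk => ?_) (by simp)
  by_contra h1
  obtain ⟨j, hj, k', rfl, h2⟩ : ∃ j ≤ a, ∃ k', k = (X - C 1) ^ j * k' ∧ ¬ X - C 1 ∣ k' := by
    obtain ⟨k', h2, h3⟩ := exists_eq_pow_rootMultiplicity_mul_and_not_dvd k
      (fun h => h1 (h ▸ dvd_zero _)) 1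
    refine ⟨_, ?_, k', h2, h3⟩
    by_contra h4
    exact h1 (h2 ▸ (pow_dvd_pow _ (by omega)).mul_right _)
  refine h0 (eq_zero_of_isCoprime (f := f) (((irreducible_X_sub_C (1 : F)).coprime_iff_not_dvd).2 h2) ?_ ?_)
  · simpa [sub_eq_zero] using fixed_N h
  · rw [← aeval_N, ← aeval_mul_apply]
    refine aeval_eq_zero_of_dvd ?_ hk
    rw [mul_comm]
    exact mul_dvd_mul_left _ (pow_dvd_pow _ hj)

theorem fixed_cyc {a : ℕ} {v z : V} (h : ((f - 1) ^ (a + 1)) v = 0) (h0 : ((f - 1) ^ a) v ≠ 0)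
    (hz : z ∈ cyc f v) (h1 : f z = z) : ∃ c : F, c • ((f - 1) ^ a) v = z := by
  have h2 := (jt_cyc h h0).2.2 1
  have h3 := Submodule.eq_of_le_of_finrank_eq ((Submodule.span_singleton_le_iff_mem _ _).2
    (show ((f - 1) ^ a) v ∈ cyc f v ⊓ LinearMap.ker ((f - 1) ^ 1) from
      ⟨N_mem (inv_cyc v) a (self_mem_cyc v), by simpa [sub_eq_zero] using fixed_N h⟩))
    (by rw [h2, finrank_span_singleton h0]; simp)
  exact Submodule.mem_span_singleton.1 (h3.ge ⟨hz, by simpa [sub_eq_zero] using h1⟩)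

/-- Blocks of size `a + 1` carry a skew form. -/
def Sk (P : FP F) (a : ℕ) : Prop := ∀ θ, θ + (-1) ^ a * P.ε * P.σ θ = 0

theorem exists_block (hS : S.Nondeg) (hf : S.IsIso S f) {W : Submodule F V} (hWn : S.NondegOn W)
    (hW : ∀ x ∈ W, f x ∈ W) {a : ℕ} (h : ∀ x ∈ W, ((f - 1) ^ (a + 1)) x = 0) {v : V} (hv : v ∈ W)
    (h0 : ((f - 1) ^ a) v ≠ 0) : ∃ B ≤ W, ∃ k, S.NondegOn B ∧ (∀ x ∈ B, f x ∈ B) ∧
      JT f B (Multiset.replicate k (a + 1)) ∧ ((k = 1 ∧ ∃ v ∈ B, S.B v (((f - 1) ^ a) v) ≠ 0) ∨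
        (k = 2 ∧ Sk P a ∧ ∀ v ∈ B, S.B v (((f - 1) ^ a) v) = 0)) := by
  by_cases h1 : ∃ v ∈ W, S.B v (((f - 1) ^ a) v) ≠ 0
  · obtain ⟨v, hv, h1⟩ := h1
    have h0 : ((f - 1) ^ a) v ≠ 0 := fun h => h1 (by simp [h])
    refine ⟨cyc f v, cyc_le hW hv, 1, nondegOn_of_fixed hS hf (inv_cyc v)
      (fun x hx => h x (cyc_le hW hv hx)) fun z a1 a2 a3 => ?_, inv_cyc v, jt_cyc (h v hv) h0,
      Or.inl ⟨rfl, v, self_mem_cyc v, h1⟩⟩
    obtain ⟨c, rfl⟩ := fixed_cyc (h v hv) h0 a1 a2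
    have := S.mem_perp'.1 a3 v (self_mem_cyc v)
    simp only [S.B_smul_right, mul_eq_zero, h1, or_false, P.σ_eq_zero] at this
    simp [this]
  push Not at h1
  obtain ⟨u, hu, h2⟩ : ∃ u ∈ W, S.B u (((f - 1) ^ a) v) ≠ 0 := by
    by_contra h2
    push Not at h2
    exact h0 (hWn _ (N_mem hW a hv) fun y hy => S.B_comm_zero (h2 y hy))
  have h3 : S.B v (((f - 1) ^ a) u) ≠ 0 := by
    rw [beta_swap hf (h u hu)]
    exact mul_ne_zero (mul_ne_zero (by simp) P.ε_ne_zero) (P.σ_ne_zero h2)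
  have h4 : ((f - 1) ^ a) u ≠ 0 := fun h => h3 (by simp [h])
  have h5 : Disjoint (cyc f u) (cyc f v) := by
    rw [Submodule.disjoint_def]
    intro x a1 a2
    by_contra a3
    obtain ⟨z, b1, b2, b3⟩ := exists_fixed (inv_inf (inv_cyc u) (inv_cyc v)) _ x ⟨a1, a2⟩ a3
      (h x (cyc_le hW hu a1))
    obtain ⟨c, hc⟩ := fixed_cyc (h u hu) h4 b1.1 b3
    obtain ⟨c', rfl⟩ := fixed_cyc (h v hv) h0 b1.2 b3
    have := congrArg (S.B u) hc
    simp only [S.B_smul_right, h1 u hu, mul_zero, zero_eq_mul, h2, or_false, P.σ_eq_zero] at this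
    simp [this] at b2
  have h6 := sup_le (cyc_le hW hu) (cyc_le hW hv)
  refine ⟨_, h6, 2, nondegOn_of_fixed hS hf (inv_sup (inv_cyc u) (inv_cyc v))
    (fun x hx => h x (h6 hx)) fun z a1 a2 a3 => ?_, inv_sup (inv_cyc u) (inv_cyc v),
    (jt_cyc (h u hu) h4).sup (jt_cyc (h v hv) h0) (inv_cyc u) (inv_cyc v) h5,
    Or.inr ⟨rfl, fun θ => ?_, fun x hx => h1 x (h6 hx)⟩⟩
  · obtain ⟨x, hx, y, hy, rfl⟩ := Submodule.mem_sup.1 a1
    have b1 : f x - x = -(f y - y) := by rw [map_add] at a2; linear_combination (norm := abel) a2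
    have b2 := Submodule.disjoint_def.1 h5 _ (sub_mem (inv_cyc u x hx) hx)
      (b1 ▸ neg_mem (sub_mem (inv_cyc v y hy) hy))
    obtain ⟨c, rfl⟩ := fixed_cyc (h u hu) h4 hx (sub_eq_zero.1 b2)
    obtain ⟨c', rfl⟩ := fixed_cyc (h v hv) h0 hy (sub_eq_zero.1 (neg_eq_zero.1 (b1 ▸ b2)))
    have b3 := S.mem_perp'.1 a3 u (Submodule.mem_sup_left (self_mem_cyc u))
    have b4 := S.mem_perp'.1 a3 v (Submodule.mem_sup_right (self_mem_cyc v))
    simp only [S.B_add_right, S.B_smul_right, h1 u hu, h1 v hv, mul_zero, zero_add, add_zero,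
      mul_eq_zero, h2, h3, or_false, P.σ_eq_zero] at b3 b4
    simp [b3, b4]
  · obtain ⟨c, rfl⟩ : ∃ c, θ = c * S.B u (((f - 1) ^ a) v) := ⟨θ / _, (div_mul_cancel₀ θ h2).symm⟩
    have := h1 (c • u + v) (add_mem (W.smul_mem c hu) hv)
    simp only [map_add, map_smul, S.B_add_left, S.B_add_right, S.B_smul_left, S.B_smul_right,
      h1 u hu, h1 v hv, beta_swap hf (h u hu) v] at this
    rw [map_mul]
    linear_combination this

/-- Induction along an orthogonal decomposition into blocks. -/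
theorem unip_ind (hS : S.Nondeg) (hf : S.IsIso S f) {M : Submodule F V → Multiset ℕ → Prop}
    (h0 : M ⊥ 0) (hstep : ∀ (B W : Submodule F V) (μ : Multiset ℕ) (a k : ℕ), S.NondegOn B →
      (∀ x ∈ B, f x ∈ B) → JT f B (Multiset.replicate k (a + 1)) →
      ((k = 1 ∧ ∃ v ∈ B, S.B v (((f - 1) ^ a) v) ≠ 0) ∨
        (k = 2 ∧ Sk P a ∧ ∀ v ∈ B, S.B v (((f - 1) ^ a) v) = 0)) →
      S.NondegOn W → (∀ x ∈ W, f x ∈ W) → W ≤ S.perp B → JT f W μ → M W μ →
      M (B ⊔ W) (Multiset.replicate k (a + 1) + μ))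
    {W : Submodule F V} {μ : Multiset ℕ} (hWn : S.NondegOn W) (hW : ∀ x ∈ W, f x ∈ W)
    (h : JT f W μ) : M W μ := by
  induction hn : finrank F W using Nat.strong_induction_on generalizing W μ with | _ n ih
  by_cases h1 : W = ⊥
  · subst h1
    rwa [h.unique jt_bot]
  classical
  have h2 : ∃ k : ℕ, ∀ x ∈ W, ((f - 1) ^ k : End F V) x = 0 := ⟨_, h.nil⟩
  obtain ⟨a, ha⟩ : ∃ a, Nat.find h2 = a + 1 := Nat.exists_eq_succ_of_ne_zero fun h3 =>
    h1 (W.eq_bot_iff.2 (by simpa [h3] using Nat.find_spec h2))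
  have h3 := Nat.find_min h2 (show a < _ by omega)
  push Not at h3
  obtain ⟨v, hv, h3⟩ := h3
  obtain ⟨B, a1, k, a2, a3, a4, a5⟩ := exists_block hS hf hWn hW (ha ▸ Nat.find_spec h2) hv h3
  obtain ⟨ν, ν', rfl, b1, b2⟩ := h.split hS hf hWn hW a2 a3 a1
  obtain ⟨b3, b4⟩ := a2.inf_perp hWn a1
  have b5 := finrank_inf_perp hWn a1
  have b6 := a4.2.1
  rw [Multiset.sum_replicate, smul_eq_mul] at b6
  have b7 : 0 < finrank F B := b6 ▸ Nat.mul_pos (by omega) (by omega)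
  have := hstep B _ ν' a k a2 a3 a4 a5 b3 (inv_inf hW (inv_perp hS hf a3)) inf_le_right b2
    (ih _ (by omega) b3 (inv_inf hW (inv_perp hS hf a3)) b2 rfl)
  rwa [b4, a4.unique b1] at this

theorem not_sk (hf : S.IsIso S f) (hP : ∀ a, Sk P a → (2 : F) ≠ 0) {B : Submodule F V} {a k : ℕ}
    (h : JT f B (Multiset.replicate k (a + 1))) {v : V} (hv : v ∈ B)
    (h1 : S.B v (((f - 1) ^ a) v) ≠ 0) : ¬ Sk P a := fun h2 => by
  have h3 := beta_swap hf (h.le_iff.1 (fun e he => (Multiset.eq_of_mem_replicate he).le) v hv) v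
  exact mul_ne_zero (hP a h2) h1 (by linear_combination h2 _ + h3)

/-- Skew block sizes occur with even multiplicity. -/
theorem JT.even_count (hS : S.Nondeg) (hf : S.IsIso S f) (hP : ∀ a, Sk P a → (2 : F) ≠ 0)
    {W : Submodule F V} {μ : Multiset ℕ} (h : JT f W μ) (hWn : S.NondegOn W)
    (hW : ∀ x ∈ W, f x ∈ W) : ∀ a, Sk P a → Even (μ.count (a + 1)) := by
  refine unip_ind hS hf (M := fun _ μ => ∀ a, Sk P a → Even (μ.count (a + 1))) (by simp)
    (fun B W μ a k _ _ a3 a4 _ _ _ _ ih b hb => ?_) hWn hW h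
  rw [Multiset.count_add, Multiset.count_replicate]
  refine Even.add ?_ (ih b hb)
  split_ifs with h1
  · obtain rfl : a = b := by omega
    rcases a4 with ⟨-, v, c1, c2⟩ | ⟨rfl, -⟩
    exacts [absurd hb (not_sk hf hP a3 c1 c2), even_two]
  · exact Even.zero

/-- Every admissible submultiset of the type is the type of a non-degenerate summand. -/
theorem JT.exists_sub (hS : S.Nondeg) (hf : S.IsIso S f) (hP : ∀ a, Sk P a → (2 : F) ≠ 0)
    {W : Submodule F V} {μ : Multiset ℕ} (h : JT f W μ) (hWn : S.NondegOn W)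
    (hW : ∀ x ∈ W, f x ∈ W) : ∀ ν ≤ μ, (∀ a, Sk P a → Even (ν.count (a + 1))) →
      ∃ U ≤ W, S.NondegOn U ∧ (∀ x ∈ U, f x ∈ U) ∧ JT f U ν := by
  refine unip_ind hS hf (M := fun W μ => ∀ ν ≤ μ, (∀ a, Sk P a → Even (ν.count (a + 1))) →
      ∃ U ≤ W, S.NondegOn U ∧ (∀ x ∈ U, f x ∈ U) ∧ JT f U ν)
    (fun ν h _ => ⟨⊥, le_rfl, S.nondegOn_bot, inv_bot, Multiset.le_zero.1 h ▸ jt_bot⟩)
    (fun B W μ a k a1 a2 a3 a4 _ _ a5 _ ih ν b1 b2 => ?_) hWn hW h
  by_cases h1 : ν ≤ μ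
  · obtain ⟨U, c1, c2⟩ := ih ν h1 b2
    exact ⟨U, c1.trans le_sup_right, c2⟩
  have h2 : ν.count (a + 1) ≠ 0 := fun h2 => h1 (Multiset.le_iff_count.2 fun e => by
    have := Multiset.le_iff_count.1 b1 e
    rw [Multiset.count_add, Multiset.count_replicate] at this
    split_ifs at this with h3
    · rw [← h3, h2]; omega
    · omega)
  have h3 : (k = 1 ∧ ¬ Sk P a) ∨ k = 2 ∧ Sk P a := a4.imp
    (fun ⟨c0, _, c1, c2⟩ => ⟨c0, not_sk hf hP a3 c1 c2⟩) fun h => ⟨h.1, h.2.1⟩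
  obtain ⟨ν, rfl⟩ := exists_add_of_le (Multiset.le_count_iff_replicate_le.1
    (show k ≤ ν.count (a + 1) by
      rcases h3 with ⟨rfl, -⟩ | ⟨rfl, h3⟩
      · omega
      · have := Nat.even_iff.1 (b2 a h3); omega))
  obtain ⟨U, c1, c2, c3, c4⟩ := ih ν (le_of_add_le_add_left b1) fun b hb => by
    have := b2 b hb
    rw [Multiset.count_add, Multiset.count_replicate] at this
    split_ifs at this with h4
    · obtain rfl : a = b := by omega
      rw [(h3.resolve_left fun h => h.2 hb).1] at this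
      exact (Nat.even_add.1 this).1 even_two
    · rwa [zero_add] at this
  exact ⟨B ⊔ U, sup_le_sup_left c1 _, a1.sup c2 (c1.trans a5), inv_sup a2 c3,
    a3.sup c4 a2 c3 (disjoint_of_le_perp a1 (c1.trans a5))⟩

/-! ### Models -/

theorem exists_block_alg (P : FP F) (a : ℕ) : ∃ (τ : AdjoinRoot ((X - C 1 : F[X]) ^ (a + 1)) →+*
    AdjoinRoot ((X - C 1 : F[X]) ^ (a + 1))) (z : AdjoinRoot ((X - C 1 : F[X]) ^ (a + 1))),
    (∀ x, τ (τ x) = x) ∧ (∀ (c : F) x, τ (c • x) = P.σ c • τ x) ∧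
      AdjoinRoot.root _ * τ (AdjoinRoot.root _) = 1 ∧ z ≠ 0 ∧ τ z = (-1 : F) ^ a • z ∧
      ∀ x ≠ 0, ∃ c, x * c = z := by
  set g : F[X] := (X - C 1) ^ (a + 1) with hg
  set ξ := AdjoinRoot.root g
  have e : ∀ k, AdjoinRoot.mk g ((X - C 1) ^ k) = (ξ - 1) ^ k := fun k => by simp [ξ]
  have h1 : (ξ - 1) ^ (a + 1) = 0 := by rw [← e, AdjoinRoot.mk_self]
  obtain ⟨η, h2⟩ : ∃ η, ξ * η = 1 := by
    simpa using (IsNilpotent.isUnit_add_one ⟨_, h1⟩).exists_right_inv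
  have h3 : η - 1 = -η * (ξ - 1) := by linear_combination h2
  let τ : AdjoinRoot g →+* AdjoinRoot g := AdjoinRoot.lift ((AdjoinRoot.of g).comp P.σ) η (by
    conv_lhs => arg 3; rw [hg]
    rw [eval₂_pow, eval₂_sub, eval₂_X, eval₂_C, map_one, h3, mul_pow, h1, mul_zero])
  have t1 : τ ξ = η := AdjoinRoot.lift_root _
  have t2 : ∀ c, τ (AdjoinRoot.of g c) = AdjoinRoot.of g (P.σ c) := fun c => AdjoinRoot.lift_of _
  have t3 : τ η = ξ := by
    have := congrArg τ h2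
    rw [map_mul, t1, map_one] at this
    linear_combination ξ * this - τ η * h2
  have h4 : η * (ξ - 1) ^ a = (ξ - 1) ^ a := by
    rw [pow_succ] at h1
    linear_combination (ξ - 1) ^ a * h2 - η * h1
  refine ⟨τ, (ξ - 1) ^ a, fun x => ?_, smul_of_algebraMap τ t2, by rw [t1, h2], fun h => ?_, ?_,
    fun x hx => ?_⟩
  · exact RingHom.congr_fun (AdjoinRoot.ringHom_ext (f := τ.comp τ) (g := RingHom.id _)
      (RingHom.ext fun c => by simp [t2]) (by simp [t1, t3, ξ])) x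
  · rw [← e, AdjoinRoot.mk_eq_zero] at h
    have := natDegree_le_of_dvd h ((monic_X_sub_C 1).pow a).ne_zero
    rw [hg, natDegree_pow, natDegree_pow, natDegree_X_sub_C] at this
    omega
  · have h5 : ∀ k, η ^ k * (ξ - 1) ^ a = (ξ - 1) ^ a := fun k => by
      induction k with
      | zero => simp
      | succ k ih => rw [pow_succ, mul_assoc, h4, ih]
    rw [map_pow, map_sub, t1, map_one, h3, mul_pow, neg_pow, mul_assoc, h5, Algebra.smul_def]
    simp
  · obtain ⟨k, rfl⟩ := AdjoinRoot.mk_surjective x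
    obtain ⟨k', c1, c2⟩ := exists_eq_pow_rootMultiplicity_mul_and_not_dvd k
      (fun h => hx (by simp [h])) 1
    have c3 : rootMultiplicity 1 k ≤ a := by
      by_contra h
      exact hx (AdjoinRoot.mk_eq_zero.2 (c1 ▸ (pow_dvd_pow _ (by omega)).mul_right _))
    obtain ⟨s, t, c4⟩ := (((irreducible_X_sub_C (1 : F)).coprime_iff_not_dvd).2 c2).pow_left
      (m := a + 1)
    have c5 := congrArg (AdjoinRoot.mk g) c4
    rw [map_add, map_mul, map_mul, AdjoinRoot.mk_self, mul_zero, zero_add, map_one] at c5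
    refine ⟨AdjoinRoot.mk g t * (ξ - 1) ^ (a - rootMultiplicity 1 k), ?_⟩
    generalize rootMultiplicity 1 k = j at *
    obtain ⟨l, rfl⟩ := Nat.exists_eq_add_of_le c3
    rw [c1, map_mul, e, Nat.add_sub_cancel_left, pow_add]
    linear_combination (ξ - 1) ^ j * (ξ - 1) ^ l * c5

theorem jordan_singleton (e : ℕ) : jordan (1 : F) {e} = {(X - C 1) ^ e} := rfl

theorem real_single {a : ℕ} (h : ¬ Sk P a) : Real P (jordan 1 {a + 1}) := by
  obtain ⟨θ, hθ⟩ := not_forall.1 h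
  obtain ⟨τ, z, a1, a2, a3, a4, a5, a6⟩ := exists_block_alg P a
  obtain ⟨φ, hφ⟩ := exists_dual_eq_one (F := F) a4
  refine ⟨_, _, _, algPQ τ a2 (θ • φ), mulRoot _, algPQ_nondeg τ a1 a2 _ fun x hx => ?_,
    algPQ_isIso τ a2 _ a3 (mulRoot_apply _), hasType_mulRoot ((monic_X_sub_C 1).pow _)⟩
  obtain ⟨c, hc⟩ := a6 x hx
  refine ⟨c, fun h => hθ ?_⟩
  simp only [hc, a5, map_smul, LinearMap.smul_apply, hφ, smul_eq_mul, mul_one, map_mul, map_pow,
    map_neg, map_one] at h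
  linear_combination h

theorem real_pair (a : ℕ) : Real P (jordan 1 {a + 1} + jordan 1 {a + 1}) := by
  obtain ⟨τ, z, a1, a2, a3, a4, -, a6⟩ := exists_block_alg P a
  obtain ⟨φ, hφ⟩ := exists_dual_eq_one (F := F) a4
  obtain ⟨T, b1, -, b3⟩ := exists_double τ τ a1 a1 a2 φ fun x hx =>
    (a6 x hx).imp fun c hc => by rw [hc, hφ]; exact one_ne_zero
  exact ⟨_, _, _, T, _, b1, b3 _ _ _ _ a3 (mulRoot_apply _) (mulRoot_apply _),
    (hasType_mulRoot ((monic_X_sub_C 1).pow _)).prodMap (hasType_mulRoot ((monic_X_sub_C 1).pow _))⟩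

theorem real_jordan {μ : Multiset ℕ} (h0 : ∀ e ∈ μ, 0 < e)
    (h : ∀ a, Sk P a → Even (μ.count (a + 1))) : Real P (jordan 1 μ) := by
  induction μ using Multiset.strongInductionOn with | _ μ ih
  rcases μ.empty_or_exists_mem with rfl | ⟨e, he⟩
  · exact real_zero
  obtain ⟨a, rfl⟩ := Nat.exists_eq_add_one_of_ne_zero (h0 e he).ne'
  have key : ∀ k ν, 0 < k → μ = Multiset.replicate k (a + 1) + ν → (Sk P a → Even k) →
      Real P (jordan 1 (Multiset.replicate k (a + 1))) → Real P (jordan 1 μ) := by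
    rintro k ν h1 rfl h2 h3
    rw [jordan_add]
    refine h3.add (ih ν (lt_add_of_pos_left _ (Multiset.card_pos.1 (by simpa) |> bot_lt_iff_ne_bot.2))
      (fun e he => h0 e (Multiset.mem_add.2 (Or.inr he))) fun b hb => ?_)
    have := h b hb
    rw [Multiset.count_add, Multiset.count_replicate] at this
    split_ifs at this with h4
    · obtain rfl : a = b := by omega
      exact (Nat.even_add.1 this).1 (h2 hb)
    · rwa [zero_add] at this
  have h1 := Multiset.count_pos.2 he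
  by_cases h2 : Sk P a
  · obtain ⟨ν, h3⟩ := exists_add_of_le (Multiset.le_count_iff_replicate_le.1
      (show 2 ≤ μ.count (a + 1) by have := Nat.even_iff.1 (h a h2); omega))
    exact key 2 ν two_pos h3 (fun _ => even_two) (jordan_add (1 : F) {a + 1} {a + 1} ▸ real_pair a)
  · obtain ⟨ν, h3⟩ := exists_add_of_le (Multiset.le_count_iff_replicate_le.1 h1)
    exact key 1 ν one_pos h3 (fun h => absurd h h2) (real_single h2)

omit [FiniteDimensional F V] in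
theorem even_count_iff {μ : Multiset ℕ} (h0 : ∀ e ∈ μ, 0 < e) {K : ℕ → Prop}
    (h : ∀ a, Sk P a ↔ K (a + 1)) :
    (∀ a, Sk P a → Even (μ.count (a + 1))) ↔ ∀ e, K e → Even (μ.count e) := by
  refine ⟨fun H e he => ?_, fun H a ha => H _ ((h a).1 ha)⟩
  rcases e with _ | a
  · rw [Multiset.count_eq_zero.2 fun h => (h0 0 h).false]; exact Even.zero
  · exact H a ((h a).2 he)

theorem sk_symp (h2 : (2 : F) ≠ 0) (a : ℕ) : Sk (FP.symp F) a ↔ Odd (a + 1) := by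
  rcases Nat.even_or_odd a with h | h
  · exact iff_of_true (fun θ => by simp [h.neg_one_pow]) h.add_one
  · refine iff_of_false (fun h1 => h2 ?_) (Nat.not_odd_iff_even.2 h.add_one)
    simpa [h.neg_one_pow, one_add_one_eq_two] using h1 1

theorem sk_orth (h2 : (2 : F) ≠ 0) (a : ℕ) : Sk (FP.orth F) a ↔ Even (a + 1) := by
  rcases Nat.even_or_odd a with h | h
  · refine iff_of_false (fun h1 => h2 ?_) (Nat.not_even_iff_odd.2 h.add_one)
    simpa [h.neg_one_pow, one_add_one_eq_two] using h1 1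
  · exact iff_of_true (fun θ => by simp [h.neg_one_pow]) h.add_one

theorem not_sk_of_σ (hσ : ∃ a, P.σ a ≠ a) (a : ℕ) : ¬ Sk P a := fun h => by
  obtain ⟨θ, hθ⟩ := hσ
  have h1 := h 1
  rw [map_one, mul_one] at h1
  exact hθ (by linear_combination P.σ θ * h1 - h θ)

variable {p : ℕ} [hp : Fact p.Prime] [CharP F p]

omit [FiniteDimensional F V] in
theorem pow_eq_one_iff_N : f ^ p = 1 ↔ (f - 1) ^ p = 0 := by
  rw [← aeval_N, sub_pow_char, ← C_pow, one_pow, OrdR.aeval_X_pow_sub_C_eq_zero_iff, one_smul]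

theorem exists_jt_top (h : f ^ p = 1) : ∃ μ, JT f ⊤ μ ∧ ∀ e ∈ μ, 0 < e ∧ e ≤ p := by
  have h1 : ∀ x ∈ (⊤ : Submodule F V), ((f - 1) ^ p) x = 0 := fun x _ => by
    rw [pow_eq_one_iff_N.1 h, LinearMap.zero_apply]
  obtain ⟨μ, h2⟩ := exists_jt (fun _ _ => Submodule.mem_top) h1
  exact ⟨μ, h2, fun e he => ⟨h2.1 e he, h2.le_iff.2 h1 e he⟩⟩

theorem JT.pow_eq_one {μ : Multiset ℕ} (h : JT f ⊤ μ) (h1 : ∀ e ∈ μ, e ≤ p) : f ^ p = 1 :=
  pow_eq_one_iff_N.2 (LinearMap.ext fun x => h.le_iff.1 h1 x trivial)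

omit hp [CharP F p] in
theorem JT.ne_one {μ : Multiset ℕ} (h : JT f ⊤ μ) {e : ℕ} (he : e ∈ μ) (h2 : 2 ≤ e) : f ≠ 1 := by
  rintro rfl
  have := (h.le_iff (k := 1)).2 (by simp) e he
  omega

omit [FiniteDimensional F V] in
theorem not_scalar_of_unip [Nontrivial V] (h : f ^ p = 1) (h1 : f ≠ 1) (c : F) : f ≠ c • 1 := by
  rintro rfl
  have h2 := FAdapt.pow_eq_one_of_smul_one_pow h
  rw [← sub_eq_zero, ← one_pow p, ← sub_pow_char, pow_eq_zero_iff hp.out.ne_zero, sub_eq_zero] at h2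
  exact h1 (by rw [h2, one_smul])

end Cfsg.Agent.H9.FUnip
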