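import Mathlib

/-! Multisets of residues with sum zero are symmetric about one of their members. -/

set_option autoImplicit false

namespace Cfsg.Agent.H9.Five

set_option maxRecDepth 100000 in
theorem five_aux : ∀ b c d : ZMod 5, ∃ t x y : ZMod 5,
    ({0, b, c, d, -(b + c + d)} : Multiset (ZMod 5)) = t ::ₘ ({t + x, t + y} + {t - x, t - y}) := by
  decide +kernel

theorem three_aux : ∀ b : ZMod 3, ∃ t x : ZMod 3,
    ({0, b, -b} : Multiset (ZMod 3)) = t ::ₘ ({t + x} + {t - x}) := by
  decide +kernel

theorem sym_of_sum {r : ℕ} (hr : r = 3 ∨ r = 5) (A : Multiset (ZMod r)) (hA : Multiset.card A = r)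
    (h : A.sum = 0) : ∃ (t : ZMod r) (B : Multiset (ZMod r)),
      A = t ::ₘ (B.map (t + ·) + B.map (t - ·)) := by
  rcases hr with rfl | rfl
  · obtain ⟨a, b, c, rfl⟩ := Multiset.card_eq_three.1 hA
    obtain ⟨t, x, e⟩ := three_aux (b - a)
    have h3 : (3 : ZMod 3) = 0 := rfl
    have hc : c = a + -(b - a) := by
      simp only [Multiset.insert_eq_cons, Multiset.sum_cons, Multiset.sum_singleton] at h
      linear_combination h - a * h3
    have := congrArg (Multiset.map (a + ·)) e
    refine ⟨a + t, {x}, ?_⟩
    simpa [hc, add_assoc, add_sub_assoc] using this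
  · obtain ⟨a, A, rfl⟩ : ∃ a B, A = a ::ₘ B := by
      induction A using Multiset.induction with
      | empty => simp at hA
      | cons a B => exact ⟨a, B, rfl⟩
    obtain ⟨b, c, d, e, rfl⟩ := Multiset.card_eq_four.1 (show Multiset.card A = 4 by simpa using hA)
    obtain ⟨t, x, y, h1⟩ := five_aux (b - a) (c - a) (d - a)
    have h5 : (5 : ZMod 5) = 0 := rfl
    have hc : e = a + -(b - a + (c - a) + (d - a)) := by
      simp only [Multiset.insert_eq_cons, Multiset.sum_cons, Multiset.sum_singleton] at h
      linear_combination h - a * h5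
    have := congrArg (Multiset.map (a + ·)) h1
    refine ⟨a + t, {x, y}, ?_⟩
    simpa [hc, add_assoc, add_sub_assoc] using this

end Cfsg.Agent.H9.Five
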