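import Cfsg.Agent.H9.FUni
import Cfsg.Agent.H9.FUnip
import Cfsg.Agent.H9.Cj
import Cfsg.Agent.H9.Unip
import Cfsg.Agent.H9.Subsp
import Cfsg.Agent.H9.Five

/-! Eigenspace dimensions, diagonal elements and conjugacy in the special linear group. -/

set_option autoImplicit false
set_option linter.unusedSectionVars false

namespace Cfsg.Agent.H9.Der

open Module Polynomial Cfsg.Agent.H9.Types Cfsg.Agent.H9.Arith Cfsg.Agent.H9.OrdR
open Cfsg.Agent.H9.FSS Cfsg.Agent.H9.Cj

universe u v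

variable {F : Type u} [Field F] {V : Type v} [AddCommGroup V] [Module F V]
  {V' : Type*} [AddCommGroup V'] [Module F V'] {f : End F V} {f' : End F V'}

/-- The dimension of the `θ`-eigenspace. -/
noncomputable def ed (f : End F V) (θ : F) : ℕ := finrank F (LinearMap.ker (f - θ • 1))

theorem ed_aeval (f : End F V) (θ : F) :
    ed f θ = finrank F (LinearMap.ker (aeval f (X - C θ))) := by
  rw [ed, ← pow_one (X - C θ), aeval_X_sub_C_pow, pow_one]

theorem ed_conj (h : Conj f f') (θ : F) : ed f θ = ed f' θ := by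
  rw [ed_aeval, ed_aeval, (h.aeval _).finrank_ker]

theorem ed_smul {b : F} (hb : b ≠ 0) (f : End F V) (θ : F) : ed (b • f) (b * θ) = ed f θ := by
  rw [ed, ed, mul_smul, ← smul_sub, LinearMap.ker_smul _ _ hb]

theorem ed_one (f : End F V) : ed f 1 = finrank F (Cx f) := by rw [ed, one_smul]

theorem ed_neg_one (f : End F V) : ed f (-1) = finrank F (Dx 2 f) := by
  rw [ed_aeval, Dx, cyclotomic_two, map_neg, sub_neg_eq_add, map_one]

theorem ed_of_roots [DecidableEq F] {A : Multiset F} (h : HasType f (A.map fun a => X - C a))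
    (θ : F) : ed f θ = A.count θ := by
  rw [ed_aeval, FSS.HasType.finrank_ker_eq_count h (fun g hg => by
    obtain ⟨a, -, rfl⟩ := Multiset.mem_map.1 hg; exact irreducible_X_sub_C a)
    (irreducible_X_sub_C θ) (monic_X_sub_C θ), natDegree_X_sub_C, mul_one]
  exact Multiset.count_map_eq_count' _ _ FUni.inj_X_sub_C θ

theorem pow_of_roots {A : Multiset F} (h : HasType f (A.map fun a => X - C a)) {r : ℕ} {c : F}
    (hA : ∀ a ∈ A, a ^ r = c) : f ^ r = c • 1 :=
  (aeval_X_pow_sub_C_eq_zero_iff f r c).1 ((h.aeval_eq_zero_iff _).2 fun g hg => by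
    obtain ⟨a, ha, rfl⟩ := Multiset.mem_map.1 hg
    exact dvd_iff_isRoot.2 (by simp [hA a ha]))

variable [FiniteDimensional F V] [FiniteDimensional F V']

theorem ed_le (f : End F V) (θ : F) : ed f θ ≤ finrank F V := Submodule.finrank_le _

theorem ed_scalar (c : F) : ed (c • 1 : End F V) c = finrank F V := by
  rw [ed, sub_self, LinearMap.ker_zero, finrank_top]

theorem card_of_roots {A : Multiset F} (h : HasType f (A.map fun a => X - C a)) :
    Multiset.card A = finrank F V := by simp [h.finrank_eq]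

theorem exists_diag [DecidableEq F] (A : Multiset F) (hn : Multiset.card A = finrank F V) {r : ℕ}
    {c : F} (hA : ∀ a ∈ A, a ^ r = c) {a a' : F} (ha : a ∈ A) (ha' : a' ∈ A) (hne : a ≠ a') :
    ∃ f : End F V, LinearMap.det f = A.prod ∧ f ^ r = c • 1 ∧ (∀ z : F, f ≠ z • 1) ∧
      ∀ θ, ed f θ = A.count θ := by
  obtain ⟨f, h⟩ := exists_hasType (V := V) (A.map fun a => X - C a) (fun g hg => by
    obtain ⟨a, -, rfl⟩ := Multiset.mem_map.1 hg; exact monic_X_sub_C a) (by simpa using hn)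
  exact ⟨f, FUni.det_of_roots h, pow_of_roots h hA, not_scalar_of_ne h
    (Multiset.mem_map_of_mem _ ha) (Multiset.mem_map_of_mem _ ha')
    (irreducible_X_sub_C a).ne_one (irreducible_X_sub_C a').ne_one
    fun e => hne (FUni.inj_X_sub_C e), ed_of_roots h⟩

theorem exists_roots {P : F[X]} (hP : Squarefree P) (hs : P.Splits) (h : aeval f P = 0) :
    ∃ A : Multiset F, HasType f (A.map fun a => X - C a) ∧ ∀ a ∈ A, P.IsRoot a := by
  obtain ⟨μ, h1, h2⟩ := exists_hasType_irreducible f hP h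
  have h3 : ∀ g ∈ μ, g = X - C (-g.coeff 0) := fun g hg => by
    have := (h1.monic g hg).eq_X_add_C ((hs.of_dvd hP.ne_zero (h2 g hg).2).natDegree_eq_one_of_irreducible
      (h2 g hg).1)
    simpa using this
  refine ⟨μ.map fun g => -g.coeff 0, ?_, fun a ha => ?_⟩
  · rw [Multiset.map_map]
    convert h1 using 1
    exact (Multiset.map_congr rfl fun g hg => (h3 g hg).symm).trans (Multiset.map_id _)
  · obtain ⟨g, hg, rfl⟩ := Multiset.mem_map.1 ha
    exact dvd_iff_isRoot.1 (h3 g hg ▸ (h2 g hg).2)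

theorem hasType_smul_roots {A : Multiset F} (h : HasType f (A.map fun a => X - C a)) (b : F) :
    HasType (b • f) ((A.map (b * ·)).map fun a => X - C a) := by
  induction A using Multiset.induction generalizing V with
  | empty => have := h.subsingleton; exact hasType_zero _
  | cons a A ih =>
    rw [Multiset.map_cons, ← Multiset.singleton_add] at h
    obtain ⟨U, W, h1, hU, hW, h2, h3⟩ := h.split
    rw [Multiset.map_cons, Multiset.map_cons, ← Multiset.singleton_add]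
    have h4 := pow_of_roots (A := {a}) (r := 1) h2 (c := a) (by simp)
    have h5 := card_of_roots (A := {a}) h2
    refine HasType.of_isCompl h1 (hU := fun x hx => U.smul_mem b (hU x hx))
      (hW := fun x hx => W.smul_mem b (hW x hx)) ?_ (ih h3)
    have h6 := hasType_smul_one (V := U) (b * a)
    rw [← h5, mul_smul, ← h4, pow_one] at h6
    exact h6

section finite
variable [Fintype F] {q r p : ℕ} [hr : Fact r.Prime]

/-- A scalar multiple of `diag(ω, 1, …, 1)` of determinant one. -/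
theorem exists_famA [DecidableEq F] (hq : Fintype.card F = q) {ω : F} (hω : ω ^ r = 1) (h1 : ω ≠ 1)
    (h2 : 2 ≤ finrank F V) (hv : padicValNat r (finrank F V) < padicValNat r (q - 1)) :
    ∃ (f : End F V) (b : F), b ≠ 0 ∧ LinearMap.det f = 1 ∧ f ^ r = b ^ r • 1 ∧
      (∀ z : F, f ≠ z • 1) ∧
      ∀ θ, ed f (b * θ) = (ω ::ₘ Multiset.replicate (finrank F V - 1) 1).count θ := by
  have h0 : ω ≠ 0 := by rintro rfl; simp [hr.out.ne_zero] at hω
  obtain ⟨b, b1, b2⟩ := exists_pow_eq_root hq (ω := ω⁻¹) (r := r) (by simp [hω])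
    (n := finrank F V) (by omega) hv
  obtain ⟨f, a1, a2, a3, a4⟩ := exists_diag (V := V)
    (ω ::ₘ Multiset.replicate (finrank F V - 1) 1) (by simp; omega) (r := r) (c := 1)
    (fun a ha => by
      rcases Multiset.mem_cons.1 ha with rfl | ha
      · exact hω
      · simp [Multiset.eq_of_mem_replicate ha])
    (Multiset.mem_cons_self _ _) (Multiset.mem_cons_of_mem (Multiset.mem_replicate.2 ⟨by omega, rfl⟩)) h1
  refine ⟨b • f, b, b1, by simp [a1, b2, h0], by simp [_root_.smul_pow, a2], fun z e => a3 (b⁻¹ * z) ?_,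
    fun θ => by rw [ed_smul b1, a4]⟩
  rw [mul_smul, ← e, inv_smul_smul₀ b1]

/-- The eigenvalue multiplicities are compatible with `θ ↦ μ τ(θ)`. -/
def Sym (τ : F → F) (f : End F V) : Prop := ∃ μ : F, ∀ θ, θ ≠ 0 → ed f θ ≤ ed f (μ * τ θ)

omit [Fintype F] in
theorem Sym.of_conj {τ : F → F} (h : Sym τ f) (hc : Conj f f') : Sym τ f' :=
  let ⟨μ, h⟩ := h; ⟨μ, fun θ h0 => by simpa only [ed_conj hc] using h θ h0⟩

theorem exists_derange (hq : Fintype.card F = q) (hr2 : r ≠ 2) {ω : F} (hω : IsPrimitiveRoot ω r)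
    {n : ℕ} (hn : finrank F V = n) (h2 : 2 ≤ n) (h6 : ¬ (n = 6 ∧ r = 3))
    (h5 : ¬ ((r = 3 ∨ r = 5) ∧ n = r ∧ padicValNat r (q - 1) = 1)) {τ : F → F}
    (hm : ∀ a b, τ (a * b) = τ a * τ b) (t1 : τ 1 = 1) (t2 : τ ω ≠ 1) (t3 : τ ω ≠ ω)
    (t4 : n = 2 → ω * τ ω ≠ 1) : ∃ f : End F V, LinearMap.det f = 1 ∧ (∃ c : F, f ^ r = c • 1) ∧
      (∀ z : F, f ≠ z • 1) ∧ ¬ Sym τ f := by
  classical
  have h0 := hω.ne_zero hr.out.ne_zero
  have h1 := hω.ne_one hr.out.one_lt
  have h3 := hω.pow_eq_one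
  by_cases h7 : 7 ≤ n
  · obtain ⟨f, a1, a2, a3, a4⟩ := exists_diag (V := V)
      (ω ::ₘ ω ::ₘ (ω⁻¹ ^ 2) ::ₘ Multiset.replicate (n - 3) 1) (by simp; omega) (r := r) (c := 1)
      (fun a ha => by
        simp only [Multiset.mem_cons, Multiset.mem_replicate] at ha
        rcases ha with rfl | rfl | rfl | ⟨-, rfl⟩
        exacts [h3, h3, by rw [← pow_mul, mul_comm, pow_mul, inv_pow, h3]; simp, by simp])
      (Multiset.mem_cons_self _ _) (a' := 1) 
      (by simp only [Multiset.mem_cons, Multiset.mem_replicate]; simp; omega) h1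
    refine ⟨f, by rw [a1]; simp; field_simp, ⟨1, a2⟩, a3, fun ⟨μ, h⟩ => ?_⟩
    have b1 := h 1 one_ne_zero
    have b2 := h ω h0
    simp only [a4, t1, mul_one, Multiset.count_cons, Multiset.count_replicate] at b1 b2
    obtain rfl : 1 = μ := by
      by_contra e
      simp only [if_neg e] at b1
      split_ifs at b1 <;> omega
    simp only [one_mul, if_neg t2.symm, if_neg t3, if_true] at b2
    split_ifs at b2 <;> omega
  have h8 := dvd_of_root hq h3 h1
  have h9 := one_le_padicValNat_of_dvd (q_sub_one_ne_zero hq) h8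
  obtain ⟨f, b, a0, a1, a2, a3, a4⟩ := exists_famA (V := V) hq h3 h1 (by omega) (by
    rw [hn]
    by_cases e : r ∣ n
    · have e1 := Nat.le_of_dvd (by omega) e
      have e2 := hr.out.two_le
      have e3 : (r = 3 ∨ r = 5) ∧ n = r := by
        have := hr.out
        interval_cases n <;> interval_cases r <;> simp_all (decide := true)
      rw [e3.2, padicValNat_self]
      exact lt_of_le_of_ne h9 fun e4 => h5 ⟨e3.1, e3.2, e4.symm⟩
    · rwa [padicValNat.eq_zero_of_not_dvd e])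
  refine ⟨f, a1, ⟨_, a2⟩, a3, fun ⟨μ, h⟩ => ?_⟩
  have b1 := h (b * 1) (by simpa using a0)
  have b2 := h (b * ω) (mul_ne_zero a0 h0)
  rw [hm, show μ * (τ b * τ 1) = b * (b⁻¹ * μ * τ b) by rw [t1]; field_simp] at b1
  rw [hm, show μ * (τ b * τ ω) = b * (b⁻¹ * μ * τ b * τ ω) by field_simp] at b2
  generalize b⁻¹ * μ * τ b = ν at b1 b2
  simp only [a4, hn, Multiset.count_cons, Multiset.count_replicate, if_true,
    if_neg h1.symm] at b1 b2
  by_cases e : 1 = ν
  · subst e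
    simp [t2.symm, t3] at b2
  · rw [if_neg e] at b1
    obtain rfl : ν = ω := by by_contra e'; rw [if_neg e'] at b1; omega
    rw [if_pos rfl] at b1
    simp [(t4 (by omega)).symm, h0, t2] at b2

variable [hp : Fact p.Prime] [CharP F p]

theorem exists_roots_of_pow (hrp : r ≠ p) {ω : F} (hω : IsPrimitiveRoot ω r) (h : f ^ r = 1) :
    ∃ A : Multiset F, HasType f (A.map fun a => X - C a) ∧ ∀ a ∈ A, a ^ r = 1 := by
  obtain ⟨A, h1, h2⟩ := exists_roots (squarefree_X_pow_sub_one hrp)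
    (by simpa using X_pow_sub_one_splits hω) ((aeval_X_pow_sub_one_eq_zero_iff f r).2 h)
  exact ⟨A, h1, fun a ha => by simpa [sub_eq_zero] using h2 a ha⟩

/-- When `n` and `q - 1` have the same `r`-part, elements of order `r` modulo scalars are scalar
multiples of elements of order `r` and determinant one. -/
theorem split_det [Nontrivial V] (hq : Fintype.card F = q) (hrp : r ≠ p) (h2 : r = 2 → q % 4 = 1)
    (hv : padicValNat r (finrank F V) = padicValNat r (q - 1)) (hd : LinearMap.det f = 1) {c : F}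
    (h : f ^ r = c • 1) : ∃ b : F, b ≠ 0 ∧ (b • f) ^ r = 1 ∧ LinearMap.det (b • f) = 1 := by
  rcases Subsp.dichotomy hq hrp (scalar_ne_zero (by simp [hd]) h) h with ⟨a1, -⟩ | ⟨b, a1, -, a2, -⟩
  · exact absurd (lt_of_not_pow hq hd h a1 h2) (by omega)
  refine ⟨_, inv_ne_zero a1, a2, by_contra fun e => ?_⟩
  have := lt_of_pow_eq_root hq (r := r) (by rw [← map_pow, a2, map_one]) e
    (finrank_pos (R := F) (M := V)).ne' (b := b⁻¹) (by simp [hd])
  omega

theorem split_sym (hq : Fintype.card F = q) (hrp : r ≠ p) (h3 : r = 3 ∨ r = 5)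
    (hn : finrank F V = r) (hv : padicValNat r (q - 1) = 1) (hd : LinearMap.det f = 1) {c : F}
    (h : f ^ r = c • 1) : ∃ (b : F) (A : Multiset F), b ≠ 0 ∧ (b • f) ^ r = 1 ∧
      (∀ a ∈ A, a ^ r = 1) ∧ HasType (b • f) ((1 ::ₘ (A + A.map (·⁻¹))).map fun a => X - C a) := by
  have : Nontrivial V := nontrivial_of_finrank_pos (R := F) (by omega)
  have : NeZero r := ⟨hr.out.ne_zero⟩
  obtain ⟨b, a1, a2, a3⟩ := split_det hq hrp (by omega) (by rw [hn, hv, padicValNat_self]) hd h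
  obtain ⟨ω, hω⟩ := exists_root_of_dvd hq (dvd_of_one_le_padicValNat hv.ge)
  obtain ⟨A, b1, b2⟩ := exists_roots_of_pow hrp hω a2
  let ψ := AddChar.zmodChar r hω.pow_eq_one
  have h1 : ∀ a ∈ A, ∃ t, ψ t = a := fun a ha =>
    let ⟨k, _, e⟩ := hω.eq_pow_of_pow_eq_one (b2 a ha); ⟨k, by rw [AddChar.zmodChar_apply', e]⟩
  choose! L hL using h1
  have h2 : (A.map L).map ψ = A := by
    rw [Multiset.map_map, Multiset.map_congr rfl (f := _ ∘ _) (g := id) hL, Multiset.map_id]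
  have h4 : ∀ B : Multiset (ZMod r), ψ B.sum = (B.map ψ).prod := fun B => by
    induction B using Multiset.induction with
    | empty => simp
    | cons a B ih => simp [AddChar.map_add_eq_mul, ih]
  obtain ⟨t, B, e⟩ := Five.sym_of_sum h3 (A.map L) (by rw [Multiset.card_map, card_of_roots b1, hn])
    (((AddChar.zmodChar_primitive_of_primitive_root r hω).zmod_char_eq_one_iff r _).1
      (by rw [h4, h2, ← FUni.det_of_roots b1, a3]))
  have h5 : ∀ t, ψ t ^ r = 1 := fun t => by rw [← AddChar.map_nsmul_eq_pow]; simp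
  have h6 : ∀ t, ψ t ≠ 0 := fun t e => by simpa [e, hr.out.ne_zero] using h5 t
  refine ⟨(ψ t)⁻¹ * b, B.map ψ, mul_ne_zero (inv_ne_zero (h6 t)) a1, ?_, fun a ha => ?_, ?_⟩
  · rw [mul_smul, _root_.smul_pow, a2, inv_pow, h5, inv_one, one_smul]
  · obtain ⟨t, -, rfl⟩ := Multiset.mem_map.1 ha
    exact h5 t
  · rw [mul_smul]
    convert hasType_smul_roots b1 (ψ t)⁻¹ using 2
    rw [← h2, e]
    simp [AddChar.map_add_eq_mul, AddChar.map_sub_eq_div, h6, div_eq_mul_inv]

/-- Elements of order `r` with irreducible cyclotomic polynomial. -/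
theorem conj_of_Cx (hq : Fintype.card F = q) (hrp : r ≠ p) (hi : orderOf (q : ZMod r) = r - 1)
    (h : f ^ r = 1) (h' : f' ^ r = 1) (hn : finrank F V = finrank F V')
    (he : finrank F (Cx f) = finrank F (Cx f')) : Conj f f' := by
  have key : ∀ B : Multiset F[X], (∀ g ∈ B, g.Monic) →
      (∀ g ∈ B, Irreducible g ∧ g ∣ cyclotomic r F) →
      B = Multiset.replicate (Multiset.card B) (cyclotomic r F) := fun B h1 h2 =>
    Multiset.eq_replicate_card.2 fun g hg => (eq_of_monic_of_dvd_of_natDegree_le (h1 g hg)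
      (cyclotomic.monic r F) (h2 g hg).2 (by rw [natDegree_of_dvd_cyclotomic hq hrp (h2 g hg).1
        (h2 g hg).2, hi, FSS.natDegree_cyclotomic'])).symm
  obtain ⟨e, B, a1, a2⟩ := exists_type_of_pow_eq_one hrp h
  obtain ⟨e', B', b1, b2⟩ := exists_type_of_pow_eq_one hrp h'
  have a3 := finrank_of_type hq hrp a1 a2
  have b3 := finrank_of_type hq hrp b1 b2
  have a4 := finrank_ker_of_type hrp a1 fun g hg => (a2 g hg).2
  have b4 := finrank_ker_of_type hrp b1 fun g hg => (b2 g hg).2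
  obtain rfl : e = e' := by rw [← a4, ← b4, he]
  have h3 : Multiset.card B = Multiset.card B' :=
    Nat.eq_of_mul_eq_mul_left (orderOf_pos' hq hrp) (by omega)
  rw [key B (fun g hg => a1.monic g (by simp [hg])) a2, h3,
    ← key B' (fun g hg => b1.monic g (by simp [hg])) b2] at a1
  exact a1.conj b1

theorem conj_of_invol (hp2 : 2 ≠ p) (h : f ^ 2 = 1) (h' : f' ^ 2 = 1)
    (hn : finrank F V = finrank F V') (he : finrank F (Dx 2 f) = finrank F (Dx 2 f')) :
    Conj f f' := by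
  have a1 := finrank_cd_top hp2 h
  have a2 := finrank_cd_top hp2 h'
  exact conj_of_Cx rfl hp2 ((orderOf_eq_one_iff' Fintype.card_pos).2
    (by have := FInvol.odd_card rfl hp2 (F := F); omega)) h h' hn (by omega)

omit [Fintype F] hp [CharP F p] in
theorem conj_of_not_pow {c : F} (hc : ∀ b : F, b ^ r ≠ c) (h : f ^ r = c • 1) (h' : f' ^ r = c • 1)
    (hn : finrank F V = finrank F V') : Conj f f' := by
  obtain ⟨s, a1, a2⟩ := exists_type_of_not_pow h hc
  obtain ⟨s', b1, b2⟩ := exists_type_of_not_pow h' hc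
  obtain rfl : s = s' := Nat.eq_of_mul_eq_mul_left hr.out.pos (by omega)
  exact a1.conj b1

omit hr in
/-- The type of an element whose `p`-th power is scalar. -/
theorem exists_unip_type [Nontrivial V] (hd : LinearMap.det f ≠ 0) {c : F} (h : f ^ p = c • 1) :
    ∃ (b : F) (μ : Multiset ℕ), b ≠ 0 ∧ (∀ e ∈ μ, 0 < e ∧ e ≤ p) ∧
      HasType (b • f) (jordan 1 μ) := by
  obtain ⟨b, h1⟩ := exists_pow_p_eq (p := p) c
  have h2 : b ≠ 0 := by rintro rfl; exact scalar_ne_zero hd h (by simp [← h1, hp.out.ne_zero])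
  obtain ⟨μ, a1, a2⟩ := exists_hasType_jordan (b⁻¹ • f) 1 (k := p)
    (by rw [one_smul]; exact FUnip.pow_eq_one_iff_N.1 (inv_smul_pow_eq_one h2 h1 h))
  exact ⟨_, μ, inv_ne_zero h2, a1, a2⟩

variable {HP : End F V → Prop} {g : End F V}

theorem cj_of_ne [Nontrivial V] (hrp : r ≠ p) (hd : LinearMap.det f ≠ 0) {c : F}
    (h : f ^ r = c • 1) (hg : HP g) (hc : Conj g f) : CjIn (SLV F V) HP f :=
  cj_of_conj hg hc (exists_comm_det_of_squarefree
    (squarefree_X_pow_sub_C hrp (scalar_ne_zero hd h)) ((aeval_X_pow_sub_C_eq_zero_iff f r c).2 h))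

omit hr in
theorem cj_of_block {μ : Multiset ℕ} {a : F} (h : HasType f (jordan a μ)) (he : 1 ∈ μ ∨ p ∈ μ)
    (hg : HP g) (hc : Conj g f) : CjIn (SLV F V) HP f := by
  refine cj_of_conj hg hc fun c => ?_
  rcases he with he | he
  · simpa using h.exists_comm_det_pow (Multiset.mem_map_of_mem _ he) c
  · obtain ⟨b, rfl⟩ := exists_pow_p_eq (p := p) c
    simpa using h.exists_comm_det_pow (Multiset.mem_map_of_mem _ he) b

omit hr hp [CharP F p] in
theorem cj_of_two [CharP F 2] [Nontrivial V] {μ : Multiset ℕ} {a : F}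
    (h : HasType f (jordan a μ)) (h0 : ∀ e ∈ μ, 0 < e ∧ e ≤ 2) (hg : HP g) (hc : Conj g f) :
    CjIn (SLV F V) HP f := by
  obtain ⟨e, he⟩ := Multiset.exists_mem_of_ne_zero (s := μ) (by
    rintro rfl; exact finrank_pos.ne' h.finrank_jordan)
  obtain ⟨h1, h2⟩ := h0 e he
  exact cj_of_block (p := 2) h (by interval_cases e <;> simp [he]) hg hc

/-- Every element of order `r` modulo scalars is conjugate into the set `HP`. -/
def El (HP : End F V → Prop) (r : ℕ) : Prop := ∀ f : End F V, LinearMap.det f = 1 →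
  (∃ c : F, f ^ r = c • 1) → (∀ c : F, f ≠ c • 1) → CjIn (SLV F V) HP f

omit [Fintype F] hr in
theorem El.elim (H : El HP r) (hd : LinearMap.det f = 1) {c : F} (h : f ^ r = c • 1)
    (hs : ∀ c : F, f ≠ c • 1) : ∃ g, HP g ∧ Conj g f ∧ g ^ r = c • 1 :=
  let ⟨g, h1, h2⟩ := (H f hd ⟨c, h⟩ hs).conj; ⟨g, h1, h2, (h2.symm.pow r).eq_smul_one h⟩

omit [Fintype F] hr in
theorem El.elim_one (H : El HP r) (hd : LinearMap.det f = 1) (h : f ^ r = 1)
    (hs : ∀ c : F, f ≠ c • 1) : ∃ g, HP g ∧ Conj g f ∧ g ^ r = 1 := by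
  simpa using H.elim hd (c := 1) (by simpa using h) hs

omit hr in
theorem El.unip (H : El HP p) {μ : Multiset ℕ} (h1 : ∀ e ∈ μ, e ≤ p) (hn : μ.sum = finrank F V)
    {e : ℕ} (he : e ∈ μ) (h2 : 2 ≤ e) : ∃ g, HP g ∧ HasType g (jordan 1 μ) ∧ g ^ p = 1 :=
  let ⟨_, a1, a2, a3⟩ := Unip.exists_unipotent (F := F) h1 hn
  let ⟨g, b1, b2, b3⟩ := H.elim_one a2 a3 (Unip.not_scalar_of_jordan a1 he h2)
  ⟨g, b1, a1.of_conj b2, b3⟩

omit hr in
theorem El.transv (H : El HP p) (h2 : 2 ≤ finrank F V) :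
    ∃ g, HP g ∧ g ^ p = 1 ∧ ed g 1 + 1 = finrank F V := by
  obtain ⟨g, a1, a2, a3⟩ := H.unip (μ := 2 ::ₘ Multiset.replicate (finrank F V - 2) 1)
    (fun e he => by
      have := hp.out.two_le
      rcases Multiset.mem_cons.1 he with rfl | he
      exacts [this, by rw [Multiset.eq_of_mem_replicate he]; omega])
    (by simp; omega) (Multiset.mem_cons_self _ _) le_rfl
  have := a2.finrank_ker_jordan 1
  refine ⟨g, a1, a3, ?_⟩
  rw [pow_one] at this
  simp [ed, this]; omega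

theorem El.fixed (H : El HP r) (hq : Fintype.card F = q) (hrp : r ≠ p) (h1 : ¬ r ∣ q - 1)
    {s : ℕ} (hs : s ≠ 0) (hn : orderOf (q : ZMod r) * s ≤ finrank F V) :
    ∃ g, HP g ∧ g ^ r = 1 ∧ finrank F (Dx r g) = orderOf (q : ZMod r) * s := by
  have h2 := orderOf_pos' hq hrp
  have h3 := (orderOf_eq_one_iff' (r := r) (one_le_two.trans (two_le_q hq))).not.2 h1
  obtain ⟨f, a1, a2, a3, a4⟩ := exists_fixed_dim (V := V) hq hrp (by omega) hs
    (Nat.sub_add_cancel hn).symm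
  obtain ⟨g, b1, b2, b3⟩ := H.elim_one a1 a2 a3
  have b4 := finrank_cd_top hrp b3
  rw [← ed_one, ed_conj b2, ed_one, a4] at b4
  exact ⟨g, b1, b3, by omega⟩

omit hr in
theorem even_Dx [Nontrivial V] (hq : Fintype.card F = q) (hp2 : 2 ≠ p) {b : F}
    (hd : LinearMap.det f = 1) (h : (b • f) ^ 2 = 1)
    (hv : padicValNat 2 (q - 1) ≤ padicValNat 2 (finrank F V)) :
    Even (finrank F (Dx 2 (b • f))) := by
  by_contra e
  have h1 := FInvol.det_of_invol hp2 h
  rw [(Nat.not_even_iff_odd.1 e).neg_one_pow, LinearMap.det_smul, hd, mul_one] at h1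
  exact absurd (lt_of_pow_eq_root hq (r := 2) (by simp) (FUni.neg_one_ne_one' hp2)
    finrank_pos.ne' h1) (by omega)

omit hr in
theorem El.refl (H : El HP 2) (hP : ∀ (f : End F V) (b : F), b ≠ 0 → HP f → HP (b • f))
    (hq : Fintype.card F = q) (hp2 : 2 ≠ p) (h2 : 2 ≤ finrank F V)
    (hv : padicValNat 2 (finrank F V) < padicValNat 2 (q - 1)) :
    ∃ g, HP g ∧ g ^ 2 = 1 ∧ ed g (-1) = 1 ∧ ed g 1 + 1 = finrank F V := by
  classical
  have h1 := FUni.neg_one_ne_one' (F := F) hp2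
  obtain ⟨f, b, a0, a1, a2, a3, a4⟩ := exists_famA (V := V) (r := 2) hq (ω := -1) (by simp) h1 h2 hv
  obtain ⟨g, b1, b2, b3⟩ := H.elim a1 a2 a3
  have b4 : ∀ θ, ed (b⁻¹ • g) θ = ed f (b * θ) := fun θ => by
    rw [← ed_conj b2, ← ed_smul (inv_ne_zero a0) g, inv_mul_cancel_left₀ a0]
  refine ⟨b⁻¹ • g, hP _ _ (inv_ne_zero a0) b1, inv_smul_pow_eq_one a0 rfl b3, ?_, ?_⟩
  · rw [b4, a4]; simp [Multiset.count_replicate, h1.symm]
  · rw [b4, a4]; simp [h1.symm]; omega

theorem el_of [Nontrivial V] (hrp : r ≠ p)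
    (hP : ∀ (f : End F V) (b : F), b ≠ 0 → HP f → HP (b • f))
    (h1 : ∀ (f : End F V) (b : F), b ≠ 0 → LinearMap.det f = 1 → (b • f) ^ r = 1 →
      (∀ c : F, b • f ≠ c • 1) → ∃ g, HP g ∧ Conj g (b • f))
    (h2 : ∀ (f : End F V) (c : F), LinearMap.det f = 1 → f ^ r = c • 1 → (∀ b : F, b ^ r ≠ c) →
      ∃ g, HP g ∧ g ^ r = c • 1) : El HP r := by
  rintro f hd ⟨c, h⟩ hs
  rcases Subsp.dichotomy rfl hrp (scalar_ne_zero (by simp [hd]) h) h with
    ⟨a1, -⟩ | ⟨b, a1, -, a2, -⟩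
  · obtain ⟨g, b1, b2⟩ := h2 f c hd h a1
    exact cj_of_ne hrp (by simp [hd]) h b1 (conj_of_not_pow a1 b2 h rfl)
  · obtain ⟨g, b1, b2⟩ := h1 f _ (inv_ne_zero a1) hd a2 fun c e => hs (b * c)
      (by rw [mul_smul, ← e, smul_inv_smul₀ a1])
    exact CjIn.of_smul hP f _ (inv_ne_zero a1) (cj_of_ne hrp (by simp [hd, a1]) (c := 1)
      (by simpa using a2) b1 b2)

omit hr in
theorem el_two [Nontrivial V] (hp2 : 2 ≠ p)
    (hP : ∀ (f : End F V) (b : F), b ≠ 0 → HP f → HP (b • f))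
    (h1 : ∀ (f : End F V) (b : F), b ≠ 0 → LinearMap.det f = 1 → (b • f) ^ 2 = 1 →
      (∀ c : F, b • f ≠ c • 1) →
      ∃ g, HP g ∧ g ^ 2 = 1 ∧ finrank F (Dx 2 g) = finrank F (Dx 2 (b • f)))
    (h2 : ∀ (f : End F V) (c : F), LinearMap.det f = 1 → f ^ 2 = c • 1 → (∀ b : F, b ^ 2 ≠ c) →
      ∃ g, HP g ∧ g ^ 2 = c • 1) : El HP 2 :=
  el_of hp2 hP (fun f b a1 a2 a3 a4 => let ⟨g, b1, b2, b3⟩ := h1 f b a1 a2 a3 a4
    ⟨g, b1, conj_of_invol hp2 b2 a3 rfl b3⟩) h2

omit hr hp [CharP F p] in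
theorem el_char_two [CharP F 2] [Nontrivial V]
    (hP : ∀ (f : End F V) (b : F), b ≠ 0 → HP f → HP (b • f))
    (h1 : ∀ μ : Multiset ℕ, (∀ e ∈ μ, 0 < e ∧ e ≤ 2) → μ.sum = finrank F V → 2 ∈ μ →
      ∃ g, HP g ∧ HasType g (jordan 1 μ)) : El HP 2 := by
  rintro f hd ⟨c, h⟩ hs
  obtain ⟨b, μ, a1, a2, a3⟩ := exists_unip_type (by simp [hd]) h
  obtain ⟨g, b1, b2⟩ := h1 μ a2 a3.finrank_jordan.symm (by
    by_contra e
    have := (a3.pow_eq_zero_iff_jordan 1).2 fun k hk => by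
      have := a2 k hk
      have : k ≠ 2 := fun e' => e (e' ▸ hk)
      omega
    rw [pow_one, sub_eq_zero] at this
    exact hs b⁻¹ (by rw [← inv_smul_smul₀ a1 f, this, one_smul]))
  exact CjIn.of_smul hP f b a1 (cj_of_two a3 a2 b1 (b2.conj a3))

end finite

end Cfsg.Agent.H9.Der
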