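import Cfsg.Agent.H9.Sim

/-! Elements of prime order of isometry groups up to conjugacy in the isometry group. -/

set_option autoImplicit false
set_option linter.unusedSectionVars false

namespace Cfsg.Agent.H9.EIs

open Module Polynomial Cfsg.Agent.Form Cfsg.Agent.Form.PQ Cfsg.Agent.H9.FIdx
open Cfsg.Agent.H9.FClass Cfsg.Agent.H9.FOrd Cfsg.Agent.H9.Types Cfsg.Agent.H9.FInv
open Cfsg.Agent.H9.FSS Cfsg.Agent.H9.FAdapt Cfsg.Agent.H9.FInvol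
open Cfsg.Agent.H9.FUnip Cfsg.Agent.H9.FNum Cfsg.Agent.H9.Cj Cfsg.Agent.H9.Der
open Cfsg.Agent.H9.Glue Cfsg.Agent.H9.FSemi

universe u v

variable {F : Type u} [Field F] {P : FP F} {V : Type v} [AddCommGroup V] [Module F V]
  {S : PQ P V} {f g : End F V} {K : Subgroup (V ≃ₗ[F] V)} {HP : End F V → Prop} {r : ℕ}

/-- Every element of order `r` modulo scalars is conjugate to one with the property `HP`. -/
def EI (K : Subgroup (V ≃ₗ[F] V)) (HP : End F V → Prop) (r : ℕ) : Prop :=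
  ∀ f, (∃ g ∈ K, (g : End F V) = f) → (∃ c : F, f ^ r = c • 1) → (∀ c : F, f ≠ c • 1) →
    CjIn K HP f

theorem EI.elim (H : EI K HP r) (hK : K ≤ S.isom) (hf : ∃ g ∈ K, (g : End F V) = f)
    (h : f ^ r = 1) (hs : ∀ c : F, f ≠ c • 1) :
    ∃ g, HP g ∧ S.IsIso S g ∧ g ^ r = 1 ∧ Conj g f := by
  obtain ⟨e, a1, g, a2, a3⟩ := H f hf ⟨1, by simpa using h⟩ hs
  obtain ⟨k, a4, rfl⟩ := hf
  have a5 : Conj g k := ⟨e, a3⟩
  refine ⟨g, a2, ?_, by simpa using (a5.symm.pow r).eq_smul_one (c := 1) (by simpa using h), a5⟩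
  rw [show ⇑g = ⇑(e⁻¹ * (k * e)) from _root_.funext fun x => e.eq_symm_apply.2 (a3 x)]
  exact hK (mul_mem (inv_mem a1) (mul_mem a4 a1))

theorem cjIn_of (hg : HP g) (h : ∃ e ∈ K, ∀ x, e (g x) = f (e x)) : CjIn K HP f :=
  let ⟨e, a1, a2⟩ := h; ⟨e, a1, g, hg, a2⟩

theorem CjIn.mono {A : End F V → Prop} (h : CjIn K A f) (hA : ∀ g, A g → HP g) : CjIn K HP f :=
  let ⟨e, a1, g, a2, a3⟩ := h; ⟨e, a1, g, hA g a2, a3⟩

theorem mul_card_dvd {Γ : Type*} [Group Γ] [Finite Γ] {L K : Subgroup Γ} (h : L ≤ K)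
    (hr : r ∣ L.relIndex K) : Nat.card L * r ∣ Nat.card K :=
  card_mul_relIndex h ▸ Nat.mul_dvd_mul_left _ hr

variable [FiniteDimensional F V] {p q : ℕ} [hp : Fact p.Prime] [CharP F p]

theorem EI.transv {S : PQ (FP.symp F) V} [Nontrivial V] (hS : S.Nondeg) (H : EI S.isom HP p) :
    ∃ g, HP g ∧ ed g 1 + 1 = finrank F V := by
  obtain ⟨d, hd⟩ := exists_ne (0 : V)
  obtain ⟨f, a1, -, a2, a3, a4⟩ := FPair.tau_data p hS (d := d) trivial hd (c := 1) trivial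
    one_ne_zero
  obtain ⟨g, b1, -, -, b2⟩ := H.elim le_rfl ((isIso_iff_exists hS f).1 a1) a2
    (not_scalar_of_unip a2 a3)
  refine ⟨g, b1, ?_⟩
  rw [ed_conj b2, ed_one, show Cx f = S.perp (F ∙ d) from Submodule.ext fun x => by
    simp [a4, hd, S.mem_perp_span_singleton], ← hS.finrank_perp (F ∙ d),
    finrank_span_singleton hd, add_comm]

theorem EI.invol (hp2 : 2 ≠ p) (hS : S.Nondeg) (H : EI S.isom HP 2) {U : Submodule F V}
    (hU : S.NondegOn U) (h0 : 0 < finrank F U) (h1 : finrank F U < finrank F V) :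
    ∃ g, HP g ∧ S.IsIso S g ∧ g ^ 2 = 1 ∧ finrank F (Dx 2 g) = finrank F U := by
  obtain ⟨f, a1, a2, a3, -⟩ := exists_invol hp2 hS hU
  have a4 := finrank_cd_top hp2 a2
  obtain ⟨g, b1, b2, b3, b4⟩ := H.elim le_rfl ((isIso_iff_exists hS f).1 a1) a2
    (not_scalar_of_invol hp2 (FSpin.ne_bot_of (by rw [a3] at a4; omega))
      (FSpin.ne_bot_of (by rw [a3]; omega)))
  exact ⟨g, b1, b2, b3, by rw [(b4.aeval _).finrank_ker, ← a3]⟩

theorem EI.blk [Fintype F] [Nontrivial V] [hr : Fact r.Prime] (H : EI K HP r) (hK : K ≤ S.isom)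
    (hA : ∀ f : End F V, S.IsIso S f → f ^ r = 1 → ∃ g ∈ K, (g : End F V) = f)
    (hσ : ∀ a, P.σ a = a) (hS : S.Nondeg) {c s : ℕ} {R : ℕ → Prop} (hM : Models S q r c R)
    (hb : Blk P q r p c) (hq : Fintype.card F = q) (hrp : r ≠ p) (hr2 : r ≠ 2) (h0 : 0 < s)
    (hs : R s) : ∃ g, HP g ∧ S.IsIso S g ∧ g ^ r = 1 ∧ finrank F (Dx r g) = c * s := by
  obtain ⟨f, a1, a2, a3, a4⟩ := hM.exists hb hq hrp hr2 h0 hs
  obtain ⟨g, b1, b2, b3, b4⟩ := H.elim hK (hA f a1 a2) a2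
    (not_scalar_of_odd hσ hS a1 (hr.out.odd_of_ne_two hr2) a2 a3)
  exact ⟨g, b1, b2, b3, by rw [(b4.aeval _).finrank_ker, a4]⟩

theorem EI.blk_symp [Fintype F] [Nontrivial V] [hr : Fact r.Prime] {S : PQ (FP.symp F) V}
    (H : EI S.isom HP r) (hS : S.Nondeg) (hq : Fintype.card F = q) (hrp : r ≠ p) (hr2 : r ≠ 2)
    {j : ℕ} (h0 : 0 < j) (hj : 2 * j ≤ finrank F V) (h : r ∣ (q ^ 2) ^ j - 1) :
    ∃ g, HP g ∧ S.IsIso S g ∧ g ^ r = 1 ∧ finrank F (Dx r g) = 2 * j := by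
  obtain ⟨a, ha⟩ := of_dvd_sq_sub (one_le_two.trans (Arith.two_le_q hq)) rfl rfl h
  rw [ha] at hj ⊢
  exact H.blk le_rfl (fun f a _ => (isIso_iff_exists hS f).1 a) (fun _ => rfl) hS
    (models_symp hq hrp hS) (blk_id hq hrp hr2 (fun _ => rfl) rfl rfl) hq hrp hr2
    (Nat.pos_of_ne_zero (by rintro rfl; omega)) hj

theorem invol_dim (hp2 : 2 ≠ p) (h : f ^ 2 = 1) (hs : ∀ c : F, f ≠ c • 1) :
    0 < finrank F (Dx 2 f) ∧ finrank F (Dx 2 f) < finrank F V := by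
  have := finrank_cd_top hp2 h
  have := Submodule.finrank_eq_zero.not.2 (Dx_ne_bot hp2 h (by simpa using hs 1))
  have := Submodule.finrank_eq_zero.not.2 (Cx_ne_bot_of_invol hp2 h (hs _))
  omega

theorem ei_two_symp [Finite F] [Nontrivial V] {S : PQ (FP.symp F) V} (hp2 : 2 ≠ p) (hS : S.Nondeg)
    (h1 : ∀ m, 0 < m → 2 * m < finrank F V →
      ∃ g, HP g ∧ S.IsIso S g ∧ g ^ 2 = 1 ∧ finrank F (Dx 2 g) = 2 * m)
    (h2 : ∃ g, HP g ∧ S.IsIso S g ∧ g ^ 2 = (-1 : F) • 1) : EI S.isom HP 2 := by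
  rintro f hf ⟨c, a1⟩ a2
  have a3 := (isIso_iff_exists hS f).2 hf
  rcases sq_cases (fun _ => rfl) hS a3 a1 with a4 | a4
  · have a5 := nondegOn_Dx hp2 hS a3 a4
    have a6 := even_finrank_symp a5
    have a7 := invol_dim hp2 a4 a2
    obtain ⟨g, b1, b2, b3, b4⟩ := h1 (widx S (Dx 2 f)) (by omega) (by omega)
    exact cjIn_of b1 (conj_invol hp2 hS b2 a3 b3 a4
      (isometric_of_trP H7.trP_symp (nondegOn_Dx hp2 hS b2 b3) a5 (by omega)))
  · obtain ⟨g, b1, b2, b3⟩ := h2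
    exact cjIn_of b1 (conj_skew_symp (two_ne_zero' hp2) hS (by simp) (skew_of_neg b2 b3)
      (skew_of_neg a3 a4))

omit hp [CharP F p] in
theorem exists_dvd_symp [Fintype F] [hr : Fact r.Prime] {S : PQ (FP.symp F) V} (hS : S.Nondeg)
    (hq : Fintype.card F = q) (hrq : ¬ r ∣ q) {L : Subgroup (V ≃ₗ[F] V)} (hL : L ≤ S.isom)
    (h : r ∣ L.relIndex S.isom) {d B D : ℕ} (hd : finrank F V = 2 * d) (hB : 0 < B)
    (h1 : B ∣ Nat.card L) (h2 : Count.P (q ^ 2) d = B * D) : r ∣ D := by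
  have := Imprim.finite_linearEquiv (F := F) (V := V)
  have h3 := (Nat.mul_dvd_mul_right h1 r).trans (mul_card_dvd hL h)
  rw [card_isom_symp hq d hS hd, h2, mul_left_comm] at h3
  exact (hr.out.dvd_mul.1 (Nat.dvd_of_mul_dvd_mul_left hB h3)).resolve_left fun e =>
    hrq (hr.out.dvd_of_dvd_pow e)

end Cfsg.Agent.H9.EIs
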