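import Cfsg.Agent.H9.Der

/-! Endomorphisms that are semilinear over an extension field. -/

set_option autoImplicit false
set_option linter.unusedSectionVars false

namespace Cfsg.Agent.H9.Ext

open Module Polynomial Cfsg.Agent.H9.Types Cfsg.Agent.H9.Arith Cfsg.Agent.H9.OrdR
open Cfsg.Agent.H9.FSS Cfsg.Agent.H9.Cj Cfsg.Agent.H9.Der
open scoped Matrix

universe u v w

variable {F : Type u} [Field F] {K : Type w} [Field K] [Algebra F K] {V : Type v} [AddCommGroup V]
  [Module F V] [Module K V] [IsScalarTower F K V] {f g : End F V}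

variable (K) in
/-- Semilinear over `K`. -/
def KS (f : End F V) : Prop := ∀ k : K, ∃ k' : K, ∀ v, f (k • v) = k' • f v

variable (K) in
/-- Linear over `K`. -/
def KL (f : End F V) : Prop := ∀ (k : K) v, f (k • v) = k • f v

theorem KL.ks (h : KL K f) : KS K f := fun k => ⟨k, h k⟩

theorem KS.smul (f : End F V) (b : F) (_ : b ≠ 0) (h : KS K f) : KS K (b • f) := fun k =>
  let ⟨k', e⟩ := h k; ⟨k', fun v => by simp [e, smul_comm b k']⟩

theorem kl_res (g : End K V) : KL K (g.restrictScalars F) := fun k v => g.map_smul k v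

/-- A `K`-linear endomorphism as an endomorphism over `K`. -/
def KL.lift (h : KL K f) : End K V where
  toFun := f
  map_add' := f.map_add
  map_smul' := h

theorem KL.exists (h : KL K f) : ∃ g : End K V, g.restrictScalars F = f := ⟨h.lift, rfl⟩

theorem res_pow (g : End K V) (k : ℕ) :
    (g.restrictScalars F ^ k : End F V) = (g ^ k).restrictScalars F :=
  LinearMap.ext fun x => by simp [End.pow_apply]

theorem res_pow_eq_one {g : End K V} {k : ℕ} :
    (g.restrictScalars F ^ k : End F V) = 1 ↔ g ^ k = 1 := by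
  rw [res_pow]; exact ⟨fun h => LinearMap.ext fun x => LinearMap.congr_fun h x, fun h => h ▸ rfl⟩

theorem aeval_res (g : End K V) (P : F[X]) (x : V) :
    aeval (g.restrictScalars F : End F V) P x = aeval g (P.map (algebraMap F K)) x := by
  induction P using Polynomial.induction_on' with
  | add p q a b => simp [a, b]
  | monomial n a => simp [aeval_monomial, res_pow]

theorem ker_aeval_res (g : End K V) (P : F[X]) : LinearMap.ker (aeval (g.restrictScalars F :
    End F V) P) = (LinearMap.ker (aeval g (P.map (algebraMap F K)))).restrictScalars F :=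
  Submodule.ext fun x => by simp [aeval_res]

theorem Dx_res (g : End K V) (r : ℕ) :
    Dx r (g.restrictScalars F : End F V) = (Dx r g).restrictScalars F := by
  rw [Dx, ker_aeval_res, map_cyclotomic]

theorem finrank_res (W : Submodule K V) :
    finrank F (W.restrictScalars F) = finrank F K * finrank K W :=
  (Module.finrank_mul_finrank F K W).symm

theorem KL.dvd (h : KL K f) (P : F[X]) : finrank F K ∣ finrank F (LinearMap.ker (aeval f P)) := by
  obtain ⟨g, rfl⟩ := h.exists
  rw [ker_aeval_res, finrank_res]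
  exact dvd_mul_right _ _

theorem KS.cases (h : KS K f) : KL K f ∨ ∃ k k' : K, k ≠ k' ∧ ∀ v, f (k • v) = k' • f v := by
  by_contra! H
  refine H.1 fun k v => ?_
  obtain ⟨k', e⟩ := h k
  by_cases e' : k = k'
  · rw [e, e']
  · obtain ⟨v, hv⟩ := H.2 k k' e'
    exact (hv (e v)).elim

/-- Multiplication by an element of `K`. -/
def mulK (V : Type v) [AddCommGroup V] [Module F V] [Module K V] [IsScalarTower F K V] (k : K) :
    End F V := (k • (1 : End K V)).restrictScalars F

@[simp] theorem mulK_apply (k : K) (v : V) : mulK (F := F) V k v = k • v := rfl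

theorem kl_mulK (k : K) : KL K (mulK (F := F) V k) := kl_res _

variable [FiniteDimensional F V]

theorem two_mul_ed_le {k k' : K} (h : k ≠ k') (e : ∀ v, f (k • v) = k' • f v) {θ : F}
    (h0 : θ ≠ 0) : 2 * ed f θ ≤ finrank F V := by
  have := LinearMap.finrank_le_finrank_of_injective (f := (LinearMap.ker (f - θ • 1)).subtype.coprod
    (mulK V k ∘ₗ (LinearMap.ker (f - θ • 1)).subtype)) (by
      rw [injective_iff_map_eq_zero]
      rintro ⟨⟨x, hx⟩, ⟨y, hy⟩⟩ (h1 : x + k • y = 0)
      have a1 : f x = θ • x := by simpa [sub_eq_zero] using hx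
      have a2 : f y = θ • y := by simpa [sub_eq_zero] using hy
      have a3 := congrArg f h1
      rw [map_add, e, a1, a2, map_zero, smul_comm, ← smul_add, smul_eq_zero_iff_right h0] at a3
      obtain rfl : y = 0 := (smul_eq_zero_iff_right (sub_ne_zero.2 h)).1 (by
        rw [sub_smul, sub_eq_zero]; exact add_left_cancel (h1.trans a3.symm))
      simpa using h1)
  rwa [finrank_prod, ← two_mul] at this

theorem KS.ed_cases (h : KS K f) {θ : F} (h0 : θ ≠ 0) :
    finrank F K ∣ ed f θ ∨ 2 * ed f θ ≤ finrank F V :=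
  h.cases.imp (fun h => ed_aeval f θ ▸ h.dvd _) fun ⟨_, _, h1, h2⟩ => two_mul_ed_le h1 h2 h0

theorem exists_invol_dim (h2 : (2 : F) ≠ 0) {m : ℕ} (hm : m ≤ finrank F V) :
    ∃ g : End F V, g ^ 2 = 1 ∧ finrank F (Dx 2 g) = m := by
  classical
  obtain ⟨g, h⟩ := exists_hasType (V := V) ((Multiset.replicate m (-1 : F) +
    Multiset.replicate (finrank F V - m) 1).map fun a => X - C a) (fun g hg => by
    obtain ⟨a, -, rfl⟩ := Multiset.mem_map.1 hg; exact monic_X_sub_C a) (by
      rw [Multiset.map_map]; simp [hm])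
  refine ⟨g, by
    simpa using pow_of_roots h (r := 2) (c := 1) fun a ha => by
      rcases Multiset.mem_add.1 ha with ha | ha <;> simp [Multiset.eq_of_mem_replicate ha], ?_⟩
  have : (1 : F) ≠ -1 := fun e => h2 (by linear_combination e)
  simp [← ed_neg_one, ed_of_roots h, Multiset.count_replicate, this]

variable [FiniteDimensional F K] [Fintype F] {q r p : ℕ}

theorem KS.eq_of_pow [Nontrivial V] (hk : (finrank F K).Prime) (hr : r.Prime) (h : KS K f)
    (h1 : f ^ r = 1) : KL K f ∨ r = finrank F K := by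
  have := Module.finite_of_finite F (M := K)
  obtain ⟨v, hv⟩ := exists_ne (0 : V)
  have h2 : f v ≠ 0 := (map_ne_zero_iff f (bijective_of_pow_eq hr.ne_zero one_ne_zero
    (by simpa using h1)).1).2 hv
  choose τ hτ using h
  have h3 : ∀ k k', f (k • v) = k' • f v → τ k = k' := fun k k' e =>
    smul_left_injective K h2 ((hτ k v).symm.trans e)
  let σ : K →ₐ[F] K :=
    { toFun := τ
      map_one' := h3 _ _ (by simp)
      map_mul' := fun a b => h3 _ _ (by simp [mul_smul, hτ])
      map_zero' := h3 _ _ (by simp)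
      map_add' := fun a b => h3 _ _ (by simp [add_smul, hτ])
      commutes' := fun a => h3 _ _ (by simp) }
  have h4 : ∀ n k x, (f ^ n) (k • x) = (σ ^ n) k • (f ^ n) x := fun n => by
    induction n with
    | zero => simp
    | succ n ih => intro k x; simp [pow_succ', ih, hτ, σ]
  have h5 : σ ^ r = 1 := AlgHom.ext fun k => smul_left_injective K hv
    (by simpa [h1] using (h4 r k v).symm)
  obtain ⟨j, (hj : _ ^ j.1 = σ)⟩ := (FiniteField.bijective_frobeniusAlgHom_pow F K).2 σ
  rw [← hj, ← pow_mul, ← orderOf_dvd_iff_pow_eq_one, FiniteField.orderOf_frobeniusAlgHom] at h5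
  refine (hk.dvd_mul.1 h5).imp (fun e k x => ?_) fun e =>
    ((Nat.prime_dvd_prime_iff_eq hk hr).1 e).symm
  rw [Nat.eq_zero_of_dvd_of_lt e j.2, pow_zero] at hj
  rw [hτ, show τ k = σ k from rfl, ← hj]; rfl

theorem exists_frob (h : finrank F V = finrank F K) (h1 : 1 < finrank F K) : ∃ σ : End F V,
    KS K σ ∧ σ ^ finrank F K = 1 ∧ σ.charpoly = X ^ finrank F K - 1 ∧ ∀ c : F, σ ≠ c • 1 := by
  have := Module.finite_of_finite F (M := K)
  have : FiniteDimensional K V := Module.Finite.right F K V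
  have h2 := Module.finrank_mul_finrank F K V
  let e := (LinearEquiv.ofFinrankEq (R := K) K V (by
    rw [finrank_self]; exact Nat.eq_of_mul_eq_mul_left (by omega : 0 < finrank F K) (by omega)))
  let φ : End F K := (FiniteField.frobeniusAlgHom F K).toLinearMap
  have h3 : minpoly F φ = _ := FiniteField.minpoly_frobeniusAlgHom F K
  have h4 : Conj φ ((e.restrictScalars F).conj φ) := ⟨e.restrictScalars F, fun x => by simp⟩
  have h5 : (X ^ finrank F K - 1 : F[X]).natDegree = finrank F K := natDegree_X_pow_sub_C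
  refine ⟨(e.restrictScalars F).conj φ, fun k => ⟨k ^ Fintype.card F, fun v => ?_⟩, ?_, ?_, fun c hc => ?_⟩
  · change e (e.symm (k • v) ^ _) = _ • e (e.symm v ^ _)
    rw [map_smul, smul_eq_mul, mul_pow, ← smul_eq_mul, map_smul]
  · simpa using (h4.pow _).eq_smul_one (c := 1) (by
      simpa using (aeval_X_pow_sub_one_eq_zero_iff φ _).1 (h3 ▸ minpoly.aeval F φ))
  · rw [← h4.charpoly]
    exact eq_of_monic_of_dvd_of_natDegree_le (monic_X_pow_sub_C 1 (by omega)) φ.charpoly_monic
      (h3 ▸ φ.minpoly_dvd_charpoly) (by rw [φ.charpoly_natDegree]; exact h5.ge)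
  · have := natDegree_le_of_dvd (h3 ▸ minpoly.dvd F φ (p := X - C c) (by
      simp [h4.symm.eq_smul_one hc, Algebra.algebraMap_eq_smul_one])) (X_sub_C_ne_zero c)
    rw [h5, natDegree_X_sub_C] at this
    omega

theorem card_ext (hq : Fintype.card F = q) [Fintype K] : Fintype.card K = q ^ finrank F K :=
  hq ▸ Module.card_eq_pow_finrank

theorem exists_sqrt (hq : Fintype.card F = q) (ho : q % 2 = 1) (hk : finrank F K = 2) {c : F}
    (hc : c ≠ 0) : ∃ k : K, k ^ 2 = algebraMap F K c := by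
  have := Module.finite_of_finite F (M := K)
  have := Fintype.ofFinite K
  have h1 := two_le_q hq
  obtain ⟨b, -, h⟩ := exists_pow_eq_of_pow_eq_one (r := 2) (card_ext (K := K) hq)
    (c := algebraMap F K c) (k := q - 1) (by omega) (by rw [← map_pow, pow_q_sub_one hq hc, map_one])
    (by
      rw [hk, FUni.sq_sub_one, padicValNat.mul (by omega) (by omega)]
      have := one_le_padicValNat_of_dvd (p := 2) (n := q + 1) (by omega) (by omega)
      omega)
  exact ⟨b, h⟩

theorem exists_kl_sq (hq : Fintype.card F = q) (ho : q % 2 = 1) (hk : finrank F K = 2) {c : F}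
    (hc : c ≠ 0) : ∃ g : End F V, KS K g ∧ g ^ 2 = c • 1 :=
  let ⟨k, h⟩ := exists_sqrt hq ho hk hc
  ⟨_, (kl_mulK k).ks, LinearMap.ext fun v => by simp [sq, ← mul_smul, ← sq k, h]⟩

theorem exists_kl_invol (h2 : (2 : F) ≠ 0) {m : ℕ} (hm : finrank F K * m ≤ finrank F V) :
    ∃ g : End F V, KS K g ∧ g ^ 2 = 1 ∧ finrank F (Dx 2 g) = finrank F K * m := by
  have : FiniteDimensional K V := Module.Finite.right F K V
  obtain ⟨g, h1, h3⟩ := exists_invol_dim (F := K) (V := V) (m := m)
    (by rw [← map_ofNat (algebraMap F K)]; exact (_root_.map_ne_zero _).2 h2) (Nat.le_of_mul_le_mul_left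
      (hm.trans (Module.finrank_mul_finrank F K V).ge) finrank_pos)
  exact ⟨_, (kl_res g).ks, res_pow_eq_one.2 h1, by rw [Dx_res, finrank_res, h3]⟩

variable [hr : Fact r.Prime] [hp : Fact p.Prime] [CharP F p]

theorem el_singer (hq : Fintype.card F = q) (hrp : r ≠ p) (hr2 : r ≠ 2)
    (hi : orderOf (q : ZMod r) = r - 1) (hn : finrank F V = r) (hk : finrank F K = r) :
    El (F := F) (V := V) (KS K) r := by
  have h3 := hr.out.two_le
  have : Nontrivial V := nontrivial_of_finrank_pos (R := F) (by omega)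
  have key : ∀ g : End F V, g ^ r = 1 → (∀ c : F, g ≠ c • 1) → finrank F (Cx g) = 1 :=
    fun g a1 a2 => by
      have b1 := finrank_cd_top hrp a1
      obtain ⟨s, b2⟩ := dvd_finrank_of_le_Dx hq hrp (inv_Dx (f := g) r) le_rfl
      have b3 := Submodule.finrank_eq_zero.not.2 (Dx_ne_bot hrp a1 (by simpa using a2 1))
      rw [hi] at b2
      rcases s with _ | _ | s
      · omega
      · omega
      · have : (r - 1) * (s + 1 + 1) = (r - 1) * s + 2 * (r - 1) := by ring
        omega
  obtain ⟨σ, a1, a2, -, a3⟩ := exists_frob (F := F) (V := V) (hn.trans hk.symm) (by omega)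
  rw [hk] at a2
  refine el_of hrp KS.smul (fun f b _ _ b1 b2 => ⟨σ, a1, conj_of_Cx hq hrp hi a2 b1 rfl
    (by rw [key _ a2 a3, key _ b1 b2])⟩) fun f c b1 b2 b3 => ?_
  obtain ⟨b, -, e⟩ := exists_pow_eq_of_not_dvd hq (r := r) (by
    rw [← orderOf_eq_one_iff' (by have := two_le_q hq; omega)]; omega)
    (scalar_ne_zero (by simp [b1]) b2)
  exact (b3 b e).elim

end Cfsg.Agent.H9.Ext

namespace Cfsg.Agent.H9.Ext

open Module Cfsg.Agent.H9.Der Cfsg.Agent.H9.Arith
open scoped Matrix

universe u v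

variable {F : Type u} [Field F]

theorem exists_ext {ι : Type} [Fintype ι] [DecidableEq ι] [Nonempty ι] {k : ℕ}
    {A : Subalgebra F (Matrix ι ι F)} (hA : Geo.IsFieldSubalgebra k A) :
    ∃ (K : Type u) (_ : Field K) (_ : Algebra F K) (_ : Module K (ι → F))
      (_ : IsScalarTower F K (ι → F)) (_ : FiniteDimensional F K), finrank F K = k ∧
      (∀ x : GL ι F, x ∈ Geo.subalgebraNormalizer A ↔ KS K (Matrix.toLin' (x : Matrix ι ι F))) ∧
      (∀ c : K, ∃ a ∈ A, ∀ v : ι → F, c • v = a *ᵥ v) ∧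
      ∀ a ∈ A, ∃ c : K, ∀ v : ι → F, c • v = a *ᵥ v := by
  let _ : Field A := IsField.toField
    { exists_pair_ne := ⟨0, 1, zero_ne_one⟩
      mul_comm := fun a b => Subtype.ext (hA.comm a a.2 b b.2)
      mul_inv_cancel := fun {a} ha =>
        let ⟨y, hy, h⟩ := hA.inv a a.2 fun h => ha (Subtype.ext h); ⟨⟨y, hy⟩, Subtype.ext h⟩ }
  let inst : Module A (ι → F) :=
    Module.compHom _ ((Matrix.toLinAlgEquiv' (R := F)).toRingHom.comp A.val.toRingHom)
  refine ⟨A, inferInstance, inferInstance, inst, ⟨fun c k v => Matrix.smul_mulVec c k.1 v⟩,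
    inferInstance, hA.finrank_eq, fun x => ⟨fun h k => ⟨⟨_, (h k).1 k.2⟩, fun v => ?_⟩, fun h => ?_⟩,
    fun c => ⟨c, c.2, fun _ => rfl⟩, fun a ha => ⟨⟨a, ha⟩, fun _ => rfl⟩⟩
  · change x.1 *ᵥ (k.1 *ᵥ v) = _ *ᵥ (x.1 *ᵥ v)
    simp [mul_assoc]
  · let φ : Matrix ι ι F ≃ₗ[F] Matrix ι ι F := (x.mulLeftLinearEquiv F _).trans (x⁻¹.mulRightLinearEquiv F)
    have h1 : (Subalgebra.toSubmodule A).map φ.toLinearMap ≤ Subalgebra.toSubmodule A := by
      rintro _ ⟨k, hk, rfl⟩
      obtain ⟨k', e⟩ := h ⟨k, hk⟩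
      refine (?_ : φ k = k'.1) ▸ k'.2
      refine Matrix.toLin'.injective (LinearMap.ext fun v => ?_)
      have : x.1 *ᵥ (k *ᵥ _) = k'.1 *ᵥ (x.1 *ᵥ _) := e (x⁻¹.1 *ᵥ v)
      simpa [φ, ← mul_assoc, mul_assoc k'.1] using this
    have h2 := Submodule.eq_of_le_of_finrank_eq h1 (LinearEquiv.finrank_map_eq _ _)
    intro k
    change k ∈ Subalgebra.toSubmodule A ↔ φ k ∈ Subalgebra.toSubmodule A
    conv_rhs => rw [← h2]
    simp

variable {V : Type v} [AddCommGroup V] [Module F V] [FiniteDimensional F V] [Fintype F] {q r : ℕ}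
  [hr : Fact r.Prime] {HP : End F V → Prop}

theorem el_pair [DecidableEq F] (H : El HP r) {ω : F} (hω : ω ^ r = 1) (h1 : ω ≠ 1)
    (h3 : 3 ≤ finrank F V) : ∃ g, HP g ∧
      ∀ θ, ed g θ = (ω ::ₘ ω⁻¹ ::ₘ Multiset.replicate (finrank F V - 2) 1).count θ := by
  have h0 : ω ≠ 0 := by rintro rfl; simp [hr.out.ne_zero] at hω
  obtain ⟨f, a1, a2, a3, a4⟩ := exists_diag (V := V)
    (ω ::ₘ ω⁻¹ ::ₘ Multiset.replicate (finrank F V - 2) 1) (by simp; omega) (r := r) (c := 1)
    (fun a ha => by
      simp only [Multiset.mem_cons, Multiset.mem_replicate] at ha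
      rcases ha with rfl | rfl | ⟨-, rfl⟩ <;> simp [hω]) (Multiset.mem_cons_self _ _) (a' := 1)
    (by simp only [Multiset.mem_cons, Multiset.mem_replicate]; simp; omega) h1
  obtain ⟨g, b1, b2, -⟩ := H.elim (by simp [a1, h0]) a2 a3
  exact ⟨g, b1, fun θ => by rw [ed_conj b2, a4]⟩

theorem el_famA (H : El HP r) (hq : Fintype.card F = q) (h2 : 2 ≤ finrank F V)
    (hv : padicValNat r (finrank F V) < padicValNat r (q - 1)) :
    ∃ g b, b ≠ 0 ∧ HP g ∧ ed g b + 1 = finrank F V := by
  classical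
  obtain ⟨ω, hω⟩ := exists_root_of_dvd hq (r := r) (dvd_of_one_le_padicValNat (by omega))
  have h1 := hω.ne_one hr.out.one_lt
  obtain ⟨f, b, a0, a1, a2, a3, a4⟩ := exists_famA hq hω.pow_eq_one h1 h2 hv
  obtain ⟨g, b1, b2, -⟩ := H.elim a1 a2 a3
  refine ⟨g, b, a0, b1, ?_⟩
  rw [ed_conj b2, ← mul_one b, a4]
  simp [h1.symm]; omega

end Cfsg.Agent.H9.Ext
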