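import Cfsg.Agent.H9.FInvol

/-! Symplectic and unitary spaces: arithmetic of fixed subspaces, consequences of counts. -/

set_option autoImplicit false
set_option linter.unusedSectionVars false

namespace Cfsg.Agent.H9.FTrP

open Module Polynomial Cfsg.Agent.Form Cfsg.Agent.Form.PQ Cfsg.Agent.H9.FIdx Cfsg.Agent.H9.FCount
open Cfsg.Agent.H9.FClass Cfsg.Agent.H9.FOrd Cfsg.Agent.H9.Types Cfsg.Agent.H9.FInv
open Cfsg.Agent.H9.FSS Cfsg.Agent.H9.FModel Cfsg.Agent.H9.FNum Cfsg.Agent.H9.FAdapt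
open Cfsg.Agent.H9.FSemi Cfsg.Agent.H7

universe u v

theorem arith_ts_nsd {I n m : ℕ} (hI : 0 < I) (hmn : 2 * m ≤ n)
    (hΩ : ∃ a, n < 2 * I * a + 2 * m ∧ 2 * I * a ≤ n) :
    (∀ s, 0 < s → 2 * I * s ≤ n → ∃ j ≤ s, I * j ≤ m ∧ m ≤ I * j + (n - 2 * I * s) / 2) ↔
      I ≤ m ∧ 2 * (m % I) ≤ n % (2 * I) := by
  have := arith_nd (by omega : 0 < 2 * I) hmn hΩ
  rw [Nat.mul_mod_mul_left, Nat.mul_le_mul_left_iff two_pos] at this
  rw [← this]
  refine forall₃_congr fun s _ _ => exists_congr fun j => and_congr_right fun _ => ?_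
  rw [mul_assoc 2 I j]
  omega

theorem arith_ts_sd {I n m t : ℕ} (hI : 0 < I) (ht : 0 < t) (hmn : 2 * m ≤ n)
    (hΩ : ∃ a, n < I * a + 2 * m ∧ I * a ≤ n) :
    (∀ s, 0 < s → I * s ≤ n → ∃ j, (j = 0 ∨ 2 * j + t ≤ s + 1) ∧ I * j ≤ m ∧
      m ≤ I * j + (n - I * s) / 2) ↔
      I ≤ m ∧ 2 * (m % I) ≤ n % I ∧ t + 2 * (m / I) ≤ n / I := by
  obtain ⟨a, h1, h2⟩ := hΩ
  have a1 := Nat.div_add_mod n I
  have a2 := Nat.div_add_mod m I
  have a3 := Nat.mod_lt n hI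
  have a4 := Nat.mod_lt m hI
  have a5 := mul_cmp I a (n / I)
  have a7 := mul_cmp I (m / I) 0
  constructor
  · intro H
    have a6 := mul_cmp I (n / I) 0
    have a8 := mul_cmp I a 0
    obtain ⟨j, b1, b2, b3⟩ := H (n / I) (by omega) (by omega)
    have b4 := mul_cmp I j (m / I)
    have b5 : j = m / I ∧ 2 * (m % I) ≤ n % I ∧ 1 ≤ m / I := by omega
    have b6 := mul_cmp I (n / I - 1) (n / I)
    obtain ⟨j', c1, c2, c3⟩ := H (n / I - 1) (by omega) (by omega)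
    have c4 := mul_cmp I j' (m / I)
    omega
  · intro h s b1 b2
    have b4 := mul_cmp I s (n / I)
    by_cases b5 : 2 * (m / I) + t ≤ s + 1
    · exact ⟨m / I, by omega, by omega, by omega⟩
    · have b6 := mul_cmp I ((s + 1 - t) / 2) (m / I)
      have b7 := mul_cmp' I (2 * (m / I)) s (2 * ((s + 1 - t) / 2)) (n / I)
      simp only [mul_left_comm I 2] at b7
      exact ⟨(s + 1 - t) / 2, by omega, by omega, by omega⟩

variable {F : Type u} [Field F] {P : FP F} {V : Type v} [AddCommGroup V] [Module F V]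
  {S : PQ P V} {f : End F V}
variable {Q q r p c : ℕ} [hr : Fact r.Prime] [hp : Fact p.Prime] [CharP F p] [Fintype F]
variable [FiniteDimensional F V]

omit [FiniteDimensional F V] hr in
theorem p_not_dvd_sn (hQ : Fintype.card F = Q) {L n k : ℕ} (hk : k ≠ 0)
    (h : p ∣ Q ^ (n - k - 1) * L) : ¬ p ∣ sn Q L n k := fun h1 => by
  rcases hp.out.dvd_mul.1 h1 with h1 | h1
  · exact Arith.p_not_dvd_pow_sub_one hQ hk h1
  · exact hp.out.one_lt.ne' (Nat.dvd_one.1 ((Nat.dvd_add_right h).1 h1))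

omit [FiniteDimensional F V] in
theorem t_pos (hQ : Fintype.card F = Q) (hrp : r ≠ p) : 0 < (r - 1) / orderOf (Q : ZMod r) :=
  Nat.div_pos (Nat.le_of_dvd (by have := hr.out.two_le; omega) (Arith.orderOf_dvd_sub_one hQ hrp))
    (Arith.orderOf_pos' hQ hrp)

theorem trP_data (hP : TrP P) (hrp : r ≠ p) (hS : S.Nondeg) (f : End F V) (s : ℕ)
    (hf : S.IsIso S f) (h : f ^ r = 1) (hs : finrank F (Dx r f) = c * s) :
    c * s ≤ finrank F V ∧ widx S (Cx f) = (finrank F V - c * s) / 2 := by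
  have := finrank_cd_top hrp h
  exact ⟨by omega, by rw [widx_of_trP hP (nondegOn_Cx hrp hS hf h)]; congr 1; omega⟩

theorem ts_nsd_trP (hP : TrP P) (hb : NSD P Q r p) (hQ : Fintype.card F = Q) (hrp : r ≠ p)
    (hr2 : r ≠ 2) (hS : S.Nondeg) {I m n : ℕ} (hI : I = orderOf (Q : ZMod r))
    (hn : finrank F V = n) (hM : Models S Q r (2 * I) fun s => 2 * I * s ≤ finrank F V)
    (hmn : 2 * m ≤ n) (hΩ : ∃ a, n < 2 * I * a + 2 * m ∧ 2 * I * a ≤ n) :
    (∀ f : End F V, S.IsIso S f → f ^ r = 1 → f ≠ 1 →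
      Fix (fun W => finrank F W = m ∧ S.TS W) f) ↔ I ≤ m ∧ 2 * (m % I) ≤ n % (2 * I) := by
  subst hn
  exact (ts_iff_nsd hb hQ hrp hr2 hS hI hM (trP_data hP hrp hS)).trans
    (arith_ts_nsd (hI ▸ Arith.orderOf_pos' hQ hrp) hmn hΩ)

theorem ts_sd_trP (hP : TrP P) (hb : SD P r p) (hQ : Fintype.card F = Q) (hrp : r ≠ p)
    (hr2 : r ≠ 2) (hS : S.Nondeg) {I m n : ℕ} (hI : I = orderOf (Q : ZMod r))
    (hn : finrank F V = n) (hM : Models S Q r I fun s => I * s ≤ finrank F V)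
    (hmn : 2 * m ≤ n) (hΩ : ∃ a, n < I * a + 2 * m ∧ I * a ≤ n) :
    (∀ f : End F V, S.IsIso S f → f ^ r = 1 → f ≠ 1 →
      Fix (fun W => finrank F W = m ∧ S.TS W) f) ↔
      I ≤ m ∧ 2 * (m % I) ≤ n % I ∧ (r - 1) / I + 2 * (m / I) ≤ n / I := by
  subst hn
  exact (ts_iff_sd hb hQ hrp hr2 hS hI hM (trP_data hP hrp hS)).trans
    (arith_ts_sd (hI ▸ Arith.orderOf_pos' hQ hrp) (hI ▸ t_pos hQ hrp) hmn hΩ)

omit hr hp [CharP F p] in
theorem card_nd_trP (hP : TrP P) (hS : S.Nondeg) {W : Submodule F V} (hW : S.NondegOn W) :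
    Nat.card {W' : Submodule F V // finrank F W' = finrank F W ∧ S.NondegOn W'} *
      Nat.card (S.restrict W).isom * Nat.card (S.restrict (S.perp W)).isom = Nat.card S.isom := by
  rw [← card_isometric_mul hS hW]
  congr 2
  refine Nat.card_congr (Equiv.subtypeEquivRight fun W' => ⟨fun h =>
    isometric_of_trP hP hW h.2 h.1.symm, fun h => ⟨(Iso.finrank_eq h).symm, ?_⟩⟩)
  exact (S.nondegOn_iff_restrict W').2 (Iso.nondeg h hW.restrict)

omit [CharP F p] hp in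
theorem hΩ_nd_symp {S : PQ (FP.symp F) V} (hq : Fintype.card F = q) (hrq : ¬ r ∣ q)
    {i : ℕ} (hi : i = orderOf (q : ZMod r)) (hc : c = if Even i then i else 2 * i)
    (hS : S.Nondeg) {m n : ℕ} (hn : finrank F V = n) (hm : Even m) (hmn : m ≤ n)
    (h : r ∣ Nat.card {W : Submodule F V // finrank F W = m ∧ S.NondegOn W}) :
    ∃ a, n < c * a + m ∧ c * a ≤ n := by
  have a1 := even_finrank_symp (S.nondegOn_top.2 hS)
  rw [finrank_top] at a1
  obtain ⟨k, hk⟩ := hm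
  obtain ⟨W, -, b1, b2, -⟩ := exists_nondeg_even (S.nondegOn_top.2 hS) (j := k) (by omega)
  have b3 := card_nd_trP trP_symp hS b1
  have b4 := hS.finrank_perp W
  have h2 := Arith.two_le_q hq
  rw [card_isom_symp hq (widx S ⊤ - k) (b1.perp hS).restrict (by omega),
    card_isom_symp hq (widx S ⊤) hS (by omega), P_split _ (Nat.sub_le (widx S ⊤) k),
    show finrank F W = m by omega, ← mul_assoc, mul_comm (Count.P _ _), ← mul_assoc, mul_left_inj'
      (Count.P_pos (by nlinarith) _).ne'] at b3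
  have b5 := (hr.out.dvd_mul.1 (b3 ▸ (h.mul_right _).mul_right _)).resolve_left
    fun h => hrq (hr.out.dvd_of_dvd_pow h)
  obtain ⟨j, c1, c2, c3⟩ := dvd_of_dvd_Ico (g := fun j => (q ^ 2) ^ j - 1) b5
  obtain ⟨a, ha⟩ := of_dvd_sq_sub (by omega) hi hc c3
  exact ⟨a, by omega, by omega⟩

theorem hΩ_nd_unit {σ : F →+* F} {hσ : ∀ a, σ (σ a) = a} (hne : ∃ a, σ a ≠ a)
    {S : PQ (FP.unit σ hσ) V} (hq : Fintype.card F = q ^ 2) (hrp : r ≠ p) (hr2 : r ≠ 2)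
    {i : ℕ} (hi : i = orderOf (q : ZMod r))
    (hc : c = if i % 4 = 0 then i else if i % 4 = 2 then i / 2 else 2 * i)
    (hS : S.Nondeg) {m n : ℕ} (hn : finrank F V = n) (hmn : m ≤ n)
    (h : r ∣ Nat.card {W : Submodule F V // finrank F W = m ∧ S.NondegOn W}) :
    ∃ a, n < c * a + m ∧ c * a ≤ n := by
  obtain ⟨W, -, b1, b2⟩ := exists_nondeg_of_aniso (fun U => exists_aniso_of_σ hne)
    (S.nondegOn_top.2 hS) (e := m) (by rw [finrank_top]; omega)
  have b3 := card_nd_trP (trP_unit σ hσ hne) hS b1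
  have b4 := hS.finrank_perp W
  have h2 := two_le_of_card_sq hq
  rw [card_isom_unit hq hσ hne (n - m) (b1.perp hS).restrict (by omega),
    card_isom_unit hq hσ hne n hS hn, PU_split _ (Nat.sub_le n m), b2, ← mul_assoc,
    mul_comm (PU _ _), ← mul_assoc, mul_left_inj' (PU_pos h2 _).ne'] at b3
  have b5 := (hr.out.dvd_mul.1 (b3 ▸ (h.mul_right _).mul_right _)).resolve_left fun h =>
    Arith.not_dvd_q hq hrp ((hr.out.dvd_of_dvd_pow h).trans (dvd_pow_self q two_ne_zero))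
  obtain ⟨j, c1, c2, c3⟩ := dvd_of_dvd_Ico (g := uf q) b5
  obtain ⟨a, ha⟩ := (dvd_uf_iff hr2 (by omega) hi (hi ▸ orderOf_pos_of_sq hq hrp) hc j).1 c3
  exact ⟨a, by omega, by omega⟩

omit [CharP F p] hp in
theorem hΩ_ts_symp {S : PQ (FP.symp F) V} (hq : Fintype.card F = q) (hS : S.Nondeg) {m d : ℕ}
    (hn : finrank F V = 2 * d) (hmn : m ≤ d)
    (h : r ∣ Nat.card {W : Submodule F V // finrank F W = m ∧ S.TS W}) :
    ∃ j, d < j + m ∧ j ≤ d ∧ r ∣ (q ^ 2) ^ j - 1 := by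
  obtain ⟨j, a1, a2⟩ := exists_dvd_sn_of_dvd_card_ts hq hS hr.out h
  have a3 := even_finrank_symp (S.nondegOn_top.2 hS)
  rw [finrank_top] at a3
  refine ⟨d - j, by omega, by omega, ?_⟩
  rw [card_Λ_symp hq, sn, ← pow_succ, show widx S ⊤ - j = d - j by omega,
    show finrank F V - 2 * j - (d - j) - 1 + 1 = d - j by omega, mul_comm] at a2
  rw [← pow_mul, mul_comm 2, pow_mul]
  simpa only [Nat.sq_sub_sq, one_pow] using (Nat.sq_sub_sq (q ^ (d - j)) 1 ▸ a2 :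
    r ∣ (q ^ (d - j)) ^ 2 - 1 ^ 2)

omit [CharP F p] hp in
theorem hΩ_ts_unit {σ : F →+* F} {hσ : ∀ a, σ (σ a) = a} (hne : ∃ a, σ a ≠ a)
    {S : PQ (FP.unit σ hσ) V} (hq : Fintype.card F = q ^ 2) (hS : S.Nondeg) {m n : ℕ}
    (hn : finrank F V = n) (hmn : 2 * m ≤ n)
    (h : r ∣ Nat.card {W : Submodule F V // finrank F W = m ∧ S.TS W}) :
    ∃ j, n < j + 2 * m ∧ j ≤ n ∧ r ∣ uf q j := by
  obtain ⟨j, a1, a2⟩ := exists_dvd_sn_of_dvd_card_ts hq hS hr.out h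
  rw [card_Λ_unit hq hσ hne, widx_top_of_trP (trP_unit σ hσ hne) hS, hn,
    show n - 2 * j = n - 2 * j - 2 + 2 by omega, show n / 2 - j = (n - 2 * j - 2 + 2) / 2 by omega,
    sn_unit] at a2
  rcases hr.out.dvd_mul.1 a2 with a2 | a2
  · exact ⟨_, by omega, by omega, a2⟩
  · exact ⟨_, by omega, by omega, a2⟩

end Cfsg.Agent.H9.FTrP
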