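import Cfsg.Agent.H9.FUnip2
import Cfsg.Agent.H9.FTrP

/-! Orthogonal decompositions permuted by an isometry. -/

set_option autoImplicit false
set_option linter.unusedSectionVars false

namespace Cfsg.Agent.H9.FDec

open Module Polynomial Cfsg.Agent.Form Cfsg.Agent.Form.PQ Cfsg.Agent.H9.FIdx Cfsg.Agent.H9.FCount
open Cfsg.Agent.H9.FClass Cfsg.Agent.H9.FOrd Cfsg.Agent.H9.Types Cfsg.Agent.H9.FInv
open Cfsg.Agent.H9.FSS Cfsg.Agent.H9.FModel Cfsg.Agent.H9.FAdapt Cfsg.Agent.H9.FInvol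
open Cfsg.Agent.H9.FSpin Cfsg.Agent.H9.FUnip Cfsg.Agent.H9.FNum Cfsg.Agent.H7

universe u v

variable {F : Type u} [Field F] {P : FP F} {V : Type v} [AddCommGroup V] [Module F V]
  [FiniteDimensional F V] {S : PQ P V} {f : End F V}

/-- `W` is an orthogonal sum of `t` non-degenerate subspaces of dimension `a` permuted by `f`. -/
def ODec (S : PQ P V) (f : End F V) (W : Submodule F V) (a t : ℕ) : Prop :=
  ∃ (T : Type) (_ : Fintype T) (D : T → Submodule F V) (σ : Equiv.Perm T), Fintype.card T = t ∧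
    (∀ j, finrank F (D j) = a ∧ S.NondegOn (D j)) ∧ (∀ j j', j ≠ j' → D j ≤ S.perp (D j')) ∧
    iSup D = W ∧ ∀ j, ∀ x ∈ D j, f x ∈ D (σ j)

theorem odec_zero (a : ℕ) : ODec S f ⊥ a 0 :=
  ⟨Empty, inferInstance, Empty.elim, 1, rfl, fun j => j.elim, fun j => j.elim, by simp,
    fun j => j.elim⟩

theorem odec_one {W : Submodule F V} (hWn : S.NondegOn W) (hW : ∀ x ∈ W, f x ∈ W) :
    ODec S f W (finrank F W) 1 :=
  ⟨Unit, inferInstance, fun _ => W, 1, rfl, fun _ => ⟨rfl, hWn⟩, fun _ _ h => (h rfl).elim,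
    by simp, fun _ => hW⟩

theorem odec_two (hS : S.Nondeg) (hf : S.IsIso S f) (h : f ^ 2 = 1) {E : Submodule F V}
    (hE : S.NondegOn E) (hp : E.map f ≤ S.perp E) : ODec S f (E ⊔ E.map f) (finrank F E) 2 := by
  refine ⟨Bool, inferInstance, fun b => bif b then E else E.map f, ⟨not, not, Bool.not_not,
    Bool.not_not⟩, rfl, ?_, ?_, ?_, ?_⟩
  · rintro (_ | _)
    · exact ⟨(Submodule.equivMapOfInjective f (hf.injective hS) E).finrank_eq.symm, hE.map hf⟩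
    · exact ⟨rfl, hE⟩
  · rintro (_ | _) (_ | _) h
    exacts [(h rfl).elim, hp, S.le_perp_comm.1 hp, (h rfl).elim]
  · exact iSup_bool_eq
  · rintro (_ | _) x hx
    · obtain ⟨y, hy, rfl⟩ := hx
      rwa [← End.mul_apply, ← sq, h]
    · exact ⟨x, hx, rfl⟩

theorem ODec.add {U W : Submodule F V} {a t t' : ℕ} (h : ODec S f U a t) (h' : ODec S f W a t')
    (hp : W ≤ S.perp U) : ODec S f (U ⊔ W) a (t + t') := by
  obtain ⟨T, _, D, σ, rfl, h1, h2, rfl, h4⟩ := h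
  obtain ⟨T', _, D', σ', rfl, h1', h2', rfl, h4'⟩ := h'
  have h5 : ∀ j j', D' j' ≤ S.perp (D j) := fun j j' =>
    (le_iSup D' j').trans (hp.trans (S.perp_anti (le_iSup D j)))
  refine ⟨T ⊕ T', inferInstance, Sum.elim D D', σ.sumCongr σ', by simp, ?_, ?_, iSup_sum, ?_⟩
  · rintro (j | j)
    exacts [h1 j, h1' j]
  · rintro (j | j) (j' | j') h
    exacts [h2 j j' (by simpa using h), S.le_perp_comm.1 (h5 j j'), h5 j' j,
      h2' j j' (by simpa using h)]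
  · rintro (j | j)
    exacts [h4 j, h4' j]

theorem ODec.out {a t : ℕ} (h : ODec S f ⊤ a t) (hf : Function.Injective f)
    (hn : finrank F V = a * t) : ∃ D : Fin t → Submodule F V, (∀ j, finrank F (D j) = a) ∧
      iSupIndep D ∧ iSup D = ⊤ ∧ (∀ j, S.NondegOn (D j)) ∧ (∀ j j', j ≠ j' → D j ≤ S.perp (D j')) ∧
      ∃ σ : Equiv.Perm (Fin t), ∀ j, (D j).map f = D (σ j) := by
  obtain ⟨T, _, D, σ, rfl, h1, h2, h3, h4⟩ := h
  let e := (Fintype.equivFin T).symm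
  refine ⟨D ∘ e, fun j => (h1 _).1, ?_, ?_, fun j => (h1 _).2,
    fun j j' h => h2 _ _ (e.injective.ne h), (e.trans σ).trans e.symm, fun j => ?_⟩
  · refine (Imprim.iSupIndep_of_sum_le D h3 ?_).comp e.injective
    simp [(h1 _).1, hn, mul_comm]
  · rw [← h3]; exact e.iSup_comp
  · simpa using Imprim.map_eq_of_maps hf (h4 (e j)) (by rw [(h1 _).1, (h1 _).1])

theorem odec_of_peel (hS : S.Nondeg) (hf : S.IsIso S f) {a : ℕ} (I : ℕ → Submodule F V → Prop)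
    (H : ∀ t W, S.NondegOn W → (∀ x ∈ W, f x ∈ W) → finrank F W = a * (t + 1) → I (t + 1) W →
      ∃ k ≤ t, ∃ U ≤ W, S.NondegOn U ∧ (∀ x ∈ U, f x ∈ U) ∧ finrank F U = a * (k + 1) ∧
        ODec S f U a (k + 1) ∧ I (t - k) (W ⊓ S.perp U)) (t : ℕ) :
    ∀ W, S.NondegOn W → (∀ x ∈ W, f x ∈ W) → finrank F W = a * t → I t W → ODec S f W a t := by
  induction t using Nat.strong_induction_on with
  | _ t ih =>
  intro W h1 h2 h3 h4
  rcases t with _ | t
  · rw [Submodule.finrank_eq_zero.1 h3]; exact odec_zero a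
  obtain ⟨k, a1, U, a2, a3, a4, a5, a6, a7⟩ := H t W h1 h2 h3 h4
  obtain ⟨k', rfl⟩ := Nat.exists_eq_add_of_le a1
  have b1 := finrank_inf_perp h1 a2
  rw [add_tsub_cancel_left] at a7
  have := a6.add (ih k' (by omega) _ (a3.inf_perp h1 a2).1 (inv_inf h2 (inv_perp hS hf a4))
    (by rw [a5, h3] at b1; linarith) a7) inf_le_right
  rwa [(a3.inf_perp h1 a2).2, add_right_comm] at this

theorem odec_of_sub (hS : S.Nondeg) (hf : S.IsIso S f) {a t : ℕ} (hn : finrank F V = a * t)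
    (H : ∀ W, S.NondegOn W → (∀ x ∈ W, f x ∈ W) → a ≤ finrank F W →
      ∃ U ≤ W, S.NondegOn U ∧ (∀ x ∈ U, f x ∈ U) ∧ finrank F U = a) : ODec S f ⊤ a t :=
  odec_of_peel hS hf (fun _ _ => True) (fun t W h1 h2 h3 _ =>
    let ⟨U, a1, a2, a3, a4⟩ := H W h1 h2 (h3 ▸ Nat.le_mul_of_pos_right _ t.succ_pos)
    ⟨0, t.zero_le, U, a1, a2, a3, by simpa using a4, a4 ▸ odec_one a2 a3, trivial⟩) t ⊤
    (S.nondegOn_top.2 hS) (fun _ _ => trivial) (by rwa [finrank_top]) trivial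

section two
variable [CharP F 2]

/-- An involution in characteristic two fixes a non-degenerate plane or swaps two halves. -/
theorem two_swap (hσ : ∀ a, P.σ a = a) (hS : S.Nondeg) (hf : S.IsIso S f) (h : f ^ 2 = 1) (n : ℕ) :
    ∀ W : Submodule F V, finrank F W = n → S.NondegOn W → (∀ x ∈ W, f x ∈ W) →
      (∃ U ≤ W, S.NondegOn U ∧ (∀ x ∈ U, f x ∈ U) ∧ finrank F U = 2) ∨
        ∃ E, S.NondegOn E ∧ E.map f ≤ S.perp E ∧ E ⊔ E.map f = W := by
  have hff : ∀ x, f (f x) = x := fun x => by rw [← End.mul_apply, ← sq, h, End.one_apply]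
  have hpl : ∀ x y, S.B x y ≠ 0 → S.NondegOn ((F ∙ x) ⊔ (F ∙ y)) ∧
      finrank F ↥((F ∙ x) ⊔ (F ∙ y)) = 2 := fun x y hxy => by
    have h1 : ∀ s t : F, (∀ z ∈ (F ∙ x) ⊔ (F ∙ y), S.B (s • x + t • y) z = 0) → s = 0 ∧ t = 0 :=
      fun s t h2 => by
        have h3 := h2 x (mem_plane.2 ⟨1, 0, by simp⟩)
        have h4 := h2 y (mem_plane.2 ⟨0, 1, by simp⟩)
        simp only [S.B_add_left, S.B_smul_left, alt_two hσ, swap_two hσ x y, mul_zero, zero_add,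
          add_zero, mul_eq_zero, hxy, or_false] at h3 h4
        exact ⟨h4, h3⟩
    refine ⟨fun z hz h2 => ?_, ?_⟩
    · obtain ⟨s, t, rfl⟩ := mem_plane.1 hz
      simp [h1 s t h2]
    · rw [← Submodule.span_insert, ← Matrix.range_cons_cons_empty x y ![], finrank_span_eq_card
        (LinearIndependent.pair_iff.2 fun s t h2 => h1 s t fun z _ => by rw [h2, S.B_zero_left]),
        Fintype.card_fin]
  induction n using Nat.strong_induction_on with
  | _ n ih =>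
  intro W hn hWn hW
  by_cases h0 : W = ⊥
  · exact Or.inr ⟨⊥, S.nondegOn_bot, by simp, by simp [h0]⟩
  by_cases h1 : ∃ v ∈ W, S.B v (f v) ≠ 0
  · obtain ⟨v, a1, a2⟩ := h1
    obtain ⟨b1, b2, b3⟩ := plane_data hσ h a2
    exact Or.inl ⟨_, sup_le ((Submodule.span_singleton_le_iff_mem _ _).2 a1)
      ((Submodule.span_singleton_le_iff_mem _ _).2 (hW v a1)), b1, b2, b3.2.1⟩
  push Not at h1
  by_cases h2 : W ≤ Cx f
  · obtain ⟨x, a1, a2⟩ := (Submodule.ne_bot_iff W).1 h0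
    obtain ⟨y, a3, a4⟩ := nondegOn_iff'.1 hWn x a1 a2
    have a5 := sup_le ((Submodule.span_singleton_le_iff_mem _ _).2 a1)
      ((Submodule.span_singleton_le_iff_mem _ _).2 a3)
    exact Or.inl ⟨_, a5, (hpl x y a4).1, inv_of_le_Cx (a5.trans h2), (hpl x y a4).2⟩
  obtain ⟨y, a1, a2⟩ := SetLike.not_le_iff_exists.1 h2
  obtain ⟨x, a3, a4⟩ := nondegOn_iff'.1 hWn (f y - y) (sub_mem (hW y a1) a1)
    (fun h => a2 (mem_Cx.2 (sub_eq_zero.1 h)))
  obtain ⟨z, a5, a6, a7⟩ : ∃ z ∈ W, S.B x (f z) = 0 ∧ S.B x z ≠ 0 := by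
    rw [swap_two hσ, S.B_sub_right] at a4
    refine ⟨y + (S.B x (f y) / (S.B x (f y) - S.B x y)) • (f y - y),
      add_mem a1 (W.smul_mem _ (sub_mem (hW y a1) a1)), ?_, ?_⟩ <;>
      simp only [map_add, map_smul, map_sub, hff, S.B_add_right, S.B_smul_right, S.B_sub_right, hσ]
    · field_simp; ring
    · rw [div_mul_cancel₀ _ a4]
      rwa [CharTwo.sub_eq_add, add_comm] at a4
  obtain ⟨b1, b2⟩ := hpl x z a7
  set E := (F ∙ x) ⊔ (F ∙ z)
  have b3 : E ≤ W := sup_le ((Submodule.span_singleton_le_iff_mem _ _).2 a3)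
    ((Submodule.span_singleton_le_iff_mem _ _).2 a5)
  have b4 : E.map f ≤ S.perp E := by
    rintro _ ⟨u, hu, rfl⟩ w hw
    obtain ⟨s, t, rfl⟩ := mem_plane.1 hu
    obtain ⟨s', t', rfl⟩ := mem_plane.1 hw
    have c1 : S.B (f x) z = 0 := by rw [← hf.1, hff, a6]
    simp [swap_two hσ x (f x), swap_two hσ z (f z), swap_two hσ x (f z), h1 x a3, h1 z a5, a6, c1]
  have b5 : ∀ u ∈ E ⊔ E.map f, f u ∈ E ⊔ E.map f := fun u hu => by
    obtain ⟨v, hv, _, ⟨w, hw, rfl⟩, rfl⟩ := Submodule.mem_sup.1 hu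
    rw [map_add, hff, add_comm]
    exact Submodule.add_mem_sup hw ⟨v, hv, rfl⟩
  have b6 := b1.sup (b1.map hf) b4
  have b7 : E ⊔ E.map f ≤ W := sup_le b3 (Submodule.map_le_iff_le_comap.2 fun u hu => hW u (b3 hu))
  have b8 := finrank_inf_perp hWn b7
  have b9 := Submodule.finrank_mono (le_sup_left : E ≤ E ⊔ E.map f)
  have c1 := inv_inf hW (inv_perp hS hf b5)
  rcases ih _ (by omega) _ rfl (b6.inf_perp hWn b7).1 c1 with ⟨U, c2, c3⟩ | ⟨E', c2, c3, c4⟩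
  · exact Or.inl ⟨U, c2.trans inf_le_left, c3⟩
  have c5 : E' ⊔ E'.map f ≤ S.perp (E ⊔ E.map f) := c4.le.trans inf_le_right
  rw [perp_sup, sup_le_iff, le_inf_iff, le_inf_iff] at c5
  refine Or.inr ⟨E ⊔ E', b1.sup c2 c5.1.1, ?_, ?_⟩
  · rw [Submodule.map_sup, perp_sup]
    exact sup_le (le_inf b4 (S.le_perp_comm.1 c5.1.2)) (le_inf c5.2.1 c3)
  · rw [Submodule.map_sup, sup_sup_sup_comm, c4, (b6.inf_perp hWn b7).2]

theorem two_odec (hσ : ∀ a, P.σ a = a) (hS : S.Nondeg) (hf : S.IsIso S f) (h : f ^ 2 = 1) {a t : ℕ}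
    (ha : a % 2 = 0) (hn : finrank F V = a * t) : ODec S f ⊤ a t := by
  refine odec_of_peel hS hf (fun _ _ => True) (fun t W h1 h2 h3 _ => ?_) t ⊤
    (S.nondegOn_top.2 hS) (fun _ _ => trivial) (by rwa [finrank_top]) trivial
  have h4 : ∀ U ≤ W, S.NondegOn U → (∀ x ∈ U, f x ∈ U) → finrank F U = a → ∃ k ≤ t, ∃ U ≤ W,
      S.NondegOn U ∧ (∀ x ∈ U, f x ∈ U) ∧ finrank F U = a * (k + 1) ∧ ODec S f U a (k + 1) ∧ True :=
    fun U a1 a2 a3 a4 => ⟨0, t.zero_le, U, a1, a2, a3, by simpa using a4, a4 ▸ odec_one a2 a3,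
      trivial⟩
  rw [mul_add, mul_one] at h3
  by_cases h5 : a % 4 = 0 ∨ finrank F W % 4 = 2
  · obtain ⟨U, a1, a2, a3, a4⟩ := (two_sub hσ hS hf h h1 h2).2 a ha (by omega) h5
    exact h4 U a1 a2 a3 a4
  rcases t with _ | t
  · omega
  rw [mul_add, mul_one] at h3
  obtain ⟨U, a1, a2, a3, a4⟩ := (two_sub hσ hS hf h h1 h2).2 (2 * a) (by omega) (by omega)
    (by omega)
  rcases two_swap hσ hS hf h _ U rfl a2 a3 with ⟨B, b1, b2, b3, b4⟩ | ⟨E, b1, b2, rfl⟩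
  · have b5 := finrank_inf_perp a2 b1
    obtain ⟨U', c1, c2, c3, c4⟩ := (two_sub hσ hS hf h (b2.inf_perp a2 b1).1
      (inv_inf a3 (inv_perp hS hf b3))).2 a ha (by omega) (by omega)
    exact h4 U' (c1.trans (inf_le_left.trans a1)) c2 c3 c4
  · have b3 := finrank_sup_of_le_perp b1 b2
    rw [← (Submodule.equivMapOfInjective f (hf.injective hS) E).finrank_eq] at b3
    obtain rfl : finrank F E = a := by omega
    exact ⟨1, by omega, _, a1, a2, a3, by omega, odec_two hS hf h b1 b2, trivial⟩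

end two

variable [Fintype F] {Q r p c : ℕ} [hr : Fact r.Prime] [hp : Fact p.Prime] [CharP F p]

theorem symp_odec {S : PQ (FP.symp F) V} (hb : Blk (FP.symp F) Q r p c) (hQ : Fintype.card F = Q)
    (hrp : r ≠ p) (hr2 : r ≠ 2) (hS : S.Nondeg) (hf : S.IsIso S f) (h : f ^ r = 1) {a t : ℕ}
    (ha : a % 2 = 0) (hc : c % 2 = 0) (hn : finrank F V = a * t)
    (ht : t * (a % c) ≤ finrank F (Cx f)) : ODec S f ⊤ a t := by
  refine odec_of_peel hS hf (fun t W => t * (a % c) ≤ finrank F ↥(W ⊓ Cx f))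
    (fun t W h1 h2 h3 h4 => ?_) t ⊤
    (S.nondegOn_top.2 hS) (fun _ _ => trivial) (by rwa [finrank_top]) (by rwa [top_inf_eq])
  have a1 := nondegOn_inf_Dx hrp hf h h1 h2
  have a2 := inv_inf h2 (inv_Dx r)
  obtain ⟨s, a3⟩ := hb.dvd hQ hrp hS hf h a1 a2 inf_le_right
  have a4 := finrank_cd hrp h h2
  have a5 := even_finrank_symp (nondegOn_inf_Cx hrp hf h h1 h2)
  obtain ⟨d, j, b1, b2, b3, b4⟩ : ∃ d j, d ≤ finrank F ↥(W ⊓ Cx f) ∧ j ≤ s ∧ a = d + c * j ∧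
      t * (a % c) + d ≤ finrank F ↥(W ⊓ Cx f) := by
    have h5 := Nat.mod_add_div a c
    rw [add_mul, one_mul] at h4
    by_cases hj : a / c ≤ s
    · exact ⟨a % c, a / c, by omega, hj, h5.symm, h4⟩
    · have h6 : c * s ≤ c * (a / c) := Nat.mul_le_mul_left c (by omega)
      have h7 : t * (a % c) ≤ a * t := by
        rw [mul_comm]; exact Nat.mul_le_mul_right _ (Nat.mod_le _ _)
      rw [mul_add, mul_one] at h3
      exact ⟨a - c * s, _, by omega, le_rfl, by omega, by omega⟩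
  have b5 : c * j % 2 = 0 := by rw [Nat.mul_mod, hc]; simp
  obtain ⟨E, c1, c2, c3, -⟩ := exists_nondeg_even (nondegOn_inf_Cx hrp hf h h1 h2) (j := d / 2)
    (by omega)
  obtain ⟨H, c4, c5, c6, c7⟩ := hb.exists_nondeg hQ hrp hr2 hS hf h a1 a2 inf_le_right (j := j)
    (a3 ▸ Nat.mul_le_mul_left c b2)
  obtain ⟨-, d1, d2, d3⟩ := sup_nondeg hrp hf (c1.trans inf_le_right) (c4.trans inf_le_right) c2 c5 c6
  have d4 := sup_le (c1.trans inf_le_left) (c4.trans inf_le_left)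
  have d5 : finrank F ↥(E ⊔ H) = a := by omega
  refine ⟨0, t.zero_le, _, d4, d1, d2, by omega, d5 ▸ odec_one d1 d2, ?_⟩
  have e1 := finrank_inf_perp h1 d4
  have e2 := finrank_cd hrp h (inv_inf h2 (inv_perp hS hf d2))
  have e3 := finrank_inf_perp a1 c4
  have e4 := Submodule.finrank_mono (show W ⊓ S.perp (E ⊔ H) ⊓ Dx r f ≤ W ⊓ Dx r f ⊓ S.perp H from
    fun x hx => ⟨⟨hx.1.1, hx.2⟩, S.perp_anti le_sup_right hx.1.2⟩)
  simp only [Nat.sub_zero]
  omega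

omit hr hp [CharP F p] in
theorem card_odec_dvd (hP : TrP P) {a t : ℕ} (R : (Fin t → Submodule F V) → Prop)
    (hR : ∀ D, R D ↔ (∀ j, finrank F (D j) = a) ∧ iSupIndep D ∧ iSup D = ⊤ ∧
      (∀ j, S.NondegOn (D j)) ∧ ∀ j j', j ≠ j' → D j ≤ S.perp (D j')) [Nonempty {D // R D}] :
    Nat.card {D // R D} ∣ Nat.card S.isom := by
  let _ : MulAction S.isom {D // R D} :=
    { smul := fun g D => ⟨fun j => (D.1 j).map (g.1 : V →ₗ[F] V), by
        obtain ⟨a1, a2, a3, a4, a5⟩ := (hR _).1 D.2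
        refine (hR _).2 ⟨fun j => by rw [LinearEquiv.finrank_map_eq, a1],
          a2.map_orderIso (Submodule.orderIsoMapComap g.1), ?_, fun j => (a4 j).map g.2,
          fun j j' h => ?_⟩
        · rw [← Submodule.map_iSup, a3, Submodule.map_top, LinearEquiv.range]
        · rw [← map_perp g.2]; exact Submodule.map_mono (a5 j j' h)⟩
      one_smul := fun D => Subtype.ext (funext fun j => Submodule.map_id _)
      mul_smul := fun g h D => Subtype.ext (funext fun j => Submodule.map_comp _ _ _) }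
  refine Imprim.card_dvd_of_trans fun D D' => ?_
  obtain ⟨a1, a2, a3, a4, a5⟩ := (hR _).1 D.2
  obtain ⟨b1, b2, b3, b4, b5⟩ := (hR _).1 D'.2
  choose e he using fun j => isometric_of_trP hP (a4 j) (b4 j) ((a1 j).trans (b1 j).symm)
  obtain ⟨g, hg⟩ := Imprim.exists_equiv_of_decomp a2 a3 b2 b3 e
  refine ⟨⟨g, hP.mem_isom S fun x y => ?_⟩, Subtype.ext (funext fun j => ?_)⟩
  · have h1 : ∀ x : V, x ∈ iSup D.1 := fun x => a3 ▸ Submodule.mem_top
    refine Submodule.iSup_induction _ (motive := fun x => S.B (g x) (g y) = S.B x y) (h1 x)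
      (fun j x hx => ?_) (by simp) fun x x' h h' => by simp [h, h']
    refine Submodule.iSup_induction _ (motive := fun y => S.B (g x) (g y) = S.B x y) (h1 y)
      (fun j' y hy => ?_) (by simp) fun x x' h h' => by simp [h, h']
    rw [hg j ⟨x, hx⟩, hg j' ⟨y, hy⟩]
    by_cases h : j = j'
    · subst h; exact (he j).1 ⟨x, hx⟩ ⟨y, hy⟩
    · rw [a5 j j' h hx y hy, b5 j j' h (e j _).2 _ (e j' _).2]
  · exact Imprim.map_eq_of_maps (f := (g : End F V)) g.injective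
      (fun x hx => by rw [LinearEquiv.coe_coe, hg j ⟨x, hx⟩]; exact (e j _).2)
      ((a1 j).trans (b1 j).symm)

omit hr hp [CharP F p] in
theorem symp_two_odec (p : ℕ) [Fact p.Prime] [CharP F p] {S : PQ (FP.symp F) V} [Nontrivial V] (hS : S.Nondeg) (hf : S.IsIso S f)
    {z : F} (h : f ^ 2 = z • 1) {a t : ℕ} (ha : a % 2 = 0) (hn : finrank F V = a * t) :
    ODec S f ⊤ a t := by
  have h1 := sq_cases (fun _ => rfl) hS hf h
  by_cases hp2 : 2 = p
  · subst hp2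
    exact two_odec (fun _ => rfl) hS hf (by simpa [CharTwo.neg_eq] using h1) ha hn
  refine odec_of_sub hS hf hn fun W a1 a2 a3 => ?_
  rcases h1 with h1 | h1
  · have b1 := nondegOn_inf_Cx hp2 hf h1 a1 a2
    have b2 := nondegOn_inf_Dx hp2 hf h1 a1 a2
    have b3 := even_finrank_symp b1
    have b4 := even_finrank_symp b2
    have b5 := finrank_cd hp2 h1 a2
    obtain ⟨E, c1, c2, c3, -⟩ := exists_nondeg_even b1 (j := min (a / 2) (widx S (W ⊓ Cx f)))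
      (min_le_right _ _)
    obtain ⟨H, c4, c5, c6, -⟩ := exists_nondeg_even b2
      (j := a / 2 - min (a / 2) (widx S (W ⊓ Cx f))) (by omega)
    obtain ⟨-, d1, d2, d3⟩ := invol_sup hp2 hf (c1.trans inf_le_right) (c4.trans inf_le_right) c2 c5
    exact ⟨_, sup_le (c1.trans inf_le_left) (c4.trans inf_le_left), d1, d2, by omega⟩
  · obtain ⟨H, c1, c2, c3, c4⟩ := neg_nd rfl hp2 (fun _ => rfl) hS hf h1 a1 a2 (m := a / 2)
      (by omega)
    exact ⟨H, c1, c2, c3, by omega⟩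

omit hr hp [CharP F p] [Fintype F] in
theorem geo_iff {d a t : ℕ} (ha : 0 < a) (ht : 2 ≤ t)
    (D : Fin t → Submodule F (Fin d ⊕ Fin d → F)) : (Geo.IsMDecomposition a D ∧
      (∀ j, ∀ u ∈ D j, u ≠ 0 → ∃ v ∈ D j, sympForm d F u v ≠ 0) ∧
      (∀ j j', j ≠ j' → ∀ u ∈ D j, ∀ v ∈ D j', sympForm d F u v = 0)) ↔
    (∀ j, finrank F (D j) = a) ∧ iSupIndep D ∧ iSup D = ⊤ ∧
      (∀ j, (spS d F).NondegOn (D j)) ∧ ∀ j j', j ≠ j' → D j ≤ (spS d F).perp (D j') :=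
  ⟨fun ⟨h1, h2, h3⟩ => ⟨h1.3, h1.4, h1.5, fun j => nondegOn_iff'.2 (h2 j), h3⟩,
    fun ⟨h1, h2, h3, h4, h5⟩ => ⟨⟨ht, ha, h1, h2, h3⟩, fun j => nondegOn_iff'.1 (h4 j), h5⟩⟩

end Cfsg.Agent.H9.FDec
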