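import Cfsg.Agent.H9.FOArith

/-! Arithmetic of fixed non-degenerate subspaces in orthogonal spaces, statement by statement. -/

set_option autoImplicit false

namespace Cfsg.Agent.H9.FOArith

open Cfsg.Agent.H9.FSemi

theorem nf_facts {c n m : ℕ} (hc : 0 < c) (he : Even c) (hm : m < n) :
    n % c < c ∧ m % c < c ∧ n % c % 2 = n % 2 ∧ m % c % 2 = m % 2 ∧ m / c ≤ n / c ∧
      (m / c = n / c → m % c < n % c) ∧ (2 * m < n → 2 * (m / c) ≤ n / c) ∧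
      ((m / c = 0 ∧ m = m % c) ∨ (m / c = 1 ∧ m = c + m % c) ∨ (2 ≤ m / c ∧ 2 * c + m % c ≤ m)) ∧
      ((n / c = 0 ∧ n = n % c) ∨ (n / c = 1 ∧ n = c + n % c) ∨
        (2 ≤ n / c ∧ 2 * c + n % c ≤ n)) := by
  have a1 := Nat.div_add_mod n c
  have a2 := Nat.div_add_mod m c
  have a3 := Nat.mod_lt n hc
  have a4 := Nat.mod_lt m hc
  refine ⟨a3, a4, Nat.mod_mod_of_dvd _ he.two_dvd, Nat.mod_mod_of_dvd _ he.two_dvd,
    Nat.div_le_div_right hm.le, fun h => by rw [h] at a2; omega, fun h => ?_, ?_, ?_⟩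
  · have := cmp3 c (2 * (m / c)) (n / c)
    rw [mul_left_comm] at this
    omega
  · have := cmp5 c (m / c) 0
    omega
  · have := cmp5 c (n / c) 0
    omega

theorem nf_even {c n m k : ℕ} (hc : 0 < c) {ε η : Prop}
    (h : ∃ a, (c * a + m = n ∧ ¬ ((ε ↔ η) ↔ (k = 1 ∨ a % 2 = 0))) ∨
      (n < c * a + m ∧ c * a < n) ∨ (c * a = n ∧ (ε ↔ (k = 1 ∨ a % 2 = 0)))) :
    (m % c = n % c ∧ ¬ ((ε ↔ η) ↔ (k = 1 ∨ (n / c + m / c) % 2 = 0))) ∨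
      (0 < n % c ∧ n % c < m) ∨ (n % c = 0 ∧ c < m) ∨
      (n % c = 0 ∧ (ε ↔ (k = 1 ∨ n / c % 2 = 0))) := by
  obtain ⟨a, h | h | h⟩ := h
  · obtain ⟨rfl, h⟩ := h
    rw [Nat.mul_add_mod, Nat.mul_add_div hc, show (a + m / c + m / c) % 2 = a % 2 by omega]
    exact Or.inl ⟨rfl, h⟩
  · have a1 := Nat.div_add_mod n c
    have a3 := Nat.mod_lt n hc
    have := cmp3 c a (n / c)
    exact Or.inr (by omega)
  · obtain ⟨rfl, h⟩ := h
    rw [Nat.mul_mod_right, Nat.mul_div_cancel_left _ hc]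
    exact Or.inr (Or.inr (Or.inr ⟨rfl, h⟩))

theorem nf_odd {c n m k : ℕ} (hc : 0 < c) {ε : Prop}
    (h : ∃ a, (n < c * a + m ∧ c * a < n) ∨ (c * a = n ∧ (ε ↔ (k = 1 ∨ a % 2 = 0)))) :
    (0 < n % c ∧ n % c < m) ∨ (n % c = 0 ∧ c < m) ∨
      (n % c = 0 ∧ (ε ↔ (k = 1 ∨ n / c % 2 = 0))) := by
  obtain ⟨a, h | h⟩ := h
  · have a1 := Nat.div_add_mod n c
    have a3 := Nat.mod_lt n hc
    have := cmp3 c a (n / c)
    omega
  · obtain ⟨rfl, h⟩ := h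
    rw [Nat.mul_mod_right, Nat.mul_div_cancel_left _ hc]
    exact Or.inr (Or.inr ⟨rfl, h⟩)

end Cfsg.Agent.H9.FOArith
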