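import Cfsg.Agent.H9.FUnip2
import Cfsg.Agent.H9.FOArith2

/-! Elements of order two on even-dimensional subspaces, and non-singular points. -/

set_option autoImplicit false
set_option linter.unusedSectionVars false

namespace Cfsg.Agent.H9.FUnip

open Module Polynomial Cfsg.Agent.Form Cfsg.Agent.Form.PQ Cfsg.Agent.H9.FIdx Cfsg.Agent.H9.FCount
open Cfsg.Agent.H9.FClass Cfsg.Agent.H9.FOrd Cfsg.Agent.H9.Types Cfsg.Agent.H9.FInv
open Cfsg.Agent.H9.FSS Cfsg.Agent.H9.FModel Cfsg.Agent.H9.FAdapt Cfsg.Agent.H9.FInvol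
open Cfsg.Agent.H9.FSpin Cfsg.Agent.H9.FOrth Cfsg.Agent.H9.FSemi Cfsg.Agent.H9.FNum

universe u v

variable {F : Type u} [Field F] {V : Type v} [AddCommGroup V] [Module F V] [FiniteDimensional F V]
  {S : PQ (FP.orth F) V} [Fintype F] {p q : ℕ}

theorem even_two_iff [Fact p.Prime] [CharP F p] (hq : Fintype.card F = q) (hp2 : 2 ≠ p)
    (hS : S.Nondeg) {d m : ℕ} (hn : finrank F V = 2 * d) (hd : 3 ≤ d) (h0 : 0 < m) (hm : Even m)
    (hmn : m < 2 * d) {η ε : Prop} (hε : Plus S ⊤ ↔ ε) :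
    (∀ f, InOm S f → (∃ c : F, f ^ 2 = c • 1) → (∀ c : F, f ≠ c • 1) →
      FAdapt.Fix (fun W => finrank F W = m ∧ S.NondegOn W ∧ (Plus S W ↔ η)) f) ↔
    ((ε ↔ (q % 4 = 1 ∨ d % 2 = 0)) → (q % 8 = 1 ∨ q % 8 = 7 ∨ d % 2 = 0) →
      (η ↔ (q % 4 = 1 ∨ m % 4 = 0))) := by
  have : Nontrivial V := nontrivial_of_finrank_pos (R := F) (by omega)
  constructor
  · intro H h1 h2
    obtain ⟨g, d1, d2, d3⟩ := exists_neg_om hq hp2 hS hn hd (hε.trans h1) h2
    obtain ⟨W, ⟨a1, a2, a3⟩, a4⟩ := H g d1 ⟨_, d2⟩ d3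
    rw [← a3, ← a1]
    exact neg_plus hq hp2 hS d1.isIso d2 a2 a4
  · rintro H f b1 ⟨z, b2⟩ -
    rcases sq_cases (fun _ => rfl) hS b1.isIso b2 with b3 | b3
    · exact invol_type hp2 hS b1.isIso b3 h0 hm (by omega) η
    · obtain ⟨c1, c2⟩ := neg_om_data hq hp2 hS hn hd b1 b3
      obtain ⟨k, rfl⟩ := hm
      obtain ⟨W, -, d1, d2, d3⟩ := neg_nd hq hp2 (fun _ => rfl) hS b1.isIso b3 (S.nondegOn_top.2 hS)
        (fun _ _ => trivial) (m := k) (by rw [finrank_top]; omega)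
      refine ⟨W, ⟨by omega, d1, ?_⟩, d2⟩
      rw [neg_plus hq hp2 hS b1.isIso b3 d1 d2, H (hε.symm.trans c1) c2, d3, two_mul]

theorem card_nonsing (hq : Fintype.card F = q) (hS : S.Nondeg) :
    Nat.card {W : Submodule F V // finrank F W = 1 ∧ ∃ v ∈ W, S.Q v ≠ 0} * (q - 1) +
      (q ^ widx S ⊤ - 1) * (q ^ (finrank F V - widx S ⊤ - 1) + 1) = q ^ finrank F V - 1 ∨
      finrank F V = 0 := by
  classical
  refine or_iff_not_imp_right.2 fun h0 => ?_
  have := Count.finite_submodule (F := F) (V := V)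
  have h1 := card_ts_mul hq hS 1
  have h2 := Count.card_subspaces_mul_P (V := V) hq (k := 1) (by omega)
  have h3 : Nat.card {W : Submodule F V // finrank F W = 1} =
      Nat.card {W : Submodule F V // finrank F W = 1 ∧ ∃ v ∈ W, S.Q v ≠ 0} +
        Nat.card {W : Submodule F V // finrank F W = 1 ∧ S.TS W} := by
    rw [← Nat.card_sum]
    refine Nat.card_congr ((Equiv.sumCompl fun W : {W : Submodule F V // finrank F W = 1} =>
      ¬ S.TS W.1).symm.trans (Equiv.sumCongr ?_ ?_))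
    · exact (Equiv.subtypeSubtypeEquivSubtypeInter _ fun W => ¬ S.TS W).trans
        (Equiv.subtypeEquivRight fun W => by simp [orth_ts])
    · exact (Equiv.subtypeSubtypeEquivSubtypeInter _ fun W => ¬ ¬ S.TS W).trans
        (Equiv.subtypeEquivRight fun W => by simp)
  have h4 : Nat.card (FP.orth F).Λ = 1 := by simp [FP.orth]
  simp only [Count.P, Finset.prod_range_one, zero_add, pow_one, sn, h4, mul_one, mul_zero,
    Nat.sub_zero] at h1 h2
  rw [← h1, ← h2, h3, add_mul]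

theorem point_odd [CharP F 2] (hq : Fintype.card F = q) (hS : S.Nondeg) {d r : ℕ} [Fact r.Prime]
    (hr2 : r ≠ 2) (hn : finrank F V = 2 * d) (hd : 3 ≤ d)
    (h : r ∣ Nat.card {W : Submodule F V // finrank F W = 1 ∧ ∃ v ∈ W, S.Q v ≠ 0}) :
    ¬ ∀ f, InOm S f → (∃ c : F, f ^ r = c • 1) → (∀ c : F, f ≠ c • 1) →
      FAdapt.Fix (fun W => finrank F W = 1 ∧ ∃ v ∈ W, S.Q v ≠ 0) f := by
  have : Nontrivial V := nontrivial_of_finrank_pos (R := F) (by omega)
  have hq2 := Arith.two_le_q hq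
  have hrq := Arith.not_dvd_q hq hr2
  have h1 := (card_nonsing hq hS).resolve_right (by omega)
  have hb := blk_id (P := FP.orth F) hq hr2 hr2 (fun _ => rfl) rfl rfl
  obtain ⟨s, h2, h3⟩ : ∃ s, 2 * d = (if Even (orderOf (q : ZMod r)) then orderOf (q : ZMod r) else
      2 * orderOf (q : ZMod r)) * s ∧ (Plus S ⊤ ↔ (orderOf (q : ZMod r) % 2 = 1 ∨ s % 2 = 0)) := by
    obtain ⟨d, rfl⟩ : ∃ e, d = e + 1 := ⟨d - 1, by omega⟩
    obtain ⟨q, rfl⟩ : ∃ e, q = e + 1 := ⟨q - 1, by omega⟩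
    have h4 := finrank_le_orth (S.nondegOn_top.2 hS)
    have h5 := two_mul_widx_le (S.nondegOn_top.2 hS)
    have h6 := Nat.one_le_pow d (q + 1) (by omega)
    have h7 := Nat.one_le_pow (d + 1) (q + 1) (by omega)
    have h8 := Nat.one_le_pow (2 * (d + 1)) (q + 1) (by omega)
    rw [finrank_top] at h4 h5
    rw [hn, add_tsub_cancel_right] at h1
    generalize Nat.card _ = N at h h1
    by_cases hP : Plus S ⊤
    · rw [show widx S ⊤ = d + 1 by unfold Plus at hP; rw [finrank_top] at hP; omega,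
        show 2 * (d + 1) - (d + 1) - 1 = d by omega] at h1
      obtain rfl : N = (q + 1) ^ d * ((q + 1) ^ (d + 1) - 1) := by
        refine Nat.eq_of_mul_eq_mul_right (show 0 < q by omega) ?_
        zify [h6, h7, h8] at h1 ⊢
        linear_combination h1
      obtain ⟨s, a1, a2⟩ := of_dvd_sub (by omega) rfl rfl
        (((Fact.out : r.Prime).dvd_mul.1 h).resolve_left fun h =>
          hrq ((Fact.out : r.Prime).dvd_of_dvd_pow h))
      exact ⟨s, a1, iff_of_true hP a2⟩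
    · rw [show widx S ⊤ = d by unfold Plus at hP; rw [finrank_top] at hP; omega,
        show 2 * (d + 1) - d - 1 = d + 1 by omega] at h1
      obtain rfl : N = (q + 1) ^ d * ((q + 1) ^ (d + 1) + 1) := by
        refine Nat.eq_of_mul_eq_mul_right (show 0 < q by omega) ?_
        zify [h6, h7, h8] at h1 ⊢
        linear_combination h1
      obtain ⟨s, a1, a2⟩ := of_dvd_add hr2 rfl (Arith.orderOf_pos' hq hr2) rfl
        (((Fact.out : r.Prime).dvd_mul.1 h).resolve_left fun h =>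
          hrq ((Fact.out : r.Prime).dvd_of_dvd_pow h))
      exact ⟨s, a1, iff_of_false hP (by omega)⟩
  rw [forall_om_iff hS (by omega) hr2]
  intro H
  obtain ⟨f, a1, a2, a3, a4⟩ := (models_orth hq hr2 hr2 rfl rfl hS).exists hb hq hr2 hr2 (s := s)
    (Nat.pos_of_ne_zero (by rintro rfl; omega)) ⟨by omega, fun _ => h3⟩
  obtain ⟨W, ⟨b1, v, b2, b3⟩, b4⟩ := H f a1 a2 a3
  have b5 : v ≠ 0 := by rintro rfl; exact b3 ((S.orth_sing 0).1 S.sing_zero)
  obtain ⟨c, hc⟩ := Submodule.mem_span_singleton.1 ((Submodule.eq_of_le_of_finrank_eq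
    ((Submodule.span_singleton_le_iff_mem _ _).2 b2) (by rw [finrank_span_singleton b5, b1])).ge
      (b4 v b2))
  have b6 := sub_eq_zero.1 (AddSubgroup.mem_bot.1 (a1.2 v))
  rw [← hc, S.orth_Q_smul] at b6
  have b7 : c = 1 := by
    have := (mul_eq_right₀ b3).1 b6
    rcases sq_eq_one_iff.1 this with h | h
    all_goals simp [h, CharTwo.neg_eq]
  have b8 := finrank_cd_top hr2 a2
  have b9 : Cx f = ⊥ := Submodule.finrank_eq_zero.1 (by omega)
  exact b5 (by simpa [b9] using (mem_Cx (f := f)).2 (by rw [← hc, b7, one_smul]))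

theorem point_two [CharP F 2] (hS : S.Nondeg) {d : ℕ} (hn : finrank F V = 2 * d) (hd : 3 ≤ d) :
    (∀ f, InOm S f → (∃ c : F, f ^ 2 = c • 1) → (∀ c : F, f ≠ c • 1) →
      FAdapt.Fix (fun W => finrank F W = 1 ∧ ∃ v ∈ W, S.Q v ≠ 0) f) ↔ (Odd d ∨ ¬ Plus S ⊤) := by
  have : Nontrivial V := nontrivial_of_finrank_pos (R := F) (by omega)
  rw [forall_two_iff hS, Nat.odd_iff]
  constructor
  · intro H
    by_contra h
    push Not at h
    have h1 := h.2
    rw [Plus, finrank_top] at h1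
    obtain ⟨f, a1, a2, a3, a4, -⟩ := two_counter_om hS (by omega) (k := d / 2) (by omega) (by omega)
    obtain ⟨W, ⟨b1, v, b2, b3⟩, b4⟩ := H f a1 a2 a3
    have b5 : v ≠ 0 := by rintro rfl; exact b3 ((S.orth_sing 0).1 S.sing_zero)
    obtain ⟨z, c1, c2, c3⟩ := exists_fixed b4 2 v b2 b5 (by rw [pow_eq_one_iff_N.1 a2]; rfl)
    obtain ⟨c, rfl⟩ := Submodule.mem_span_singleton.1 ((Submodule.eq_of_le_of_finrank_eq
      ((Submodule.span_singleton_le_iff_mem _ _).2 c1) (by rw [finrank_span_singleton c2, b1])).ge b2)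
    exact b3 (by rw [S.orth_Q_smul, a4 (by omega) z c3, mul_zero])
  · intro h f a1 a2 _
    obtain ⟨z, b1, b2⟩ := two_point hS a1.isIso a2 (h.imp_left (by omega))
    exact ⟨F ∙ z, ⟨finrank_line b2, z, Submodule.mem_span_singleton_self z, b2⟩,
      inv_of_le_Cx ((Submodule.span_singleton_le_iff_mem _ _).2 (mem_Cx.2 b1))⟩

end Cfsg.Agent.H9.FUnip
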