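import Cfsg.Agent.H9.FTrP

/-! Arithmetic of fixed subspaces in orthogonal spaces. -/

set_option autoImplicit false

namespace Cfsg.Agent.H9.FOArith

open Cfsg.Agent.H9.FSemi

theorem cmp3 (c a b : ℕ) : (a = b ∧ c * a = c * b) ∨ (a + 1 ≤ b ∧ c * a + c ≤ c * b) ∨
    (b + 1 ≤ a ∧ c * b + c ≤ c * a) := by
  have := mul_cmp c a b
  omega

theorem cmp5 (c a b : ℕ) : (a = b ∧ c * a = c * b) ∨ (a + 1 = b ∧ c * a + c = c * b) ∨
    (a + 2 ≤ b ∧ c * a + 2 * c ≤ c * b) ∨ (b + 1 = a ∧ c * b + c = c * a) ∨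
    (b + 2 ≤ a ∧ c * b + 2 * c ≤ c * a) := by
  have := mul_cmp c a b
  omega

theorem arith_ts_sd_even {I d m t e : ℕ} (hI : 0 < I) (hI2 : I % 2 = 0) (ht : 0 < t) (hm : m < d)
    (he : e ≤ 1) (hΩ : ∃ a, 2 * d < I * a + 2 * ((e + a) % 2) + 2 * m ∧
      I * a + 2 * ((e + a) % 2) ≤ 2 * d) :
    (∀ s, 0 < s → (I * s ≤ 2 * d ∧ (I * s = 2 * d → (e + s) % 2 = 0)) →
      ∃ j, (j = 0 ∨ 2 * j + t ≤ s + 1) ∧ I * j ≤ m ∧
        m ≤ I * j + ((2 * d - I * s) / 2 - (e + s) % 2)) ↔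
      I ≤ m ∧ t + 2 * (m / I) ≤ 2 * d / I ∧
        ((2 * (m % I) ≤ I ∧ 2 * d % I = 0 ∧ (e + 2 * d / I) % 2 = 1 ∧ t + 2 * (m / I) < 2 * d / I) ∨
          (2 * (m % I) ≤ 2 * d % I ∧ (e + 2 * d / I) % 2 = 0) ∨
          (2 * (m % I) < 2 * d % I ∧ (e + 2 * d / I) % 2 = 1)) := by
  obtain ⟨a, h1, h2⟩ := hΩ
  obtain ⟨K, rfl⟩ : ∃ K, I = 2 * K := ⟨I / 2, by omega⟩
  have a1 := Nat.div_add_mod (2 * d) (2 * K)
  have a2 := Nat.div_add_mod m (2 * K)
  have a3 := Nat.mod_lt (2 * d) hI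
  have a4 := Nat.mod_lt m hI
  generalize 2 * d / (2 * K) = N at *
  generalize 2 * d % (2 * K) = ρ at *
  generalize m / (2 * K) = M at *
  generalize m % (2 * K) = μ at *
  simp only [mul_assoc] at *
  have a5 := mul_cmp K a N
  have a7 := mul_cmp K M 0
  constructor
  · intro H
    have a8 := mul_cmp K a 0
    obtain ⟨j, b1, b2, b3⟩ := H a (by omega) (by omega)
    have b4 := mul_cmp K j M
    have b5 := mul_cmp K j 0
    have b6 : 1 ≤ M := by omega
    have b7 := mul_cmp K (2 * M) N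
    rw [mul_left_comm] at b7
    have b8 : 2 ≤ N := by omega
    clear b1 b2 b3 b4 b5 a8 a5 h1 h2
    obtain ⟨N, rfl⟩ : ∃ N', N = N' + 1 := ⟨N - 1, by omega⟩
    rw [mul_add_one] at *
    obtain ⟨j1, c1, c2, c3⟩ := H N (by omega) (by omega)
    have c4 := mul_cmp K j1 M
    by_cases h3 : ρ = 0 ∧ (e + (N + 1)) % 2 = 1
    · obtain ⟨N, rfl⟩ : ∃ N', N = N' + 1 := ⟨N - 1, by omega⟩
      rw [mul_add_one] at *
      obtain ⟨j2, d1, d2, d3⟩ := H N (by omega) (by omega)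
      have d4 := mul_cmp K j2 M
      omega
    · obtain ⟨j2, d1, d2, d3⟩ := H (N + 1) (by omega) (by rw [mul_add_one]; omega)
      have d4 := mul_cmp K j2 M
      rw [mul_add_one] at d3
      omega
  · intro h s b1 b2
    have b4 := mul_cmp K s N
    by_cases b5 : 2 * M + t ≤ s + 1
    · exact ⟨M, by omega, by omega, by omega⟩
    · have b6 := mul_cmp K ((s + 1 - t) / 2) M
      have b7 := mul_cmp' K (2 * M) s (2 * ((s + 1 - t) / 2)) N
      simp only [mul_left_comm K 2] at b7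
      exact ⟨(s + 1 - t) / 2, by omega, by omega, by omega⟩

theorem arith_even {c n m : ℕ} (hc : 0 < c) (h0 : 0 < m) (hm : m < n) (δ : ℕ → Prop)
    (hδ : ∀ a, δ (a + 2) ↔ δ a) (ε η : Prop) :
    (∀ s, 0 < s → (c * s ≤ n ∧ (c * s = n → (ε ↔ δ s))) → ∃ j ≤ s,
        (c * j = m ∧ (η ↔ δ j)) ∨ (c * j < m ∧ m + c * s < n + c * j) ∨
        (c * j ≤ m ∧ m + c * s = n + c * j ∧ ((ε ↔ η) ↔ δ (s + j)))) ↔
      (0 < n / c → (n % c = 0 → (ε ↔ δ (n / c))) → (m % c = 0 ∧ (η ↔ δ (m / c))) ∨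
        (0 < m % c ∧ m % c < n % c) ∨ (m % c = n % c ∧ ((ε ↔ η) ↔ δ (n / c + m / c)))) ∧
      (1 < n / c → n / c = m / c ∨ (η ↔ δ (m / c)) ∨ 0 < m % c ∨ 0 < n % c ∨
        ((ε ↔ η) ↔ δ (n / c + m / c))) := by
  have a1 := Nat.div_add_mod n c
  have a2 := Nat.div_add_mod m c
  have a3 := Nat.mod_lt n hc
  have a4 := Nat.mod_lt m hc
  generalize n / c = N at *
  generalize n % c = ρ at *
  generalize m / c = M at *
  generalize m % c = μ at *
  have a5 := cmp3 c M N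
  have a6 := cmp3 c M 0
  constructor
  · refine fun H => ⟨fun h1 h2 => ?_, fun h1 => ?_⟩
    · obtain ⟨j, b1, b2⟩ := H N h1 ⟨by omega, fun h => h2 (by omega)⟩
      have b3 := cmp5 c j M
      obtain rfl : j = M := by omega
      rcases b2 with b2 | b2 | b2
      exacts [Or.inl ⟨by omega, b2.2⟩, Or.inr (Or.inl (by omega)),
        Or.inr (Or.inr ⟨by omega, b2.2.2⟩)]
    · obtain ⟨N, rfl⟩ : ∃ N', N = N' + 1 := ⟨N - 1, by omega⟩
      rw [mul_add_one] at *
      obtain ⟨j, b1, b2⟩ := H N (by omega) ⟨by omega, fun h => by omega⟩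
      have b3 := cmp5 c j M
      by_contra h
      simp only [not_or] at h
      rcases b2 with b2 | b2 | b2
      · obtain rfl : j = M := by omega
        exact h.2.1 b2.2
      · omega
      · obtain rfl : M = j + 1 := by omega
        rw [show N + 1 + (j + 1) = N + j + 2 by omega, hδ] at h
        exact h.2.2.2.2 b2.2.2
  · rintro ⟨h1, h2⟩ s b1 ⟨b2, b3⟩
    have b4 := cmp5 c s N
    have b5 := cmp3 c s M
    by_cases c1 : s < M
    · exact ⟨s, le_rfl, Or.inr (Or.inl (by omega))⟩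
    by_cases c2 : s = N
    · subst c2
      refine ⟨M, by omega, ?_⟩
      rcases h1 b1 fun h => b3 (by omega) with h | h | h
      exacts [Or.inl ⟨by omega, h.2⟩, Or.inr (Or.inl (by omega)),
        Or.inr (Or.inr ⟨by omega, by omega, h.2⟩)]
    by_cases c3 : 0 < μ
    · exact ⟨M, by omega, Or.inr (Or.inl (by omega))⟩
    obtain ⟨M, rfl⟩ : ∃ M', M = M' + 1 := ⟨M - 1, by omega⟩
    rw [mul_add_one] at *
    by_cases c4 : s + 1 < N ∨ 0 < ρ
    · exact ⟨M, by omega, Or.inr (Or.inl (by omega))⟩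
    obtain rfl : N = s + 1 := by omega
    rcases h2 (by omega) with h | h | h | h | h
    · omega
    · exact ⟨M + 1, by omega, Or.inl ⟨by rw [mul_add_one]; omega, h⟩⟩
    · omega
    · omega
    · rw [show s + 1 + (M + 1) = s + M + 2 by omega, hδ] at h
      exact ⟨M, by omega, Or.inr (Or.inr ⟨by omega, by omega, h⟩)⟩

theorem arith_odd {c n m : ℕ} (hc : 0 < c) (hm : m < n) (ε : ℕ → Prop) :
    (∀ s, 0 < s → (c * s ≤ n ∧ (c * s = n → ε s)) → ∃ j ≤ s, c * j ≤ m ∧ m + c * s < n + c * j) ↔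
      (0 < n / c → (n % c = 0 → ε (n / c)) → m % c < n % c) := by
  have a1 := Nat.div_add_mod n c
  have a2 := Nat.div_add_mod m c
  have a3 := Nat.mod_lt n hc
  have a4 := Nat.mod_lt m hc
  generalize n / c = N at *
  generalize n % c = ρ at *
  generalize m / c = M at *
  generalize m % c = μ at *
  constructor
  · intro H h1 h2
    obtain ⟨j, b1, b2⟩ := H N h1 ⟨by omega, fun h => h2 (by omega)⟩
    have b3 := cmp5 c j M
    omega
  · rintro h1 s b1 ⟨b2, b3⟩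
    have b4 := cmp5 c s N
    have b5 := cmp3 c s M
    by_cases c1 : s ≤ M
    · exact ⟨s, le_rfl, by omega⟩
    by_cases c2 : s = N
    · subst c2
      have := h1 b1 fun h => b3 (by omega)
      exact ⟨M, by omega, by omega⟩
    · exact ⟨M, by omega, by omega⟩

/-- The quotient appearing in the statements about even-dimensional subspaces. -/
theorem div_eq_add {c n m : ℕ} (hc : 0 < c) (h : m % c = n % c) :
    (n + m - 2 * (n % c)) / c = n / c + m / c := by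
  have a1 := Nat.div_add_mod n c
  have a2 := Nat.div_add_mod m c
  rw [show n + m - 2 * (n % c) = c * (n / c + m / c) by rw [mul_add]; omega,
    Nat.mul_div_cancel_left _ hc]

end Cfsg.Agent.H9.FOArith
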