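import Cfsg.Agent.H9.FOArith
import Cfsg.Agent.H9.FSpin

/-! Orthogonal spaces: counts, adjustable types, fixed subspaces of semisimple elements. -/

set_option autoImplicit false
set_option linter.unusedSectionVars false

namespace Cfsg.Agent.H9.FOrth

open Module Polynomial Cfsg.Agent.Form Cfsg.Agent.Form.PQ Cfsg.Agent.H9.FIdx Cfsg.Agent.H9.FCount
open Cfsg.Agent.H9.FClass Cfsg.Agent.H9.FOrd Cfsg.Agent.H9.Types Cfsg.Agent.H9.FInv
open Cfsg.Agent.H9.FSS Cfsg.Agent.H9.FModel Cfsg.Agent.H9.FNum Cfsg.Agent.H9.FAdapt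
open Cfsg.Agent.H9.FSemi Cfsg.Agent.H9.FInvol Cfsg.Agent.H9.FTrP Cfsg.Agent.H9.FSpin
open Cfsg.Agent.H9.FOArith

universe u v

variable {F : Type u} [Field F] {V : Type v} [AddCommGroup V] [Module F V]
  {S : PQ (FP.orth F) V} {f : End F V} [FiniteDimensional F V]

theorem plus_restrict {P : FP F} {S : PQ P V} (W : Submodule F V) :
    Plus (S.restrict W) ⊤ ↔ Plus S W := by
  rw [Plus, Plus, widx_restrict, finrank_top]

theorem isometric_data {P : FP F} {S : PQ P V} {W W' : Submodule F V} (hW : S.NondegOn W)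
    (h : Isometric S W W') : finrank F W' = finrank F W ∧ S.NondegOn W' ∧ widx S W' = widx S W :=
  ⟨(Iso.finrank_eq h).symm, (S.nondegOn_iff_restrict W').2 (Iso.nondeg h hW.restrict), by
    rw [← widx_restrict W, ← widx_restrict W', Iso.widx_eq h]⟩

variable {q r p c : ℕ} [hr : Fact r.Prime] [hp : Fact p.Prime] [CharP F p] [Fintype F]

theorem plus_perp (hS : S.Nondeg) {W : Submodule F V} (hW : S.NondegOn W)
    (h1 : Even (finrank F V)) (h2 : Even (finrank F W)) :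
    Plus S (S.perp W) ↔ (Plus S ⊤ ↔ Plus S W) := by
  have := hS.finrank_perp W
  rw [← hW.isCompl.sup_eq_top, plus_sup_iff hW (hW.perp hS) le_rfl h2
    (by rw [Nat.even_iff] at *; omega)]
  tauto

theorem isometric_iff_type {W W' : Submodule F V} (hW : S.NondegOn W) (he : Even (finrank F W)) :
    Isometric S W W' ↔ finrank F W' = finrank F W ∧ S.NondegOn W' ∧ (Plus S W' ↔ Plus S W) := by
  refine ⟨fun h => ?_, fun ⟨h1, h2, h3⟩ => isometric_orth_even hW h2 he h1.symm ?_⟩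
  · obtain ⟨h1, h2, h3⟩ := isometric_data hW h
    exact ⟨h1, h2, by rw [Plus, Plus, h1, h3]⟩
  · by_cases h : Plus S W
    · have := h3.2 h
      unfold Plus at *; omega
    · have a1 := (not_plus_iff hW he).1 h
      have a2 := (not_plus_iff h2 (h1 ▸ he)).1 (mt h3.1 h)
      omega

theorem card_isom_orth (hq : Fintype.card F = q) (hS : S.Nondeg)
    (h2 : (2 : F) ≠ 0 ∨ Even (finrank F V)) {d : ℕ} (hd : finrank F V / 2 = d) :
    ∃ k A, Nat.card S.isom * A = 2 * q ^ k * Count.P (q ^ 2) d ∧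
      ((finrank F V = 2 * d + 1 ∧ A = 1) ∨ (finrank F V = 2 * d ∧ Plus S ⊤ ∧ A = q ^ d + 1) ∨
        (finrank F V = 2 * d ∧ ¬ Plus S ⊤ ∧ 0 < d ∧ A = q ^ d - 1)) := by
  rcases Nat.even_or_odd' (finrank F V) with ⟨k, h | h⟩
  · obtain rfl : k = d := by omega
    by_cases h1 : Plus S ⊤
    · exact ⟨_, _, card_isom_orth_plus hq k hS h (by rw [Plus, finrank_top] at h1; omega),
        Or.inr (Or.inl ⟨h, h1, rfl⟩)⟩
    · have h3 := (not_plus_iff (S.nondegOn_top.2 hS) (by rw [finrank_top, h]; simp)).1 h1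
      rw [finrank_top] at h3
      obtain ⟨k, rfl⟩ : ∃ k', k = k' + 1 := ⟨k - 1, by omega⟩
      exact ⟨_, _, card_isom_orth_minus hq k hS h (by omega),
        Or.inr (Or.inr ⟨h, h1, by omega, rfl⟩)⟩
  · obtain rfl : k = d := by omega
    exact ⟨_, 1, by rw [mul_one]; exact card_isom_orth_odd hq (h2.resolve_right
      (by rw [h]; simp)) k hS h, Or.inl ⟨h, rfl⟩⟩

theorem hΩ_isometric (hq : Fintype.card F = q) (hrp : r ≠ p) (hr2 : r ≠ 2) {i : ℕ}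
    (hi : i = orderOf (q : ZMod r)) (hc : c = if Even i then i else 2 * i) (hS : S.Nondeg)
    {W : Submodule F V} (hW : S.NondegOn W) {m n : ℕ} (hn : finrank F V = n)
    (hm : finrank F W = m) (h0 : 0 < m) (h1 : 1 < m ∨ Even n)
    (h2 : (2 : F) ≠ 0 ∨ (Even n ∧ Even m)) (h : r ∣ Nat.card {W' // Isometric S W W'}) :
    ∃ a, (c * a + m = n ∧ ¬ (Plus S (S.perp W) ↔ (i % 2 = 1 ∨ a % 2 = 0))) ∨
      (n < c * a + m ∧ c * a < n) ∨ (c * a = n ∧ (Plus S ⊤ ↔ (i % 2 = 1 ∨ a % 2 = 0))) := by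
  have b3 := card_isometric_mul hS hW
  have b4 := hS.finrank_perp W
  have hq2 := Arith.two_le_q hq
  have hi0 : 0 < i := hi ▸ Arith.orderOf_pos' hq hrp
  simp only [Nat.even_iff] at h1 h2
  obtain ⟨k, A, a1, a2⟩ := card_isom_orth hq hS (h2.imp_right fun h => by
    rw [Nat.even_iff]; omega) rfl
  obtain ⟨k', A', a3, a4⟩ := card_isom_orth hq (hW.perp hS).restrict (h2.imp_right fun h => by
    rw [Nat.even_iff]; omega) rfl
  rw [plus_restrict] at a4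
  generalize finrank F V / 2 = d at *
  generalize finrank F (S.perp W) / 2 = d' at *
  obtain ⟨d, rfl⟩ : ∃ e, d = e + 1 := ⟨d - 1, by omega⟩
  rw [P_sq_succ, P_split _ (show d' ≤ d by omega)] at a1
  have a5 : Nat.card {W' // Isometric S W W'} * (Nat.card (S.restrict W).isom * q ^ k') * A =
      q ^ k * (A' * ∏ j ∈ Finset.Ico d' d, ((q ^ 2) ^ (j + 1) - 1)) *
        ((q ^ (d + 1) - 1) * (q ^ (d + 1) + 1)) := by
    refine Nat.eq_of_mul_eq_mul_left (show 0 < 2 * Count.P (q ^ 2) d' from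
      Nat.mul_pos two_pos (Count.P_pos (by nlinarith) _)) ?_
    rw [← b3] at a1
    linear_combination A' * a1 - Nat.card {W' // Isometric S W W'} *
      Nat.card (S.restrict W).isom * A * a3
  have key : ∀ B, r ∣ q ^ k * (A' * ∏ j ∈ Finset.Ico d' d, ((q ^ 2) ^ (j + 1) - 1)) * B →
      r ∣ B ∨ ∃ a, (c * a + m = n ∧ ¬ (Plus S (S.perp W) ↔ (i % 2 = 1 ∨ a % 2 = 0))) ∨
        (n < c * a + m ∧ c * a < n) := fun B h => by
    refine (hr.out.dvd_mul.1 h).symm.imp_right fun h => ?_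
    rcases hr.out.dvd_mul.1 ((hr.out.dvd_mul.1 h).resolve_left fun h =>
      Arith.not_dvd_q hq hrp (hr.out.dvd_of_dvd_pow h)) with h | h
    · rcases a4 with a4 | a4 | a4
      · exact absurd (Nat.dvd_one.1 (a4.2 ▸ h)) hr.out.one_lt.ne'
      · obtain ⟨a, c1, c2⟩ := of_dvd_add hr2 hi hi0 hc (a4.2.2 ▸ h)
        exact ⟨a, Or.inl ⟨by omega, fun h => by have := h.1 a4.2.1; omega⟩⟩
      · obtain ⟨a, c1, c2⟩ := of_dvd_sub (by omega) hi hc (a4.2.2.2 ▸ h)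
        exact ⟨a, Or.inl ⟨by omega, fun h => a4.2.1 (h.2 c2)⟩⟩
    · obtain ⟨j, c1, c2, c3⟩ := dvd_of_dvd_Ico (g := fun j => (q ^ 2) ^ j - 1) h
      obtain ⟨a, ha⟩ := of_dvd_sq_sub (by omega) hi hc c3
      exact ⟨a, Or.inr (by omega)⟩
  have fin : (∃ a, (c * a + m = n ∧ ¬ (Plus S (S.perp W) ↔ (i % 2 = 1 ∨ a % 2 = 0))) ∨
        (n < c * a + m ∧ c * a < n)) → _ := fun ⟨a, h⟩ => (⟨a, h.imp_right Or.inl⟩ :
    ∃ a, (c * a + m = n ∧ ¬ (Plus S (S.perp W) ↔ (i % 2 = 1 ∨ a % 2 = 0))) ∨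
      (n < c * a + m ∧ c * a < n) ∨ (c * a = n ∧ (Plus S ⊤ ↔ (i % 2 = 1 ∨ a % 2 = 0))))
  rcases a2 with ⟨a2, rfl⟩ | ⟨a2, a6, rfl⟩ | ⟨a2, a6, -, rfl⟩
  · refine (key _ (a5 ▸ (h.mul_right _).mul_right _)).elim (fun h => ?_) fin
    rcases hr.out.dvd_mul.1 h with h | h
    · obtain ⟨a, c1, -⟩ := of_dvd_sub (by omega) hi hc h
      exact ⟨a, Or.inr (Or.inl (by omega))⟩
    · obtain ⟨a, c1, -⟩ := of_dvd_add hr2 hi hi0 hc h
      exact ⟨a, Or.inr (Or.inl (by omega))⟩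
  · rw [← mul_assoc _ (q ^ (d + 1) - 1), mul_left_inj' (by positivity)] at a5
    refine (key _ (a5 ▸ h.mul_right _)).elim (fun h => ?_) fin
    obtain ⟨a, c1, c2⟩ := of_dvd_sub (by omega) hi hc h
    exact ⟨a, Or.inr (Or.inr ⟨by omega, iff_of_true a6 c2⟩)⟩
  · rw [mul_comm (q ^ (d + 1) - 1), ← mul_assoc _ (q ^ (d + 1) + 1), mul_left_inj'
      (Nat.sub_ne_zero_of_lt (Nat.one_lt_pow (by omega) (by omega)))] at a5
    refine (key _ (a5 ▸ h.mul_right _)).elim (fun h => ?_) fin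
    obtain ⟨a, c1, c2⟩ := of_dvd_add hr2 hi hi0 hc h
    exact ⟨a, Or.inr (Or.inr ⟨by omega, iff_of_false a6 (by omega)⟩)⟩

/-- Even-dimensional subspaces of a given type. -/
theorem orth_even_iff (hq : Fintype.card F = q) (hrp : r ≠ p) (hr2 : r ≠ 2) {i : ℕ}
    (hi : i = orderOf (q : ZMod r)) (hc : c = if Even i then i else 2 * i) (hS : S.Nondeg)
    {m n : ℕ} (hn : finrank F V = n) (hm : Even m) (h0 : 0 < m) (hmn : m < n)
    (h2 : (2 : F) ≠ 0 ∨ Even n) (η : Prop) {ε : Prop} (hε : Plus S ⊤ ↔ ε)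
    (h : r ∣ Nat.card {W : Submodule F V // finrank F W = m ∧ S.NondegOn W ∧ (Plus S W ↔ η)}) :
    (∃ a, (c * a + m = n ∧ ¬ ((ε ↔ η) ↔ (i % 2 = 1 ∨ a % 2 = 0))) ∨
      (n < c * a + m ∧ c * a < n) ∨ (c * a = n ∧ (ε ↔ (i % 2 = 1 ∨ a % 2 = 0)))) ∧
    ((∀ f : End F V, S.IsIso S f → f ^ r = 1 → f ≠ 1 →
      FAdapt.Fix (fun W => finrank F W = m ∧ S.NondegOn W ∧ (Plus S W ↔ η)) f) ↔
      (0 < n / c → (n % c = 0 → (ε ↔ (i % 2 = 1 ∨ n / c % 2 = 0))) →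
        (m % c = 0 ∧ (η ↔ (i % 2 = 1 ∨ m / c % 2 = 0))) ∨ (0 < m % c ∧ m % c < n % c) ∨
        (m % c = n % c ∧ ((ε ↔ η) ↔ (i % 2 = 1 ∨ (n / c + m / c) % 2 = 0)))) ∧
      (1 < n / c → n / c = m / c ∨ (η ↔ (i % 2 = 1 ∨ m / c % 2 = 0)) ∨ 0 < m % c ∨ 0 < n % c ∨
        ((ε ↔ η) ↔ (i % 2 = 1 ∨ (n / c + m / c) % 2 = 0)))) := by
  refine ⟨?_, (nd_iff_orth_even hq hrp hr2 hi hc hS hn hm η hε).trans (arith_even
    ((blk_id (P := FP.orth F) hq hrp hr2 (fun _ => rfl) hi hc).pos hq hrp) h0 hmn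
    (fun a => i % 2 = 1 ∨ a % 2 = 0) (fun a => by omega) ε η)⟩
  obtain ⟨W, -, b1, b2, b3⟩ := exists_sub_type (S.nondegOn_top.2 hS) hm h0
    (by rw [finrank_top]; omega) η
  simp only [← b2, ← b3, ← isometric_iff_type b1 (b2 ▸ hm)] at h
  obtain ⟨a, ha⟩ := hΩ_isometric hq hrp hr2 hi hc hS b1 hn b2 h0
    (Or.inl (by rw [Nat.even_iff] at hm; omega)) (h2.imp_right fun h => ⟨h, hm⟩) h
  refine ⟨a, ha.imp (fun h => ⟨h.1, ?_⟩) (Or.imp_right fun h => ⟨h.1, hε.symm.trans h.2⟩)⟩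
  rw [← hε, ← b3, ← plus_perp hS b1 (hn ▸ h.1 ▸ ((even_c hc).mul_right a).add hm) (b2 ▸ hm)]
  exact h.2

/-! ### Totally singular subspaces -/

theorem hΩ_ts (hq : Fintype.card F = q) (hS : S.Nondeg) {m n w : ℕ} (hn : finrank F V = n)
    (hw : widx S ⊤ = w) (hm : m ≤ w) (hm' : m + w < n)
    (h : r ∣ Nat.card {W : Submodule F V // finrank F W = m ∧ S.TS W}) :
    r ≠ p ∧ ∃ j < m, r ∣ q ^ (w - j) - 1 ∨ r ∣ q ^ (n - w - j - 1) + 1 := by
  obtain ⟨j, a1, a2⟩ := exists_dvd_sn_of_dvd_card_ts hq hS hr.out h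
  rw [card_Λ_orth, hn, hw] at a2
  refine ⟨?_, j, a1, ?_⟩
  · rintro rfl
    refine p_not_dvd_sn hq (by omega) ?_ a2
    rw [mul_one]
    exact (Arith.p_dvd_q hq).trans (dvd_pow_self q (by omega))
  · rw [sn, mul_one, show n - 2 * j - (w - j) - 1 = n - w - j - 1 by omega] at a2
    exact hr.out.dvd_mul.1 a2

theorem ts_odd_iff (hq : Fintype.card F = q) (hrp : r ≠ p) (hr2 : r ≠ 2) {i : ℕ}
    (hi : i = orderOf (q : ZMod r)) (hc : c = if Even i then i else 2 * i) (hS : S.Nondeg)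
    {m d : ℕ} (hn : finrank F V = 2 * d + 1) (hm : m ≤ d)
    (h : ∃ j < m, r ∣ q ^ (d - j) - 1 ∨ r ∣ q ^ (2 * d + 1 - d - j - 1) + 1) :
    (∀ f : End F V, S.IsIso S f → f ^ r = 1 → f ≠ 1 →
      FAdapt.Fix (fun W => finrank F W = m ∧ S.TS W) f) ↔
      i ≤ m ∧ 2 * (m % i) < (2 * d + 1) % c ∧
        (Odd i ∨ (r - 1) / i + 2 * (m / i) ≤ (2 * d + 1) / i) := by
  have hi0 : 0 < i := hi ▸ Arith.orderOf_pos' hq hrp
  have hq2 := Arith.two_le_q hq
  have hΩ : ∃ a, 2 * d + 1 < c * a + 2 * m ∧ c * a ≤ 2 * d + 1 := by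
    obtain ⟨j, a1, a2 | a2⟩ := h
    · obtain ⟨a, c1, -⟩ := of_dvd_sub (by omega) hi hc a2
      exact ⟨a, by omega⟩
    · obtain ⟨a, c1, -⟩ := of_dvd_add hr2 hi hi0 hc a2
      exact ⟨a, by omega⟩
  have hR : ∀ (f : End F V) (s : ℕ), S.IsIso S f → f ^ r = 1 → finrank F (Dx r f) = c * s →
      (c * s ≤ finrank F V ∧ (c * s = finrank F V → (Plus S ⊤ ↔ (i % 2 = 1 ∨ s % 2 = 0)))) ∧
        widx S (Cx f) = (2 * d + 1 - c * s) / 2 := fun f s a1 a2 a3 => by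
    refine ⟨real_orth hq hrp hr2 hi hc hS a1 a2 a3, ?_⟩
    have b1 := finrank_cd_top hrp a2
    have b2 := Nat.even_iff.1 ((even_c hc).mul_right s)
    have b3 := widx_odd (nondegOn_Cx hrp hS a1 a2) (by rw [Nat.odd_iff]; omega)
    omega
  have hR' : ∀ s, (c * s ≤ finrank F V ∧ (c * s = finrank F V →
      (Plus S ⊤ ↔ (i % 2 = 1 ∨ s % 2 = 0)))) ↔ c * s ≤ 2 * d + 1 := fun s => by
    have b2 := Nat.even_iff.1 ((even_c hc).mul_right s)
    exact ⟨fun h => hn ▸ h.1, fun h => ⟨hn ▸ h, fun h => by omega⟩⟩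
  have hM := models_orth hq hrp hr2 hi hc hS
  have h3 : (2 * d + 1) % c % 2 = 1 := by
    rw [Nat.mod_mod_of_dvd _ (even_c hc).two_dvd]; omega
  split_ifs at hc with h4
  · subst hc
    rw [ts_iff_sd (sd_id hq hrp hr2 (fun _ => rfl) (hi ▸ h4)) hq hrp hr2 hS hi hM hR]
    simp only [hR', Nat.not_odd_iff_even.2 h4, false_or]
    rw [arith_ts_sd hi0 (hi ▸ t_pos hq hrp) (by omega) hΩ]
    omega
  · subst hc
    rw [ts_iff_nsd (nsd_id hq hrp hr2 (fun _ => rfl) (hi ▸ h4)) hq hrp hr2 hS hi hM hR]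
    simp only [hR', Nat.not_even_iff_odd.1 h4, true_or, and_true]
    rw [arith_ts_nsd hi0 (by omega) hΩ]
    omega

theorem ts_even_iff (hq : Fintype.card F = q) (hrp : r ≠ p) (hr2 : r ≠ 2) {i : ℕ}
    (hi : i = orderOf (q : ZMod r)) (hc : c = if Even i then i else 2 * i) (hS : S.Nondeg)
    {m d e : ℕ} (hn : finrank F V = 2 * d) (hm : m < d) (he : e ≤ 1) (hw : widx S ⊤ + e = d)
    (h : ∃ j < m, r ∣ q ^ (d - e - j) - 1 ∨ r ∣ q ^ (2 * d - (d - e) - j - 1) + 1) :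
    (∀ f : End F V, S.IsIso S f → f ^ r = 1 → f ≠ 1 →
      FAdapt.Fix (fun W => finrank F W = m ∧ S.TS W) f) ↔
      (Odd i ∧ i ≤ m ∧ 2 * (m % i) ≤ (2 * (d - e)) % c) ∨
      (Even i ∧ i ≤ m ∧ (r - 1) / i + 2 * (m / i) ≤ 2 * d / i ∧
        ((2 * (m % i) ≤ i ∧ 2 * d % c = 0 ∧ (e + 2 * d / i) % 2 = 1 ∧
            (r - 1) / i + 2 * (m / i) < 2 * d / i) ∨
          (2 * (m % i) ≤ 2 * d % c ∧ (e + 2 * d / i) % 2 = 0) ∨
          (2 * (m % i) < 2 * d % c ∧ (e + 2 * d / i) % 2 = 1))) := by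
  have hi0 : 0 < i := hi ▸ Arith.orderOf_pos' hq hrp
  have hq2 := Arith.two_le_q hq
  have hε : Plus S ⊤ ↔ e = 0 := by rw [Plus, finrank_top]; omega
  have hR : ∀ (f : End F V) (s : ℕ), S.IsIso S f → f ^ r = 1 → finrank F (Dx r f) = c * s →
      (c * s ≤ finrank F V ∧ (c * s = finrank F V → (Plus S ⊤ ↔ (i % 2 = 1 ∨ s % 2 = 0)))) ∧
        widx S (Cx f) = (2 * d - c * s) / 2 - if i % 2 = 1 then e else (e + s) % 2 :=
    fun f s a1 a2 a3 => by
    refine ⟨real_orth hq hrp hr2 hi hc hS a1 a2 a3, ?_⟩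
    have b1 := finrank_cd_top hrp a2
    have b2 := Nat.even_iff.1 ((even_c hc).mul_right s)
    have b3 : Even (finrank F (Cx f)) := by rw [Nat.even_iff]; omega
    have b4 := plus_Cx hq hrp hr2 hi hc hS a1 a2 a3 b3
    have b5 := not_plus_iff (nondegOn_Cx hrp hS a1 a2) b3
    rw [hε] at b4
    unfold Plus at b4 b5
    split_ifs <;> omega
  have hM := models_orth hq hrp hr2 hi hc hS
  simp only [hn, hε] at hR hM
  obtain ⟨j, a1, a2⟩ := h
  split_ifs at hc with h4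
  · subst hc
    have h5 := Nat.even_iff.1 h4
    rw [ts_iff_sd (sd_id hq hrp hr2 (fun _ => rfl) (hi ▸ h4)) hq hrp hr2 hS hi hM hR]
    simp only [Nat.not_odd_iff_even.2 h4, h4, false_and, false_or, true_and, h5, zero_ne_one,
      if_false, show ∀ s, (e = 0 ↔ s % 2 = 0) ↔ (e + s) % 2 = 0 by omega]
    refine arith_ts_sd_even hi0 h5 (hi ▸ t_pos hq hrp) hm he ?_
    rcases a2 with a2 | a2
    · obtain ⟨a, c1, c2⟩ := of_dvd_sub (by omega) hi (if_pos h4).symm a2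
      exact ⟨a, by omega⟩
    · obtain ⟨a, c1, c2⟩ := of_dvd_add hr2 hi hi0 (if_pos h4).symm a2
      exact ⟨a, by omega⟩
  · subst hc
    have h5 := Nat.odd_iff.1 (Nat.not_even_iff_odd.1 h4)
    rw [ts_iff_nsd (nsd_id hq hrp hr2 (fun _ => rfl) (hi ▸ h4)) hq hrp hr2 hS hi hM hR]
    simp only [Nat.not_even_iff_odd.1 h4, h4, false_and, or_false, true_and, h5, if_true, true_or,
      iff_true]
    rw [← arith_ts_nsd hi0 (by omega : 2 * m ≤ 2 * (d - e))]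
    · refine forall₂_congr fun s _ => imp_congr (by rw [mul_assoc]; omega)
        (exists_congr fun j => ?_)
      rw [mul_assoc]; omega
    · rcases a2 with a2 | a2
      · obtain ⟨a, c1, c2⟩ := of_dvd_sub (by omega) hi (if_neg h4).symm a2
        exact ⟨a, by omega⟩
      · obtain ⟨a, c1, c2⟩ := of_dvd_add hr2 hi hi0 (if_neg h4).symm a2
        omega

/-! ### Adjusting types in odd characteristic -/

omit hp [CharP F p] hr in
theorem eq_line {W : Submodule F V} (hW : S.NondegOn W) (h : finrank F W = 1) :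
    ∃ u, S.Q u ≠ 0 ∧ W = F ∙ u := by
  obtain ⟨u, a1, a2⟩ := exists_Q_ne_zero hW (ne_bot_of (by omega))
  exact ⟨u, a2, (Submodule.eq_of_le_of_finrank_eq ((Submodule.span_singleton_le_iff_mem _ _).2 a1)
    (by rw [finrank_line a2, h])).symm⟩

omit hr in
theorem adjust_type (hp2 : 2 ≠ p) {A C : Submodule F V} (hA : S.NondegOn A)
    (ho : Odd (finrank F A)) (hC : S.NondegOn C) (h2 : 2 ≤ finrank F C) (h : C ≤ S.perp A)
    (η : Prop) : ∃ v ∈ C, S.Q v ≠ 0 ∧ (Plus S (A ⊔ (F ∙ v)) ↔ η) := by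
  have t := two_ne_zero' (F := F) hp2
  obtain ⟨H, a1, a2, a3, a4, a5, a6, -, a8⟩ := exists_hyp_split hA le_rfl
  obtain ⟨u, b1, b2⟩ := eq_line a5 (by have := widx_odd hA ho; omega)
  obtain ⟨z, z1, z2⟩ : ∃ z : F, z ≠ 0 ∧ (IsSquare z ↔ η) := by
    by_cases h : η
    · exact ⟨1, one_ne_zero, iff_of_true IsSquare.one h⟩
    · obtain ⟨z, hz⟩ := FiniteField.exists_nonsquare (F := F)
        (by rw [ringChar.eq F p]; exact hp2.symm)
      exact ⟨z, fun h => hz (h ▸ IsSquare.zero), iff_of_false hz h⟩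
  obtain ⟨v, c1, c2⟩ := exists_value hC h2 (-z / S.Q u)
  have c3 : S.Q v ≠ 0 := c2 ▸ div_ne_zero (neg_ne_zero.2 z1) b1
  have c4 : u ∈ A ⊓ S.perp H := b2 ▸ Submodule.mem_span_singleton_self u
  have c5 : S.B v u = 0 := h c1 u c4.1
  refine ⟨v, c1, c3, ?_⟩
  rw [← a6, b2, sup_assoc, Plus.sup_iff (by rw [Plus, a3, a4]) a2 ((nondegOn_line t b1).sup
    (nondegOn_line t c3) (line_le_perp c5)) (sup_le (b2 ▸ inf_le_right)
    ((Submodule.span_singleton_le_iff_mem _ _).2 (S.perp_anti a1 (h c1)))),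
    plus_plane t b1 c3 c5, c2, ← z2, show -(S.Q u * (-z / S.Q u)) = z by field_simp]

omit hr in
theorem adjust_isometric (hp2 : 2 ≠ p) {A C W : Submodule F V} (hA : S.NondegOn A)
    (hW : S.NondegOn W) (ho : Odd (finrank F W)) (h1 : finrank F A + 1 = finrank F W)
    (hC : S.NondegOn C) (h2 : 2 ≤ finrank F C) (h : C ≤ S.perp A) :
    ∃ v ∈ C, S.Q v ≠ 0 ∧ Isometric S W (A ⊔ (F ∙ v)) := by
  have t := two_ne_zero' (F := F) hp2
  have he : Even (finrank F A) := by rw [Nat.even_iff]; rw [Nat.odd_iff] at ho; omega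
  obtain ⟨H, a1, a2, a3⟩ : ∃ H ≤ W, S.NondegOn H ∧ Isometric S A H := by
    rcases Nat.eq_zero_or_pos (finrank F A) with h0 | h0
    · exact ⟨A, (Submodule.finrank_eq_zero.1 h0).le.trans bot_le, hA, Iso.refl _⟩
    · obtain ⟨H, b1, b2, b3, b4⟩ := exists_sub_type hW he h0 (by omega) (Plus S A)
      exact ⟨H, b1, b2, (isometric_iff_type hA he).2 ⟨b3, b2, b4⟩⟩
  obtain ⟨a4, a5⟩ := a2.inf_perp hW a1
  obtain ⟨u, b1, b2⟩ := eq_line a4 (by
    have := finrank_inf_perp hW a1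
    have := Iso.finrank_eq a3
    omega)
  obtain ⟨v, c1, c2⟩ := exists_value hC h2 (S.Q u)
  have c3 : S.Q v ≠ 0 := c2 ▸ b1
  refine ⟨v, c1, c3, ?_⟩
  rw [← a5]
  refine (iso_prod_sup a2 inf_le_right).symm.trans (Iso.trans (Iso.prod (Iso.symm a3) ?_)
    (iso_prod_sup hA ((Submodule.span_singleton_le_iff_mem _ _).2 (h c1))))
  rw [b2]
  refine iso_of_one (v := ⟨u, Submodule.mem_span_singleton_self u⟩)
    (v' := ⟨v, Submodule.mem_span_singleton_self v⟩) (finrank_line b1) (finrank_line c3)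
    (fun h => b1 (by rw [show u = 0 from Subtype.ext_iff.1 h]; exact S.orth_Q_zero))
    (fun h => c3 (by rw [show v = 0 from Subtype.ext_iff.1 h]; exact S.orth_Q_zero)) ?_ ?_
  · change S.B v v = S.B u u
    rw [S.orth_B_self, S.orth_B_self, c2]
  · change S.Q v - S.Q u ∈ _
    rw [c2, sub_self]; exact zero_mem _

omit hr in
theorem exists_nondeg_orth (hp2 : 2 ≠ p) {W : Submodule F V} (hW : S.NondegOn W) {e : ℕ}
    (he : e ≤ finrank F W) : ∃ U ≤ W, S.NondegOn U ∧ finrank F U = e :=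
  exists_nondeg_of_aniso (fun _ => exists_aniso_orth (two_ne_zero' hp2)) hW he

omit hr in
/-- Inside `C ⊥ D`: a split subspace of dimension `m - 1` leaving at least a plane of `C`. -/
theorem exists_split (hp2 : 2 ≠ p) {C D : Submodule F V} (hC : S.NondegOn C) (hD : S.NondegOn D)
    (h : D ≤ S.perp C) (h2 : 2 ≤ finrank F C) {m : ℕ} (hm : m + 2 ≤ finrank F C + finrank F D) :
    ∃ E ≤ C, ∃ H ≤ D, ∃ C' ≤ C, S.NondegOn (E ⊔ H) ∧ finrank F ↥(E ⊔ H) = m ∧ S.NondegOn C' ∧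
      2 ≤ finrank F C' ∧ C' ≤ S.perp (E ⊔ H) := by
  obtain ⟨E, a1, a2, a3⟩ := exists_nondeg_orth hp2 hC (e := m - finrank F D) (by omega)
  obtain ⟨H, b1, b2, b3⟩ := exists_nondeg_orth hp2 hD (e := m - (m - finrank F D)) (by omega)
  have c1 := b1.trans (h.trans (S.perp_anti a1))
  have c2 := finrank_inf_perp hC a1
  refine ⟨E, a1, H, b1, C ⊓ S.perp E, inf_le_left, a2.sup b2 c1, by
    rw [finrank_sup_of_le_perp a2 c1]; omega, (a2.inf_perp hC a1).1, by omega, ?_⟩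
  rw [perp_sup]
  exact inf_le_inf_right _ (S.le_perp_comm.1 (b1.trans h)) |>.trans (inf_comm _ _).le

omit hr in
theorem fix_type_of_split (hp2 : 2 ≠ p) {C D : Submodule F V} (hC : S.NondegOn C)
    (hD : S.NondegOn D) (h : D ≤ S.perp C) (h2 : 2 ≤ finrank F C) (iC : ∀ U ≤ C, ∀ x ∈ U, f x ∈ U)
    (iD : ∀ U ≤ D, ∀ x ∈ U, f x ∈ U) {m : ℕ} (h0 : 0 < m) (he : Even m)
    (hm : m < finrank F C + finrank F D) (η : Prop) :
    FAdapt.Fix (fun W => finrank F W = m ∧ S.NondegOn W ∧ (Plus S W ↔ η)) f := by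
  obtain ⟨E, a1, H, a2, C', a3, a4, a5, a6, a7, a8⟩ := exists_split hp2 hC hD h h2 (m := m - 1)
    (by omega)
  obtain ⟨v, b1, b2, b3⟩ := adjust_type hp2 a4 (by
    rw [a5, Nat.odd_iff]; rw [Nat.even_iff] at he; omega) a6 a7 a8 η
  have b4 := (Submodule.span_singleton_le_iff_mem _ _).2 b1
  exact ⟨_, ⟨by rw [finrank_sup_of_le_perp a4 (b4.trans a8), finrank_line b2]; omega,
    a4.sup (nondegOn_line (two_ne_zero' hp2) b2) (b4.trans a8), b3⟩,
    inv_sup (inv_sup (iC _ a1) (iD _ a2)) (iC _ (b4.trans a3))⟩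

omit hr in
/-- An involution fixes a non-degenerate subspace of every even dimension and type. -/
theorem invol_type (hp2 : 2 ≠ p) (hS : S.Nondeg) (hf : S.IsIso S f) (h : f ^ 2 = 1) {m : ℕ}
    (h0 : 0 < m) (he : Even m) (hm : m < finrank F V) (η : Prop) :
    FAdapt.Fix (fun W => finrank F W = m ∧ S.NondegOn W ∧ (Plus S W ↔ η)) f := by
  have a1 := finrank_cd_top hp2 h
  have a2 := Nat.even_iff.1 he
  by_cases h2 : 2 ≤ finrank F (Cx f)
  · exact fix_type_of_split hp2 (nondegOn_Cx hp2 hS hf h) (nondegOn_Dx hp2 hS hf h)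
      (Dx_le_perp hp2 hf) h2 (fun _ => inv_of_le_Cx) (fun _ => inv_of_le_Dx_two) h0 he (a1 ▸ hm) η
  · exact fix_type_of_split hp2 (nondegOn_Dx hp2 hS hf h) (nondegOn_Cx hp2 hS hf h)
      (S.le_perp_comm.1 (Dx_le_perp hp2 hf)) (by omega) (fun _ => inv_of_le_Dx_two)
      (fun _ => inv_of_le_Cx) h0 he (by omega) η

omit hr in
theorem fix_isometric_of_split (hp2 : 2 ≠ p) {C D W : Submodule F V} (hC : S.NondegOn C)
    (hD : S.NondegOn D) (h : D ≤ S.perp C) (h2 : 2 ≤ finrank F C) (iC : ∀ U ≤ C, ∀ x ∈ U, f x ∈ U)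
    (iD : ∀ U ≤ D, ∀ x ∈ U, f x ∈ U) (hW : S.NondegOn W) (ho : Odd (finrank F W))
    (hm : finrank F W < finrank F C + finrank F D) : FAdapt.Fix (Isometric S W) f := by
  have := ho.pos
  obtain ⟨E, a1, H, a2, C', a3, a4, a5, a6, a7, a8⟩ := exists_split hp2 hC hD h h2
    (m := finrank F W - 1) (by omega)
  obtain ⟨v, b1, b2, b3⟩ := adjust_isometric hp2 a4 hW ho (by omega) a6 a7 a8
  exact ⟨_, b3, inv_sup (inv_sup (iC _ a1) (iD _ a2))
    (iC _ (((Submodule.span_singleton_le_iff_mem _ _).2 b1).trans a3))⟩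

omit hr in
/-- An involution fixes a subspace isometric to a given odd-dimensional one. -/
theorem invol_isometric (hp2 : 2 ≠ p) (hS : S.Nondeg) (hf : S.IsIso S f) (h : f ^ 2 = 1)
    {W : Submodule F V} (hW : S.NondegOn W) (ho : Odd (finrank F W))
    (hm : finrank F W < finrank F V) (h3 : 3 ≤ finrank F V) : FAdapt.Fix (Isometric S W) f := by
  have a1 := finrank_cd_top hp2 h
  by_cases h2 : 2 ≤ finrank F (Cx f)
  · exact fix_isometric_of_split hp2 (nondegOn_Cx hp2 hS hf h) (nondegOn_Dx hp2 hS hf h)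
      (Dx_le_perp hp2 hf) h2 (fun _ => inv_of_le_Cx) (fun _ => inv_of_le_Dx_two) hW ho (a1 ▸ hm)
  · exact fix_isometric_of_split hp2 (nondegOn_Dx hp2 hS hf h) (nondegOn_Cx hp2 hS hf h)
      (S.le_perp_comm.1 (Dx_le_perp hp2 hf)) (by omega) (fun _ => inv_of_le_Dx_two)
      (fun _ => inv_of_le_Cx) hW ho (by omega)

/-- Odd-dimensional subspaces of an even-dimensional space. -/
theorem orth_odd_iff (hq : Fintype.card F = q) (hp2 : 2 ≠ p) (hrp : r ≠ p) (hr2 : r ≠ 2) {i : ℕ}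
    (hi : i = orderOf (q : ZMod r)) (hc : c = if Even i then i else 2 * i) (hS : S.Nondeg)
    {m n : ℕ} (hn : finrank F V = n) (hne : Even n) {W : Submodule F V} (hW : S.NondegOn W)
    (hWm : finrank F W = m) (hm : Odd m) {ε : Prop} (hε : Plus S ⊤ ↔ ε)
    (h : r ∣ Nat.card {W' // Isometric S W W'}) :
    (∃ a, (n < c * a + m ∧ c * a < n) ∨ (c * a = n ∧ (ε ↔ (i % 2 = 1 ∨ a % 2 = 0)))) ∧
    ((∀ f : End F V, S.IsIso S f → f ^ r = 1 → f ≠ 1 → FAdapt.Fix (Isometric S W) f) ↔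
      (0 < n / c → (n % c = 0 → (ε ↔ (i % 2 = 1 ∨ n / c % 2 = 0))) → m % c < n % c)) := by
  have hb := blk_id (P := FP.orth F) hq hrp hr2 (fun _ => rfl) hi hc
  have e1 := Nat.even_iff.1 hne
  have e2 := Nat.odd_iff.1 hm
  have e3 := W.finrank_le
  constructor
  · obtain ⟨a, ha⟩ := hΩ_isometric hq hrp hr2 hi hc hS hW hn hWm hm.pos (Or.inr hne)
      (Or.inl (two_ne_zero' hp2)) h
    have := Nat.even_iff.1 ((even_c hc).mul_right a)
    exact ⟨a, (ha.resolve_left (by omega)).imp_right fun h => ⟨h.1, hε.symm.trans h.2⟩⟩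
  rw [← arith_odd (hb.pos hq hrp) (by omega : m < n) fun s => ε ↔ (i % 2 = 1 ∨ s % 2 = 0)]
  subst hn
  simp only [← hε]
  refine nd_iff hb hq hrp hr2 hS (models_orth hq hrp hr2 hi hc hS)
    (fun W h => (isometric_data hW h).2.1) fun f s a1 a2 a3 =>
      ⟨real_orth hq hrp hr2 hi hc hS a1 a2 a3, fun H j c1 c2 c3 c4 => ?_⟩
  have b1 := finrank_cd_top hrp a2
  have b2 := Nat.even_iff.1 ((even_c hc).mul_right j)
  have b3 := Nat.even_iff.1 ((even_c hc).mul_right s)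
  have b4 := nondegOn_Cx hrp hS a1 a2
  constructor
  · rintro ⟨E, d1, d2, d3⟩
    have d4 := (sup_nondeg hrp a1 d1 c1 d2 c2 c3).2.2.2
    have d5 := Submodule.finrank_mono d1
    have d6 := (isometric_data hW d3).1
    omega
  · rintro ⟨d1, d2⟩
    obtain ⟨E, d3, d4, d5⟩ := exists_nondeg_orth hp2 b4 (e := m - 1 - c * j) (by omega)
    obtain ⟨d6, d7, -, d8⟩ := sup_nondeg hrp a1 d3 c1 d4 c2 c3
    have d9 := finrank_inf_perp b4 d3
    obtain ⟨v, g1, g2, g3⟩ := adjust_isometric hp2 d7 hW (hWm ▸ hm) (by omega)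
      (d4.inf_perp b4 d3).1 (by omega) (by
        rw [perp_sup]
        exact le_inf inf_le_right (inf_le_left.trans (S.le_perp_comm.1
          (c1.trans (Dx_le_perp hrp a1)))))
    refine ⟨E ⊔ (F ∙ v), sup_le d3 ((Submodule.span_singleton_le_iff_mem _ _).2 g1.1),
      d4.sup (nondegOn_line (two_ne_zero' hp2) g2)
        ((Submodule.span_singleton_le_iff_mem _ _).2 g1.2), ?_⟩
    rwa [sup_right_comm]

omit hr in
theorem exists_invol_om (hq : Fintype.card F = q) (hp2 : 2 ≠ p) (hS : S.Nondeg)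
    (h5 : 5 ≤ finrank F V) {s : ℕ} (h0 : 0 < s) (hs : 2 * s < finrank F V) :
    ∃ f : End F V, InOm S f ∧ f ^ 2 = 1 ∧ (∀ c : F, f ≠ c • 1) ∧ finrank F (Dx 2 f) = 2 * s ∧
      (Plus S (Dx 2 f) ↔ (q % 4 = 1 ∨ s % 2 = 0)) := by
  obtain ⟨U, -, a1, a2, a3⟩ := exists_sub_type (S.nondegOn_top.2 hS) (even_two_mul s) (by omega)
    (by rwa [finrank_top]) (q % 4 = 1 ∨ s % 2 = 0)
  obtain ⟨f, b1, b2, rfl, b4⟩ := exists_invol hp2 hS a1
  have := finrank_cd_top hp2 b2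
  exact ⟨f, (inOm_invol_iff hq hp2 hS h5 b1 b2).2 ⟨s, a2, a3⟩, b2,
    not_scalar_of_invol hp2 (ne_bot_of (by omega)) (ne_bot_of (by omega)), a2, a3⟩

omit hr in
/-- The Witt indices of the eigenspaces of an involution in an even-dimensional space. -/
theorem invol_widx (hp2 : 2 ≠ p) (hS : S.Nondeg) (hf : S.IsIso S f) (h : f ^ 2 = 1) {d s : ℕ}
    (hn : finrank F V = 2 * d) (hs : finrank F (Dx 2 f) = 2 * s) :
    (Plus S ⊤ ∧ Plus S (Dx 2 f) ∧ widx S (Cx f) + widx S (Dx 2 f) = d) ∨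
    (Plus S ⊤ ∧ ¬ Plus S (Dx 2 f) ∧ widx S (Cx f) + widx S (Dx 2 f) + 2 = d) ∨
    (¬ Plus S ⊤ ∧ widx S (Cx f) + widx S (Dx 2 f) + 1 = d) := by
  have a1 := finrank_cd_top hp2 h
  have a2 := plus_perp hS (nondegOn_Dx hp2 hS hf h) (hn ▸ even_two_mul d) (hs ▸ even_two_mul s)
  rw [perp_Dx hp2 hS hf h] at a2
  have a3 := not_plus_iff (nondegOn_Dx hp2 hS hf h) (hs ▸ even_two_mul s)
  have a4 := not_plus_iff (nondegOn_Cx hp2 hS hf h) (by rw [Nat.even_iff]; omega)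
  generalize Plus S ⊤ = A at *
  unfold Plus at *
  by_cases h1 : A <;> simp only [h1, true_iff, false_iff, true_and, false_and, not_true,
    not_false_iff, or_false, false_or] at a2 ⊢ <;> omega

omit hr in
theorem exists_neg_om (hq : Fintype.card F = q) (hp2 : 2 ≠ p) (hS : S.Nondeg) {d : ℕ}
    (hn : finrank F V = 2 * d) (hd : 3 ≤ d) (h : Plus S ⊤ ↔ (q % 4 = 1 ∨ d % 2 = 0))
    (h' : q % 8 = 1 ∨ q % 8 = 7 ∨ d % 2 = 0) :
    ∃ f : End F V, InOm S f ∧ f ^ 2 = (-1 : F) • 1 ∧ ∀ c : F, f ≠ c • 1 := by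
  have : Nontrivial V := nontrivial_of_finrank_pos (R := F) (by omega)
  obtain ⟨f, a1, a2⟩ := exists_neg_orth hq hp2 hS hn (by rwa [Nat.even_iff])
  exact ⟨f, (inOm_neg_iff hq hp2 hS hn hd a1 a2).2 h', a2,
    not_scalar_of_neg hp2 (fun _ => rfl) hS a1 a2⟩

omit hr in
theorem neg_om_data (hq : Fintype.card F = q) (hp2 : 2 ≠ p) (hS : S.Nondeg) {d : ℕ}
    (hn : finrank F V = 2 * d) (hd : 3 ≤ d) (hf : InOm S f) (h : f ^ 2 = (-1 : F) • 1) :
    (Plus S ⊤ ↔ (q % 4 = 1 ∨ d % 2 = 0)) ∧ (q % 8 = 1 ∨ q % 8 = 7 ∨ d % 2 = 0) := by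
  refine ⟨?_, (inOm_neg_iff hq hp2 hS hn hd hf.isIso h).1 hf⟩
  rw [neg_plus hq hp2 hS hf.isIso h (S.nondegOn_top.2 hS) (fun _ _ => trivial), finrank_top]
  omega

omit [CharP F p] hp in
theorem forall_om_iff [Nontrivial V] (hS : S.Nondeg) (h5 : 5 ≤ finrank F V) (hr2 : r ≠ 2)
    (Ω : Submodule F V → Prop) :
    (∀ f, InOm S f → (∃ c : F, f ^ r = c • 1) → (∀ c : F, f ≠ c • 1) → FAdapt.Fix Ω f) ↔
      ∀ f : End F V, S.IsIso S f → f ^ r = 1 → f ≠ 1 → FAdapt.Fix Ω f :=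
  forall_odd_iff (fun _ => rfl) hS (hr.out.odd_of_ne_two hr2) (fun _ => InOm.isIso)
    (inOm_of_odd hS h5 (hr.out.odd_of_ne_two hr2)) Fix.of_smul

omit [CharP F p] hp in
theorem forall_om_iff' (hS : S.Nondeg) (h5 : 5 ≤ finrank F V) (hr2 : r ≠ 2)
    (Pf : End F V → Prop) :
    (∀ f, InOm S f → f ^ r = 1 → f ≠ 1 → Pf f) ↔
      ∀ f : End F V, S.IsIso S f → f ^ r = 1 → f ≠ 1 → Pf f :=
  ⟨fun H f a b => H f (inOm_of_odd hS h5 (hr.out.odd_of_ne_two hr2) f a b) b,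
    fun H f a => H f a.isIso⟩

end Cfsg.Agent.H9.FOrth
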