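import Cfsg.Agent.H9.FUni
import Cfsg.Agent.H9.Cj

/-! Pairs of complementary totally singular subspaces. -/

set_option autoImplicit false
set_option linter.unusedSectionVars false

namespace Cfsg.Agent.H9.FPair

open Module Polynomial Cfsg.Agent.Form Cfsg.Agent.Form.PQ Cfsg.Agent.H9.FIdx Cfsg.Agent.H9.FCount
open Cfsg.Agent.H9.FClass Cfsg.Agent.H9.FOrd Cfsg.Agent.H9.Types Cfsg.Agent.H9.FInv
open Cfsg.Agent.H9.FSS Cfsg.Agent.H9.FModel Cfsg.Agent.H9.FAdapt Cfsg.Agent.H9.FInvol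
open Cfsg.Agent.H9.FNum Cfsg.Agent.H7 Cfsg.Agent.H9.FSemi Cfsg.Agent.H9.FTrP

universe u v

variable {F : Type u} [Field F] {P : FP F} {V : Type v} [AddCommGroup V] [Module F V]
  [FiniteDimensional F V] {S : PQ P V} {f : End F V} {U W U' W' : Submodule F V}

def Pair (S : PQ P V) (U W : Submodule F V) : Prop := IsCompl U W ∧ S.TS U ∧ S.TS W

def FixPair (S : PQ P V) (f : End F V) : Prop := ∃ U W, Pair S U W ∧
  ((U.map f = U ∧ W.map f = W) ∨ (U.map f = W ∧ W.map f = U))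

theorem Pair.symm (h : Pair S U W) : Pair S W U := ⟨h.1.symm, h.2.2, h.2.1⟩

theorem pair_of_sup (hS : S.Nondeg) (hU : S.TS U) (hW : S.TS W) (h : U ⊔ W = ⊤) : Pair S U W := by
  have h1 := hU.two_mul_finrank_le hS
  have h2 := hW.two_mul_finrank_le hS
  have h3 := Submodule.finrank_sup_add_finrank_inf_eq U W
  rw [h, finrank_top] at h3
  exact ⟨⟨disjoint_iff.2 (Submodule.finrank_eq_zero.1 (by omega)), codisjoint_iff.2 h⟩, hU, hW⟩

theorem Pair.finrank (hS : S.Nondeg) (h : Pair S U W) : 2 * finrank F U = finrank F V := by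
  have h1 := h.2.1.two_mul_finrank_le hS
  have h2 := h.2.2.two_mul_finrank_le hS
  have h3 := Submodule.finrank_add_eq_of_isCompl h.1
  omega

theorem Pair.map {g : V ≃ₗ[F] V} (hg : g ∈ S.isom) (h : Pair S U W) :
    Pair S (U.map (g : V →ₗ[F] V)) (W.map (g : V →ₗ[F] V)) :=
  ⟨(Submodule.orderIsoMapComap g).isCompl h.1, h.2.1.map hg, h.2.2.map hg⟩

theorem Pair.dec (h : Pair S U W) (x : V) : ∃ y ∈ U, ∃ z ∈ W, y + z = x :=
  Submodule.mem_sup.1 (h.1.sup_eq_top ▸ Submodule.mem_top : x ∈ U ⊔ W)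

theorem Pair.isIso (h : Pair S U W) (hU' : S.TS U') (hW' : S.TS W') (h1 : ∀ x ∈ U, f x ∈ U')
    (h2 : ∀ x ∈ W, f x ∈ W') (hB : ∀ x ∈ U, ∀ y ∈ W, S.B (f x) (f y) = S.B x y) : S.IsIso S f := by
  refine ⟨fun x x' => ?_, fun x => ?_⟩
  · obtain ⟨y, hy, z, hz, rfl⟩ := h.dec x
    obtain ⟨y', hy', z', hz', rfl⟩ := h.dec x'
    simp only [map_add, S.B_add_left, S.B_add_right, h.2.1.2 _ hy _ hy', h.2.2.2 _ hz _ hz',
      hU'.2 _ (h1 _ hy) _ (h1 _ hy'), hW'.2 _ (h2 _ hz) _ (h2 _ hz'), hB _ hy _ hz',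
      S.B_swap (f y') (f z), S.B_swap y' z, hB _ hy' _ hz]
  · obtain ⟨y, hy, z, hz, rfl⟩ := h.dec x
    have b1 := add_mem (S.Q_add (f y) (f z)) (add_mem (hU'.1 _ (h1 _ hy)) (hW'.1 _ (h2 _ hz)))
    have b2 := add_mem (S.Q_add y z) (add_mem (h.2.1.1 _ hy) (h.2.2.1 _ hz))
    convert sub_mem b1 b2 using 1
    rw [map_add, hB _ hy _ hz]; ring

theorem Pair.exists_unip (hS : S.Nondeg) (h : Pair S U W) (h' : Pair S U W') :
    ∃ g ∈ S.isom, (∀ x ∈ U, g x = x) ∧ (∀ x, g x - x ∈ U) ∧ W.map (g : V →ₗ[F] V) = W' := by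
  let g : End F V := 1 + U.projection W h.1 - U.projection W' h'.1
  have a1 : ∀ x ∈ U, g x = x := fun x hx => by simp [g, Submodule.projection_apply_of_mem_left _ hx]
  have a2 : ∀ x, g x - x ∈ U := fun x => by
    simpa [g, add_sub_assoc] using
      sub_mem (Submodule.projection_apply_mem h.1 x) (Submodule.projection_apply_mem h'.1 x)
  have a3 : ∀ x ∈ W, g x ∈ W' := fun x hx => by
    simp [g, Submodule.projection_apply_of_mem_right _ hx,
      ← Submodule.projection_apply_eq_zero_iff h'.1,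
      Submodule.projection_apply_of_mem_left _ (Submodule.projection_apply_mem h'.1 x)]
  have a4 : S.IsIso S g := h.isIso h.2.1 h'.2.2 (fun x hx => by rwa [a1 x hx]) a3 fun x hx y _ => by
    rw [a1 x hx, ← sub_eq_zero, ← S.B_sub_right, h.2.1.2 x hx _ (a2 y)]
  have a5 := h.symm.finrank hS
  have a6 := h'.symm.finrank hS
  exact ⟨toEquiv hS a4, a4, a1, a2, Imprim.map_eq_of_maps (a4.injective hS) a3 (by omega)⟩

theorem Pair.trans (hS : S.Nondeg) (h : Pair S U W) (h' : Pair S U' W') :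
    ∃ g ∈ S.isom, U.map (g : V →ₗ[F] V) = U' ∧ W.map (g : V →ₗ[F] V) = W' := by
  have a1 := h.finrank hS
  have a2 := h'.finrank hS
  obtain ⟨g, b1, rfl⟩ := TS.exists_map_eq hS h.2.1 h'.2.1 (by omega)
  obtain ⟨k, c1, c2, -, rfl⟩ := (h.map b1).exists_unip hS h'
  refine ⟨k * g, mul_mem c1 b1, ?_, Submodule.map_comp _ _ _⟩
  exact (Submodule.map_comp _ _ _).trans (map_eq_of_inv k.injective fun x hx => by
    rwa [LinearEquiv.coe_coe, c2 x hx])

theorem exists_pair_on (hW : S.NondegOn W) (h : Plus S W) :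
    ∃ U U', S.TS U ∧ S.TS U' ∧ U ⊔ U' = W := by
  obtain ⟨U, a0, a1, a2⟩ := (plus_iff hW).1 h
  obtain ⟨U', b0, b1, -, -, -, b5⟩ := exists_hyp hW a0 a1
  exact ⟨U, U', a1, b1, Submodule.eq_of_le_of_finrank_eq (sup_le a0 b0) (b5.trans a2)⟩

theorem exists_pair_of_ts (hS : S.Nondeg) (hU : S.TS U) (h : 2 * finrank F U = finrank F V) :
    ∃ W, Pair S U W := by
  obtain ⟨U', -, b1, -, -, -, b5⟩ := exists_hyp (S.nondegOn_top.2 hS) le_top hU
  exact ⟨U', pair_of_sup hS hU b1 (Submodule.eq_top_of_finrank_eq (b5.trans h))⟩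

theorem FixPair.of_smul (f : End F V) (b : F) (hb : b ≠ 0) (h : FixPair S (b • f)) :
    FixPair S f := by simpa only [FixPair, Submodule.map_smul _ _ _ hb] using h

theorem FixPair.cases (h : FixPair S f) (hS : S.Nondeg) : (∃ U W, Pair S U W ∧ (∀ x ∈ U, f x ∈ U) ∧
    ∀ x ∈ W, f x ∈ W) ∨ 2 * finrank F (Cx f) ≤ finrank F V := by
  obtain ⟨U, W, h1, ⟨h2, h3⟩ | ⟨h2, -⟩⟩ := h
  · exact Or.inl ⟨U, W, h1, fun x hx => h2 ▸ ⟨x, hx, rfl⟩, fun x hx => h3 ▸ ⟨x, hx, rfl⟩⟩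
  have a1 := finrank_sup_of_disjoint (show Disjoint U (Cx f) from Submodule.disjoint_def.2
    fun x hx hx' => Submodule.disjoint_def.1 h1.1.1 x hx (h2 ▸ ⟨x, hx, mem_Cx.1 hx'⟩))
  have a2 := Submodule.finrank_le (U ⊔ Cx f)
  have a3 := h1.finrank hS
  omega

theorem FixPair.fix_of_odd [Nontrivial V] (h : FixPair S f) (hS : S.Nondeg) {r : ℕ} (hr : Odd r)
    (h0 : f ^ r = 1) : ∃ U W, Pair S U W ∧ (∀ x ∈ U, f x ∈ U) ∧ ∀ x ∈ W, f x ∈ W := by
  obtain ⟨U, W, h1, ⟨h2, h3⟩ | ⟨h2, h3⟩⟩ := h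
  · exact ⟨U, W, h1, fun x hx => h2 ▸ ⟨x, hx, rfl⟩, fun x hx => h3 ▸ ⟨x, hx, rfl⟩⟩
  obtain ⟨k, rfl⟩ := hr
  have a1 : ∀ x ∈ U, (f ^ 2) x ∈ U := fun x hx => h3 ▸ ⟨_, h2 ▸ ⟨x, hx, rfl⟩, rfl⟩
  have a2 : U ≤ W := fun x hx => h2 ▸ ⟨_, pow_mem a1 k hx, by
    rw [← pow_mul, ← End.mul_apply, ← pow_succ', h0, End.one_apply]⟩
  have a3 := h1.finrank hS
  rw [h1.1.1.eq_bot_of_le a2, finrank_bot] at a3
  exact absurd a3.symm finrank_pos.ne'

theorem fixPair_of_inv (hS : S.Nondeg) (hf : S.IsIso S f) (h : Pair S U W) (hU : ∀ x ∈ U, f x ∈ U)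
    (hW : ∀ x ∈ W, f x ∈ W) : FixPair S f :=
  ⟨U, W, h, Or.inl ⟨map_eq_of_inv (hf.injective hS) hU, map_eq_of_inv (hf.injective hS) hW⟩⟩

/-- The stabiliser of a pair contains elements of determinant `a / σ a`. -/
theorem Pair.exists_det [Nontrivial V] (hS : S.Nondeg) (h : Pair S U W) {a a' : F}
    (ha : a * P.σ a' = 1) : ∃ f : End F V, S.IsIso S f ∧ (∀ x ∈ U, f x ∈ U) ∧
      (∀ x ∈ W, f x ∈ W) ∧ LinearMap.det f = a * a' := by
  have a1 := h.finrank hS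
  have a2 := finrank_pos (R := F) (M := V)
  obtain ⟨e, b1, b2⟩ := (Submodule.ne_bot_iff U).1 (by rintro rfl; simp at a1; omega)
  obtain ⟨y, b3⟩ := hS.exists_eq b2 1
  obtain ⟨u, hu, e', b4, rfl⟩ := h.dec y
  rw [S.B_add_left, h.2.1.2 u hu e b1, zero_add] at b3
  have b5 : S.B e e' = P.ε := by rw [S.B_swap, b3, map_one, mul_one]
  let f : End F V := LinearMap.transvection (((a - 1) * P.ε) • S.lin e') e *
    LinearMap.transvection ((a' - 1) • S.lin e) e'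
  have c1 : ∀ x ∈ U, f x = x + ((a - 1) * P.ε * S.B x e') • e := fun x hx => by
    simp [f, LinearMap.transvection.apply, h.2.1.2 x hx e b1]
  have c2 : ∀ x ∈ W, f x = x + ((a' - 1) * S.B x e) • e' := fun x hx => by
    simp [f, LinearMap.transvection.apply, h.2.2.2 x hx e' b4, h.2.2.2 e' b4 e' b4]
  have c3 : ∀ x ∈ U, f x ∈ U := fun x hx => c1 x hx ▸ add_mem hx (U.smul_mem _ b1)
  have c4 : ∀ x ∈ W, f x ∈ W := fun x hx => c2 x hx ▸ add_mem hx (W.smul_mem _ b4)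
  refine ⟨f, h.isIso h.2.1 h.2.2 c3 c4 fun x hx y hy => ?_, c3, c4, ?_⟩
  · simp only [c1 x hx, c2 y hy, S.B_add_left, S.B_add_right, S.B_smul_left, S.B_smul_right, b5,
      map_mul, map_sub, map_one, S.σ_B]
    linear_combination (P.ε * S.B x e' * S.B e y) * ha +
      ((a - 1) * (P.σ a' - 1) * P.ε * S.B x e' * S.B e y) * P.εε
  · simp only [f, map_mul, LinearMap.transvection.det, LinearMap.smul_apply, lin_apply, b3, b5,
      smul_eq_mul]
    linear_combination (a - 1) * a' * P.εε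

theorem fixPair_neg {S : PQ (FP.symp F) V} (h2 : (2 : F) ≠ 0) (hS : S.Nondeg) (hf : S.IsIso S f)
    (h : f ^ 2 = (-1 : F) • 1) : FixPair S f := by
  have hff : ∀ x, f (f x) = -x := fun x => by rw [← End.mul_apply, ← sq, h]; simp
  have key : ∀ (n : ℕ) (W : Submodule F V), finrank F W = n → S.NondegOn W → (∀ x ∈ W, f x ∈ W) →
      ∃ U, S.TS U ∧ U ⊔ U.map f = W := fun n => by
    induction n using Nat.strong_induction_on with
    | _ n ih =>
    intro W hn hWn hW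
    by_cases h0 : W = ⊥
    · exact ⟨⊥, S.ts_bot, by simp [h0]⟩
    obtain ⟨v, a1, a2⟩ : ∃ v ∈ W, S.B v (f v) ≠ 0 := by
      by_contra! h1
      obtain ⟨x, a1, a2⟩ := (Submodule.ne_bot_iff W).1 h0
      obtain ⟨y, a3, a4⟩ := nondegOn_iff'.1 hWn x a1 a2
      have a5 := h1 _ (add_mem a1 (hW y a3))
      rw [map_add, S.B_add_left, S.B_add_right, S.B_add_right, h1 x a1, h1 _ (hW y a3), hf.1, hff,
        S.B_neg_right, S.symp_B_swap x y] at a5
      exact mul_ne_zero h2 a4 (by linear_combination -a5)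
    have b1 := S.nondegOn_span_pair (S.symp_sing v) (S.symp_sing _) a2
    have b2 := S.finrank_span_pair_of_hyperbolic (S.symp_sing v) a2
    have b3 : Submodule.span F {v, f v} = (F ∙ v) ⊔ (F ∙ v).map f := by
      rw [Submodule.span_insert, Submodule.map_span, Set.image_singleton]
    have b4 : Submodule.span F {v, f v} ≤ W :=
      Submodule.span_le.2 (Set.pair_subset a1 (hW v a1))
    have b5 : ∀ x ∈ Submodule.span F {v, f v}, f x ∈ Submodule.span F {v, f v} := fun x hx => by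
      obtain ⟨s, t, rfl⟩ := Submodule.mem_span_pair.1 hx
      exact Submodule.mem_span_pair.2 ⟨-t, s, by simp [hff, add_comm]⟩
    have b6 := finrank_inf_perp hWn b4
    obtain ⟨U, c1, c2⟩ := ih _ (by omega) _ rfl (b1.inf_perp hWn b4).1
      (inv_inf hW (inv_perp hS hf b5))
    refine ⟨(F ∙ v) ⊔ U, (S.symp_sing v).ts_span.sup c1 ((le_sup_left.trans c2.le).trans
      (inf_le_right.trans (S.perp_anti (b3 ▸ le_sup_left)))), ?_⟩
    rw [Submodule.map_sup, sup_sup_sup_comm, c2, ← b3, (b1.inf_perp hWn b4).2]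
  obtain ⟨U, h1, h3⟩ := key _ ⊤ rfl (S.nondegOn_top.2 hS) fun _ _ => trivial
  refine ⟨U, _, pair_of_sup hS h1 (h1.map hf) h3, Or.inr ⟨rfl, ?_⟩⟩
  rw [← Submodule.map_comp, ← End.mul_eq_comp, ← sq, h, Submodule.map_smul _ _ _ (by simp),
    End.one_eq_id, Submodule.map_id]

def Sw (U W : Submodule F V) (f : End F V) : Prop :=
  (U.map f = U ∧ W.map f = W) ∨ (U.map f = W ∧ W.map f = U)

theorem cjIn_iff {K : Subgroup (V ≃ₗ[F] V)} (hK : K ≤ S.isom) (h : Pair S U W)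
    (htr : ∀ U' W', Pair S U' W' → ∃ g ∈ K, U.map (g : V →ₗ[F] V) = U' ∧ W.map (g : V →ₗ[F] V) = W') :
    Cj.CjIn K (Sw U W) f ↔ FixPair S f := by
  have key : ∀ (g : V ≃ₗ[F] V) (f' : End F V), (∀ x, g (f' x) = f (g x)) → ∀ A B : Submodule F V,
      (A.map (g : V →ₗ[F] V)).map f = B.map (g : V →ₗ[F] V) ↔ A.map f' = B := fun g f' hg A B => by
    rw [← Submodule.map_comp, show f ∘ₗ (g : V →ₗ[F] V) = (g : V →ₗ[F] V) ∘ₗ f' from
      LinearMap.ext fun x => (hg x).symm, Submodule.map_comp,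
      (Submodule.map_injective_of_injective g.injective).eq_iff]
  constructor
  · rintro ⟨g, a1, f', a2, a3⟩
    exact ⟨_, _, h.map (hK a1), by simpa only [key g f' a3, Sw] using a2⟩
  · rintro ⟨U', W', a1, a2⟩
    obtain ⟨g, b1, rfl, rfl⟩ := htr U' W' a1
    have b2 : ∀ x, g ((g.symm.conj f) x) = f (g x) := fun x => by simp
    exact ⟨g, b1, _, by simpa only [key g _ b2, Sw] using a2, b2⟩

/-- The stabiliser of an ordered pair of subspaces. -/
def pairStab (U W : Submodule F V) : Subgroup (V ≃ₗ[F] V) where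
  carrier := {g | U.map (g : V →ₗ[F] V) = U ∧ W.map (g : V →ₗ[F] V) = W}
  one_mem' := ⟨Submodule.map_id _, Submodule.map_id _⟩
  mul_mem' := fun {a b} ha hb => ⟨(Submodule.map_comp _ _ _).trans (by rw [hb.1, ha.1]),
    (Submodule.map_comp _ _ _).trans (by rw [hb.2, ha.2])⟩
  inv_mem' := fun {a} ha => ⟨(Submodule.map_symm_eq_iff a).2 ha.1,
    (Submodule.map_symm_eq_iff a).2 ha.2⟩

theorem relIndex_pairStab {K : Subgroup (V ≃ₗ[F] V)} (hK : K ≤ S.isom) (h : Pair S U W)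
    (htr : ∀ U' W', Pair S U' W' → ∃ g ∈ K, U.map (g : V →ₗ[F] V) = U' ∧ W.map (g : V →ₗ[F] V) = W') :
    (pairStab U W).relIndex K = Nat.card {x : Submodule F V × Submodule F V // Pair S x.1 x.2} := by
  have key : ∀ (g g' : V ≃ₗ[F] V) (A : Submodule F V), A.map (g : V →ₗ[F] V) = A.map (g' : V →ₗ[F] V) ↔
      A.map ((g⁻¹ * g' : V ≃ₗ[F] V) : V →ₗ[F] V) = A := fun g g' A =>
    ((Submodule.map_symm_eq_iff g).symm.trans (by rw [← Submodule.map_comp]; rfl))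
  refine Cj.relIndex_eq_card K _ (fun g => (U.map (g : V →ₗ[F] V), W.map (g : V →ₗ[F] V)))
    (fun g _ g' _ => by rw [Prod.mk.injEq, key, key]; rfl) _ fun y => ⟨fun hy => ?_, ?_⟩
  · obtain ⟨g, a1, a2, a3⟩ := htr _ _ hy
    exact ⟨g, a1, Prod.ext a2 a3⟩
  · rintro ⟨g, a1, rfl⟩
    exact h.map (hK a1)

theorem mem_stab_two {ι : Type} [Fintype ι] [DecidableEq ι] (D : Fin 2 → Submodule F (ι → F))
    (x : GL ι F) : x ∈ Geo.decompositionStabilizer D ↔
      Sw (D 0) (D 1) (Matrix.toLin' (x : Matrix ι ι F)) := by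
  constructor
  · rintro ⟨σ, h⟩
    rcases (by decide : ∀ σ : Equiv.Perm (Fin 2), (σ 0 = 0 ∧ σ 1 = 1) ∨ (σ 0 = 1 ∧ σ 1 = 0)) σ with
      h1 | h1 <;> simp [h, h1, Sw]
  · rintro (h | h)
    · exact ⟨1, Fin.forall_fin_two.2 h⟩
    · exact ⟨Equiv.swap 0 1, Fin.forall_fin_two.2 h⟩

theorem exists_div_eq {σ : F →+* F} (hσ : ∀ a, σ (σ a) = a) (hne : ∃ a, σ a ≠ a) {x : F}
    (hx : x * σ x = 1) : ∃ b : F, b ≠ 0 ∧ b = x * σ b := by
  obtain ⟨a, ha⟩ := hne
  obtain ⟨b, hb⟩ : ∃ b : F, b + x * σ b ≠ 0 := by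
    by_contra! hcon
    exact ha (by linear_combination σ a * hcon 1 - hcon a - x * σ a * map_one σ)
  exact ⟨_, hb, by rw [map_add, map_mul, hσ]; linear_combination (-b) * hx⟩

theorem Pair.trans_su {σ : F →+* F} {hσ : ∀ a, σ (σ a) = a} (hne : ∃ a, σ a ≠ a)
    {S : PQ (FP.unit σ hσ) V} [Nontrivial V] (hS : S.Nondeg) (h : Pair S U W) (U' W')
    (h' : Pair S U' W') :
    ∃ g ∈ sisom S, U.map (g : V →ₗ[F] V) = U' ∧ W.map (g : V →ₗ[F] V) = W' := by
  obtain ⟨g, a1, rfl, rfl⟩ := h.trans hS h'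
  obtain ⟨b, b1, b2⟩ := exists_div_eq hσ hne (FUni.det_norm_one hS (f := (g : End F V)) a1)
  obtain ⟨k, c1, c2, c3, c4⟩ := h.exists_det hS (a := b⁻¹) (a' := σ b) (by simp [hσ, b1])
  refine ⟨g * toEquiv hS c1, ⟨mul_mem a1 c1, Cj.mem_SLV.2 ?_⟩, (Submodule.map_comp _ _ _).trans ?_,
    (Submodule.map_comp _ _ _).trans ?_⟩
  · rw [LinearEquiv.coe_toLinearMap_mul, map_mul, coe_toEquiv, c4, mul_left_comm, ← b2,
      inv_mul_cancel₀ b1]
  · rw [coe_toEquiv, map_eq_of_inv (c1.injective hS) c2]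
  · rw [coe_toEquiv, map_eq_of_inv (c1.injective hS) c3]

theorem not_fixPair_tau (hS : S.Nondeg) (h3 : 3 ≤ finrank F V) {d : V} (h0 : d ≠ 0) {c : F}
    (hc : c ≠ 0) (hf : ∀ x, f x = x + (c * S.B x d) • d) : ¬ FixPair S f := fun h => by
  have a1 := hS.finrank_perp (F ∙ d)
  have a2 := Submodule.finrank_mono (show S.perp (F ∙ d) ≤ Cx f from fun x hx =>
    mem_Cx.2 (by simp [hf, S.mem_perp_span_singleton.1 hx]))
  rw [finrank_span_singleton h0] at a1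
  obtain ⟨U, W, b1, b2, b3⟩ := (h.cases hS).resolve_right (by omega)
  have key : ∀ U : Submodule F V, S.TS U → (∀ x ∈ U, f x ∈ U) → ∀ x ∈ U, S.B x d = 0 :=
    fun U h1 h2 x hx => by
      by_contra h3
      have := sub_mem (h2 x hx) hx
      rw [hf, add_sub_cancel_left, U.smul_mem_iff (mul_ne_zero hc h3)] at this
      exact h3 (h1.2 x hx d this)
  refine h0 (hS.right d fun x => ?_)
  obtain ⟨y, hy, z, hz, rfl⟩ := b1.dec x
  rw [S.B_add_left, key U b1.2.1 b2 y hy, key W b1.2.2 b3 z hz, add_zero]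

variable {p : ℕ} [hp : Fact p.Prime] [CharP F p]

theorem fixPair_invol (hp2 : 2 ≠ p) (hS : S.Nondeg) (hf : S.IsIso S f) (h : f ^ 2 = 1)
    (h1 : Plus S (Cx f)) (h2 : Plus S (Dx 2 f)) : FixPair S f := by
  obtain ⟨U, U', a1, a2, a3⟩ := exists_pair_on (nondegOn_Cx hp2 hS hf h) h1
  obtain ⟨W, W', b1, b2, b3⟩ := exists_pair_on (nondegOn_Dx hp2 hS hf h) h2
  obtain ⟨c1, c2, -⟩ := sup_ts hp2 hf (le_sup_left.trans a3.le) (le_sup_left.trans b3.le) a1 b1
    (inv_of_le_Dx_two (le_sup_left.trans b3.le))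
  obtain ⟨c3, c4, -⟩ := sup_ts hp2 hf (le_sup_right.trans a3.le) (le_sup_right.trans b3.le) a2 b2
    (inv_of_le_Dx_two (le_sup_right.trans b3.le))
  exact fixPair_of_inv hS hf (pair_of_sup hS c1 c3
    (by rw [sup_sup_sup_comm, a3, b3, cd_sup_top hp2 h])) c2 c4

omit hp in
theorem tau_data (p : ℕ) [CharP F p] (hS : S.Nondeg) {d : V} (hd : S.Sing d)
    (h0 : d ≠ 0) {c : F} (hc : c ∈ P.Λ) (hc0 : c ≠ 0) : ∃ f : End F V, S.IsIso S f ∧
      LinearMap.det f = 1 ∧ f ^ p = 1 ∧ f ≠ 1 ∧ ∀ x, f x = x + (c * S.B x d) • d := by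
  have h := tauOK_of_sing hd hc
  have h1 : ∀ x, (S.tau d c h : End F V) x = x + (c * S.B x d) • d := S.tau_apply d c h
  refine ⟨S.tau d c h, S.tau_mem d c h, Cj.mem_SLV.1 (det_tau_sing S hd c h),
    LinearMap.ext fun x => ?_, fun h2 => ?_, h1⟩
  · have : ∀ k : ℕ, ((S.tau d c h : End F V) ^ k) x = x + (k * c * S.B x d) • d := fun k => by
      induction k with
      | zero => simp
      | succ k ih => rw [pow_succ', End.mul_apply, ih, h1]; simp [hd.B_self]; module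
    simpa using this p
  · obtain ⟨y, hy⟩ := hS.exists_ne h0
    simpa [h2, hc0, hy, h0] using h1 y

variable [Fintype F] {Q r : ℕ}

theorem card_compl (p : ℕ) [hp : Fact p.Prime] [CharP F p] (hS : S.Nondeg) (h : Pair S U W) :
    ∃ k, Nat.card {W // Pair S U W} = p ^ k := by
  let N : Subgroup (V ≃ₗ[F] V) :=
    { carrier := {g | g ∈ S.isom ∧ (∀ x ∈ U, g x = x) ∧ ∀ x, g x - x ∈ U}
      one_mem' := ⟨one_mem _, fun _ _ => rfl, fun x => by simp⟩
      mul_mem' := fun {a b} ha hb => ⟨mul_mem ha.1 hb.1, fun x hx => by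
        rw [LinearEquiv.mul_apply, hb.2.1 x hx, ha.2.1 x hx], fun x => by
          simpa using add_mem (ha.2.2 (b x)) (hb.2.2 x)⟩
      inv_mem' := fun {a} ha => ⟨inv_mem ha.1, fun x hx => a.symm_apply_eq.2 (ha.2.1 x hx).symm,
        fun x => by simpa using neg_mem (ha.2.2 (a.symm x))⟩ }
  have := Imprim.finite_linearEquiv (F := F) (V := V)
  have h1 : IsPGroup p N := fun g => ⟨1, Subtype.ext (LinearEquiv.ext fun x => by
    have : ∀ k : ℕ, (g.1 ^ k) x = x + (k : F) • (g.1 x - x) := fun k => by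
      induction k with
      | zero => simp
      | succ k ih => rw [pow_succ', LinearEquiv.mul_apply, ih, map_add, map_smul,
          g.2.2.1 _ (g.2.2.2 x), Nat.cast_succ, add_smul, one_smul]; abel
    simpa using this p)⟩
  obtain ⟨k, hk⟩ := IsPGroup.iff_card.1 h1
  let _ : MulAction N {W // Pair S U W} :=
    { smul := fun g W => ⟨W.1.map (g.1 : V →ₗ[F] V), by
        have := W.2.map g.2.1
        rwa [map_eq_of_inv g.1.injective fun x hx => by
          rwa [LinearEquiv.coe_coe, g.2.2.1 x hx]] at this⟩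
      one_smul := fun W => Subtype.ext (Submodule.map_id _)
      mul_smul := fun g h W => Subtype.ext (Submodule.map_comp _ _ _) }
  have : Nonempty {W // Pair S U W} := ⟨⟨W, h⟩⟩
  obtain ⟨j, -, hj⟩ := (Nat.dvd_prime_pow hp.out).1 (hk ▸ Imprim.card_dvd_of_trans (G := N)
    fun x y : {W // Pair S U W} => let ⟨g, a1, a2, a3, a4⟩ := x.2.exists_unip hS y.2
      ⟨⟨g, a1, a2, a3⟩, Subtype.ext a4⟩)
  exact ⟨j, hj⟩

theorem card_lag (hQ : Fintype.card F = Q) (hS : S.Nondeg) {m : ℕ} (hm : finrank F V = 2 * m)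
    (hw : widx S ⊤ = m) : Nat.card {W : Submodule F V // finrank F W = m ∧ S.TS W} =
      ∏ j ∈ Finset.range m, (Q ^ (m - j - 1) * Nat.card P.Λ + 1) := by
  refine Nat.eq_of_mul_eq_mul_right (Count.P_pos (Arith.two_le_q hQ) m) ?_
  rw [card_ts_mul hQ hS, mul_comm, ← Count.prod_eq_P, ← Finset.prod_mul_distrib, hm, hw]
  refine Finset.prod_congr rfl fun j hj => ?_
  rw [sn]; congr 4
  have := Finset.mem_range.1 hj
  omega

theorem card_pairs (p : ℕ) [hp : Fact p.Prime] [CharP F p] (hQ : Fintype.card F = Q)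
    (hS : S.Nondeg) {m : ℕ} (hm : finrank F V = 2 * m) (hw : widx S ⊤ = m) :
    ∃ k, Nat.card {x : Submodule F V × Submodule F V // Pair S x.1 x.2} =
      (∏ j ∈ Finset.range m, (Q ^ (m - j - 1) * Nat.card P.Λ + 1)) * p ^ k := by
  obtain ⟨U₀, -, a1, a2⟩ := exists_ts_widx S ⊤
  obtain ⟨W₀, a3⟩ := exists_pair_of_ts hS a1 (by omega)
  obtain ⟨k, hk⟩ := card_compl p hS a3
  have := Count.finite_submodule (F := F) (V := V)
  refine ⟨k, card_lag hQ hS hm hw ▸ Count.card_eq_mul_of_fibers (fun x =>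
    ⟨x.1.1, by have := x.2.finrank hS; omega, x.2.2.1⟩) (p ^ k) ?_⟩
  rintro ⟨U, b1, b2⟩
  obtain ⟨g, c1, rfl⟩ := TS.exists_map_eq hS a1 b2 (by omega)
  rw [← hk]
  refine (Nat.card_congr (Equiv.ofBijective (fun W => ⟨⟨(_, _), W.2.map c1⟩, rfl⟩) ⟨fun W W' h =>
    Subtype.ext (Submodule.map_injective_of_injective g.injective
      (congrArg (fun x => x.1.1.2) h)), ?_⟩)).symm
  rintro ⟨⟨⟨U', W⟩, d1⟩, d2⟩
  obtain rfl : U' = _ := congrArg Subtype.val d2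
  refine ⟨⟨W.map (g.symm : V →ₗ[F] V), ?_⟩, Subtype.ext (Subtype.ext (Prod.ext rfl ?_))⟩
  · simpa [← Submodule.map_comp] using d1.map (g := g.symm) (inv_mem c1)
  · exact (Submodule.map_comp _ _ _).symm.trans (by simp)

theorem dvd_of_dvd_card (hQ : Fintype.card F = Q) (hS : S.Nondeg) {m : ℕ}
    (hm : finrank F V = 2 * m) (hw : widx S ⊤ = m) [hr : Fact r.Prime] (hrp : r ≠ p)
    (h : r ∣ Nat.card {x : Submodule F V × Submodule F V // Pair S x.1 x.2}) :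
    ∃ j < m, r ∣ Q ^ j * Nat.card P.Λ + 1 := by
  obtain ⟨k, hk⟩ := card_pairs p hQ hS hm hw
  rcases hr.out.dvd_mul.1 (hk ▸ h) with h | h
  · obtain ⟨j, h1, h2⟩ := (Prime.dvd_finsetProd_iff hr.out.prime _).1 h
    exact ⟨_, by have := Finset.mem_range.1 h1; omega, h2⟩
  · exact absurd ((Nat.prime_dvd_prime_iff_eq hr.out hp.out).1 (hr.out.dvd_of_dvd_pow h)) hrp

theorem exists_no_lag [hr : Fact r.Prime] (hP : TrP P) (hb : SD P r p) (hQ : Fintype.card F = Q)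
    (hrp : r ≠ p) (hr2 : r ≠ 2) (hS : S.Nondeg) {I : ℕ} (hI : I = orderOf (Q : ZMod r))
    (hM : Models S Q r I fun s => I * s ≤ finrank F V) (h : I ≤ finrank F V) :
    ∃ f : End F V, S.IsIso S f ∧ f ^ r = 1 ∧ f ≠ 1 ∧ ¬ FixPair S f := by
  have h1 : 0 < I := hI ▸ Arith.orderOf_pos' hQ hrp
  have h2 : 0 < (r - 1) / I := hI ▸ t_pos hQ hrp
  have : Nontrivial V := nontrivial_of_finrank_pos (R := F) (by omega)
  by_contra! H
  obtain ⟨f, b1, b2, b3, -⟩ := hM.exists (Or.inl ⟨hb, hI⟩) hQ hrp hr2 one_pos (by omega)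
  obtain ⟨U, W, a1, -⟩ := H f b1 b2 b3
  have a2 := a1.finrank hS
  obtain ⟨j, c1, c2, c3⟩ := (ts_iff_sd hb hQ hrp hr2 hS hI hM (trP_data hP hrp hS)
    (m := finrank F U)).1 (fun f b1 b2 b3 => by
      obtain ⟨U', W', d1, d2, -⟩ := (H f b1 b2 b3).fix_of_odd hS (hr.out.odd_of_ne_two hr2) b2
      have := d1.finrank hS
      exact ⟨U', ⟨by omega, d1.2.1⟩, d2⟩) 1 one_pos (by omega)
  obtain rfl : j = 0 := by omega
  omega

end Cfsg.Agent.H9.FPair
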