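import Cfsg.Agent.H9.FUnip2
import Cfsg.Agent.H9.Cj

/-! Quadratic forms polarising to a given alternating form in characteristic two. -/

set_option autoImplicit false
set_option linter.unusedSectionVars false

namespace Cfsg.Agent.H9.FSpO

open Module Polynomial Cfsg.Agent.Form Cfsg.Agent.Form.PQ Cfsg.Agent.H9.FIdx Cfsg.Agent.H9.FCount
open Cfsg.Agent.H9.FClass Cfsg.Agent.H9.FOrd Cfsg.Agent.H9.Types Cfsg.Agent.H9.FInv
open Cfsg.Agent.H9.FSS Cfsg.Agent.H9.FModel Cfsg.Agent.H9.FAdapt Cfsg.Agent.H9.FInvol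
open Cfsg.Agent.H9.FSpin Cfsg.Agent.H9.FUnip Cfsg.Agent.H9.FNum Cfsg.Agent.H9.FOrth
open Cfsg.Agent.H9.FSemi Cfsg.Agent.H9.Cj

universe u v

theorem iff_not_of {a b c : Prop} (h : (a ↔ ¬ c) ↔ (b ↔ c)) : a ↔ ¬ b := by tauto

variable {F : Type u} [Field F] {V : Type v} [AddCommGroup V] [Module F V]
  [FiniteDimensional F V] {S : PQ (FP.orth F) V} {f : End F V} [Fintype F]

theorem type_of_dvd {q r p i c d : ℕ} [Fact r.Prime] [Fact p.Prime] [CharP F p]
    (hq : Fintype.card F = q) (hrp : r ≠ p) (hr2 : r ≠ 2) (hi : i = orderOf (q : ZMod r))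
    (hc : c = if Even i then i else 2 * i) {ε : Prop}
    (h : (ε ∧ r ∣ q ^ d + 1) ∨ (¬ ε ∧ r ∣ q ^ d - 1)) :
    ∃ s, 2 * d = c * s ∧ ¬ (ε ↔ (i % 2 = 1 ∨ s % 2 = 0)) := by
  rcases h with ⟨h1, h2⟩ | ⟨h1, h2⟩
  · obtain ⟨s, a1, a2⟩ := of_dvd_add hr2 hi (hi ▸ Arith.orderOf_pos' hq hrp) hc h2
    exact ⟨s, a1, fun h => by have := h.1 h1; omega⟩
  · obtain ⟨s, a1, a2⟩ := of_dvd_sub (by have := Arith.two_le_q hq; omega) hi hc h2
    exact ⟨s, a1, fun h => h1 (h.2 a2)⟩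

theorem cjIn_iff {T : PQ (FP.symp F) V} (hB : T.B = S.B) (hS : S.Nondeg) [Nontrivial V]
    (he : Even (finrank F V)) (hf : T.IsIso T f) :
    CjIn T.isom (fun f => ∃ c : Fˣ, ∀ v, S.Q (f v) = c * S.Q v) f ↔
      ∃ S' : PQ (FP.orth F) V, S'.B = S.B ∧ (Plus S' ⊤ ↔ Plus S ⊤) ∧ S'.IsIso S' f := by
  have hf1 : ∀ x y, S.B (f x) (f y) = S.B x y := hB ▸ hf.1
  constructor
  · rintro ⟨g, a1, f', ⟨c, a2⟩, a3⟩
    have a4 : ∀ x y, S.B (g x) (g y) = S.B x y := hB ▸ a1.1
    have a5 : ∀ x y, S.B (g.symm x) (g.symm y) = S.B x y := fun x y => by simp [← a4 (g.symm x)]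
    have a6 : ∀ x, g.symm (f x) = f' (g.symm x) := fun x => g.injective (by simp [a3])
    obtain ⟨x, hx⟩ := exists_ne (0 : V)
    obtain ⟨y, hy⟩ := hS.exists_ne hx
    have a7 := a2 (y + x)
    rw [map_add, S.orth_Q_add, S.orth_Q_add, a2, a2, ← a4, a3, a3, hf1, a4] at a7
    have a8 : (c : F) = 1 := mul_right_cancel₀ hy (by linear_combination -a7)
    refine ⟨S.comap (g.symm : End F V), funext₂ a5, ?_, fun x y => (a5 _ _).trans
      ((hf1 x y).trans (a5 x y).symm), fun x => ?_⟩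
    · rw [Plus, Plus, Iso.widx_eq ⟨g.symm, S.comap_isIso _⟩]
    · simp [a6, a2, a8]
  · rintro ⟨S', a1, a2, a3⟩
    have a4 : S'.Nondeg := fun x hx => hS x (a1 ▸ hx)
    have b1 := not_plus_iff (S.nondegOn_top.2 hS) (by rwa [finrank_top])
    have b2 := not_plus_iff (S'.nondegOn_top.2 a4) (by rwa [finrank_top])
    obtain ⟨e, he⟩ := iso_orth_even hS a4 he rfl (by
      by_cases h : Plus S ⊤
      · have := a2.2 h; unfold Plus at *; omega
      · have := b2.1 (mt a2.1 h); have := b1.1 h; omega)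
    refine ⟨e, (T.symp_mem_isom e).2 fun x y => by rw [hB, ← he.1 x y, a1], e.symm.conj f,
      ⟨1, fun v => ?_⟩, fun x => by simp⟩
    rw [← sub_eq_zero.1 (he.2 _), ← sub_eq_zero.1 (he.2 v)]
    simpa using sub_eq_zero.1 (a3.2 (e v))

variable [CharP F 2]

/-- Adding the square of a linear form. -/
def shift (S : PQ (FP.orth F) V) (a : V) : PQ (FP.orth F) V :=
  { S with
    Q := fun x => S.Q x + S.B x a ^ 2
    Q_add := fun x y => by simp [S.orth_Q_add, add_pow_char]; ring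
    Q_smul := fun c x => by simp [S.orth_Q_smul]; ring
    B_self := fun x => by simp [alt_two (S := S) (fun _ => rfl), CharTwo.add_self_eq_zero] }

theorem exists_shift {T : PQ (FP.symp F) V} (hB : T.B = S.B) (hS : S.Nondeg) (hf : T.IsIso T f)
    (h : f ^ 2 = 1) : ∃ a, (shift S a).IsIso (shift S a) f := by
  have hf1 : ∀ x y, S.B (f x) (f y) = S.B x y := hB ▸ hf.1
  have hT : T.Nondeg := fun x hx => hS x (hB ▸ hx)
  let e := frobeniusEquiv F 2
  have he : ∀ c, e c = c ^ 2 := fun _ => rfl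
  obtain ⟨w, hw⟩ := hS.exists_lin
    { toFun := fun x => e.symm (S.Q (f x) - S.Q x)
      map_add' := fun x y => by simp only [← map_add e.symm, map_add f, S.orth_Q_add, hf1]; ring_nf
      map_smul' := fun c x => e.injective (by
        simp only [map_smul, S.orth_Q_smul, RingHom.id_apply, smul_eq_mul, map_mul,
          RingEquiv.apply_symm_apply, he c]; ring) }
  have h1 : ∀ x, S.B x w ^ 2 = S.Q (f x) - S.Q x := fun x =>
    e.eq_symm_apply.1 (congrArg (· x) hw)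
  obtain ⟨a, rfl⟩ := mem_Rx.1 ((Rx_eq_perp hT hf).ge (T.mem_perp'.2 fun x hx => by
    rw [hB, ← pow_eq_zero_iff two_ne_zero, h1, mem_Cx.1 hx, sub_self]) : w ∈ Rx f)
  refine ⟨a, hf1, fun x => ?_⟩
  have h2 := h1 x
  rw [S.B_sub_right, sub_pow_char, ← hf1 x (f a), ← End.mul_apply, ← sq, h, End.one_apply] at h2
  simpa [shift] using by linear_combination -h2

theorem plus_plane_two {a b : V} (h : S.B b a = 1) (ha : S.Q a ≠ 0) :
    S.NondegOn (Submodule.span F {a, b}) ∧ finrank F (Submodule.span F {a, b}) = 2 ∧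
      (Plus S (Submodule.span F {a, b}) ↔ ∃ s, s ^ 2 + s + S.Q a * S.Q b = 0) := by
  have h1 : ∀ s t : F, (∀ z ∈ Submodule.span F {a, b}, S.B (s • a + t • b) z = 0) →
      s = 0 ∧ t = 0 := fun s t h2 => by
    have h3 := h2 a (Submodule.subset_span (by simp))
    have h4 := h2 b (Submodule.subset_span (by simp))
    simpa [alt_two (S := S) fun _ => rfl, S.orth_B_swap b a, h] using And.intro h4 h3
  have h2 : S.NondegOn (Submodule.span F {a, b}) := fun z hz h2 => by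
    obtain ⟨s, t, rfl⟩ := Submodule.mem_span_pair.1 hz
    simp [h1 s t h2]
  have h3 : finrank F (Submodule.span F {a, b}) = 2 := by
    rw [← Matrix.range_cons_cons_empty a b ![], finrank_span_eq_card
      (LinearIndependent.pair_iff.2 fun s t h2 => h1 s t fun z _ => by rw [h2, S.B_zero_left]),
      Fintype.card_fin]
  have h4 := two_mul_widx_le h2
  have h5 : ∀ s t : F, S.Q (s • a + t • b) = s ^ 2 * S.Q a + t ^ 2 * S.Q b + s * t := fun s t => by
    simp [S.orth_Q_add, S.orth_Q_smul, S.orth_B_swap b a, h, mul_comm]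
  refine ⟨h2, h3, Iff.trans (show _ ↔ ¬ widx S (Submodule.span F {a, b}) = 0 by
    unfold Plus; omega) ?_⟩
  rw [widx_eq_zero_iff]
  push Not
  constructor
  · rintro ⟨x, hx, c1, c2⟩
    obtain ⟨s, t, rfl⟩ := Submodule.mem_span_pair.1 hx
    rw [S.orth_sing, h5] at c1
    have ht : t ≠ 0 := by
      rintro rfl
      exact c2 (by simp [show s = 0 by simpa [ha] using c1])
    exact ⟨s * S.Q a / t, by field_simp; linear_combination S.Q a * c1⟩
  · rintro ⟨s, hs⟩
    refine ⟨(s / S.Q a) • a + (1 : F) • b, Submodule.mem_span_pair.2 ⟨_, _, rfl⟩, ?_, fun c => ?_⟩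
    · rw [S.orth_sing, h5]; field_simp; linear_combination hs
    · exact one_ne_zero (h1 _ _ fun z _ => by rw [c, S.B_zero_left]).2

theorem plus_shift (hS : S.Nondeg) (he : Even (finrank F V)) {a : V}
    (ha : ∀ s, s ^ 2 + s + S.Q a ≠ 0) : Plus (shift S a) ⊤ ↔ ¬ Plus S ⊤ := by
  have h0 : S.Q a ≠ 0 := by simpa using ha 0
  obtain ⟨b, hb⟩ := hS.exists_eq (show a ≠ 0 by rintro rfl; exact h0 S.orth_Q_zero) 1
  have h1 : (shift S a).Q a = S.Q a := by simp [shift, alt_two (S := S) fun _ => rfl]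
  have h2 : (shift S a).Q b = S.Q b + 1 := by simp [shift, hb]
  obtain ⟨a1, a2, a3⟩ := plus_plane_two hb h0
  obtain ⟨b1, -, b3⟩ := plus_plane_two (S := shift S a) hb (h1 ▸ h0)
  have a4 := plus_perp hS a1 he (a2 ▸ even_two)
  have b4 := plus_perp (S := shift S a) hS b1 he (a2 ▸ even_two)
  have c1 : Plus (shift S a) (S.perp (Submodule.span F {a, b})) ↔
      Plus S (S.perp (Submodule.span F {a, b})) := by
    rw [plus_iff (a1.perp hS), plus_iff (S := shift S a) (a1.perp hS)]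
    refine exists_congr fun U => and_congr_right fun hU => and_congr_left' ?_
    rw [orth_ts, orth_ts]
    exact forall₂_congr fun x hx => by simp [shift, hU hx a (Submodule.subset_span (by simp))]
  have c2 : (∃ s, s ^ 2 + s + S.Q a * (S.Q b + 1) = 0) ↔ ¬ ∃ s, s ^ 2 + s + S.Q a * S.Q b = 0 := by
    refine ⟨fun ⟨s, hs⟩ ⟨t, ht⟩ => ha (s - t) (by rw [sub_pow_char]; linear_combination hs - ht),
      fun h => by_contra fun h' => ?_⟩
    obtain ⟨s, hs⟩ := exists_add_eq_of_char_two CharTwo.two_eq_zero (not_exists.1 h')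
      (not_exists.1 h)
    exact ha s (by linear_combination hs)
  rw [h1, h2, c2, ← a3] at b3
  have c3 := (b4.symm.trans c1).trans a4
  rw [b3] at c3
  exact iff_not_of c3

theorem exists_type {T : PQ (FP.symp F) V} (hB : T.B = S.B) (hS : S.Nondeg) {d : ℕ}
    (hn : finrank F V = 2 * d) (hf : T.IsIso T f) (h : f ^ 2 = 1) (hd : Plus S ⊤ ∨ Odd d) :
    ∃ S' : PQ (FP.orth F) V, S'.B = S.B ∧ (Plus S' ⊤ ↔ Plus S ⊤) ∧ S'.IsIso S' f := by
  obtain ⟨a, ha⟩ := exists_shift hB hS hf h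
  by_cases h1 : Plus (shift S a) ⊤ ↔ Plus S ⊤
  · exact ⟨shift S a, rfl, h1, ha⟩
  obtain ⟨z, a1, a2⟩ := two_point (S := shift S a) hS ha h (hd.symm.imp
    (fun h => by rw [Nat.odd_iff] at h; omega) fun h h' => h1 (iff_of_true h' h))
  obtain ⟨c, hc⟩ := not_forall.1 (mt (Finite.injective_iff_surjective
    (f := fun y : F => y ^ 2 + y)).2 fun h => zero_ne_one (h (a₁ := 0) (a₂ := 1)
      (by simp [CharTwo.add_self_eq_zero])))
  obtain ⟨t, ht⟩ := Arith.exists_pow_p_eq (p := 2) (c / (shift S a).Q z)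
  have a3 := plus_shift (S := shift S a) hS (hn ▸ even_two_mul d) (a := t • z) fun s hs => hc ⟨s, by
    rw [orth_Q_smul, ht, div_mul_cancel₀ _ a2] at hs
    exact CharTwo.add_eq_zero.1 hs⟩
  refine ⟨shift (shift S a) (t • z), rfl, a3.trans (not_iff.1 h1), ha.1, fun x => ?_⟩
  have a4 := ha.1 x (t • z)
  rw [map_smul, a1] at a4
  change _ + _ ^ 2 - (_ + _) ∈ _
  rw [a4, add_sub_add_right_eq_sub]
  exact ha.2 x

end Cfsg.Agent.H9.FSpO
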