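import Cfsg.Agent.H9.FTrP

/-! Unitary spaces: elements whose `r`-th power is scalar. -/

set_option autoImplicit false
set_option linter.unusedSectionVars false
set_option linter.unusedVariables false

namespace Cfsg.Agent.H9.FUni

open Module Polynomial Cfsg.Agent.Form Cfsg.Agent.Form.PQ Cfsg.Agent.H9.FIdx Cfsg.Agent.H9.FCount
open Cfsg.Agent.H9.FClass Cfsg.Agent.H9.FOrd Cfsg.Agent.H9.Types Cfsg.Agent.H9.FInv
open Cfsg.Agent.H9.FSS Cfsg.Agent.H9.FModel Cfsg.Agent.H9.FNum Cfsg.Agent.H9.FAdapt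
open Cfsg.Agent.H9.FSemi Cfsg.Agent.H9.FInvol Cfsg.Agent.H7

universe u v

variable {F : Type u} [Field F]

theorem inj_X_sub_C : Function.Injective fun a : F => X - C a := fun _ _ h =>
  C_injective (sub_right_injective h)

section arith
variable {r : ℕ} [hr : Fact r.Prime]

theorem lt_of_pow_eq {b : F} {N n : ℕ} (hN : N ≠ 0) (hn : n ≠ 0) (h1 : b ^ N = 1)
    (h2 : (b ^ n) ^ r = 1) (h3 : b ^ n ≠ 1) : padicValNat r n < padicValNat r N := by
  have a1 := orderOf_eq_prime h2 h3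
  have a2 := orderOf_dvd_of_pow_eq_one h1
  have a3 : orderOf b ≠ 0 := fun h => hN (by simpa [h] using a2)
  rw [orderOf_pow' _ hn] at a1
  have a4 : orderOf b = Nat.gcd (orderOf b) n * r := by
    rw [← a1, Nat.mul_div_cancel' (Nat.gcd_dvd_left _ _)]
  by_contra h
  have a5 : padicValNat r (orderOf b) ≤ padicValNat r N :=
    (padicValNat_dvd_iff_le hN).1 (pow_padicValNat_dvd.trans a2)
  have a6 : r ^ padicValNat r (orderOf b) ∣ Nat.gcd (orderOf b) n :=
    Nat.dvd_gcd pow_padicValNat_dvd ((padicValNat_dvd_iff_le hn).2 (by omega))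
  refine pow_succ_padicValNat_not_dvd (p := r) a3 ?_
  rw [pow_succ]
  conv_rhs => rw [a4]
  exact Nat.mul_dvd_mul_right a6 r

theorem pow_of_primitive {b : F} {n : ℕ} (hn : n ≠ 0)
    (h : IsPrimitiveRoot b (r ^ (padicValNat r n + 1))) : (b ^ n) ^ r = 1 ∧ b ^ n ≠ 1 := by
  rw [← pow_mul, Ne, h.pow_eq_one_iff_dvd, h.pow_eq_one_iff_dvd, pow_succ]
  exact ⟨Nat.mul_dvd_mul_right pow_padicValNat_dvd r, fun h' =>
    pow_succ_padicValNat_not_dvd hn (by rwa [pow_succ])⟩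

omit hr in
theorem exists_primitive [Fintype F] {Q k : ℕ} (hQ : Fintype.card F = Q) (h : k ∣ Q - 1) :
    ∃ b : F, IsPrimitiveRoot b k := by
  obtain ⟨γ, h0, -, h2⟩ := Arith.exists_gen hQ
  obtain ⟨t, ht⟩ := h
  have ht0 : 0 < t := Nat.pos_of_ne_zero (by
    rintro rfl
    exact Arith.q_sub_one_ne_zero hQ (by simpa using ht))
  refine ⟨γ ^ t, ⟨?_, fun l hl => ?_⟩⟩
  · rw [← pow_mul, h2, ht, mul_comm]
  · rw [← pow_mul, h2, ht, mul_comm t] at hl
    exact Nat.dvd_of_mul_dvd_mul_right ht0 hl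

omit hr in
theorem sq_sub_one (q : ℕ) : q ^ 2 - 1 = (q + 1) * (q - 1) := by
  simpa using Nat.sq_sub_sq q 1

theorem not_dvd_sub_one {q : ℕ} (hq : 1 ≤ q) (hr2 : r ≠ 2) (h : r ∣ q + 1) : ¬ r ∣ q - 1 :=
  fun h' => hr2 ((Nat.prime_dvd_prime_iff_eq hr.out Nat.prime_two).1 (by
    have := Nat.dvd_sub h h'
    rwa [show q + 1 - (q - 1) = 2 by omega] at this))

theorem padicValNat_sq_sub_one {q : ℕ} (hq : 2 ≤ q) (hr2 : r ≠ 2) (h : r ∣ q + 1) :
    padicValNat r (q ^ 2 - 1) = padicValNat r (q + 1) := by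
  rw [sq_sub_one, padicValNat.mul (by omega) (by omega),
    padicValNat.eq_zero_of_not_dvd (not_dvd_sub_one (by omega) hr2 h), add_zero]

theorem orderOf_eq_two_iff {q : ℕ} (hr2 : r ≠ 2) : orderOf (q : ZMod r) = 2 ↔ r ∣ q + 1 := by
  have := dvd_pow_add_one_iff (q := q) hr2 1
  rw [pow_one, mul_one, Nat.dvd_prime Nat.prime_two, Nat.dvd_one] at this
  rw [this]; omega

theorem mul_dvd_pow_add_one {q : ℕ} (hr2 : r ≠ 2) (h1 : r ∣ q + 1) : r * (q + 1) ∣ q ^ r + 1 := by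
  have b1 := padicValNat.pow_add_pow (hr.out.odd_of_ne_two hr2) h1 (n := r) (fun h4 =>
    hr.out.one_lt.ne' (Nat.dvd_one.1 ((Nat.dvd_add_right h4).1 h1)))
    (hr.out.odd_of_ne_two hr2)
  obtain ⟨t, ht⟩ : q + 1 ∣ q ^ r + 1 := by
    simpa using (hr.out.odd_of_ne_two hr2).nat_add_dvd_pow_add_pow q 1
  rw [one_pow, padicValNat_self, ht, padicValNat.mul (by omega)
    (by rintro rfl; simp at ht)] at b1
  rw [ht, mul_comm r]
  exact Nat.mul_dvd_mul_left _ (dvd_of_one_le_padicValNat (by omega))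

omit hr in
theorem exists_pow_eq_of_coprime {c : F} {k N : ℕ} (hN : 1 < N) (hc : c ^ N = 1)
    (h : Nat.Coprime k N) : ∃ b : F, b ^ N = 1 ∧ b ^ k = c := by
  obtain ⟨m, -, hm⟩ := Nat.exists_mul_mod_eq_one_of_coprime h hN
  refine ⟨c ^ m, by rw [← pow_mul, mul_comm, pow_mul, hc, one_pow], ?_⟩
  rw [← pow_mul, mul_comm, ← Nat.div_add_mod (k * m) N, hm, pow_add, pow_mul, hc, one_pow, one_mul,
    pow_one]

omit hr in
theorem eq_one_of_coprime {c : F} {k N : ℕ} (h1 : c ^ k = 1) (h2 : c ^ N = 1)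
    (h : Nat.Coprime k N) : c = 1 := by
  have := Nat.dvd_gcd (orderOf_dvd_of_pow_eq_one h1) (orderOf_dvd_of_pow_eq_one h2)
  rwa [h, Nat.dvd_one, orderOf_eq_one_iff] at this

end arith

section general
variable {P : FP F} {V : Type v} [AddCommGroup V] [Module F V] {S : PQ P V} {f : End F V}
  [FiniteDimensional F V]

theorem det_norm_one (hS : S.Nondeg) (hf : S.IsIso S f) :
    LinearMap.det f * P.σ (LinearMap.det f) = 1 := by
  suffices h : ∀ g ∈ S.isom, (LinearEquiv.det g : F) * P.σ (LinearEquiv.det g) = 1 by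
    have := h _ (toEquiv_mem hS hf)
    rwa [LinearEquiv.coe_det] at this
  intro g hg
  rw [← hS.gen_bot, PQ.gen] at hg
  induction hg using Subgroup.closure_induction with
  | mem g hg =>
    rcases hg with ⟨d, c, h, -, rfl⟩ | ⟨d, w, q, h, -, -, rfl⟩
    · rw [det_tau]
      have := h.eq
      simp only [map_add, map_mul, map_one, S.σ_B]
      linear_combination (P.ε * S.B d d) * this - (c * S.B d d) * P.εε
    · rw [det_eich]; simp
  | one => simp
  | mul a b _ _ ha hb =>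
    rw [map_mul, Units.val_mul, map_mul]
    linear_combination (↑(LinearEquiv.det b) * P.σ ↑(LinearEquiv.det b)) * ha + hb
  | inv a _ ha =>
    rw [map_inv, Units.val_inv_eq_inv_val, map_inv₀, ← mul_inv, ha, inv_one]

theorem exists_dual_pair (hS : S.Nondeg) (h : Plus S ⊤) :
    ∃ U U' : Submodule F V, S.TS U ∧ S.TS U' ∧ IsCompl U U' := by
  obtain ⟨U, -, a1, a2⟩ := (plus_iff (S.nondegOn_top.2 hS)).1 h
  obtain ⟨U', -, b1, -, b3, -, b5⟩ := exists_hyp (S.nondegOn_top.2 hS) le_top a1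
  exact ⟨U, U', a1, b1, b3, codisjoint_iff.2 (Submodule.eq_top_of_finrank_eq
    (by rw [b5, a2, finrank_top]))⟩

omit [FiniteDimensional F V] in
theorem exists_pair_scalar {U U' : Submodule F V} (hU : S.TS U) (hU' : S.TS U') (h : IsCompl U U')
    {a a' : F} (ha : a * P.σ a' = 1) : ∃ f : End F V, S.IsIso S f ∧ (∀ x ∈ U, f x = a • x) ∧
      ∀ x ∈ U', f x = a' • x := by
  let f : End F V := LinearMap.ofIsCompl h (a • U.subtype) (a' • U'.subtype)
  have a1 : ∀ x ∈ U, f x = a • x := fun x hx => LinearMap.ofIsCompl_apply_left h ⟨x, hx⟩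
  have a2 : ∀ x ∈ U', f x = a' • x := fun x hx => LinearMap.ofIsCompl_apply_right h ⟨x, hx⟩
  have ha' : a' * P.σ a = 1 := by
    have := congrArg P.σ ha
    rwa [map_mul, P.σσ, map_one, mul_comm] at this
  have a3 : ∀ x, ∃ y ∈ U, ∃ z ∈ U', y + z = x := fun x =>
    Submodule.mem_sup.1 (h.sup_eq_top ▸ Submodule.mem_top : x ∈ U ⊔ U')
  refine ⟨f, ⟨fun x x' => ?_, fun x => ?_⟩, a1, a2⟩
  · obtain ⟨y, hy, z, hz, rfl⟩ := a3 x
    obtain ⟨y', hy', z', hz', rfl⟩ := a3 x'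
    simp only [map_add, a1 _ hy, a1 _ hy', a2 _ hz, a2 _ hz', S.B_add_left, S.B_add_right,
      S.B_smul_left, S.B_smul_right, hU.2 _ hy _ hy', hU'.2 _ hz _ hz']
    linear_combination S.B y z' * ha + S.B z y' * ha'
  · obtain ⟨y, hy, z, hz, rfl⟩ := a3 x
    rw [map_add, a1 _ hy, a2 _ hz]
    have b1 := S.Q_add (a • y) (a' • z)
    have b2 := S.Q_add y z
    have b3 := add_mem (hU.1 _ (U.smul_mem a hy)) (hU'.1 _ (U'.smul_mem a' hz))
    have b4 := add_mem (hU.1 _ hy) (hU'.1 _ hz)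
    convert sub_mem (add_mem b1 b3) (add_mem b2 b4) using 1
    rw [S.B_smul_left, S.B_smul_right]
    linear_combination S.B y z * ha

theorem exists_anti (hS : S.Nondeg) (h : Plus S ⊤) {b : F} (hb : b * P.σ b = -1) :
    ∃ f : End F V, S.IsIso S f ∧ f ^ 2 = b ^ 2 • 1 := by
  obtain ⟨U, U', a1, a2, a3⟩ := exists_dual_pair hS h
  obtain ⟨f, b1, b2, b3⟩ := exists_pair_scalar a1 a2 a3 (a := b) (a' := -b) (by simp [hb])
  refine ⟨f, b1, LinearMap.ext fun x => ?_⟩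
  obtain ⟨y, hy, z, hz, rfl⟩ :=
    Submodule.mem_sup.1 (a3.sup_eq_top ▸ Submodule.mem_top : x ∈ U ⊔ U')
  simp [sq, b2 _ hy, b3 _ hz, smul_smul]

omit [FiniteDimensional F V] in
theorem not_scalar_of_anti [Nontrivial V] (hS : S.Nondeg) (hf : S.IsIso S f) {b : F}
    (hb : b * P.σ b ≠ 1) (h : f ^ 2 = b ^ 2 • 1) (c : F) : f ≠ c • 1 := by
  rintro rfl
  have a1 := norm_eq_one_of_isIso hS hf
  rw [_root_.smul_pow, one_pow] at h
  rcases sq_eq_sq_iff_eq_or_eq_neg.1 (eq_of_smul_one_eq h) with rfl | rfl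
  · exact hb a1
  · exact hb (by simpa using a1)

omit [FiniteDimensional F V] in
theorem det_of_roots {A : Multiset F} (h : HasType f (A.map fun a => X - C a)) :
    LinearMap.det f = A.prod := by
  rw [h.det, h.finrank_eq, Multiset.map_map, coeff_zero_eq_eval_zero, eval_multiset_prod,
    Multiset.map_map]
  simp [Multiset.prod_map_neg, ← mul_assoc, ← mul_pow]

end general

variable {σ : F →+* F} {hσ : ∀ a, σ (σ a) = a} {V : Type v} [AddCommGroup V] [Module F V]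
  {S : PQ (FP.unit σ hσ) V} {f : End F V} [FiniteDimensional F V]
  {q r p : ℕ} [hr : Fact r.Prime] [hp : Fact p.Prime] [CharP F p] [Fintype F]

omit hr hp [CharP F p] in
theorem hne_of (hq : Fintype.card F = q ^ 2) (hσq : ∀ a, σ a = a ^ q) : ∃ a, σ a ≠ a := by
  simpa only [hσq] using exists_pow_q_ne hq

omit hr hp [CharP F p] [Fintype F] in
theorem norm_eq (hσq : ∀ a, σ a = a ^ q) (a : F) : a * (FP.unit σ hσ).σ a = a ^ (q + 1) := by
  rw [pow_succ', ← hσq]; rfl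

omit hp [CharP F p] in
theorem det_eq_one (hσq : ∀ a, σ a = a ^ q) (hS : S.Nondeg) (h1 : ¬ r ∣ q + 1)
    (hf : S.IsIso S f) (h : f ^ r = 1) : LinearMap.det f = 1 :=
  eq_one_of_coprime (by rw [← map_pow, h, map_one]) (norm_eq hσq _ ▸ det_norm_one hS hf)
    ((Nat.Prime.coprime_iff_not_dvd hr.out).2 h1)

omit hp [CharP F p] in
theorem forall_unit_iff [Nontrivial V] (hq : Fintype.card F = q ^ 2) (hσq : ∀ a, σ a = a ^ q)
    (hS : S.Nondeg) (h1 : ¬ r ∣ q + 1) {Pf : End F V → Prop}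
    (hP : ∀ (f : End F V) (b : F), b ≠ 0 → Pf (b • f) → Pf f) :
    (∀ f : End F V, (S.IsIso S f ∧ LinearMap.det f = 1) → (∃ c : F, f ^ r = c • 1) →
      (∀ c : F, f ≠ c • 1) → Pf f) ↔ ∀ f : End F V, S.IsIso S f → f ^ r = 1 → f ≠ 1 → Pf f := by
  have hc := (Nat.Prime.coprime_iff_not_dvd hr.out).2 h1
  have h2 := two_le_of_card_sq hq
  constructor
  · intro H f hf h h2
    refine H f ⟨hf, det_eq_one hσq hS h1 hf h⟩ ⟨1, by rw [h, one_smul]⟩ ?_
    rintro c rfl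
    exact h2 (by rw [eq_one_of_coprime (pow_eq_one_of_smul_one_pow h)
      (norm_eq hσq _ ▸ norm_eq_one_of_isIso hS hf) hc, one_smul])
  · rintro H f ⟨hf, -⟩ ⟨c, h⟩ h3
    obtain ⟨b, a1, a2⟩ := exists_pow_eq_of_coprime (by omega)
      (norm_eq hσq _ ▸ norm_eq_one_of_pow hS hf h) hc
    have a3 : b ≠ 0 := by rintro rfl; simp at a1
    refine hP f b⁻¹ (inv_ne_zero a3) (H _ (isIso_smul hf (by rw [norm_eq hσq, inv_pow, a1, inv_one]))
      (OrdR.inv_smul_pow_eq_one a3 a2 h) fun h4 => h3 b ?_)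
    rw [← h4, smul_inv_smul₀ a3]

omit hp [CharP F p] in
theorem unit_cases [Nontrivial V] (hq : Fintype.card F = q ^ 2) (hσq : ∀ a, σ a = a ^ q)
    (hS : S.Nondeg) (hr2 : r ≠ 2) (h1 : r ∣ q + 1) (hf : S.IsIso S f) {c : F} (h : f ^ r = c • 1) :
    (∃ b : F, b ≠ 0 ∧ S.IsIso S (b⁻¹ • f : End F V) ∧ (b⁻¹ • f) ^ r = 1) ∨
      ((∀ b : F, b ^ r ≠ c) ∧ f ^ (q ^ r + 1) = 1) := by
  have h2 := two_le_of_card_sq hq
  have a1 : c ^ (q + 1) = 1 := norm_eq hσq _ ▸ norm_eq_one_of_pow hS hf h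
  by_cases h3 : ∃ b : F, b ^ r = c
  · obtain ⟨b, rfl⟩ := h3
    have a2 : b ≠ 0 := by rintro rfl; simp [hr.out.ne_zero] at a1
    refine Or.inl ⟨b, a2, isIso_smul hf ?_, OrdR.inv_smul_pow_eq_one a2 rfl h⟩
    rw [norm_eq hσq, inv_pow, inv_eq_one]
    refine eq_one_of_coprime (k := r) (N := q - 1) (by rw [← pow_mul, mul_comm, pow_mul, a1]) ?_
      ((Nat.Prime.coprime_iff_not_dvd hr.out).2 (not_dvd_sub_one (by omega) hr2 h1))
    rw [← pow_mul, ← sq_sub_one, Arith.pow_q_sub_one hq a2]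
  · push Not at h3
    refine Or.inr ⟨h3, ?_⟩
    obtain ⟨k, hk⟩ := mul_dvd_pow_add_one hr2 h1
    rw [hk, mul_assoc, pow_mul, h, _root_.smul_pow, one_pow, pow_mul, a1, one_pow, one_smul]

theorem unit_np_ts (hq : Fintype.card F = q ^ 2) (hσq : ∀ a, σ a = a ^ q)
    (hS : S.Nondeg) (hrp : r ≠ p) (hr2 : r ≠ 2) (hf : S.IsIso S f) {c : F} (h : f ^ r = c • 1)
    (h1 : ∀ b : F, b ^ r ≠ c) (h2 : f ^ (q ^ r + 1) = 1) {m : ℕ} (h3 : r ∣ m)
    (h4 : 2 * m ≤ finrank F V) : Fix (fun W => finrank F W = m ∧ S.TS W) f := by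
  obtain ⟨e, -, he⟩ := exists_q_eq_of_sq (p := p) hq
  obtain ⟨j, rfl⟩ := h3
  obtain ⟨U, -, a2, a3, a4⟩ := np_ts (p := p) (e := e * r) hS (fun a => by
    rw [pow_mul, ← he, pow_odd_eq hq (hr.out.odd_of_ne_two hr2), ← hσq]; rfl) hf
    (by rwa [pow_mul, ← he]) h1 h (S.nondegOn_top.2 hS) (fun _ _ => trivial) (j := j)
    (by rwa [finrank_top])
  exact ⟨U, ⟨a4, a2⟩, a3⟩

omit hp [CharP F p] in
theorem unit_np_lt [Nontrivial V] (hq : Fintype.card F = q ^ 2) (hr2 : r ≠ 2) (h1 : r ∣ q + 1)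
    {c : F} (h : f ^ r = c • 1) (h2 : ∀ b : F, b ^ r ≠ c) (hd : LinearMap.det f = 1) :
    padicValNat r (q + 1) < padicValNat r (finrank F V) :=
  padicValNat_sq_sub_one (two_le_of_card_sq hq) hr2 h1 ▸
    OrdR.lt_of_not_pow hq hd h h2 fun h => absurd h hr2

theorem exists_unit_np (hq : Fintype.card F = q ^ 2) (hσq : ∀ a, σ a = a ^ q) (hS : S.Nondeg)
    (hrp : r ≠ p) (hr2 : r ≠ 2) (h1 : r ∣ q + 1)
    (h : padicValNat r (q + 1) < padicValNat r (finrank F V)) :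
    ∃ (f : End F V) (c : F), S.IsIso S f ∧ LinearMap.det f = 1 ∧ f ^ r = c • 1 ∧
      (∀ b : F, b ^ r ≠ c) ∧ ∀ c : F, f ≠ c • 1 := by
  have h2 := two_le_of_card_sq hq
  have hodd := hr.out.odd_of_ne_two hr2
  obtain ⟨e, -, he⟩ := exists_q_eq_of_sq (p := p) hq
  have h0 : finrank F V ≠ 0 := fun h0 => by rw [h0] at h; simp at h
  obtain ⟨s, hs⟩ : r ∣ finrank F V := dvd_of_one_le_padicValNat (by omega)
  have hs0 : s ≠ 0 := by rintro rfl; exact h0 hs
  rw [hs, padicValNat.mul hr.out.ne_zero hs0, padicValNat_self] at h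
  obtain ⟨c, a1, a2, a3⟩ := Arith.exists_not_pow hq (r := r) (sq_sub_one q ▸ h1.mul_right _)
    (k := r ^ padicValNat r (q + 1)) (by rw [padicValNat_sq_sub_one h2 hr2 h1])
  have a4 : ∀ k, r ^ padicValNat r (q + 1) ∣ k → c ^ k = 1 := by
    rintro _ ⟨k, rfl⟩; rw [pow_mul, a2, one_pow]
  have hi := X_pow_sub_C_irreducible_of_prime hr.out a3
  have hm := monic_X_pow_sub_C c hr.out.ne_zero
  have a5 : Real (FP.unit σ hσ) {X ^ r - C c} := by
    refine real_sd (p := p) (e := e * r) (fun a => by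
      rw [pow_mul, ← he, pow_odd_eq hq hodd, ← hσq]; rfl) hm hi ?_ (Or.inl ?_)
    · obtain ⟨k, hk⟩ := mul_dvd_pow_add_one hr2 h1
      have := sub_dvd_pow_sub_pow (X ^ r) (C c) ((q + 1) * k)
      rwa [← C_pow, a4 _ (pow_padicValNat_dvd.mul_right k), ← pow_mul, ← mul_assoc, ← hk, C_1,
        he, ← pow_mul] at this
    · obtain ⟨θ, hθ⟩ := exists_trace_one σ hσ (hne_of hq hσq)
      exact ⟨θ, by simpa using (by rw [hθ]; exact one_ne_zero : θ + σ θ ≠ 0)⟩
  have a6 : ((s • ({X ^ r - C c} : Multiset F[X])).map natDegree).sum = finrank F V := by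
    simp [Multiset.nsmul_singleton, hs, mul_comm]
  obtain ⟨f, b1, b2⟩ := exists_of_real_unit (hne_of hq hσq) hS (a5.nsmul s) a6.le
  rw [a6, Nat.sub_self, Multiset.replicate_zero, zero_add, Multiset.nsmul_singleton] at b2
  refine ⟨f, c, b1, ?_, (OrdR.aeval_X_pow_sub_C_eq_zero_iff f r c).1 ((b2.aeval_eq_zero_iff _).2
    fun g hg => Multiset.eq_of_mem_replicate hg ▸ dvd_rfl), a3, OrdR.not_scalar_of_natDegree b2
    (Multiset.mem_replicate.2 ⟨hs0, rfl⟩) (by rw [natDegree_X_pow_sub_C]; exact hr.out.two_le)⟩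
  rw [OrdR.det_of_type_replicate b2, hodd.add_one.neg_one_pow, one_mul]
  exact a4 s ((padicValNat_dvd_iff_le hs0).2 (by omega))

/-- Elements with `2 * u` simple non-trivial eigenvalues and determinant one. -/
theorem exists_unit_sym (hq : Fintype.card F = q ^ 2) (hσq : ∀ a, σ a = a ^ q) (hS : S.Nondeg)
    (hrp : r ≠ p) (hr2 : r ≠ 2) (h1 : r ∣ q + 1) {u : ℕ} (hu0 : 0 < u) (hu : 2 * u < r)
    (hn : 2 * u ≤ finrank F V) :
    ∃ f : End F V, S.IsIso S f ∧ LinearMap.det f = 1 ∧ f ^ r = 1 ∧ (∀ c : F, f ≠ c • 1) ∧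
      finrank F (Cx f) = finrank F V - 2 * u ∧
      ∀ W, S.TS W → (∀ x ∈ W, f x ∈ W) → W ≤ Cx f := by
  obtain ⟨ω, hω⟩ := exists_primitive hq (sq_sub_one q ▸ h1.mul_right (q - 1))
  let A : Multiset ℕ := (Multiset.range u).map (· + 1) + (Multiset.range u).map (fun j => r - (j + 1))
  have a1 : ∀ j ∈ A, 0 < j ∧ j < r := fun j hj => by
    simp only [A, Multiset.mem_add, Multiset.mem_map, Multiset.mem_range] at hj
    obtain ⟨k, h1, h2⟩ | ⟨k, h1, h2⟩ := hj <;> omega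
  have a2 : A.Nodup := by
    refine Multiset.nodup_add.2 ⟨(Multiset.nodup_range u).map (add_left_injective 1),
      (Multiset.nodup_range u).map_on fun a ha b hb h => ?_, Multiset.disjoint_left.2 ?_⟩
    · simp only [Multiset.mem_range] at ha hb; omega
    · simp only [Multiset.mem_map, Multiset.mem_range]
      rintro _ ⟨k, h1, h2⟩ ⟨l, h3, h4⟩
      omega
  let D : Multiset F[X] := (A.map (ω ^ ·)).map fun a => X - C a
  have a3 : D.Nodup := (a2.map_on fun a ha b hb h => hω.pow_inj (a1 a ha).2 (a1 b hb).2 h).map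
    inj_X_sub_C
  have a4 : ∀ g ∈ D, g.Monic ∧ Irreducible g ∧ g ∣ cyclotomic r F := fun g hg => by
    simp only [D, Multiset.mem_map] at hg
    obtain ⟨_, ⟨j, hj, rfl⟩, rfl⟩ := hg
    exact ⟨monic_X_sub_C _, irreducible_X_sub_C _, dvd_iff_isRoot.2 (IsPrimitiveRoot.isRoot_cyclotomic
      hr.out.pos (hω.pow_of_coprime j (Nat.coprime_of_lt_prime (a1 j hj).1.ne' (a1 j hj).2 hr.out).symm))⟩
  have hi := (orderOf_eq_two_iff hr2).2 h1
  have hI : orderOf ((q ^ 2 : ℕ) : ZMod r) = 1 := by rw [orderOf_sq, hi]; simp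
  have hsd := sd_unit (P := FP.unit σ hσ) (p := p) hq hr2 hσq (by rw [hi])
  have a5 : Multiset.card D = 2 * u := by simp [D, A, two_mul]
  obtain ⟨f, b1, b2⟩ := model_unit (hne_of hq hσq) hq hrp hS (hsd.real hrp hr2 a4)
    (fun g hg => (a4 g hg).2) (e := finrank F V - 2 * u) (by rw [hI, a5]; omega)
  obtain ⟨c1, c2, -⟩ := model_data hq hrp b2 fun g hg => (a4 g hg).2
  refine ⟨f, b1, ?_, c1, ?_, c2, fun W d1 d2 => ?_⟩
  · rw [det_of_roots (A := Multiset.replicate (finrank F V - 2 * u) 1 + A.map (ω ^ ·))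
      (by rw [Multiset.map_add, Multiset.map_replicate, C_1]; exact b2)]
    simp only [A, Multiset.prod_add, Multiset.prod_replicate, one_pow, one_mul, Multiset.map_add,
      Multiset.map_map, ← Multiset.prod_map_mul, Function.comp]
    refine Multiset.prod_eq_one fun a ha => ?_
    obtain ⟨j, hj, rfl⟩ := Multiset.mem_map.1 ha
    rw [Multiset.mem_range] at hj
    rw [← pow_add, show j + 1 + (r - (j + 1)) = r by omega, hω.pow_eq_one]
  · have e1 : ∀ j ∈ A, X - C (ω ^ j) ∈ Multiset.replicate (finrank F V - 2 * u) (X - 1) + D :=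
      fun j hj => Multiset.mem_add.2 (Or.inr (Multiset.mem_map_of_mem _
        (Multiset.mem_map_of_mem _ hj)))
    refine OrdR.not_scalar_of_ne b2 (e1 1 ?_) (e1 (r - 1) ?_) (irreducible_X_sub_C _).ne_one
      (irreducible_X_sub_C _).ne_one fun h => ?_
    · exact Multiset.mem_add.2 (Or.inl (Multiset.mem_map.2 ⟨0, by simpa using hu0, rfl⟩))
    · exact Multiset.mem_add.2 (Or.inr (Multiset.mem_map.2 ⟨0, by simpa using hu0, rfl⟩))
    · have := hω.pow_inj (by omega) (by omega) (inj_X_sub_C h)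
      omega
  · obtain ⟨k, e1, e2⟩ := hsd
    have := sd_bound hq hrp e1 e2 hS b1 c1 (A := Multiset.replicate (finrank F V - 2 * u) (X - 1))
      (D := D) (E := 0) (by simpa using b2) (fun g hg => Multiset.eq_of_mem_replicate hg) a3
      (fun g hg => by
        simp only [add_zero, Multiset.mem_add] at hg
        rcases hg with hg | hg
        · exact Multiset.eq_of_mem_replicate hg ▸ Arith.irreducible_X_sub_one
        · exact (a4 g hg).2.1) (d1.mono (inf_le_left : W ⊓ Dx r f ≤ W)) (inv_inf d2 (inv_Dx r))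
      inf_le_right
    rw [← cd_sup hrp c1 d2, Submodule.finrank_eq_zero.1 (Nat.le_zero.1 this), sup_bot_eq]
    exact inf_le_right

/-- Elements whose square is a scalar. -/
theorem unit_sq_cases [Nontrivial V] (hq : Fintype.card F = q ^ 2) (hσq : ∀ a, σ a = a ^ q)
    (hS : S.Nondeg) (hp2 : 2 ≠ p) (hf : S.IsIso S f) {c : F} (h : f ^ 2 = c • 1) :
    ∃ b : F, b ≠ 0 ∧ f ^ 2 = b ^ 2 • 1 ∧ ((b ^ (q + 1) = 1 ∧ S.IsIso S (b⁻¹ • f : End F V)) ∨
      b ^ (q + 1) = -1) := by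
  have h2 := two_le_of_card_sq hq
  have a1 : c ^ (q + 1) = 1 := norm_eq hσq _ ▸ norm_eq_one_of_pow hS hf h
  have a2 : Odd q := by
    have := Nat.odd_iff.2 (odd_card hq hp2)
    rwa [Nat.odd_pow_iff two_ne_zero] at this
  obtain ⟨b, b1, rfl⟩ := Arith.exists_pow_eq_of_pow_eq_one (r := 2) hq (by omega) a1 (by
    rw [sq_sub_one, padicValNat.mul (by omega) (by omega)]
    have := one_le_padicValNat_of_dvd (p := 2) (n := q - 1) (by omega)
      (by rw [Nat.odd_iff] at a2; omega)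
    omega)
  refine ⟨b, b1, h, ?_⟩
  rw [← pow_mul, mul_comm, pow_mul, sq_eq_one_iff] at a1
  exact a1.imp_left fun a1 => ⟨a1, isIso_smul hf (by rw [norm_eq hσq, inv_pow, a1, inv_one])⟩

omit hr in
theorem odd_q (hq : Fintype.card F = q ^ 2) (hp2 : 2 ≠ p) : q % 2 = 1 := by
  have := Nat.odd_iff.2 (odd_card hq hp2)
  rwa [Nat.odd_pow_iff two_ne_zero, Nat.odd_iff] at this

omit hr in
theorem neg_one_ne_one' (hp2 : 2 ≠ p) : (-1 : F) ≠ 1 := fun h =>
  two_ne_zero' (F := F) hp2 (by linear_combination -h)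

omit hr in
/-- If the determinant is one then an involution modulo scalars has even eigenspaces. -/
theorem unit_even_Dx (hp2 : 2 ≠ p) {b : F} (hb : b ^ (q + 1) = 1) (h : (b⁻¹ • f) ^ 2 = 1)
    (hd : LinearMap.det f = 1) (h0 : finrank F V ≠ 0)
    (hv : padicValNat 2 (q + 1) ≤ padicValNat 2 (finrank F V)) :
    Even (finrank F (Dx 2 (b⁻¹ • f))) := by
  by_contra h1
  have a1 := det_of_invol hp2 h
  rw [(Nat.not_even_iff_odd.1 h1).neg_one_pow, LinearMap.det_smul, hd, mul_one] at a1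
  have := lt_of_pow_eq (r := 2) (b := b⁻¹) (N := q + 1) (by omega) h0 (by rw [inv_pow, hb, inv_one])
    (by rw [a1]; simp) (by rw [a1]; exact neg_one_ne_one' hp2)
  omega

omit hr in
/-- A scalar multiple of a reflection with determinant one. -/
theorem exists_unit_refl (hq : Fintype.card F = q ^ 2) (hσq : ∀ a, σ a = a ^ q) (hS : S.Nondeg)
    (hp2 : 2 ≠ p) (h2 : 2 ≤ finrank F V)
    (hv : padicValNat 2 (finrank F V) < padicValNat 2 (q + 1)) :
    ∃ (g : End F V) (b : F), b ≠ 0 ∧ S.IsIso S g ∧ g ^ 2 = 1 ∧ finrank F (Dx 2 g) = 1 ∧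
      S.IsIso S (b • g : End F V) ∧ LinearMap.det (b • g) = 1 ∧ (∃ c : F, (b • g) ^ 2 = c • 1) ∧
      ∀ c : F, b • g ≠ c • 1 := by
  obtain ⟨U, -, a1, a2⟩ := exists_nondeg_of_aniso (fun U => exists_aniso_of_σ (hne_of hq hσq))
    (S.nondegOn_top.2 hS) (e := 1) (by rw [finrank_top]; omega)
  obtain ⟨g, b1, b2, b3, b4⟩ := exists_invol hp2 hS a1
  have a3 : 2 ^ (padicValNat 2 (finrank F V) + 1) ∣ q + 1 :=
    (padicValNat_dvd_iff_le (by omega)).2 hv
  obtain ⟨b, hb⟩ := exists_primitive hq (sq_sub_one q ▸ a3.mul_right (q - 1))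
  obtain ⟨c1, c2⟩ := pow_of_primitive (by omega) hb
  have c3 : b ≠ 0 := hb.ne_zero (by positivity)
  have c4 := hS.finrank_perp U
  refine ⟨g, b, c3, b1, b2, b3 ▸ a2, isIso_smul b1 (by
    rw [norm_eq hσq, hb.pow_eq_one_iff_dvd]; exact a3), ?_, ⟨b ^ 2, by
      rw [_root_.smul_pow, b2]⟩, fun c hc => not_scalar_of_invol hp2 (f := g) ?_ ?_ (b⁻¹ * c) ?_⟩
  · rw [LinearMap.det_smul, det_of_invol hp2 b2, b3, a2, (sq_eq_one_iff.1 c1).resolve_left c2]
    simp
  · rw [b4, Ne, ← Submodule.finrank_eq_zero]; omega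
  · rw [b3, Ne, ← Submodule.finrank_eq_zero]; omega
  · rw [mul_smul, ← hc, inv_smul_smul₀ c3]

omit hr in
theorem p_not_dvd_uf (hq : Fintype.card F = q ^ 2) {j : ℕ} (hj : j ≠ 0) : ¬ p ∣ uf q j := by
  have h1 : p ∣ q ^ j := (hp.out.dvd_of_dvd_pow (Arith.p_dvd_q hq)).trans (dvd_pow_self q hj)
  have h2 := two_le_of_card_sq hq
  unfold uf
  split_ifs
  · intro h
    have := Nat.dvd_sub h1 h
    rw [Nat.sub_sub_self (Nat.one_le_pow _ _ (by omega))] at this
    exact hp.out.one_lt.ne' (Nat.dvd_one.1 this)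
  · exact fun h => hp.out.one_lt.ne' (Nat.dvd_one.1 ((Nat.dvd_add_right h1).1 h))

end Cfsg.Agent.H9.FUni
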