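import Cfsg.Agent.H9.FUnipO

/-! Involutions of symplectic and orthogonal spaces in characteristic two. -/

set_option autoImplicit false
set_option linter.unusedSectionVars false

namespace Cfsg.Agent.H9.FUnip

open Module Polynomial Cfsg.Agent.Form Cfsg.Agent.Form.PQ Cfsg.Agent.H9.FIdx Cfsg.Agent.H9.FCount
open Cfsg.Agent.H9.FClass Cfsg.Agent.H9.FOrd Cfsg.Agent.H9.Types Cfsg.Agent.H9.FInv
open Cfsg.Agent.H9.FSS Cfsg.Agent.H9.FModel Cfsg.Agent.H9.FAdapt Cfsg.Agent.H9.FInvol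
open Cfsg.Agent.H9.FSpin Cfsg.Agent.H9.FOrth

universe u v

variable {F : Type u} [Field F] {V : Type v} [AddCommGroup V] [Module F V] [FiniteDimensional F V]
  {f : End F V} [CharP F 2]

section general
variable {P : FP F} {S : PQ P V}

theorem eps_two (P : FP F) : P.ε = 1 := P.ε_eq.elim id fun h => h.trans (CharTwo.neg_eq 1)

theorem alt_two (hσ : ∀ a, P.σ a = a) (x : V) : S.B x x = 0 := by
  rw [S.B_self, hσ, eps_two, one_mul, CharTwo.add_self_eq_zero]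

theorem swap_two (hσ : ∀ a, P.σ a = a) (x y : V) : S.B y x = S.B x y := by
  rw [S.B_swap, hσ, eps_two, one_mul]

theorem B_N_two (hσ : ∀ a, P.σ a = a) (v : V) : S.B v (((f - 1) ^ 1 : End F V) v) = S.B v (f v) := by
  simp [alt_two hσ]

theorem exists_jt_two (h : f ^ 2 = 1) {W : Submodule F V} (hW : ∀ x ∈ W, f x ∈ W) :
    ∃ μ, JT f W μ ∧ ∀ e ∈ μ, e ≤ 2 := by
  have h1 : ∀ x ∈ W, ((f - 1) ^ 2 : End F V) x = 0 := fun x _ => by
    rw [pow_eq_one_iff_N.1 h, LinearMap.zero_apply]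
  obtain ⟨μ, h2⟩ := exists_jt hW h1
  exact ⟨μ, h2, h2.le_iff.2 h1⟩

/-- Invariant non-degenerate subspaces of prescribed dimension. -/
theorem two_sub (hσ : ∀ a, P.σ a = a) (hS : S.Nondeg) (hf : S.IsIso S f) (h : f ^ 2 = 1)
    {W : Submodule F V} (hWn : S.NondegOn W) (hW : ∀ x ∈ W, f x ∈ W) :
    finrank F W % 2 = 0 ∧ ∀ m, m % 2 = 0 → m ≤ finrank F W → (m % 4 = 0 ∨ finrank F W % 4 = 2) →
      ∃ U ≤ W, S.NondegOn U ∧ (∀ x ∈ U, f x ∈ U) ∧ finrank F U = m := by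
  obtain ⟨μ, h1, h2⟩ := exists_jt_two h hW
  refine unip_ind hS hf (M := fun W μ => (∀ e ∈ μ, e ≤ 2) → finrank F W % 2 = 0 ∧
    ∀ m, m % 2 = 0 → m ≤ finrank F W → (m % 4 = 0 ∨ finrank F W % 4 = 2) →
      ∃ U ≤ W, S.NondegOn U ∧ (∀ x ∈ U, f x ∈ U) ∧ finrank F U = m)
    (fun _ => ⟨by simp, fun m _ h _ => ⟨⊥, le_rfl, S.nondegOn_bot, inv_bot, by
      rw [finrank_bot] at h ⊢; omega⟩⟩) (fun B W μ a k a1 a2 a3 a4 _ _ a6 _ ih he => ?_) hWn hW h1 h2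
  obtain ⟨b1, b2⟩ := ih fun e h => he e (Multiset.mem_add.2 (Or.inr h))
  have b3 := he (a + 1) (Multiset.mem_add.2 (Or.inl (Multiset.mem_replicate.2 ⟨by omega, rfl⟩)))
  have b4 : finrank F B = 2 ∨ finrank F B = 4 := by
    rw [a3.2.1, Multiset.sum_replicate, smul_eq_mul]
    rcases a4 with ⟨rfl, v, -, c2⟩ | ⟨rfl, -⟩
    · have : a ≠ 0 := by rintro rfl; exact c2 (by simpa using alt_two hσ v)
      omega
    · omega
  rw [finrank_sup_of_le_perp a1 a6]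
  refine ⟨by omega, fun m c1 c2 c3 => ?_⟩
  by_cases c4 : m ≤ finrank F W ∧ (m % 4 = 0 ∨ finrank F W % 4 = 2)
  · obtain ⟨U, d1, d2⟩ := b2 m c1 c4.1 c4.2
    exact ⟨U, d1.trans le_sup_right, d2⟩
  · obtain ⟨U, d1, d2, d3, d4⟩ := b2 (m - finrank F B) (by omega) (by omega) (by omega)
    exact ⟨B ⊔ U, sup_le_sup_left d1 _, a1.sup d2 (d1.trans a6), inv_sup a2 d3, by
      rw [finrank_sup_of_le_perp a1 (d1.trans a6)]; omega⟩

theorem sing_N (hσ : ∀ a, P.σ a = a) (hf : S.IsIso S f) {x : V} (h : S.B x (f x) = 0) :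
    S.Sing (f x - x) := by
  have := add_mem (add_mem (S.Q_add (f x) (-x)) (hf.2 x)) (S.Q_neg x)
  rw [S.B_neg_right, swap_two hσ, h, ← sub_eq_add_neg] at this
  change _ ∈ _
  convert this using 1
  linear_combination CharTwo.add_self_eq_zero (S.Q x)

/-- The structure of involutions with `B v (f v) = 0`. -/
theorem atype_struct (hσ : ∀ a, P.σ a = a) (hS : S.Nondeg) (hf : S.IsIso S f) (h : f ^ 2 = 1)
    {W : Submodule F V} (hWn : S.NondegOn W) (hW : ∀ x ∈ W, f x ∈ W)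
    (ha : ∀ v ∈ W, S.B v (f v) = 0) : ∃ (C A : Submodule F V) (y : ℕ), C ≤ Cx f ∧ S.NondegOn C ∧
      A ≤ S.perp C ∧ C ⊔ A = W ∧ S.NondegOn A ∧ finrank F A = 4 * y ∧ Plus S A ∧
      finrank F ↥(W ⊓ Cx f) = finrank F C + 2 * y ∧
      ∀ y' ≤ y, ∃ A' ≤ A, S.NondegOn A' ∧ (∀ x ∈ A', f x ∈ A') ∧ finrank F A' = 4 * y' ∧ Plus S A' := by
  obtain ⟨μ, h1, h2⟩ := exists_jt_two h hW
  rw [h1.card]
  refine unip_ind hS hf (M := fun W μ => (∀ e ∈ μ, e ≤ 2) → (∀ v ∈ W, S.B v (f v) = 0) →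
    ∃ (C A : Submodule F V) (y : ℕ), C ≤ Cx f ∧ S.NondegOn C ∧
      A ≤ S.perp C ∧ C ⊔ A = W ∧ S.NondegOn A ∧ finrank F A = 4 * y ∧ Plus S A ∧
      Multiset.card μ = finrank F C + 2 * y ∧
      ∀ y' ≤ y, ∃ A' ≤ A, S.NondegOn A' ∧ (∀ x ∈ A', f x ∈ A') ∧ finrank F A' = 4 * y' ∧ Plus S A')
    (fun _ _ => ⟨⊥, ⊥, 0, bot_le, S.nondegOn_bot, bot_le, by simp, S.nondegOn_bot, by simp,
      plus_bot, by simp, fun y' hy => ⟨⊥, le_rfl, S.nondegOn_bot, inv_bot, by simpa using hy,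
        plus_bot⟩⟩) (fun B W μ a k a1 a2 a3 a4 _ _ a6 _ ih he ha => ?_) hWn hW h1 h2 ha
  obtain ⟨C, A, y, b1, b2, b3, rfl, b5, b6, b7, b8, b9⟩ := ih
    (fun e h => he e (Multiset.mem_add.2 (Or.inr h))) fun v hv => ha v (Submodule.mem_sup_right hv)
  have c1 := he (a + 1) (Multiset.mem_add.2 (Or.inl (Multiset.mem_replicate.2 ⟨by omega, rfl⟩)))
  have c2 := a3.2.1
  have c3 := a3.le_iff.1 fun e he => (Multiset.eq_of_mem_replicate he).le
  rw [Multiset.sum_replicate, smul_eq_mul] at c2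
  rw [Multiset.card_add, Multiset.card_replicate, b8]
  obtain rfl | rfl : a = 0 ∨ a = 1 := by omega
  · refine ⟨B ⊔ C, A, y, sup_le (fun x hx => by simpa using c3 x hx) b1,
      a1.sup b2 (le_sup_left.trans a6), ?_, sup_assoc _ _ _, b5, b6, b7, ?_, b9⟩
    · rw [perp_sup]; exact le_inf (le_sup_right.trans a6) b3
    · rw [finrank_sup_of_le_perp a1 (le_sup_left.trans a6)]; omega
  obtain rfl : k = 2 := by
    refine (a4.resolve_left fun ⟨_, v, d1, d2⟩ => d2 ?_).1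
    rw [B_N_two hσ, ha v (Submodule.mem_sup_left d1)]
  have c4 : Plus S B := by
    have d1 := LinBasic.finrank_map_add_finrank_inf_ker (f - 1) B
    rw [a3.card, Multiset.card_replicate] at d1
    refine (plus_iff a1).2 ⟨B.map (f - 1), ?_, ⟨?_, ?_⟩, by omega⟩
    · rintro _ ⟨x, hx, rfl⟩; exact sub_mem (a2 x hx) hx
    · rintro _ ⟨x, hx, rfl⟩; exact sing_N hσ hf (ha x (Submodule.mem_sup_left hx))
    · rintro _ ⟨x, hx, rfl⟩ _ ⟨z, hz, rfl⟩
      have d2 := B_N_left hf 1 x ((f - 1) z)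
      rw [← End.mul_apply, ← pow_succ, c3 z hz] at d2
      simpa using d2
  have key : ∀ A' ≤ A, S.NondegOn A' → Plus S A' → S.NondegOn (B ⊔ A') ∧
      finrank F ↥(B ⊔ A') = 4 + finrank F A' ∧ Plus S (B ⊔ A') := fun A' d1 d2 d3 =>
    have d4 := d1.trans (le_sup_right.trans a6)
    ⟨a1.sup d2 d4, by rw [finrank_sup_of_le_perp a1 d4, c2], (c4.sup_iff a1 d2 d4).2 d3⟩
  obtain ⟨d1, d2, d3⟩ := key A le_rfl b5 b7
  refine ⟨C, B ⊔ A, y + 1, b1, b2, sup_le (S.le_perp_comm.1 (le_sup_left.trans a6)) b3,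
    sup_left_comm _ _ _, d1, by omega, d3, by omega, fun y' hy => ?_⟩
  rcases y' with _ | y'
  · exact ⟨⊥, bot_le, S.nondegOn_bot, inv_bot, by simp, plus_bot⟩
  · obtain ⟨A', e1, e2, e3, e4, e5⟩ := b9 y' (by omega)
    obtain ⟨e6, e7, e8⟩ := key A' e1 e2 e5
    exact ⟨B ⊔ A', sup_le_sup_left e1 _, e6, inv_sup a2 e3, by omega, e8⟩

theorem finrank_Cx_split (hS : S.Nondeg) (hf : S.IsIso S f) (h : f ^ 2 = 1) {W : Submodule F V}
    (hWn : S.NondegOn W) (hW : ∀ x ∈ W, f x ∈ W) :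
    finrank F (Cx f) = finrank F ↥(W ⊓ Cx f) + finrank F ↥(S.perp W ⊓ Cx f) := by
  obtain ⟨μ, h1, -⟩ := exists_jt_top h
  obtain ⟨ν, ν', rfl, a1, a2⟩ := h1.split_top hS hf hWn hW
  rw [a1.card, a2.card, ← Multiset.card_add, ← h1.card, top_inf_eq]

theorem exists_atype (hσ : ∀ a, P.σ a = a) (hS : S.Nondeg) {k : ℕ} (hk : 2 * k ≤ widx S ⊤) :
    ∃ f : End F V, S.IsIso S f ∧ f ^ 2 = 1 ∧ finrank F (Cx f) + 2 * k = finrank F V ∧
      ∀ v, S.B v (f v) = 0 := by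
  obtain ⟨U, -, a1, a2⟩ := exists_ts_of_le hk
  let b := (finBasisOfFinrankEq F U (a2.trans (two_mul k))).reindex finSumFinEquiv.symm
  let N : End F V := ∑ i, ((S.lin (b (.inr i))).smulRight (b (.inl i) : V) +
    (S.lin (b (.inl i))).smulRight (b (.inr i) : V))
  have e : ∀ x, N x = ∑ i, (S.B x (b (.inr i)) • (b (.inl i) : V) +
      S.B x (b (.inl i)) • (b (.inr i) : V)) := fun x => by simp [N, LinearMap.sum_apply]
  have h1 : ∀ x, N x ∈ U := fun x => e x ▸ U.sum_mem fun i _ =>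
    add_mem (U.smul_mem _ (b _).2) (U.smul_mem _ (b _).2)
  have h2 : ∀ x y, S.B x (N y) = S.B y (N x) := fun x y => by
    simp only [e, S.B_sum_right, S.B_add_right, S.B_smul_right, hσ]
    exact Finset.sum_congr rfl fun i _ => by ring
  have h3 : ∀ x, S.B x (N x) = 0 := fun x => by
    simp only [e, S.B_sum_right, S.B_add_right, S.B_smul_right, hσ]
    exact Finset.sum_eq_zero fun i _ => by rw [mul_comm, CharTwo.add_self_eq_zero]
  have h4 : LinearMap.ker N = S.perp U := by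
    ext x
    refine ⟨fun hx u hu => ?_, fun hx => hS _ fun y => by rw [swap_two hσ, h2, hx _ (h1 y)]⟩
    have h5 := Fintype.linearIndependent_iff.1 (b.linearIndependent.map' _ U.ker_subtype)
      (Sum.elim (fun i => S.B x (b (.inr i))) fun i => S.B x (b (.inl i))) (by
        rw [← LinearMap.mem_ker.1 hx, e, Fintype.sum_sum_type, Finset.sum_add_distrib]; rfl)
    have h6 : ∀ j, S.B x (b j) = 0 := fun j => j.rec (fun i => h5 (.inr i)) fun i => h5 (.inl i)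
    have h7 : u = ∑ j, b.repr ⟨u, hu⟩ j • (b j : V) := by
      have := congrArg Subtype.val (b.sum_repr ⟨u, hu⟩)
      rw [Submodule.coe_sum] at this
      exact this.symm
    rw [h7, S.B_sum_right]
    exact Finset.sum_eq_zero fun j _ => by rw [S.B_smul_right, h6, mul_zero]
  refine ⟨1 + N, ⟨fun x y => ?_, fun x => ?_⟩, ?_, ?_, fun v => ?_⟩
  · simp only [LinearMap.add_apply, End.one_apply, S.B_add_left, S.B_add_right, a1.2 _ (h1 x) _ (h1 y),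
      swap_two hσ y (N x), h2 x y]
    linear_combination CharTwo.add_self_eq_zero (S.B y (N x))
  · simpa [h3] using add_mem (S.Q_add x (N x)) (a1.1 _ (h1 x))
  · rw [pow_eq_one_iff_N, add_sub_cancel_left]
    exact LinearMap.ext fun x => h4.ge (a1.le_perp (h1 x))
  · rw [Cx, add_sub_cancel_left, h4, ← hS.finrank_perp U, a2, add_comm]
  · simp [alt_two hσ, h3]

theorem two_counter (hσ : ∀ a, P.σ a = a) (hS : S.Nondeg) {k : ℕ} (hk : 2 * k ≤ widx S ⊤)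
    (h0 : 0 < k) : ∃ f : End F V, S.IsIso S f ∧ f ^ 2 = 1 ∧ f ≠ 1 ∧ finrank F (Rx f) = 2 * k ∧
      (∀ v, S.B v (f v) = 0) ∧ ∀ W, S.NondegOn W → (∀ x ∈ W, f x ∈ W) → ∃ e y e',
        finrank F W = e + 4 * y ∧ e + e' + 4 * k = finrank F V ∧ (e = 0 → Plus S W) ∧
          (e' = 0 → Plus S (S.perp W)) := by
  obtain ⟨f, a1, a2, a3, a4⟩ := exists_atype hσ hS hk
  have := finrank_Rx_add f
  refine ⟨f, a1, a2, FNum.ne_one_of_finrank_Cx (by omega), by omega, a4, fun W b1 b2 => ?_⟩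
  obtain ⟨C, A, y, -, c2, c3, c4, -, c6, c7, c8, -⟩ := atype_struct hσ hS a1 a2 b1 b2 fun v _ => a4 v
  obtain ⟨C', A', y', -, d2, d3, d4, -, d6, d7, d8, -⟩ := atype_struct hσ hS a1 a2 (b1.perp hS)
    (inv_perp hS a1 b2) fun v _ => a4 v
  have e1 := finrank_sup_of_le_perp c2 c3
  have e2 := finrank_sup_of_le_perp d2 d3
  have e3 := finrank_Cx_split hS a1 a2 b1 b2
  have e4 := hS.finrank_perp W
  rw [c4] at e1; rw [d4] at e2
  refine ⟨_, y, finrank F C', c6 ▸ e1, by omega, fun h => ?_, fun h => ?_⟩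
  · rwa [← c4, Submodule.finrank_eq_zero.1 h, bot_sup_eq]
  · rwa [← d4, Submodule.finrank_eq_zero.1 h, bot_sup_eq]

theorem mem_plane {v w x : V} : x ∈ (F ∙ v) ⊔ (F ∙ w) ↔ ∃ s t : F, s • v + t • w = x := by
  rw [← Submodule.span_insert, Submodule.mem_span_pair]

theorem plane_data (hσ : ∀ a, P.σ a = a) (h : f ^ 2 = 1) {v : V} (hv : S.B v (f v) ≠ 0) :
    S.NondegOn ((F ∙ v) ⊔ (F ∙ f v)) ∧ (∀ x ∈ (F ∙ v) ⊔ (F ∙ f v), f x ∈ (F ∙ v) ⊔ (F ∙ f v)) ∧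
      JT f ((F ∙ v) ⊔ (F ∙ f v)) {2} := by
  have h1 : ∀ x ∈ (F ∙ v) ⊔ (F ∙ f v), f x ∈ (F ∙ v) ⊔ (F ∙ f v) := fun x hx => by
    obtain ⟨s, t, rfl⟩ := mem_plane.1 hx
    exact mem_plane.2 ⟨t, s, by
      rw [map_add, map_smul, map_smul, add_comm, ← End.mul_apply, ← sq, h, End.one_apply]⟩
  refine ⟨fun x hx h2 => ?_, h1, ?_⟩
  · obtain ⟨s, t, rfl⟩ := mem_plane.1 hx
    have h3 := h2 v (mem_plane.2 ⟨1, 0, by simp⟩)
    have h4 := h2 (f v) (mem_plane.2 ⟨0, 1, by simp⟩)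
    simp only [S.B_add_left, S.B_smul_left, alt_two hσ, swap_two hσ v (f v), mul_zero, zero_add,
      add_zero, mul_eq_zero, hv, or_false] at h3 h4
    simp [h3, h4]
  · rw [← le_antisymm (cyc_le h1 (mem_plane.2 ⟨1, 0, by simp⟩)) (sup_le
      ((Submodule.span_singleton_le_iff_mem _ _).2 (self_mem_cyc v))
      ((Submodule.span_singleton_le_iff_mem _ _).2 (inv_cyc v v (self_mem_cyc v))))]
    exact jt_cyc (a := 1) (by rw [pow_eq_one_iff_N.1 h]; rfl)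
      fun h => hv (by rw [← B_N_two hσ, h]; simp)

end general

variable {S : PQ (FP.orth F) V} [Fintype F]

theorem Q_N (hf : S.IsIso S f) (z : V) : S.Q (f z - z) = S.B z (f z) := by
  rw [S.orth_Q_sub, sub_eq_zero.1 (AddSubgroup.mem_bot.1 (hf.2 z)), CharTwo.add_self_eq_zero,
    zero_sub, CharTwo.neg_eq, S.orth_B_swap]

theorem exists_avec (hf : S.IsIso S f) (h : f ^ 2 = 1) {R : Submodule F V} (hR : S.NondegOn R)
    (hi : ∀ x ∈ R, f x ∈ R) (h0 : R ≠ ⊥) (c : F) : ∃ z ∈ R, S.B z (f z) = 0 ∧ S.Q z = c := by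
  obtain ⟨z, a1, a2, a3⟩ : ∃ z ∈ R, S.B z (f z) = 0 ∧ S.Q z ≠ 0 := by
    obtain ⟨z, a1, a2⟩ := exists_Q_ne_zero hR h0
    by_cases h1 : S.B z (f z) = 0
    · exact ⟨z, a1, h1, a2⟩
    · refine ⟨f z - z, sub_mem (hi z a1) a1, ?_, Q_N hf z ▸ h1⟩
      rw [map_sub, ← End.mul_apply, ← sq, h, End.one_apply, ← neg_sub, S.B_neg_left,
        alt_two fun _ => rfl, neg_zero]
  obtain ⟨t, ht⟩ := Arith.exists_pow_p_eq (p := 2) (c / S.Q z)
  exact ⟨t • z, R.smul_mem t a1, by simp [a2], by rw [S.orth_Q_smul, ht, div_mul_cancel₀ _ a3]⟩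

theorem adjust_two (hf : S.IsIso S f) (h : f ^ 2 = 1) {v : V} (hv : S.B v (f v) ≠ 0)
    {R : Submodule F V} (hR : S.NondegOn R) (hi : ∀ x ∈ R, f x ∈ R) (h0 : R ≠ ⊥)
    (hp : R ≤ S.perp ((F ∙ v) ⊔ (F ∙ f v))) (η : Prop) :
    ∃ z ∈ R, S.B (v + z) (f (v + z)) ≠ 0 ∧ (Plus S ((F ∙ (v + z)) ⊔ (F ∙ f (v + z))) ↔ η) := by
  obtain ⟨γ, hγ⟩ : ∃ γ : F, (∃ s t : F, ¬ (s = 0 ∧ t = 0) ∧ (s ^ 2 + t ^ 2) * γ + s * t = 0) ↔ η := by
    by_cases h : η
    · exact ⟨0, iff_of_true ⟨1, 0, by simp, by simp⟩ h⟩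
    obtain ⟨c, hc⟩ := not_forall.1 (mt (Finite.injective_iff_surjective
      (f := fun y : F => y ^ 2 + y)).2 fun h => zero_ne_one (h (a₁ := 0) (a₂ := 1)
        (by simp [CharTwo.add_self_eq_zero])))
    obtain ⟨γ, rfl⟩ := Arith.exists_pow_p_eq (p := 2) c
    refine ⟨γ, iff_of_false (fun ⟨s, t, h1, h2⟩ => hc ?_) h⟩
    by_cases ht : t = 0
    · subst ht
      obtain rfl : γ = 0 := by simpa [show s ≠ 0 by simpa using h1] using h2
      exact ⟨0, by simp⟩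
    · refine ⟨γ * s / t, ?_⟩
      field_simp
      linear_combination γ * h2 - CharTwo.add_self_eq_zero (γ ^ 2 * t ^ 2)
  obtain ⟨z, a1, a2, a3⟩ := exists_avec hf h hR hi h0 (γ * S.B v (f v) - S.Q v)
  have b1 := S.mem_perp'.1 (hp a1) v (mem_plane.2 ⟨1, 0, by simp⟩)
  have b2 : S.B (v + z) (f (v + z)) = S.B v (f v) := by
    simp [a2, hp a1 (f v) (mem_plane.2 ⟨0, 1, by simp⟩),
      S.mem_perp'.1 (hp (hi z a1)) v (mem_plane.2 ⟨1, 0, by simp⟩)]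
  have b3 : S.Q (v + z) = γ * S.B (v + z) (f (v + z)) := by rw [S.orth_Q_add, a3, b1, b2]; ring
  refine ⟨z, a1, b2 ▸ hv, ?_⟩
  rw [← b2] at hv
  generalize v + z = w at *
  obtain ⟨c1, -, c2⟩ := plane_data (fun _ => rfl) h hv
  have c3 := two_mul_widx_le c1
  have c4 : finrank F ↥((F ∙ w) ⊔ (F ∙ f w)) = 2 := c2.2.1
  have c5 : ∀ s t : F, S.Q (s • w + t • f w) = ((s ^ 2 + t ^ 2) * γ + s * t) * S.B w (f w) :=
    fun s t => by
      rw [S.orth_Q_add, S.orth_Q_smul, S.orth_Q_smul, S.B_smul_left, S.B_smul_right,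
        sub_eq_zero.1 (AddSubgroup.mem_bot.1 (hf.2 w)), b3, FP.orth_σ]; ring
  refine Iff.trans (show _ ↔ ¬ widx S ((F ∙ w) ⊔ (F ∙ f w)) = 0 by unfold Plus; omega) ?_
  rw [widx_eq_zero_iff, ← hγ]
  push Not
  constructor
  · rintro ⟨x, hx, h1, h3⟩
    obtain ⟨s, t, rfl⟩ := mem_plane.1 hx
    rw [S.orth_sing, c5] at h1
    exact ⟨s, t, fun h4 h5 => h3 (by simp [h4, h5]), (mul_eq_zero.1 h1).resolve_right hv⟩
  · rintro ⟨s, t, h1, h2⟩
    refine ⟨_, mem_plane.2 ⟨s, t, rfl⟩, by rw [S.orth_sing, c5, h2, zero_mul], fun h3 => ?_⟩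
    have h4 := congrArg (S.B · (f w)) h3
    have h5 := congrArg (S.B w) h3
    simp only [S.B_add_left, S.B_smul_left, S.B_add_right, S.B_smul_right, alt_two (S := S) fun _ => rfl,
      mul_zero, zero_add, add_zero, S.B_zero_left, S.B_zero_right, mul_eq_zero, hv, or_false,
      FP.orth_σ] at h4 h5
    exact h1 h4 h5

theorem btype_fix (hS : S.Nondeg) (hf : S.IsIso S f) (h : f ^ 2 = 1) (he : Even (finrank F (Rx f)))
    {v : V} (hv : S.B v (f v) ≠ 0) {m : ℕ} (h0 : 0 < m) (hm : Even m) (hmn : m < finrank F V)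
    (η : Prop) : FAdapt.Fix (fun W => finrank F W = m ∧ S.NondegOn W ∧ (Plus S W ↔ η)) f := by
  have hσ : ∀ a, (FP.orth F).σ a = a := fun _ => rfl
  obtain ⟨a1, a2, a3⟩ := plane_data hσ h hv
  have a4 := a1.perp hS
  have a5 := inv_perp hS hf a2
  have a6 := hS.finrank_perp ((F ∙ v) ⊔ (F ∙ f v))
  have a7 := (two_sub hσ hS hf h a4 a5).1
  rw [a3.2.1, Multiset.sum_singleton] at a6
  rw [Nat.even_iff] at he hm
  obtain ⟨W, b1, b2, b3, b4⟩ : ∃ W ≤ S.perp ((F ∙ v) ⊔ (F ∙ f v)), S.NondegOn W ∧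
      (∀ x ∈ W, f x ∈ W) ∧ finrank F W = m - 2 := by
    by_cases h1 : m % 4 = 2
    · exact (two_sub hσ hS hf h a4 a5).2 _ (by omega) (by omega) (by omega)
    obtain ⟨w, c1, c2⟩ : ∃ w ∈ S.perp ((F ∙ v) ⊔ (F ∙ f v)), S.B w (f w) ≠ 0 := by
      by_contra h2
      push Not at h2
      obtain ⟨C, A, y, -, c2, c3, c4, -, c6, -, c8, -⟩ := atype_struct hσ hS hf h a4 a5 h2
      have e1 := finrank_sup_of_le_perp c2 c3
      have e2 := finrank_Cx_split hS hf h a1 a2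
      have e3 := finrank_Rx_add f
      rw [c4] at e1
      rw [a3.card, Multiset.card_singleton] at e2
      omega
    obtain ⟨d1, d2, d3⟩ := plane_data hσ h c2
    have d4 := sup_le ((Submodule.span_singleton_le_iff_mem _ _).2 c1)
      ((Submodule.span_singleton_le_iff_mem _ _).2 (a5 w c1))
    have d5 := finrank_inf_perp a4 d4
    have d6 : finrank F ↥((F ∙ w) ⊔ (F ∙ f w)) = 2 := d3.2.1
    obtain ⟨U, e1, e2, e3, e4⟩ := (two_sub hσ hS hf h (d1.inf_perp a4 d4).1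
      (inv_inf a5 (inv_perp hS hf d2))).2 (m - 4) (by omega) (by omega) (by omega)
    exact ⟨_, sup_le d4 (e1.trans inf_le_left), d1.sup e2 (e1.trans inf_le_right), inv_sup d2 e3, by
      rw [finrank_sup_of_le_perp d1 (e1.trans inf_le_right)]; omega⟩
  have c1 := finrank_inf_perp a4 b1
  obtain ⟨z, c2, c3, c4⟩ := adjust_two hf h hv (b2.inf_perp a4 b1).1 (inv_inf a5 (inv_perp hS hf b3))
    (ne_bot_of (by omega)) inf_le_left (η ↔ Plus S W)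
  obtain ⟨d1, d2, d3⟩ := plane_data hσ h c3
  have d4 : v + z ∈ S.perp W := add_mem (S.le_perp_comm.1 b1 (mem_plane.2 ⟨1, 0, by simp⟩)) c2.2
  have d5 : W ≤ S.perp _ := S.le_perp_comm.1 (sup_le ((Submodule.span_singleton_le_iff_mem _ _).2 d4)
    ((Submodule.span_singleton_le_iff_mem _ _).2 (inv_perp hS hf b3 _ d4)))
  have d6 : finrank F ↥((F ∙ (v + z)) ⊔ (F ∙ f (v + z))) = 2 := d3.2.1
  refine ⟨_, ⟨by rw [finrank_sup_of_le_perp d1 d5]; omega, d1.sup b2 d5, ?_⟩, inv_sup d2 b3⟩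
  rw [plus_sup_iff d1 b2 d5 (d6 ▸ even_two) (by rw [Nat.even_iff]; omega), c4]
  exact FSemi.iff_iff_cancel _ _

/-- Sufficient numerical condition for an involution of `Ω` to fix a subspace of given type. -/
theorem two_fix (hS : S.Nondeg) (h5 : 5 ≤ finrank F V) (hf : InOm S f) (h : f ^ 2 = 1) {m n : ℕ}
    (hn : finrank F V = n) (h0 : 0 < m) (hm : Even m) (hmn : m < n) {η ε : Prop}
    (hε : Plus S ⊤ ↔ ε) (H : ∀ c y, c + 4 * y = n → (c = 0 → ε) → ∃ y' ≤ y, (4 * y' = m ∧ η) ∨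
      (4 * y' < m ∧ m < c + 4 * y') ∨ (m = c + 4 * y' ∧ (ε ↔ η))) :
    FAdapt.Fix (fun W => finrank F W = m ∧ S.NondegOn W ∧ (Plus S W ↔ η)) f := by
  by_cases h1 : ∃ v, S.B v (f v) ≠ 0
  · obtain ⟨v, hv⟩ := h1
    exact btype_fix hS hf.isIso h ((inOm_iff_of_char_two CharTwo.two_eq_zero hS h5 hf.isIso).1 hf)
      hv h0 hm (hn ▸ hmn) η
  push Not at h1
  obtain ⟨C, A, y, c1, c2, c3, c4, c5, c6, c7, -, c9⟩ := atype_struct (fun _ => rfl) hS hf.isIso h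
    (S.nondegOn_top.2 hS) (fun _ _ => trivial) fun v _ => h1 v
  have e1 := finrank_sup_of_le_perp c2 c3
  have e2 : ε ↔ Plus S C := by
    rw [← hε, ← c4, sup_comm, c7.sup_iff c5 c2 (S.le_perp_comm.1 c3)]
  rw [c4, finrank_top] at e1
  obtain ⟨y', d1, d2⟩ := H (finrank F C) y (by omega)
    fun h => e2.2 (Submodule.finrank_eq_zero.1 h ▸ plus_bot)
  obtain ⟨A', d3, d4, d5, d6, d7⟩ := c9 y' d1
  obtain ⟨E, g1, g2, g3, g4⟩ : ∃ E ≤ C, S.NondegOn E ∧ finrank F E + 4 * y' = m ∧ (Plus S E ↔ η) := by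
    rcases d2 with d2 | d2 | d2
    · exact ⟨⊥, bot_le, S.nondegOn_bot, by simp [d2.1], iff_of_true plus_bot d2.2⟩
    · obtain ⟨E, g1, g2, g3, g4⟩ := exists_sub_type c2 (e := m - 4 * y')
        (by rw [Nat.even_iff] at *; omega) (by omega) (by omega) η
      exact ⟨E, g1, g2, by omega, g4⟩
    · exact ⟨C, le_rfl, c2, d2.1.symm, e2.symm.trans d2.2⟩
  have g5 := S.le_perp_comm.1 (d3.trans (c3.trans (S.perp_anti g1)))
  exact ⟨A' ⊔ E, ⟨by rw [finrank_sup_of_le_perp d4 g5]; omega, d4.sup g2 g5,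
    (d7.sup_iff d4 g2 g5).trans g4⟩, inv_sup d5 (inv_of_le_Cx (g1.trans c1))⟩

theorem two_point (hS : S.Nondeg) (hf : S.IsIso S f) (h : f ^ 2 = 1)
    (h1 : finrank F V % 4 = 2 ∨ ¬ Plus S ⊤) : ∃ z, f z = z ∧ S.Q z ≠ 0 := by
  by_cases h2 : ∃ v, S.B v (f v) ≠ 0
  · obtain ⟨v, hv⟩ := h2
    exact ⟨f v - v, by simpa using fixed_N (a := 1) (u := v) (by rw [pow_eq_one_iff_N.1 h]; rfl),
      Q_N hf v ▸ hv⟩
  push Not at h2
  obtain ⟨C, A, y, c1, c2, -, c4, -, c6, c7, -⟩ := atype_struct (fun _ => rfl) hS hf h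
    (S.nondegOn_top.2 hS) (fun _ _ => trivial) fun v _ => h2 v
  obtain ⟨z, d1, d2⟩ := exists_Q_ne_zero c2 (by
    rintro rfl
    rw [bot_sup_eq] at c4
    subst c4
    rw [finrank_top] at c6
    exact h1.elim (by omega) fun h => h c7)
  exact ⟨z, mem_Cx.1 (c1 d1), d2⟩

theorem forall_two_iff [Nontrivial V] (hS : S.Nondeg) (Pf : End F V → Prop) :
    (∀ f, InOm S f → (∃ c : F, f ^ 2 = c • 1) → (∀ c : F, f ≠ c • 1) → Pf f) ↔
      ∀ f : End F V, InOm S f → f ^ 2 = 1 → f ≠ 1 → Pf f :=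
  ⟨fun H f a b c => H f a ⟨1, by rw [b, one_smul]⟩ (not_scalar_of_unip b c),
    fun H f a ⟨_, b⟩ c => H f a ((sq_cases (fun _ => rfl) hS a.isIso b).elim id fun h => by
      rw [h, CharTwo.neg_eq, one_smul]) (by simpa using c 1)⟩

theorem two_counter_om (hS : S.Nondeg) (h5 : 5 ≤ finrank F V) {k : ℕ} (hk : 2 * k ≤ widx S ⊤)
    (h0 : 0 < k) : ∃ f : End F V, InOm S f ∧ f ^ 2 = 1 ∧ f ≠ 1 ∧
      (4 * k = finrank F V → ∀ z, f z = z → S.Q z = 0) ∧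
      ∀ W, S.NondegOn W → (∀ x ∈ W, f x ∈ W) → ∃ e y e',
        finrank F W = e + 4 * y ∧ e + e' + 4 * k = finrank F V ∧ (e = 0 → Plus S W) ∧
          (e' = 0 → Plus S (S.perp W)) := by
  obtain ⟨f, a1, a2, a3, a4, a5, a6⟩ := two_counter (fun _ => rfl) hS hk h0
  refine ⟨f, (inOm_iff_of_char_two CharTwo.two_eq_zero hS h5 a1).2 (a4 ▸ even_two_mul k), a2, a3,
    fun h z hz => ?_, a6⟩
  have b1 := finrank_Rx_add f
  obtain ⟨y, rfl⟩ := mem_Rx.1 ((Submodule.eq_of_le_of_finrank_eq (show Rx f ≤ Cx f by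
    rintro _ ⟨y, rfl⟩
    rw [mem_Cx, LinearMap.sub_apply, End.one_apply, map_sub, ← End.mul_apply, ← sq, a2,
      End.one_apply, ← neg_sub, ← neg_one_smul F, CharTwo.neg_eq, one_smul]) (by omega)).ge (mem_Cx.2 hz))
  rw [← neg_sub, S.orth_Q_neg, Q_N a1, a5]

end Cfsg.Agent.H9.FUnip
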