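import Cfsg.Agent.H9.FUnip

/-! Unipotent isometries: fixed subspaces; orthogonal spaces in odd characteristic. -/

set_option autoImplicit false
set_option linter.unusedSectionVars false

namespace Cfsg.Agent.H9.FUnip

open Module Polynomial Cfsg.Agent.Form Cfsg.Agent.Form.PQ Cfsg.Agent.H9.FIdx Cfsg.Agent.H9.FCount
open Cfsg.Agent.H9.FClass Cfsg.Agent.H9.FOrd Cfsg.Agent.H9.Types Cfsg.Agent.H9.FInv
open Cfsg.Agent.H9.FSS Cfsg.Agent.H9.FModel Cfsg.Agent.H9.FAdapt Cfsg.Agent.H9.FInvol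
open Cfsg.Agent.H9.FSpin Cfsg.Agent.H9.FOrth

universe u v

variable {F : Type u} [Field F] {V : Type v} [AddCommGroup V] [Module F V] [FiniteDimensional F V]
  {f : End F V} {p : ℕ} [hp : Fact p.Prime] [CharP F p]

section general
variable {P : FP F} {S : PQ P V}

theorem JT.card {W : Submodule F V} {μ : Multiset ℕ} (h : JT f W μ) :
    finrank F ↥(W ⊓ Cx f) = Multiset.card μ := by
  have := h.2.2 1
  rwa [pow_one, Multiset.map_congr rfl fun e he => min_eq_right (h.1 e he), Multiset.map_const',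
    Multiset.sum_replicate, smul_eq_mul, mul_one] at this

theorem JT.split_top (hS : S.Nondeg) (hf : S.IsIso S f) {W : Submodule F V} {μ : Multiset ℕ}
    (h : JT f ⊤ μ) (hWn : S.NondegOn W) (hW : ∀ x ∈ W, f x ∈ W) :
    ∃ ν ν', μ = ν + ν' ∧ JT f W ν ∧ JT f (S.perp W) ν' := by
  simpa using h.split hS hf (S.nondegOn_top.2 hS) (fun _ _ => trivial) hWn hW le_top

theorem forall_p_iff [Finite F] [Nontrivial V] (hS : S.Nondeg) {A : End F V → Prop}
    (hA1 : ∀ f, A f → S.IsIso S f) (hA2 : ∀ f : End F V, S.IsIso S f → f ^ p = 1 → A f)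
    (Ω : Submodule F V → Prop) :
    (∀ f, A f → (∃ c : F, f ^ p = c • 1) → (∀ c : F, f ≠ c • 1) → FAdapt.Fix Ω f) ↔
      ∀ f : End F V, S.IsIso S f → f ^ p = 1 → f ≠ 1 → FAdapt.Fix Ω f := by
  refine ⟨fun H f a b c => H f (hA2 f a b) ⟨1, by rw [b, one_smul]⟩ (not_scalar_of_unip b c),
    fun H f a ⟨c, b⟩ d => ?_⟩
  cases nonempty_fintype F
  obtain ⟨t, rfl⟩ := Arith.exists_pow_p_eq (p := p) c
  have h1 := norm_eq_one_of_pow hS (hA1 f a) b
  rw [map_pow, ← mul_pow, ← sub_eq_zero, ← one_pow p, ← sub_pow_char,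
    pow_eq_zero_iff hp.out.ne_zero, sub_eq_zero] at h1
  have h2 : t ≠ 0 := left_ne_zero_of_mul_eq_one h1
  refine Fix.of_smul f t⁻¹ (inv_ne_zero h2) (H _ (isIso_smul (hA1 f a) ?_)
    (OrdR.inv_smul_pow_eq_one h2 rfl b) fun h => d t ?_)
  · rw [map_inv₀, ← mul_inv, h1, inv_one]
  · rw [← h, smul_inv_smul₀ h2]

theorem det_of_unip (h : f ^ p = 1) : LinearMap.det f = 1 := by
  have := congrArg LinearMap.det h
  rwa [map_pow, map_one, ← sub_eq_zero, ← one_pow p, ← sub_pow_char,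
    pow_eq_zero_iff hp.out.ne_zero, sub_eq_zero] at this

theorem exists_le_of_fix (hS : S.Nondeg) (hP : ∀ a, Sk P a → (2 : F) ≠ 0) {K : ℕ → Prop}
    (hK : ∀ a, Sk P a ↔ K (a + 1)) {Ω : Submodule F V → Prop} {m : ℕ}
    (hΩ : ∀ W, Ω W → finrank F W = m ∧ S.NondegOn W)
    (H : ∀ f : End F V, S.IsIso S f → f ^ p = 1 → f ≠ 1 → FAdapt.Fix Ω f) (hm : m ≤ finrank F V)
    (h1 : K 1 → Even m) {μ : Multiset ℕ} (hμ : ∀ e ∈ μ, e ≤ p) (hf : S.IsIso S f) (h : JT f ⊤ μ) :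
    ∃ ν ≤ μ, ν.sum = m ∧ ∀ e, K e → Even (ν.count e) := by
  by_cases h2 : f = 1
  · subst h2
    have h3 := jt_of_le_Cx (f := (1 : End F V)) (U := ⊤) fun x _ => mem_Cx.2 rfl
    refine ⟨Multiset.replicate m 1, h.unique h3 ▸ (Multiset.replicate_le_replicate 1).2
      (by rwa [finrank_top]), by simp, fun e he => ?_⟩
    rw [Multiset.count_replicate]
    split_ifs with h4
    exacts [h1 (h4 ▸ he), Even.zero]
  · obtain ⟨W, a1, a2⟩ := H f hf (h.pow_eq_one hμ) h2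
    obtain ⟨ν, ν', rfl, b1, -⟩ := h.split_top hS hf (hΩ W a1).2 a2
    exact ⟨ν, Multiset.le_add_right _ _, b1.2.1.symm.trans (hΩ W a1).1,
      (even_count_iff b1.1 hK).1 (b1.even_count hS hf hP (hΩ W a1).2 a2)⟩

theorem unip_nd_iff (hS : S.Nondeg) (hP : ∀ a, Sk P a → (2 : F) ≠ 0) {K : ℕ → Prop}
    (hK : ∀ a, Sk P a ↔ K (a + 1)) (hE : ∀ μ, Real P μ → (μ.map natDegree).sum ≤ finrank F V →
      ∃ f : End F V, S.IsIso S f ∧
        HasType f (Multiset.replicate (finrank F V - (μ.map natDegree).sum) (X - 1) + μ))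
    {m n : ℕ} (hn : finrank F V = n) (hm : m ≤ n) (h1 : K 1 → Even m) :
    (∀ f : End F V, S.IsIso S f → f ^ p = 1 → f ≠ 1 →
      FAdapt.Fix (fun W => finrank F W = m ∧ S.NondegOn W) f) ↔
    ∀ μ : Multiset ℕ, (∀ a ∈ μ, 0 < a ∧ a ≤ p) → (∀ e, K e → Even (μ.count e)) → μ.sum = n →
      ∃ ν ≤ μ, ν.sum = m ∧ ∀ e, K e → Even (ν.count e) := by
  subst hn
  constructor
  · intro H μ a1 a2 a3
    have a4 := fun e he => (a1 e he).1
    obtain ⟨f, b1, b2⟩ := hE _ (real_jordan a4 ((even_count_iff a4 hK).2 a2))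
      (by rw [jordan_natDegree, a3])
    rw [jordan_natDegree, a3, Nat.sub_self, Multiset.replicate_zero, zero_add] at b2
    exact exists_le_of_fix hS hP hK (fun _ h => h) H hm h1 (fun e he => (a1 e he).2) b1
      (jt_top b2 a4)
  · rintro H f a1 a2 -
    obtain ⟨μ, b1, b2⟩ := exists_jt_top a2
    have b3 := S.nondegOn_top.2 hS
    obtain ⟨ν, c1, c2, c3⟩ := H μ b2 ((even_count_iff b1.1 hK).1 (b1.even_count hS a1 hP b3
      fun _ _ => trivial)) (by rw [← b1.2.1, finrank_top])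
    obtain ⟨U, -, d1, d2, d3⟩ := b1.exists_sub hS a1 hP b3 (fun _ _ => trivial) ν c1
      fun a ha => c3 _ ((hK a).1 ha)
    exact ⟨U, ⟨d3.2.1.trans c2, d1⟩, d2⟩

theorem jt_glue (hS : S.Nondeg) {W : Submodule F V} (hW : S.NondegOn W) {g : End F W}
    {k : End F (S.perp W)} (hg : (S.restrict W).IsIso (S.restrict W) g)
    (hk : (S.restrict (S.perp W)).IsIso (S.restrict (S.perp W)) k) {μ ν : Multiset ℕ}
    (h1 : HasType g (jordan 1 μ)) (h2 : HasType k (jordan 1 ν)) (h3 : ∀ e ∈ μ, 0 < e)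
    (h4 : ∀ e ∈ ν, 0 < e) : ∃ f : End F V, S.IsIso S f ∧ (∀ x ∈ W, f x ∈ W) ∧ JT f W μ ∧
      JT f (S.perp W) ν ∧ JT f ⊤ (μ + ν) := by
  obtain ⟨f, a1, a2, a3, -⟩ := exists_glue_end hW hS hg hk
  have b1 : ∀ x ∈ W, f x ∈ W := fun x hx => a2 ⟨x, hx⟩ ▸ (g _).2
  have b2 := inv_perp hS a1 b1
  have b3 := jt_of_hasType b1 ((show f.restrict b1 = g from
    LinearMap.ext fun x => Subtype.ext (a2 x)) ▸ h1) h3
  have b4 := jt_of_hasType b2 ((show f.restrict b2 = k from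
    LinearMap.ext fun x => Subtype.ext (a3 x)) ▸ h2) h4
  exact ⟨f, a1, b1, b3, b4, hW.isCompl.sup_eq_top ▸ b3.sup b4 b1 b2 hW.isCompl.disjoint⟩

end general

variable {S : PQ (FP.orth F) V} [Fintype F]

theorem plus_of_even (hp2 : 2 ≠ p) (hS : S.Nondeg) (hf : S.IsIso S f) {W : Submodule F V}
    {μ : Multiset ℕ} (h : JT f W μ) (hWn : S.NondegOn W) (hW : ∀ x ∈ W, f x ∈ W) :
    (∀ e ∈ μ, Even e) → Plus S W := by
  refine unip_ind hS hf (M := fun W μ => (∀ e ∈ μ, Even e) → Plus S W) (fun _ => plus_bot)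
    (fun B W μ a k a1 a2 a3 a4 a5 _ a6 _ ih he => ?_) hWn hW h
  refine (Plus.sup_iff ?_ a1 a5 a6).2 (ih fun e h => he e (Multiset.mem_add.2 (Or.inr h)))
  obtain ⟨b, hb⟩ := he (a + 1) (Multiset.mem_add.2 (Or.inl (Multiset.mem_replicate.2
    ⟨by omega, rfl⟩)))
  have b1 := LinBasic.finrank_map_add_finrank_inf_ker ((f - 1) ^ b) B
  rw [a3.2.2, a3.2.1, Multiset.map_replicate, Multiset.sum_replicate, Multiset.sum_replicate, hb,
    min_eq_right (by omega), smul_eq_mul, smul_eq_mul, mul_add] at b1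
  refine (plus_iff a1).2 ⟨B.map ((f - 1) ^ b), ?_, (S.orth_ts _).2 ?_, ?_⟩
  · rintro _ ⟨x, hx, rfl⟩; exact N_mem a2 b hx
  · rintro _ ⟨x, hx, rfl⟩
    have := B_N_left hf b x (((f - 1) ^ b) x)
    rw [← End.mul_apply, ← pow_add, ← hb, a3.le_iff.1 (fun e he =>
      (Multiset.eq_of_mem_replicate he).le) x hx, S.orth_B_self] at this
    simpa [two_ne_zero' hp2] using this
  · rw [a3.2.1, Multiset.sum_replicate, hb, smul_eq_mul, mul_add]; omega

theorem exists_cls (hS : S.Nondeg) (ho : Odd (finrank F V)) :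
    ∃ s, S.Q s ≠ 0 ∧ Plus S (S.perp (F ∙ s)) := by
  have hA := S.nondegOn_top.2 hS
  obtain ⟨H, -, -, a3, a4, a5, -, -, a8⟩ := exists_hyp_split hA le_rfl
  obtain ⟨u, b1, b2⟩ := eq_line a5 (by have := widx_odd hA (by rwa [finrank_top]); omega)
  exact ⟨u, b1, by rw [← b2, top_inf_eq, hS.perp_perp, Plus, a3, a4]⟩

theorem exists_unip_odd (hp2 : 2 ≠ p) (hS : S.Nondeg) (ho : Odd (finrank F V)) {μ : Multiset F[X]}
    (h : Real (FP.orth F) μ) (hn : (μ.map natDegree).sum = finrank F V) :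
    ∃ f : End F V, S.IsIso S f ∧ HasType f μ := by
  obtain ⟨M, _, _, T, y, a1, a2, a3⟩ := h
  have := a3.finiteDimensional
  have t := two_ne_zero' (F := F) hp2
  have a4 := a3.finrank_eq.trans hn
  obtain ⟨s, b1, b2⟩ := exists_cls hS ho
  obtain ⟨u, c1, c2⟩ := exists_cls a1 (a4 ▸ ho)
  have c3 := div_ne_zero b1 c1
  have c4 : (scale (S.Q s / T.Q u) T).Q u = S.Q s := div_mul_cancel₀ _ c1
  have c5 : (scale (S.Q s / T.Q u) T).perp (F ∙ u) = T.perp (F ∙ u) := Submodule.ext fun x => by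
    rw [mem_perp_span_singleton, mem_perp_span_singleton]
    exact mul_eq_zero.trans (or_iff_right c3)
  have c6 := scale_nondeg c3 a1
  have c7 := nondegOn_line t (c4.trans_ne b1)
  have c8 := nondegOn_line t b1
  have key : Iso (scale (S.Q s / T.Q u) T) S := by
    refine (iso_prod_perp c7).symm.trans (Iso.trans (Iso.prod ?_ ?_) (iso_prod_perp c8))
    · refine iso_of_one (v := ⟨u, Submodule.mem_span_singleton_self u⟩)
        (v' := ⟨s, Submodule.mem_span_singleton_self s⟩) (finrank_line c1) (finrank_line b1)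
        (fun h => c1 (by rw [show u = 0 from Subtype.ext_iff.1 h]; exact T.orth_Q_zero))
        (fun h => b1 (by rw [show s = 0 from Subtype.ext_iff.1 h]; exact S.orth_Q_zero)) ?_ ?_
      · change S.B s s = (scale _ T).B u u
        rw [S.orth_B_self, PQ.orth_B_self, c4]
      · change S.Q s - (scale _ T).Q u ∈ _
        rw [c4, sub_self]; exact zero_mem _
    · have d1 := hS.finrank_perp (F ∙ s)
      have d2 := a1.finrank_perp (F ∙ u)
      rw [finrank_line b1] at d1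
      rw [finrank_line c1] at d2
      exact iso_of_hyp (c7.perp c6).restrict (c8.perp hS).restrict
        (by rw [widx_restrict, widx_scale c3, c5]; exact c2) (by rw [widx_restrict]; exact b2)
        (by rw [c5]; omega)
  obtain ⟨f, d1, d2⟩ := exists_of_iso key (y := y) ⟨fun x z => congrArg (_ * ·) (a2.1 x z),
    fun x => by
      change _ * T.Q (y x) - _ * T.Q x ∈ _
      rw [sub_eq_zero.1 (AddSubgroup.mem_bot.1 (a2.2 x)), sub_self]; exact zero_mem _⟩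
  exact ⟨f, d1, a3.of_conj d2.symm⟩

theorem real_orth_jordan (hp2 : 2 ≠ p) {μ : Multiset ℕ} (h0 : ∀ e ∈ μ, 0 < e)
    (h : ∀ e, Even e → Even (μ.count e)) : Real (FP.orth F) (jordan 1 μ) :=
  real_jordan h0 ((even_count_iff h0 (sk_orth (two_ne_zero' hp2))).2 h)

theorem exists_unip_cons (hp2 : 2 ≠ p) (hS : S.Nondeg) {W : Submodule F V} (hW : S.NondegOn W)
    (ho : Odd (finrank F W)) (he : Even (finrank F V)) {μ : Multiset ℕ} (h0 : ∀ e ∈ μ, 0 < e)
    (h : ∀ e, Even e → Even (μ.count e)) (hn : finrank F W + μ.sum = finrank F V) :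
    ∃ f : End F V, S.IsIso S f ∧ (∀ x ∈ W, f x ∈ W) ∧ JT f W {finrank F W} ∧
      JT f (S.perp W) μ ∧ JT f ⊤ ({finrank F W} + μ) := by
  have a0 := hS.finrank_perp W
  have a1 : ∀ e ∈ ({finrank F W} : Multiset ℕ), 0 < e := by simpa using ho.pos
  obtain ⟨g, b1, b2⟩ := exists_unip_odd hp2 hW.restrict ho (real_orth_jordan hp2 a1 fun e he => by
    rw [Multiset.count_singleton, if_neg fun h : e = _ => Nat.not_odd_iff_even.2 he (h ▸ ho)]
    exact Even.zero) (by rw [jordan_natDegree]; simp)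
  obtain ⟨k, c1, c2⟩ := exists_unip_odd hp2 (hW.perp hS).restrict (by
    rw [Nat.odd_iff] at *; rw [Nat.even_iff] at he; omega) (real_orth_jordan hp2 h0 h)
    (by rw [jordan_natDegree]; omega)
  exact jt_glue hS hW b1 c1 b2 c2 a1 h0

theorem exists_unip_orth (hp2 : 2 ≠ p) (hS : S.Nondeg) {μ : Multiset ℕ} (h0 : ∀ e ∈ μ, 0 < e)
    (h : ∀ e, Even e → Even (μ.count e)) (hn : μ.sum = finrank F V)
    (h1 : (∃ e ∈ μ, Odd e) ∨ Plus S ⊤) : ∃ f : End F V, S.IsIso S f ∧ JT f ⊤ μ := by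
  rcases Nat.even_or_odd (finrank F V) with he | ho
  swap
  · obtain ⟨f, a1, a2⟩ := exists_unip_odd hp2 hS ho (real_orth_jordan hp2 h0 h)
      (by rwa [jordan_natDegree])
    exact ⟨f, a1, jt_top a2 h0⟩
  by_cases h2 : ∃ e ∈ μ, Odd e
  · obtain ⟨e, a1, a2⟩ := h2
    obtain ⟨μ, rfl⟩ := Multiset.exists_cons_of_mem a1
    rw [Multiset.sum_cons] at hn
    obtain ⟨W, -, b1, rfl⟩ := exists_nondeg_orth hp2 (S.nondegOn_top.2 hS) (e := e)
      (by rw [finrank_top]; omega)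
    obtain ⟨f, c1, -, -, -, c2⟩ := exists_unip_cons hp2 hS b1 a2 he
      (fun e he => h0 e (Multiset.mem_cons_of_mem he)) (fun e he => by
        have := h e he
        rwa [Multiset.count_cons_of_ne fun h : e = _ => Nat.not_odd_iff_even.2 he (h ▸ a2)] at this) hn
    exact ⟨f, c1, c2⟩
  · obtain ⟨M, _, _, T, y, a1, a2, a3⟩ := real_orth_jordan (F := F) hp2 h0 h
    have := a3.finiteDimensional
    have a4 := plus_of_even hp2 a1 a2 (jt_top a3 h0) (T.nondegOn_top.2 a1) (fun _ _ => trivial)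
      fun e he => Nat.not_odd_iff_even.1 fun h => h2 ⟨e, he, h⟩
    have a5 := h1.resolve_left h2
    rw [Plus, finrank_top] at a4 a5
    obtain ⟨f, b1, b2⟩ := exists_of_iso (iso_of_hyp a1 hS a4 a5 (a3.finrank_jordan.trans hn)) a2
    exact ⟨f, b1, jt_top (a3.of_conj b2.symm) h0⟩

/-- The type with `a` blocks of size one, `b` of size two and `c` of size three. -/
def sm (a b c : ℕ) : Multiset ℕ :=
  Multiset.replicate a 1 + Multiset.replicate b 2 + Multiset.replicate c 3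

theorem mem_sm {a b c e : ℕ} : e ∈ sm a b c ↔ (a ≠ 0 ∧ e = 1) ∨ (b ≠ 0 ∧ e = 2) ∨ (c ≠ 0 ∧ e = 3) := by
  simp only [sm, Multiset.mem_add, Multiset.mem_replicate, or_assoc]

theorem sum_sm (a b c : ℕ) : (sm a b c).sum = a + 2 * b + 3 * c := by
  simp [sm, mul_comm]

theorem count_sm (a b c : ℕ) :
    (sm a b c).count 1 = a ∧ (sm a b c).count 2 = b ∧ (sm a b c).count 3 = c := by
  simp [sm, Multiset.count_replicate]

theorem even_count_sm {a b c : ℕ} (hb : Even b) (e : ℕ) (he : Even e) :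
    Even ((sm a b c).count e) := by
  by_cases h : e = 2
  · rwa [h, (count_sm a b c).2.1]
  · rw [Multiset.count_eq_zero.2 (by rw [mem_sm]; rw [Nat.even_iff] at he; omega)]
    exact Even.zero

theorem eq_sm {a b c : ℕ} {ν ν' : Multiset ℕ} (h : sm a b c = ν + ν') :
    ∃ a₁ b₁ c₁ a₂ b₂ c₂, ν = sm a₁ b₁ c₁ ∧ ν' = sm a₂ b₂ c₂ ∧ a = a₁ + a₂ ∧ b = b₁ + b₂ ∧
      c = c₁ + c₂ := by
  have key : ∀ e ∈ ν + ν', 0 < e ∧ e ≤ 3 := fun e he => by rw [← h, mem_sm] at he; omega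
  obtain ⟨a₁, b₁, c₁, rfl⟩ := Unip.eq_replicate_add_of_le_three fun e he =>
    key e (Multiset.mem_add.2 (Or.inl he))
  obtain ⟨a₂, b₂, c₂, rfl⟩ := Unip.eq_replicate_add_of_le_three fun e he =>
    key e (Multiset.mem_add.2 (Or.inr he))
  have := count_sm a b c
  rw [h] at this
  simp only [Multiset.count_add] at this
  refine ⟨a₁, b₁, c₁, a₂, b₂, c₂, rfl, rfl, ?_⟩
  simpa [Multiset.count_replicate, eq_comm] using this

theorem small_parts (hp2 : 2 ≠ p) (hS : S.Nondeg) (hf : S.IsIso S f) {U W : Submodule F V}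
    {a b c : ℕ} (h : JT f U (sm a b c)) (hUn : S.NondegOn U) (hU : ∀ x ∈ U, f x ∈ U)
    (hWn : S.NondegOn W) (hW : ∀ x ∈ W, f x ∈ W) (hle : W ≤ U) :
    ∃ a' ≤ a, ∃ c' ≤ c, ∃ k, finrank F W = a' + 4 * k + 3 * c' ∧ JT f W (sm a' (2 * k) c') ∧
      (a' = 0 → c' = 0 → Plus S W) ∧ (a' = a → c' = c → Plus S (U ⊓ S.perp W)) := by
  obtain ⟨ν, ν', a1, a2, a3⟩ := h.split hS hf hUn hU hWn hW hle
  obtain ⟨a₁, b₁, c₁, a₂, b₂, c₂, rfl, rfl, rfl, rfl, rfl⟩ := eq_sm a1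
  have t := two_ne_zero' (F := F) hp2
  obtain ⟨k, hk⟩ := a2.even_count hS hf (fun _ _ => t) hWn hW 1 ((sk_orth t 1).2 even_two)
  rw [(count_sm _ _ _).2.1, ← two_mul] at hk
  subst hk
  refine ⟨a₁, by omega, c₁, by omega, k, by rw [a2.2.1, sum_sm]; omega, a2, fun h1 h2 =>
    plus_of_even hp2 hS hf a2 hWn hW fun e he => ?_, fun h1 h2 => plus_of_even hp2 hS hf a3
      (hWn.inf_perp hUn hle).1 (inv_inf hU (inv_perp hS hf hW)) fun e he => ?_⟩ <;>
    rw [mem_sm] at he <;> rw [Nat.even_iff] <;> omega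

theorem exists_small (hp2 : 2 ≠ p) (hS : S.Nondeg) {a b c : ℕ}
    (hn : finrank F V = a + 4 * b + 3 * c) (h1 : 0 < a + c ∨ Plus S ⊤) (h2 : 0 < b + c) :
    ∃ f : End F V, S.IsIso S f ∧ f ^ p = 1 ∧ f ≠ 1 ∧ ∀ W, S.NondegOn W → (∀ x ∈ W, f x ∈ W) →
      ∃ a' ≤ a, ∃ c' ≤ c, ∃ k, finrank F W = a' + 4 * k + 3 * c' ∧
        (a' = 0 → c' = 0 → Plus S W) ∧ (a' = a → c' = c → Plus S (S.perp W)) := by
  obtain ⟨f, a1, a2⟩ := exists_unip_orth hp2 hS (μ := sm a (2 * b) c)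
    (fun e he => by rw [mem_sm] at he; omega) (even_count_sm (even_two_mul b))
    (by rw [sum_sm]; omega) (h1.imp_left fun h => by
      rcases Nat.eq_zero_or_pos a with h | h
      exacts [⟨3, mem_sm.2 (by omega), by decide⟩, ⟨1, mem_sm.2 (by omega), odd_one⟩])
  have := hp.out.two_le
  refine ⟨f, a1, a2.pow_eq_one fun e he => by rw [mem_sm] at he; omega, ?_, fun W b1 b2 => ?_⟩
  · rcases Nat.eq_zero_or_pos b with h | h
    exacts [a2.ne_one (e := 3) (mem_sm.2 (by omega)) (by omega),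
      a2.ne_one (e := 2) (mem_sm.2 (by omega)) le_rfl]
  · obtain ⟨a', c1, c', c2, k, c3, -, c4, c5⟩ := small_parts hp2 hS a1 a2 (S.nondegOn_top.2 hS)
      (fun _ _ => trivial) b1 b2 le_top
    exact ⟨a', c1, c', c2, k, c3, c4, by simpa using c5⟩

theorem plus_cls (hp2 : 2 ≠ p) {H : Submodule F V} (hH : S.NondegOn H) (h : Plus S H) {w t : V}
    (hw : S.Q w ≠ 0) (ht : S.Q t ≠ 0) (h1 : w ∈ S.perp H) (h2 : t ∈ S.perp (H ⊔ (F ∙ w))) :
    Plus S ((H ⊔ (F ∙ w)) ⊔ (F ∙ t)) ↔ IsSquare (-(S.Q w * S.Q t)) := by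
  have t2 := two_ne_zero' (F := F) hp2
  rw [perp_sup] at h2
  have h3 := S.mem_perp_span_singleton.1 h2.2
  rw [sup_assoc, h.sup_iff hH ((nondegOn_line t2 hw).sup (nondegOn_line t2 ht) (line_le_perp h3))
    (sup_le ((Submodule.span_singleton_le_iff_mem _ _).2 h1)
      ((Submodule.span_singleton_le_iff_mem _ _).2 h2.1)), plus_plane t2 hw ht h3]

theorem odd_counter_aux (hp2 : 2 ≠ p) (hS : S.Nondeg) {d : ℕ} (hn : finrank F V = 4 * (d + 1))
    {W₀ : Submodule F V} (hW : S.NondegOn W₀) (hm : finrank F W₀ % 4 = 1) :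
    ∃ f : End F V, S.IsIso S f ∧ f ^ p = 1 ∧ f ≠ 1 ∧ ¬ FAdapt.Fix (Isometric S W₀) f := by
  have t2 := two_ne_zero' (F := F) hp2
  have hT := S.nondegOn_top.2 hS
  obtain ⟨H, a1, a2, a3, a4, a5, a6, -, a8⟩ := exists_hyp_split hW le_rfl
  obtain ⟨u, b1, b2⟩ := eq_line a5 (by
    have := widx_odd hW (by rw [Nat.odd_iff]; omega); omega)
  obtain ⟨z, hz⟩ := FiniteField.exists_nonsquare (F := F) (by rw [ringChar.eq F p]; exact hp2.symm)
  have z0 : z ≠ 0 := fun h => hz (h ▸ IsSquare.zero)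
  obtain ⟨x, -, c1⟩ := exists_value hT (by rw [finrank_top]; omega) (z * S.Q u)
  have c2 : S.Q x ≠ 0 := c1 ▸ mul_ne_zero z0 b1
  have c3 := nondegOn_line t2 c2
  obtain ⟨f, d1, d2, d3, d4, d5⟩ := exists_unip_cons hp2 hS c3 (by rw [finrank_line c2]; exact odd_one)
    (by rw [Nat.even_iff]; omega) (μ := sm 0 (2 * d) 1) (fun e he => by rw [mem_sm] at he; omega)
    (even_count_sm (even_two_mul d)) (by rw [finrank_line c2, sum_sm]; omega)
  rw [finrank_line c2] at d3 d5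
  replace d5 : JT f ⊤ (sm 1 (2 * d) 1) := by convert d5 using 1; simp [sm]
  have fx : ∀ {U : Submodule F V}, JT f U {1} → ∀ y ∈ U, f y = y := fun h y hy => by
    simpa [sub_eq_zero] using (h.le_iff (k := 1)).1 (by simp) y hy
  have := hp.out.two_le
  refine ⟨f, d1, d5.pow_eq_one fun e he => by rw [mem_sm] at he; omega,
    d5.ne_one (e := 3) (mem_sm.2 (by omega)) (by omega), fun ⟨W, e1, e2⟩ => hz ?_⟩
  obtain ⟨e3, e4, -⟩ := isometric_data hW e1
  obtain ⟨a', g1, c', g2, k, g3, g4, -⟩ := small_parts hp2 hS d1 d5 hT (fun _ _ => trivial) e4 e2 le_top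
  obtain ⟨rfl, rfl⟩ : a' = 1 ∧ c' = 0 := by omega
  obtain ⟨U, g5, g6, g7, g8⟩ := g4.exists_sub hS d1 (fun _ _ => t2) e4 e2 {1}
    (Multiset.singleton_le.2 (mem_sm.2 (by omega))) fun a ha => by
      have := Nat.even_iff.1 ((sk_orth t2 a).1 ha)
      rw [Multiset.count_singleton, if_neg (by omega)]; exact Even.zero
  obtain ⟨w, i1, rfl⟩ := eq_line g6 g8.2.1
  obtain ⟨a', -, c', i2, k', i3, -, -, i4⟩ := small_parts hp2 hS d1 g4 e4 e2 g6 g7 g5
  rw [finrank_line i1] at i3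
  obtain ⟨i5, i6⟩ := g6.inf_perp e4 g5
  have i7 := fx g8 w (Submodule.mem_span_singleton_self w)
  obtain ⟨_, j1, y, j2, rfl⟩ := Submodule.mem_sup.1 (c3.isCompl.sup_eq_top.ge (Submodule.mem_top (x := w)))
  obtain ⟨l, rfl⟩ := Submodule.mem_span_singleton.1 j1
  rw [map_add, fx d3 _ j1, add_right_inj] at i7
  have j3 : S.Q y = 0 := by
    by_contra j3
    obtain ⟨a', j4, c', -, k', j5, -⟩ := small_parts hp2 hS d1 d4 (c3.perp hS) (inv_perp hS d1 d2)
      (nondegOn_line t2 j3) (inv_of_le_Cx ((Submodule.span_singleton_le_iff_mem _ _).2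
        (mem_Cx.2 i7))) ((Submodule.span_singleton_le_iff_mem _ _).2 j2)
    rw [finrank_line j3] at j5
    omega
  have j4 : S.Q (l • x + y) = l ^ 2 * (z * S.Q u) := by
    rw [S.orth_Q_add, S.orth_Q_smul, j3, c1, S.mem_perp'.1 j2 _ j1]; ring
  obtain ⟨e, he⟩ := e1
  obtain ⟨g, k1, k2, -⟩ := hS.exists_map_eq e he
  have k3 : S.Q (g u) = S.Q u := (S.orth_mem_isom g).1 k1 u
  obtain ⟨t, k4, k5⟩ := exists_Q_ne_zero (e4.perp hS) (ne_bot_of (by
    have := hS.finrank_perp W; omega))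
  have k6 : H.map (g : V →ₗ[F] V) ⊔ (F ∙ g u) = W := by
    rw [← k2, ← a6, b2, Submodule.map_sup, Submodule.map_span, Set.image_singleton]; rfl
  have k7 := plus_cls hp2 ((nondegOn_map_iff k1 H).2 a2) (by
    rw [Plus, widx_map_isom k1, LinearEquiv.finrank_map_eq, a3, a4]) (k3 ▸ b1) k5
    (map_perp k1 H ▸ ⟨u, (b2.ge (Submodule.mem_span_singleton_self u)).2, rfl⟩) (k6 ▸ k4)
  have k8 := plus_cls hp2 i5 (i4 (by omega) (by omega)) i1 k5 (S.le_perp_comm.1 inf_le_right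
    (Submodule.mem_span_singleton_self _)) (by rwa [sup_comm, i6])
  rw [sup_comm (W ⊓ _), i6, j4] at k8
  rw [k6, k3, k8] at k7
  have l0 : l ≠ 0 := fun h => i1 (by rw [j4, h]; ring)
  rw [show -(l ^ 2 * (z * S.Q u) * S.Q t) = l ^ 2 * (z * -(S.Q u * S.Q t)) by ring,
    isSquare_mul_iff (pow_ne_zero 2 l0) (mul_ne_zero z0 (neg_ne_zero.2 (mul_ne_zero b1 k5))),
    isSquare_mul_iff z0 (neg_ne_zero.2 (mul_ne_zero b1 k5))] at k7
  have l1 : IsSquare (l ^ 2) := ⟨l, sq l⟩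
  clear * - k7 l1
  tauto

/-- A unipotent element fixing no subspace isometric to a given odd-dimensional one. -/
theorem odd_counter (hp2 : 2 ≠ p) (hS : S.Nondeg) {d : ℕ} (hn : finrank F V = 2 * d) (hd : 3 ≤ d)
    {W₀ : Submodule F V} (hW : S.NondegOn W₀) (hm : Odd (finrank F W₀)) :
    ∃ f : End F V, S.IsIso S f ∧ f ^ p = 1 ∧ f ≠ 1 ∧ ¬ FAdapt.Fix (Isometric S W₀) f := by
  rw [Nat.odd_iff] at hm
  by_cases h1 : d % 2 = 1
  · obtain ⟨a, b, c, h2, h3, h4, h5⟩ : ∃ a b c, 2 * d = a + 4 * b + 3 * c ∧ 0 < a + c ∧ 0 < b + c ∧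
        ∀ a' ≤ a, ∀ c' ≤ c, ∀ k, finrank F W₀ ≠ a' + 4 * k + 3 * c' := by
      by_cases h : finrank F W₀ % 4 = 1
      exacts [⟨0, (d - 3) / 2, 2, by omega, by omega, by omega, by omega⟩,
        ⟨2, (d - 1) / 2, 0, by omega, by omega, by omega, by omega⟩]
    obtain ⟨f, a1, a2, a3, a4⟩ := exists_small hp2 hS (hn.trans h2) (Or.inl h3) h4
    refine ⟨f, a1, a2, a3, fun ⟨W, b1, b2⟩ => ?_⟩
    obtain ⟨b3, b4, -⟩ := isometric_data hW b1
    obtain ⟨a', c1, c', c2, k, c3, -⟩ := a4 W b4 b2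
    exact h5 a' c1 c' c2 k (b3.symm.trans c3)
  by_cases h : finrank F W₀ % 4 = 1
  · exact odd_counter_aux hp2 hS (d := d / 2 - 1) (by omega) hW h
  · obtain ⟨f, a1, a2, a3, a4⟩ := odd_counter_aux hp2 hS (d := d / 2 - 1) (by omega) (hW.perp hS)
      (by have := hS.finrank_perp W₀; omega)
    exact ⟨f, a1, a2, a3, fun ⟨W, ⟨e, he⟩, b2⟩ => a4 ⟨_, hS.cancel e he, inv_perp hS a1 b2⟩⟩

end Cfsg.Agent.H9.FUnip
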