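import Cfsg.Agent.H9.FSpO

/-! Gluing endomorphisms along orthogonal decompositions, and conjugacy in isometry groups. -/

set_option autoImplicit false
set_option linter.unusedSectionVars false

namespace Cfsg.Agent.H9.Glue

open Module Polynomial Cfsg.Agent.Form Cfsg.Agent.Form.PQ Cfsg.Agent.H9.FIdx
open Cfsg.Agent.H9.FClass Cfsg.Agent.H9.FOrd Cfsg.Agent.H9.FCount
open Cfsg.Agent.H9.FSS Cfsg.Agent.H9.FAdapt Cfsg.Agent.H9.FInvol Cfsg.Agent.H9.FSpin
open Cfsg.Agent.H9.Cj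

universe u v

variable {F : Type u} [Field F] {P : FP F} {V : Type v} [AddCommGroup V] [Module F V]
  {S : PQ P V} {f g k J J' : End F V} {U W U' W' : Submodule F V} {c ε μ : F}

/-- The form parameter is maximal, so that the isometries are those of the sesquilinear form. -/
def MaxP (P : FP F) : Prop := ∀ a, a + P.ε * P.σ a = 0 → a ∈ P.Λ

theorem maxP_symp : MaxP (FP.symp F) := fun _ _ => trivial

theorem maxP_unit (σ : F →+* F) (hσ : ∀ a, σ (σ a) = a) : MaxP (FP.unit σ hσ) := fun a h => by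
  simpa using h

theorem maxP_orth (h2 : (2 : F) ≠ 0) : MaxP (FP.orth F) := fun a h => by
  simpa [← two_mul, h2] using h

theorem MaxP.isIso (hP : MaxP P) {V' : Type*} [AddCommGroup V'] [Module F V'] {T : PQ P V'}
    {f : V → V'} (h : ∀ x y, T.B (f x) (f y) = S.B x y) : S.IsIso T f :=
  ⟨h, fun x => hP _ (by
    have := h x x
    rw [T.B_self, S.B_self] at this
    rw [map_sub]; linear_combination this)⟩

theorem exists_glue (h : Disjoint U W) (g k : End F V) :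
    ∃ f : End F V, (∀ x ∈ U, f x = g x) ∧ ∀ x ∈ W, f x = k x := by
  obtain ⟨W', h1, h2⟩ := h.symm.exists_isCompl
  exact ⟨LinearMap.ofIsCompl h2 (k.domRestrict W') (g.domRestrict U),
    fun x hx => LinearMap.ofIsCompl_apply_right h2 (⟨x, hx⟩ : U),
    fun x hx => LinearMap.ofIsCompl_apply_left h2 (⟨x, h1 hx⟩ : W')⟩

theorem exists_map_pair {v w : V} (h : LinearIndependent F ![v, w]) (v' w' : V) :
    ∃ g : End F V, g v = v' ∧ g w = w' := by
  obtain ⟨g, hg⟩ := LinearMap.exists_extend ((Basis.span h).constr F ![v', w'])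
  have key : ∀ i, g (![v, w] i) = ![v', w'] i := fun i => by
    rw [← Basis.constr_basis (Basis.span h) F ![v', w'] i, ← hg, Basis.span_apply]; rfl
  exact ⟨g, key 0, key 1⟩

theorem plane_data {v w : V} (h : S.B v v * S.B w w ≠ S.B v w * S.B w v) :
    S.NondegOn (Submodule.span F {v, w}) ∧ LinearIndependent F ![v, w] ∧
      finrank F (Submodule.span F {v, w}) = 2 := by
  have key : ∀ s t : F, S.B (s • v + t • w) v = 0 → S.B (s • v + t • w) w = 0 → s = 0 ∧ t = 0 :=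
    fun s t h1 h2 => by
      simp only [S.B_add_left, S.B_smul_left] at h1 h2
      exact ⟨mul_right_cancel₀ (sub_ne_zero.2 h) (by linear_combination S.B w w * h1 - S.B w v * h2),
        mul_right_cancel₀ (sub_ne_zero.2 h) (by linear_combination S.B v v * h2 - S.B v w * h1)⟩
  have h1 : LinearIndependent F ![v, w] :=
    LinearIndependent.pair_iff.2 fun s t e => key s t (by simp [e]) (by simp [e])
  refine ⟨fun x hx h2 => ?_, h1, by
    rw [← Matrix.range_cons_cons_empty v w ![], finrank_span_eq_card h1]; simp⟩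
  obtain ⟨s, t, rfl⟩ := Submodule.mem_span_pair.1 hx
  obtain ⟨rfl, rfl⟩ := key s t (h2 v (Submodule.subset_span (by simp)))
    (h2 w (Submodule.subset_span (by simp)))
  simp

theorem mem_plane (s t : F) (v w : V) : s • v + t • w ∈ Submodule.span F {v, w} :=
  Submodule.mem_span_pair.2 ⟨s, t, rfl⟩

theorem plane_le {v w : V} (hv : v ∈ W) (hw : w ∈ W) : Submodule.span F {v, w} ≤ W :=
  Submodule.span_le.2 (Set.pair_subset hv hw)

/-- `g` maps `W` to `W'`, is a similarity on `W` and intertwines `J` with `ε • J'`. -/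
def Tw (S : PQ P V) (J J' : End F V) (ε μ : F) (g : End F V) (W W' : Submodule F V) : Prop :=
  (∀ x ∈ W, J x ∈ W ∧ g x ∈ W' ∧ g (J x) = ε • J' (g x)) ∧
    ∀ x ∈ W, ∀ y ∈ W, S.B (g x) (g y) = μ * S.B x y

theorem tw_span {s : Set V} (h1 : ∀ x ∈ s, J x ∈ Submodule.span F s ∧ g x ∈ W' ∧
    g (J x) = ε • J' (g x)) (h2 : ∀ x ∈ s, ∀ y ∈ s, S.B (g x) (g y) = μ * S.B x y) :
    Tw S J J' ε μ g (Submodule.span F s) W' := by
  refine ⟨fun x hx => ?_, fun x hx y hy => ?_⟩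
  · induction hx using Submodule.span_induction with
    | mem x hx => exact h1 x hx
    | zero => simp
    | add x y _ _ a b => simp [add_mem a.1 b.1, add_mem a.2.1 b.2.1, a.2.2, b.2.2]
    | smul t x _ a => simp [Submodule.smul_mem _ t a.1, W'.smul_mem t a.2.1, a.2.2, smul_comm t ε]
  · induction hx, hy using Submodule.span_induction₂ with
    | mem_mem x y hx hy => exact h2 x hx y hy
    | zero_left => simp
    | zero_right => simp
    | add_left x y z _ _ _ a b => simp [a, b, mul_add]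
    | add_right x y z _ _ _ a b => simp [a, b, mul_add]
    | smul_left t x y _ _ a => simp [a]; ring
    | smul_right t x y _ _ a => simp [a]; ring

theorem Tw.glue (hU : S.NondegOn U) (h1 : W ≤ S.perp U) (h2 : W' ≤ S.perp U')
    (hg : Tw S J J' ε μ g U U') (hk : Tw S J J' ε μ k W W') : ∃ f : End F V,
      Tw S J J' ε μ f (U ⊔ W) (U' ⊔ W') ∧ (∀ x ∈ U, f x = g x) ∧ ∀ x ∈ W, f x = k x := by
  obtain ⟨f, a1, a2⟩ := exists_glue (((S.nondegOn_iff_disjoint U).1 hU).mono_right h1) g k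
  refine ⟨f, ⟨fun x hx => ?_, fun x hx y hy => ?_⟩, a1, a2⟩
  · obtain ⟨x, b1, z, b2, rfl⟩ := Submodule.mem_sup.1 hx
    obtain ⟨c1, c2, c3⟩ := hg.1 x b1
    obtain ⟨d1, d2, d3⟩ := hk.1 z b2
    simp [Submodule.add_mem_sup, a1, a2, b1, b2, c1, c2, c3, d1, d2, d3]
  · obtain ⟨x, b1, z, b2, rfl⟩ := Submodule.mem_sup.1 hx
    obtain ⟨y, b3, t, b4, rfl⟩ := Submodule.mem_sup.1 hy
    simp [a1, a2, b1, b2, b3, b4, hg.2, hk.2, h1 b2 y b3, S.B_comm_zero (h1 b4 x b1), mul_add,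
      h2 (hk.1 z b2).2.1 _ (hg.1 y b3).2.1, S.B_comm_zero (h2 (hk.1 t b4).2.1 _ (hg.1 x b1).2.1)]

/-- As `Tw`, on one subspace and with a prescribed square. -/
def Loc (S : PQ P V) (J : End F V) (ε μ c : F) (g : End F V) (W : Submodule F V) : Prop :=
  Tw S J J ε μ g W W ∧ ∀ x ∈ W, g (g x) = c • x

theorem loc_bot : Loc S J ε μ c 0 ⊥ := by simp [Loc, Tw]

theorem loc_span {s : Set V} (h : Tw S J J ε μ g (Submodule.span F s) (Submodule.span F s))
    (h1 : ∀ x ∈ s, g (g x) = c • x) : Loc S J ε μ c g (Submodule.span F s) :=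
  ⟨h, fun _ hx => LinearMap.eqOn_span (f := g * g) (g := c • 1) h1 hx⟩

theorem Loc.glue (hU : S.NondegOn U) (h1 : W ≤ S.perp U) (hg : Loc S J ε μ c g U)
    (hk : Loc S J ε μ c k W) : ∃ f : End F V, Loc S J ε μ c f (U ⊔ W) ∧ ∀ x ∈ U, f x = g x := by
  obtain ⟨f, a1, a2, a3⟩ := Tw.glue hU h1 h1 hg.1 hk.1
  refine ⟨f, ⟨a1, fun x hx => ?_⟩, a2⟩
  obtain ⟨x, b1, z, b2, rfl⟩ := Submodule.mem_sup.1 hx
  simp [a2, a3, b1, b2, (hg.1.1 x b1).2.1, (hk.1.1 z b2).2.1, hg.2, hk.2]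

theorem Loc.top (h : Loc S J ε μ c g ⊤) : g ^ 2 = c • 1 ∧ (∀ x, g (J x) = ε • J (g x)) ∧
    ∀ x y, S.B (g x) (g y) = μ * S.B x y :=
  ⟨LinearMap.ext fun x => h.2 x trivial, fun x => (h.1.1 x trivial).2.2,
    fun x y => h.1.2 x trivial y trivial⟩

variable [FiniteDimensional F V]

/-- Peeling off planes. -/
theorem exists_loc {I : Submodule F V → Prop} (H : ∀ W, S.NondegOn W → I W → W ≠ ⊥ →
    ∃ U ≤ W, U ≠ ⊥ ∧ S.NondegOn U ∧ (∃ g, Loc S J ε μ c g U) ∧ I (W ⊓ S.perp U))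
    (W : Submodule F V) : S.NondegOn W → I W → ∃ g, Loc S J ε μ c g W := by
  induction W using WellFoundedLT.induction with
  | ind W ih =>
    intro h1 h2
    by_cases h0 : W = ⊥
    · exact ⟨0, h0 ▸ loc_bot⟩
    obtain ⟨U, a1, a2, a3, ⟨g, a4⟩, a5⟩ := H W h1 h2 h0
    obtain ⟨b1, b2⟩ := a3.inf_perp h1 a1
    obtain ⟨k, b3⟩ := ih _ (inf_le_left.lt_of_ne fun e => a2 (((S.nondegOn_iff_disjoint U).1
      a3).eq_bot_of_le (a1.trans (inf_eq_left.1 e)))) b1 a5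
    obtain ⟨f, b4, -⟩ := Loc.glue a3 inf_le_right a4 b3
    exact ⟨f, b2 ▸ b4⟩

/-- Skew-adjoint endomorphisms with scalar square. -/
def Skew (S : PQ P V) (c : F) (J : End F V) : Prop :=
  (∀ x, J (J x) = c • x) ∧ ∀ x y, S.B (J x) y = -S.B x (J y)

omit [FiniteDimensional F V] in
theorem Skew.perp (h : Skew S c J) (hW : ∀ x ∈ W, J x ∈ W) (hU : ∀ x ∈ U, J x ∈ U) :
    ∀ x ∈ W ⊓ S.perp U, J x ∈ W ⊓ S.perp U := fun x hx =>
  ⟨hW x hx.1, fun u hu => by rw [h.2, hx.2 _ (hU u hu), neg_zero]⟩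

omit [FiniteDimensional F V] in
theorem skew_of_neg (hf : S.IsIso S f) (h : f ^ 2 = (-1 : F) • 1) : Skew S (-1) f := by
  have h1 : ∀ x, f (f x) = (-1 : F) • x := LinearMap.congr_fun h
  exact ⟨h1, fun x y => by rw [← hf.1 x (f y), h1]; simp⟩

theorem tw_skew (hσ : ∀ a, P.σ a = a) {a b : F} (hab : c * a ^ 2 ≠ b ^ 2)
    (H : ∀ (J : End F V) (W : Submodule F V), Skew S c J → S.NondegOn W → (∀ x ∈ W, J x ∈ W) →
      2 ≤ finrank F W → ∃ v ∈ W, S.B v v = a ∧ S.B v (J v) = b) (hJ : Skew S c J)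
    (hJ' : Skew S c J') (d : ℕ) : ∀ W W', S.NondegOn W → S.NondegOn W' → (∀ x ∈ W, J x ∈ W) →
      (∀ x ∈ W', J' x ∈ W') → finrank F W = 2 * d → finrank F W' = 2 * d →
      ∃ g, Tw S J J' 1 1 g W W' := by
  have key : ∀ (J : End F V) (W : Submodule F V), Skew S c J → S.NondegOn W → (∀ x ∈ W, J x ∈ W) →
      2 ≤ finrank F W → ∃ v ∈ W, S.B v v = a ∧ S.B v (J v) = b ∧ S.B (J v) v = -b ∧
        S.B (J v) (J v) = -(c * a) ∧ S.NondegOn (Submodule.span F {v, J v}) ∧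
        LinearIndependent F ![v, J v] ∧ finrank F (Submodule.span F {v, J v}) = 2 ∧
        ∀ x ∈ Submodule.span F {v, J v}, J x ∈ Submodule.span F {v, J v} := fun J W a1 a2 a3 a4 => by
    obtain ⟨v, b1, b2, b3⟩ := H J W a1 a2 a3 a4
    have b4 : S.B (J v) v = -b := by rw [a1.2, b3]
    have b5 : S.B (J v) (J v) = -(c * a) := by simp [a1.2, a1.1, hσ, b2]
    obtain ⟨c1, c2, c3⟩ := plane_data (S := S) (v := v) (w := J v)
      (by rw [b2, b3, b4, b5]; exact fun e => hab (by linear_combination -e))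
    refine ⟨v, b1, b2, b3, b4, b5, c1, c2, c3, fun x hx => ?_⟩
    obtain ⟨s, t, rfl⟩ := Submodule.mem_span_pair.1 hx
    simpa [a1.1, smul_smul, add_comm] using mem_plane (t * c) s v (J v)
  induction d with
  | zero =>
    intro W W' _ _ _ _ h _
    obtain rfl := Submodule.finrank_eq_zero.1 h
    exact ⟨0, by simp [Tw]⟩
  | succ d ih =>
    intro W W' h1 h2 h3 h4 h5 h6
    obtain ⟨v, a1, a2, a3, a4, a5, a6, a7, a8, a9⟩ := key J W hJ h1 h3 (by omega)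
    obtain ⟨w, b1, b2, b3, b4, b5, b6, -, b8, b9⟩ := key J' W' hJ' h2 h4 (by omega)
    have c1 := plane_le a1 (h3 v a1)
    have c2 := plane_le b1 (h4 w b1)
    have c3 := finrank_inf_perp h1 c1
    have c4 := finrank_inf_perp h2 c2
    obtain ⟨k, c5⟩ := ih _ _ (a6.inf_perp h1 c1).1 (b6.inf_perp h2 c2).1 (hJ.perp h3 a9)
      (hJ'.perp h4 b9) (by omega) (by omega)
    obtain ⟨g, c6, c7⟩ := exists_map_pair a7 w (J' w)
    obtain ⟨f, c8, -⟩ := Tw.glue a6 inf_le_right inf_le_right (g := g)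
      (tw_span (W' := Submodule.span F {w, J' w}) (fun x hx => ⟨a9 x (Submodule.subset_span hx), by
        rcases hx with rfl | rfl <;> simp [c6, c7, Submodule.mem_span_of_mem, hJ.1, hJ'.1]⟩)
        (by simp [c6, c7, a2, a3, a4, a5, b2, b3, b4, b5])) c5
    exact ⟨f, by rwa [(a6.inf_perp h1 c1).2, (b6.inf_perp h2 c2).2] at c8⟩

theorem exists_isom_of_tw (hP : MaxP P) (hS : S.Nondeg) (h : Tw S J J' 1 1 g ⊤ ⊤) :
    ∃ e ∈ S.isom, ∀ x, e (J x) = J' (e x) :=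
  ⟨toEquiv hS (hP.isIso fun x y => by simpa using h.2 x trivial y trivial), toEquiv_mem _ _,
    fun x => by simpa [toEquiv_apply] using (h.1 x trivial).2.2⟩

theorem conj_invol {p : ℕ} [Fact p.Prime] [CharP F p] (hp2 : 2 ≠ p) (hS : S.Nondeg)
    (hf : S.IsIso S f) (hg : S.IsIso S g) (h : f ^ 2 = 1) (h' : g ^ 2 = 1)
    (hi : Isometric S (Dx 2 f) (Dx 2 g)) : ∃ e ∈ S.isom, ∀ x, e (f x) = g (e x) := by
  obtain ⟨j, hj⟩ := hi
  obtain ⟨e, a1, a2, -⟩ := hS.exists_map_eq j hj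
  have a3 := map_perp a1 (Dx 2 f)
  rw [a2, perp_Dx hp2 hS hf h, perp_Dx hp2 hS hg h'] at a3
  refine ⟨e, a1, fun x => ?_⟩
  obtain ⟨y, b1, z, b2, rfl⟩ := Submodule.mem_sup.1 (cd_sup_top hp2 h ▸ Submodule.mem_top (x := x))
  have b3 := mem_Cx.1 (a3 ▸ Submodule.mem_map_of_mem b1)
  have b4 := mem_Dx_two.1 (a2 ▸ Submodule.mem_map_of_mem b2)
  simp only [LinearEquiv.coe_coe] at b3 b4
  simp [mem_Cx.1 b1, mem_Dx_two.1 b2, b3, b4]

variable [Finite F]

theorem skew_vec {S : PQ (FP.symp F) V} (h2 : (2 : F) ≠ 0) (hc : c ≠ 0) (hJ : Skew S c J)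
    (hW : S.NondegOn W) (hi : ∀ x ∈ W, J x ∈ W) (h : 2 ≤ finrank F W) :
    ∃ v ∈ W, S.B v (J v) = 1 := by
  have h1 : ∀ x y, QuadraticMap.polar (fun v => S.B v (J v)) x y = 2 * S.B x (J y) := fun x y => by
    simp [QuadraticMap.polar, S.symp_B_swap (J x) y, hJ.2]; ring
  refine exists_value (S := PQ.ofQuad (fun v => S.B v (J v)) (fun a v => by simp; ring)
    (fun x y v => by simp [h1]; ring) (fun a x v => by simp [h1]; ring)) (fun x hx h3 => ?_) h 1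
  refine hW x hx fun y hy => ?_
  have := (h1 _ _).symm.trans (h3 _ (hi y hy))
  simpa [hJ.1, h2, hc] using this

theorem conj_skew_symp {S : PQ (FP.symp F) V} (h2 : (2 : F) ≠ 0) (hS : S.Nondeg) (hc : c ≠ 0)
    (hJ : Skew S c J) (hJ' : Skew S c J') : ∃ e ∈ S.isom, ∀ x, e (J x) = J' (e x) := by
  have h1 := S.nondegOn_top.2 hS
  obtain ⟨g, hg⟩ := tw_skew (fun _ => rfl) (a := 0) (b := 1) (by simp) (fun J W a1 a2 a3 a4 =>
    let ⟨v, b1, b2⟩ := skew_vec h2 hc a1 a2 a3 a4; ⟨v, b1, S.symp_B_self v, b2⟩) hJ hJ' _ ⊤ ⊤ h1 h1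
    (fun _ _ => trivial) (fun _ _ => trivial) (even_finrank_symp h1).symm (even_finrank_symp h1).symm
  exact exists_isom_of_tw maxP_symp hS hg

theorem conj_skew_orth {S : PQ (FP.orth F) V} (h2 : (2 : F) ≠ 0) (hS : S.Nondeg) (hc : c ≠ 0)
    {d : ℕ} (hd : finrank F V = 2 * d) (hJ : Skew S c J) (hJ' : Skew S c J') :
    ∃ e ∈ S.isom, ∀ x, e (J x) = J' (e x) := by
  have h1 := S.nondegOn_top.2 hS
  obtain ⟨g, hg⟩ := tw_skew (fun _ => rfl) (a := 2) (b := 0) (by simp [h2, hc])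
    (fun J W a1 a2 a3 a4 => let ⟨v, b1, b2⟩ := exists_value a2 a4 1
      ⟨v, b1, by simp [S.orth_B_self, b2], mul_left_cancel₀ h2
        (by linear_combination a1.2 v v - S.orth_B_swap v (J v))⟩) hJ hJ' d ⊤ ⊤ h1 h1
    (fun _ _ => trivial) (fun _ _ => trivial) (by simpa using hd) (by simpa using hd)
  exact exists_isom_of_tw (maxP_orth h2) hS hg

/-- From conjugacy in the orthogonal group to conjugacy in its commutator subgroup. -/
theorem cjIn_om {S : PQ (FP.orth F) V} (h2 : (2 : F) ≠ 0) (hS : S.Nondeg) (h5 : 5 ≤ finrank F V)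
    (hW : S.NondegOn W) (hd : 2 ≤ finrank F W) {A : End F V → Prop}
    (hA : ∀ y, ∀ u ∈ W, S.Q u ≠ 0 → A y → A (rf S u * y * rf S u)) (h : CjIn S.isom A f) :
    CjIn ⁅S.isom, S.isom⁆ A f := by
  let Z : End F V → Prop := fun h => S.IsIso S h ∧ ∃ y, A y ∧ y * h = h * f
  have z1 : ∀ h, ∀ u ∈ W, S.Q u ≠ 0 → Z h → Z (rf S u * h) := fun h u a1 a2 ⟨a3, y, a4, a5⟩ =>
    ⟨isIso_rf_mul a3 u, _, hA y u a1 a2 a4, by
      rw [mul_assoc, ← mul_assoc (rf S u) _ h, rf_mul_rf, one_mul, mul_assoc, a5, mul_assoc]⟩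
  have z2 : ∀ h, Z h → Even (finrank F (Rx h)) → Spn S h → CjIn ⁅S.isom, S.isom⁆ A f :=
    fun h ⟨a1, y, a2, a3⟩ a4 a5 => by
      obtain ⟨e, b1, rfl⟩ := (inOm_iff_spn hS h5 a1).2 ⟨a4, a5⟩
      exact ⟨e⁻¹, inv_mem b1, y, a2, fun x => by
        obtain ⟨x, rfl⟩ := e.surjective x
        simpa using congrArg e.symm (LinearMap.congr_fun a3 x)⟩
  obtain ⟨u, u1, u2⟩ := exists_value hW hd 1
  obtain ⟨t, ht⟩ := FiniteField.exists_nonsquare (F := F) fun e => h2 (by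
    simpa [e] using ringChar.Nat.cast_ringChar (R := F))
  obtain ⟨w, w1, w2⟩ := exists_value hW hd t
  have u3 : S.Q u ≠ 0 := by simp [u2]
  have w3 : S.Q w ≠ 0 := by rintro e; simp [← w2, e] at ht
  have z3 : ∀ h, Z h → ¬ Even (finrank F (Rx h)) → CjIn ⁅S.isom, S.isom⁆ A f := fun h a1 a2 => by
    by_cases a3 : Spn S h
    · obtain ⟨b1, b2⟩ := rf_step hS a1.1 u3
      exact z2 _ (z1 h u u1 u3 a1) (b1.2 a2) (b2.2 (by simp [u2, a3]))
    · obtain ⟨b1, b2⟩ := rf_step hS a1.1 w3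
      exact z2 _ (z1 h w w1 w3 a1) (b1.2 a2) (b2.2 (by simp [w2, a3, ht]))
  obtain ⟨e, a1, y, a2, a3⟩ := h
  have z4 : Z (e⁻¹ : V ≃ₗ[F] V) := ⟨inv_mem a1, y, a2, LinearMap.ext fun x => by
    obtain ⟨x, rfl⟩ := e.surjective x
    simp [← a3]⟩
  by_cases a4 : Even (finrank F (Rx ((e⁻¹ : V ≃ₗ[F] V) : End F V)))
  · by_cases a5 : Spn S (e⁻¹ : V ≃ₗ[F] V)
    · exact z2 _ z4 a4 a5
    · exact z3 _ (z1 _ u u1 u3 z4) fun e => (rf_step hS z4.1 u3).1.1 e a4
  · exact z3 _ z4 a4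

end Cfsg.Agent.H9.Glue
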