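import Cfsg.Agent.H9.EI
import Cfsg.Agent.H9.Ext

/-! Forms that are traces of forms over an extension field. -/

set_option autoImplicit false
set_option linter.unusedSectionVars false

namespace Cfsg.Agent.H9.KF

open Module Polynomial Cfsg.Agent.Form Cfsg.Agent.Form.PQ Cfsg.Agent.H9.FIdx
open Cfsg.Agent.H9.FClass Cfsg.Agent.H9.FOrd Cfsg.Agent.H9.Types Cfsg.Agent.H9.FInv
open Cfsg.Agent.H9.FSS Cfsg.Agent.H9.FAdapt Cfsg.Agent.H9.FInvol Cfsg.Agent.H9.FSpin
open Cfsg.Agent.H9.Cj Cfsg.Agent.H9.Der Cfsg.Agent.H9.Glue Cfsg.Agent.H9.Ext Cfsg.Agent.H9.EIs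

universe u v w

variable {F : Type u} [Field F] {K : Type w} [Field K] [Algebra F K] {V : Type v} [AddCommGroup V]
  [Module F V] [Module K V] [IsScalarTower F K V] {f g J : End F V} {P : FP F} {PK : FP K}
  {S : PQ P V} {T : PQ PK V} {τ : K →ₗ[F] F} {G : End K V} {c : F} {θ : K} {U W : Submodule F V}

theorem P_mul (Q k m : ℕ) : ∃ D, Count.P Q ((k + 1) * m) = Count.P (Q ^ (k + 1)) m * D ∧
    ∀ r, r.Prime → r ∣ D → ∃ j, 0 < j ∧ j ≤ (k + 1) * m ∧ ¬ k + 1 ∣ j ∧ r ∣ Q ^ j - 1 := by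
  induction m with
  | zero => exact ⟨1, rfl, fun r a b => absurd b a.not_dvd_one⟩
  | succ m ih =>
    obtain ⟨D, h1, h2⟩ := ih
    refine ⟨D * ∏ i ∈ Finset.range k, (Q ^ ((k + 1) * m + i + 1) - 1), ?_, fun r a b => ?_⟩
    · rw [mul_add_one, ← add_assoc, Count.P_succ, Count.P_succ, Count.P, Finset.prod_range_add,
        ← Count.P, h1, ← pow_mul, mul_add_one, add_assoc]
      ring
    rcases a.dvd_mul.1 b with b | b
    · obtain ⟨j, c1, c2, c3⟩ := h2 r a b
      exact ⟨j, c1, by rw [mul_add_one]; omega, c3⟩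
    · obtain ⟨i, c1, c2⟩ := (a.prime.dvd_finsetProd_iff _).1 b
      rw [Finset.mem_range] at c1
      exact ⟨_, by omega, by rw [mul_add_one]; omega, fun e => by
        have := Nat.le_of_dvd (by omega) ((Nat.dvd_add_right (dvd_mul_right _ m)).1
          (add_assoc _ i 1 ▸ e))
        omega, c2⟩

theorem eq_of_tau (hτ : τ ≠ 0) {a b : K} (h : ∀ k, τ (k * a) = τ (k * b)) : a = b :=
  by_contra fun e => hτ (LinearMap.ext fun x => by
    simpa [← sub_eq_zero (a := τ _), ← map_sub, ← mul_sub, sub_ne_zero.2 e] using h (x / (a - b)))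

/-- The space `S` is obtained from `T` by restriction of scalars. -/
structure Lift (τ : K →ₗ[F] F) (T : PQ PK V) (S : PQ P V) : Prop where
  tau : τ ≠ 0
  nd : T.Nondeg
  B : ∀ x y, S.B x y = τ (T.B x y)

theorem exists_lift [FiniteDimensional F K] (hP : MaxP PK) (hτ : τ ≠ 0) (hS : S.Nondeg)
    (hs : ∀ (k : K) x y, S.B (k • x) y = S.B x (PK.σ k • y))
    (he : ∀ k, τ (PK.ε * PK.σ k) = P.ε * P.σ (τ k))
    (h2 : (2 : K) ≠ 0 ∨ ∀ (k : K) x, S.B (k • x) x = 0) : ∃ T : PQ PK V, Lift τ T S := by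
  have h1 := (LinearMap.injective_iff_surjective_of_finrank_eq_finrank
    (f := (LinearMap.mul F K).flip.compr₂ τ) Subspace.dual_finrank_eq.symm).1
    fun a b e => eq_of_tau hτ (LinearMap.congr_fun e)
  choose β hβ using fun x y => h1 (S.lin y ∘ₗ (LinearMap.toSpanSingleton K V x).restrictScalars F)
  replace hβ : ∀ x y k, τ (k * β x y) = S.B (k • x) y := fun x y => LinearMap.congr_fun (hβ x y)
  have a1 : ∀ x y z, β (x + y) z = β x z + β y z := fun x y z =>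
    eq_of_tau hτ fun k => by simp [hβ, mul_add]
  have a2 : ∀ (a : K) x y, β (a • x) y = a * β x y := fun a x y =>
    eq_of_tau hτ fun k => by rw [hβ, ← mul_assoc, hβ, mul_smul]
  have a3 : ∀ x y, β y x = PK.ε * PK.σ (β x y) := fun x y => eq_of_tau hτ fun k => by
    rw [hβ, hs, S.B_swap, ← hβ, ← he, map_mul PK.σ, PK.σσ, mul_left_comm]
  have a4 : ∀ x, β x x = β x x / 2 + PK.ε * PK.σ (β x x / 2) := fun x => by
    rcases h2 with h2 | h2
    · rw [map_div₀, map_ofNat, ← mul_div_assoc, ← a3]; field_simp; ring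
    · simp [show β x x = 0 from eq_of_tau hτ fun k => by simp [hβ, h2]]
  have a5 : ∀ x y z, β x (y + z) = β x y + β x z := fun x y z => by
    rw [a3, a1, map_add, mul_add, ← a3, ← a3]
  have a6 : ∀ (a : K) x y, β x (a • y) = PK.σ a * β x y := fun a x y => by
    rw [a3, a2, map_mul, mul_left_comm, ← a3]
  refine ⟨⟨β, a1, a2, a3, fun x => β x x / 2, fun x y => hP _ ?_, fun a x => hP _ ?_, a4⟩, hτ,
    fun x hx => hS x fun y => ?_, fun x y => by simpa using (hβ x y 1).symm⟩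
  · simp only [map_sub]
    linear_combination a4 x + a4 y - a4 (x + y) + a1 x y (x + y) + a5 x x y + a5 y x y + a3 x y
  · simp only [a2, a6, map_sub, map_mul, map_div₀]; ring
  · simpa [show β x y = 0 from hx y] using (hβ x y 1).symm

namespace Lift
variable (h : Lift τ T S)
include h

theorem B_smul (k : K) (x y : V) : S.B (k • x) y = τ (k * T.B x y) := by rw [h.B, T.B_smul_left]

theorem res (hP : MaxP P) (hG : T.IsIso T G) : S.IsIso S (G.restrictScalars F) :=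
  hP.isIso fun x y => by simp [h.B, hG.1]

theorem lift (hP : MaxP PK) (hG : S.IsIso S (G.restrictScalars F)) : T.IsIso T G :=
  hP.isIso fun x y => eq_of_tau h.tau fun k => by
    rw [← h.B_smul, ← h.B_smul, ← hG.1 (k • x), ← map_smul]; rfl

theorem nondegOn {W : Submodule K V} : S.NondegOn (W.restrictScalars F) ↔ T.NondegOn W :=
  ⟨fun a x hx e => a x hx fun y hy => by simp [h.B, e y hy], fun a x hx e => a x hx fun y hy =>
    eq_of_tau h.tau fun k => by
      simpa [h.B] using e (PK.σ k • y) (W.smul_mem _ hy)⟩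

theorem exists_sub (hP : MaxP P) : ∃ L ≤ S.isom, Nat.card L = Nat.card T.isom ∧
    ∀ g ∈ L, KS K (g : End F V) := by
  let φ : (V ≃ₗ[K] V) →* (V ≃ₗ[F] V) := ⟨⟨fun g => g.restrictScalars F, rfl⟩, fun _ _ => rfl⟩
  refine ⟨T.isom.map φ, ?_, Subgroup.card_map_of_injective fun a b e =>
    LinearEquiv.ext fun x => LinearEquiv.congr_fun e x, ?_⟩
  · rintro _ ⟨g, hg, rfl⟩
    exact h.res (G := (g : End K V)) hP hg
  · rintro _ ⟨g, -, rfl⟩
    exact (kl_res (g : End K V)).ks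

theorem of_kl (hP : MaxP PK) (h1 : KL K g) (h2 : S.IsIso S g) {r : ℕ} (h3 : g ^ r = 1) :
    ∃ G : End K V, T.IsIso T G ∧ G ^ r = 1 ∧
      finrank F (Dx r g) = finrank F K * finrank K (Dx r G) := by
  obtain ⟨G, rfl⟩ := h1.exists
  exact ⟨G, h.lift hP h2, res_pow_eq_one.1 h3, by rw [Dx_res, finrank_res]⟩

end Lift

/-- A quadratic extension generated by a square root. -/
structure Quad (θ : K) (c : F) : Prop where
  sq : θ * θ = algebraMap F K c
  ns : ∀ b : F, b ^ 2 ≠ c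
  dec : ∀ k : K, ∃ a b : F, k = algebraMap F K a + b • θ

theorem exists_quad [Fintype F] [FiniteDimensional F K] {q : ℕ} (hq : Fintype.card F = q)
    (ho : q % 2 = 1) (hk : finrank F K = 2) : ∃ (θ : K) (c : F), Quad θ c := by
  obtain ⟨c, hc⟩ := FiniteField.exists_nonsquare (F := F) fun e => by
    have := FiniteField.even_card_iff_char_two.1 e
    omega
  obtain ⟨θ, h1⟩ := exists_sqrt hq ho hk (c := c) (by rintro rfl; simp at hc)
  have h2 : ∀ b : F, b ^ 2 ≠ c := fun b e => hc ⟨b, by rw [← e, _root_.sq]⟩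
  have h3 : LinearIndependent F ![(1 : K), θ] := (LinearIndependent.pair_iff' one_ne_zero).2
    fun a e => h2 a ((algebraMap F K).injective (by
      rw [← h1, ← e, map_pow, Algebra.algebraMap_eq_smul_one]))
  refine ⟨θ, c, by rw [← h1, _root_.sq], h2, fun k => ?_⟩
  have h4 := h3.span_eq_top_of_card_eq_finrank' (by simp [hk])
  rw [Matrix.range_cons_cons_empty] at h4
  obtain ⟨a, b, e⟩ := Submodule.mem_span_pair.1 (h4 ▸ Submodule.mem_top (x := k))
  exact ⟨a, b, by rw [← e, Algebra.algebraMap_eq_smul_one]⟩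

namespace Quad
variable (hθ : Quad θ c)
include hθ

theorem ne : c ≠ 0 := fun e => hθ.ns 0 (by simp [e])

theorem smul_smul (x : V) : θ • θ • x = c • x := by rw [← mul_smul, hθ.sq, algebraMap_smul]

theorem ks {ε : F} (h : ∀ x, g (θ • x) = ε • θ • g x) : KS K g := fun k =>
  let ⟨a, b, e⟩ := hθ.dec k
  ⟨algebraMap F K a + (b * ε) • θ, fun v => by simp [e, add_smul, h, mul_smul]⟩

theorem exists_sub (h : ∀ x ∈ W, θ • x ∈ W) : ∃ W' : Submodule K V, W'.restrictScalars F = W :=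
  ⟨⟨W.toAddSubmonoid, fun k x hx => by
    obtain ⟨a, b, rfl⟩ := hθ.dec k
    simpa [add_smul] using W.add_mem (W.smul_mem a hx) (W.smul_mem b (h x hx))⟩, rfl⟩

theorem frob [Fintype F] [Fintype K] {q : ℕ} (hq : Fintype.card F = q)
    (hK : Fintype.card K = q ^ 2) : (∀ a : F, frobQ hK (algebraMap F K a) = algebraMap F K a) ∧
      frobQ hK θ = -θ := by
  have h1 : ∀ a : F, frobQ hK (algebraMap F K a) = algebraMap F K a := fun a => by
    rw [frobQ_apply, ← map_pow, Arith.pow_q hq]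
  refine ⟨h1, (mul_self_eq_mul_self_iff.1 (by rw [← map_mul, hθ.sq, h1])).resolve_left fun e => ?_⟩
  obtain ⟨k, hk⟩ := exists_pow_q_ne hK
  obtain ⟨a, b, rfl⟩ := hθ.dec k
  exact hk (by rw [← frobQ_apply hK, map_add, Algebra.smul_def, map_mul, h1, h1, e])

theorem exists_tau [FiniteDimensional F K] (hk : finrank F K = 2) (hτ : τ ≠ 0) (A β : F) :
    ∃ l : K, τ l = A ∧ τ (θ * l) = β := by
  obtain ⟨l, hl⟩ := (LinearMap.injective_iff_surjective_of_finrank_eq_finrank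
    (f := τ.prod (τ ∘ₗ LinearMap.mul F K θ)) (by simp [hk])).1
    ((injective_iff_map_eq_zero _).2 fun l hl => eq_of_tau hτ fun k => by
      obtain ⟨a, b, rfl⟩ := hθ.dec k
      obtain ⟨h1, h2⟩ := Prod.ext_iff.1 hl
      simp at h1 h2
      simp [add_mul, ← Algebra.smul_def, h1, h2]) (A, β)
  exact ⟨l, Prod.ext_iff.1 hl⟩

end Quad

theorem exists_norm [Fintype F] {q : ℕ} (hq : Fintype.card F = q) (ho : q % 2 = 1) (hc : c ≠ 0)
    (z : F) : ∃ a b : F, a ^ 2 - c * b ^ 2 = z := by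
  obtain ⟨a, b, h⟩ := FiniteField.exists_root_sum_quadratic (f := X ^ 2 - C z) (g := C (-c) * X ^ 2)
    (degree_X_pow_sub_C two_pos z) (degree_C_mul_X_pow 2 (neg_ne_zero.2 hc)) (hq ▸ ho)
  exact ⟨a, b, by simp at h; linear_combination h⟩

theorem inv_plane (hJ : ∀ x, J (J x) = c • x) (v : V) :
    ∀ x ∈ Submodule.span F {v, J v}, J x ∈ Submodule.span F {v, J v} := fun x hx => by
  obtain ⟨s, t, rfl⟩ := Submodule.mem_span_pair.1 hx
  simpa [hJ, smul_smul, add_comm] using mem_plane (t * c) s v (J v)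

variable [FiniteDimensional F V]

theorem loc_plane {v y : V} {a b z : F} (hJ : ∀ x, J (J x) = c • x)
    (h0 : S.B v v * S.B (J v) (J v) ≠ S.B v (J v) * S.B (J v) v) (hz : a ^ 2 - c * b ^ 2 = z)
    (hy : y = a • v + b • J v) (h1 : S.B y y = S.B v v) (h2 : S.B y (J y) = -S.B v (J v))
    (h3 : S.B (J y) (J y) = S.B (J v) (J v)) :
    ∃ g, Loc S J (-1) 1 z g (Submodule.span F {v, J v}) := by
  obtain ⟨g, a1, a2⟩ := exists_map_pair (plane_data h0).2.1 y (-J y)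
  have a3 : y ∈ Submodule.span F {v, J v} := hy ▸ mem_plane _ _ _ _
  have a4 : g y = z • v := by
    conv_lhs => rw [hy, map_add, map_smul, map_smul, a1, a2, hy]
    simp only [map_add, map_smul, hJ, ← hz]
    module
  have a5 : g (J y) = -(z • J v) := by
    conv_lhs => rw [hy, map_add, map_smul, map_smul, hJ, map_add, map_smul, map_smul, map_smul, a1,
      a2, hy]
    simp only [map_add, map_smul, hJ, ← hz]
    module
  refine ⟨g, loc_span (tw_span (fun x hx => ⟨inv_plane hJ v x (Submodule.subset_span hx), ?_⟩) ?_) ?_⟩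
  · rcases hx with rfl | rfl <;> simp [a1, a2, a3, hJ, inv_plane hJ _ y a3]
  · simp [a1, a2, h1, h2, h3, S.B_swap y (J y), S.B_swap v (J v)]
  · simp [a1, a2, a4, a5]

theorem exists_anti_symp [Fintype F] {S : PQ (FP.symp F) V} {q : ℕ} (hq : Fintype.card F = q)
    (ho : q % 2 = 1) (h2 : (2 : F) ≠ 0) (hS : S.Nondeg) (hc : c ≠ 0) (hJ : Skew S c J) :
    ∃ g : End F V, (∀ x, g (J x) = (-1 : F) • J (g x)) ∧ S.IsIso S g ∧ g ^ 2 = (-1 : F) • 1 := by
  obtain ⟨a, b, hz⟩ := exists_norm hq ho hc (-1)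
  obtain ⟨g, hg⟩ := exists_loc (S := S) (J := J) (ε := -1) (μ := 1) (c := -1)
    (I := fun W => ∀ x ∈ W, J x ∈ W) (fun W a1 a2 a3 => by
      have a4 := even_finrank_symp a1
      have a5 := Submodule.finrank_eq_zero.not.2 a3
      obtain ⟨v, b1, b2⟩ := skew_vec h2 hc hJ a1 a2 (by omega)
      have b3 : S.B v v * S.B (J v) (J v) ≠ S.B v (J v) * S.B (J v) v := by
        simp [S.symp_B_self, hJ.2, b2]
      obtain ⟨b4, -, b5⟩ := plane_data b3
      exact ⟨_, plane_le b1 (a2 v b1), ne_bot_of (by omega), b4, loc_plane hJ.1 b3 hz rfl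
        (by simp only [S.symp_B_self]) (by
          simp [hJ.1, hJ.2, S.symp_B_self, b2]; linear_combination hz)
        (by simp only [S.symp_B_self]), hJ.perp a2 (inv_plane hJ.1 v)⟩) ⊤ (S.nondegOn_top.2 hS)
    fun _ _ => trivial
  exact ⟨g, hg.top.2.1, maxP_symp.isIso (by simpa using hg.top.2.2), hg.top.1⟩

theorem anti_invol {p : ℕ} [Fact p.Prime] [CharP F p] (hp2 : 2 ≠ p) (hS : S.Nondeg) (hc : c ≠ 0)
    (hJ : ∀ x, J (J x) = c • x) (hU : S.NondegOn U) (h1 : U.map J ≤ S.perp U)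
    (h2 : 2 * finrank F U = finrank F V) : ∃ g : End F V, (∀ x, g (J x) = (-1 : F) • J (g x)) ∧
      S.IsIso S g ∧ g ^ 2 = 1 ∧ Dx 2 g = U := by
  obtain ⟨g, a1, a2, a3, a4⟩ := exists_invol hp2 hS hU
  have a5 := Submodule.eq_of_le_of_finrank_eq h1 (by
    have := hS.finrank_perp U
    rw [← LinearEquiv.finrank_eq (U.equivMapOfInjective J ((injective_iff_map_eq_zero _).2
      fun x hx => by simpa [hx, hc] using (hJ x).symm))]
    omega)
  refine ⟨g, fun x => ?_, a1, a2, a3⟩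
  obtain ⟨y, b1, _, b2, rfl⟩ := Submodule.mem_sup.1 (hU.isCompl.sup_eq_top ▸ Submodule.mem_top (x := x))
  obtain ⟨z, b3, rfl⟩ := a5 ▸ b2
  simp [hJ, mem_Dx_two.1 (a3 ▸ b1), mem_Dx_two.1 (a3 ▸ b3), mem_Cx.1 (a4 ▸ b2),
    mem_Cx.1 (a4 ▸ h1 (Submodule.mem_map_of_mem b1))]

section orth
variable {S : PQ (FP.orth F) V}

theorem plus_pair (h2 : (2 : F) ≠ 0) {v w : V} (h : S.B v v * S.B w w ≠ S.B v w * S.B w v) :
    Plus S (Submodule.span F {v, w}) ↔ IsSquare (S.B v w ^ 2 - S.B v v * S.B w w) := by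
  obtain ⟨a1, a2, a3⟩ := plane_data h
  have a4 := two_mul_widx_le a1
  have a5 : ∀ s t : F, S.Sing (s • v + t • w) ↔
      s ^ 2 * S.B v v + 2 * s * t * S.B v w + t ^ 2 * S.B w w = 0 := fun s t => by
    rw [S.orth_sing, ← mul_eq_zero_iff_left h2, ← S.orth_B_self]
    simp only [S.B_add_left, S.B_add_right, S.B_smul_left, S.B_smul_right, S.orth_B_swap v w,
      FP.orth_σ]
    exact Eq.congr_left (by ring)
  refine Iff.trans (show _ ↔ ¬ widx S (Submodule.span F {v, w}) = 0 by unfold Plus; omega) ?_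
  rw [widx_eq_zero_iff]
  push Not
  refine ⟨fun ⟨x, hx, h1, h3⟩ => ?_, fun ⟨m, hm⟩ => ?_⟩
  · obtain ⟨s, t, rfl⟩ := Submodule.mem_span_pair.1 hx
    rw [a5] at h1
    by_cases ht : t = 0
    · have : S.B v v = 0 := by simpa [ht, show s ≠ 0 by rintro rfl; simp [ht] at h3] using h1
      exact ⟨S.B v w, by rw [this]; ring⟩
    · exact ⟨(s * S.B v v + t * S.B v w) / t, by field_simp; linear_combination -S.B v v * h1⟩
  by_cases h0 : S.B v v = 0
  · exact ⟨_, mem_plane 1 0 v w, by simp only [a5, h0]; ring, fun e =>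
      one_ne_zero (LinearIndependent.pair_iff.1 a2 _ _ e).1⟩
  · exact ⟨_, mem_plane (m - S.B v w) (S.B v v) v w, (a5 _ _).2 (by
      linear_combination -S.B v v * hm), fun e => h0 (LinearIndependent.pair_iff.1 a2 _ _ e).2⟩

/-- A self-adjoint map generating a quadratic extension. -/
structure SA (S : PQ (FP.orth F) V) (c : F) (J : End F V) : Prop where
  sq : ∀ x, J (J x) = c • x
  adj : ∀ x y, S.B (J x) y = S.B x (J y)
  ns : ∀ b : F, b ^ 2 ≠ c
  vec : ∀ W, S.NondegOn W → (∀ x ∈ W, J x ∈ W) → 2 < finrank F W → ∀ A β : F,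
    ∃ v ∈ W, S.B v v = A ∧ S.B v (J v) = β

theorem Lift.sa [Finite F] [FiniteDimensional F K] {T : PQ (FP.orth K) V} (h : Lift τ T S)
    (hθ : Quad θ c) (h2 : (2 : K) ≠ 0) (hk : finrank F K = 2) : SA S c (mulK V θ) := by
  have := Module.finite_of_finite F (M := K)
  have : FiniteDimensional K V := Module.Finite.right F K V
  refine ⟨hθ.smul_smul, fun x y => by simp [h.B], hθ.ns, fun W a1 a2 a3 A β => ?_⟩
  obtain ⟨W, rfl⟩ := hθ.exists_sub a2
  obtain ⟨l, b1, b2⟩ := hθ.exists_tau hk h.tau A β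
  obtain ⟨v, b3, b4⟩ := exists_value (h.nondegOn.1 a1) (by rw [finrank_res, hk] at a3; omega) (l / 2)
  have b5 : T.B v v = l := by rw [T.orth_B_self, b4]; field_simp
  exact ⟨v, b3, by simp [h.B, b5, b1], by simp [h.B, b5, b2]⟩

variable [Fintype F] {q p : ℕ} [Fact p.Prime] [CharP F p]

namespace SA
variable (h : SA S c J)
include h

theorem ne : c ≠ 0 := fun e => h.ns 0 (by simp [e])

theorem perp (hW : ∀ x ∈ W, J x ∈ W) (hU : ∀ x ∈ U, J x ∈ U) :
    ∀ x ∈ W ⊓ S.perp U, J x ∈ W ⊓ S.perp U := fun x hx =>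
  ⟨hW x hx.1, fun u hu => by rw [h.adj, hx.2 _ (hU u hu)]⟩

theorem even (hW : ∀ x ∈ W, J x ∈ W) : Even (finrank F W) :=
  even_iff_two_dvd.2 (OrdR.dvd_finrank_of_not_pow (LinearMap.ext h.sq) h.ns hW)

theorem plane (h2 : (2 : F) ≠ 0) {v : V} {z : F} (h0 : z ≠ 0)
    (hz : S.B v (J v) ^ 2 - c * S.B v v ^ 2 = z) :
    S.B v v * S.B (J v) (J v) ≠ S.B v (J v) * S.B (J v) v ∧
      (Plus S (Submodule.span F {v, J v}) ↔ IsSquare z) := by
  have a1 : S.B v v * S.B (J v) (J v) ≠ S.B v (J v) * S.B (J v) v := fun e => h0 (by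
    simp [h.adj, h.sq] at e; linear_combination -e - hz)
  exact ⟨a1, by rw [plus_pair h2 a1, ← hz]; simp [h.adj, h.sq, _root_.sq, mul_left_comm]⟩

theorem exists_type (hq : Fintype.card F = q) (hp2 : 2 ≠ p) (hS : S.Nondeg) (s : ℕ) :
    2 * (s + 1) < finrank F V → ∀ η : Prop, ∃ U, S.NondegOn U ∧ (∀ x ∈ U, J x ∈ U) ∧
      finrank F U = 2 * (s + 1) ∧ (Plus S U ↔ η) := by
  classical
  have key : ∀ W, S.NondegOn W → (∀ x ∈ W, J x ∈ W) → finrank F W + 2 < finrank F V → ∀ η : Prop,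
      ∃ U, S.NondegOn U ∧ (∀ x ∈ U, J x ∈ U) ∧ finrank F U = finrank F W + 2 ∧ (Plus S U ↔ η) :=
    fun W a1 a2 a3 η => by
      have a4 := hS.finrank_perp W
      obtain ⟨β, A, a5⟩ := exists_norm hq (odd_card hq hp2) h.ne (if Plus S W ↔ η then 1 else c)
      obtain ⟨v, b1, rfl, rfl⟩ := h.vec _ (a1.perp hS) (by simpa using h.perp (W := ⊤) (by simp) a2)
        (by omega) A β
      obtain ⟨b2, b3⟩ := h.plane (two_ne_zero' hp2) (by split_ifs; exacts [one_ne_zero, h.ne]) a5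
      obtain ⟨b4, -, b5⟩ := plane_data b2
      have b6 := plane_le b1 (h.perp (W := ⊤) (by simp) a2 v ⟨trivial, b1⟩).2
      refine ⟨_, a1.sup b4 b6, inv_sup a2 (inv_plane h.sq v), by rw [finrank_sup_of_le_perp a1 b6, b5],
        ?_⟩
      rw [plus_sup_iff a1 b4 b6 (h.even a2) (by simp [b5]), b3]
      split_ifs with e
      · simp [e]
      · have : ¬ IsSquare c := fun ⟨b, e⟩ => h.ns b (by rw [e, _root_.sq])
        tauto
  induction s with
  | zero => simpa using key ⊥ S.nondegOn_bot inv_bot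
  | succ s ih =>
    intro a1 η
    obtain ⟨W, b1, b2, b3, -⟩ := ih (by omega) η
    simpa [b3, mul_add] using key W b1 b2 (by omega) η

theorem step (hq : Fintype.card F = q) (hp2 : 2 ≠ p) (W : Submodule F V) (a1 : S.NondegOn W)
    (a2 : (∀ x ∈ W, J x ∈ W) ∧ (Plus S W ↔ (q % 4 = 1 ∨ finrank F W % 4 = 0))) (a3 : W ≠ ⊥) :
    ∃ U ≤ W, finrank F U = 2 ∧ S.NondegOn U ∧ (∃ g, Loc S J (-1) 1 (-1) g U) ∧
      (∀ x ∈ W ⊓ S.perp U, J x ∈ W ⊓ S.perp U) ∧
      (Plus S (W ⊓ S.perp U) ↔ (q % 4 = 1 ∨ finrank F ↥(W ⊓ S.perp U) % 4 = 0)) := by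
  have h2 := two_ne_zero' (F := F) hp2
  have a4 := Nat.even_iff.1 (h.even a2.1)
  have a5 := isSquare_neg_one hq hp2
  obtain ⟨v, m, b1, b2, b3⟩ : ∃ v m, v ∈ W ∧ m ≠ 0 ∧
      S.B v (J v) ^ 2 - c * S.B v v ^ 2 = -(m * m) := by
    by_cases e : 2 < finrank F W
    · obtain ⟨β, A, b1⟩ := exists_norm hq (odd_card hq hp2) h.ne (-1)
      obtain ⟨v, b2, rfl, rfl⟩ := h.vec W a1 a2.1 e A β
      exact ⟨v, 1, b2, one_ne_zero, by rw [b1, mul_one]⟩
    obtain ⟨v, b1, b2⟩ := exists_aniso_orth h2 a1 a3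
    have b3 : S.B v (J v) ^ 2 - c * S.B v v ^ 2 ≠ 0 := fun e => h.ns (S.B v (J v) / S.B v v) (by
      field_simp; linear_combination e)
    obtain ⟨b4, b5⟩ := h.plane h2 b3 rfl
    have b6 := (plane_data b4).2.2
    have b7 := Submodule.finrank_mono (plane_le b1 (a2.1 v b1))
    rw [Submodule.eq_of_le_of_finrank_eq (plane_le b1 (a2.1 v b1)) (by omega), a2.2] at b5
    obtain ⟨m, hm⟩ := (isSquare_mul_iff (by simp) b3).2 (a5.trans (Iff.trans (by omega) b5))
    exact ⟨v, m, b1, by rintro rfl; exact b3 (by linear_combination -hm), by linear_combination -hm⟩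
  obtain ⟨c1, c2⟩ := h.plane h2 (by simpa using b2) b3
  obtain ⟨c3, -, c4⟩ := plane_data c1
  have c5 := plane_le b1 (a2.1 v b1)
  have c6 := h.perp a2.1 (inv_plane h.sq v)
  have c7 := finrank_inf_perp a1 c5
  obtain ⟨c8, c9⟩ := c3.inf_perp a1 c5
  refine ⟨_, c5, c4, c3, loc_plane (a := S.B v (J v) / m) (b := -S.B v v / m) h.sq c1
    (by field_simp; linear_combination b3) rfl ?_ ?_ ?_, c6, ?_⟩
  · simp [h.adj, h.sq]; field_simp; linear_combination -S.B v v * b3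
  · simp [h.adj, h.sq]; field_simp; linear_combination S.B v (J v) * b3
  · simp [h.adj, h.sq]; field_simp; linear_combination -c * S.B v v * b3
  · have d1 := plus_sup_iff c3 c8 inf_le_right (by simp [c4]) (h.even c6)
    rw [c9, a2.2, c2, ← neg_one_mul, isSquare_mul_iff (by simp) (by simpa using b2), a5] at d1
    simp only [IsSquare.mul_self, iff_true] at d1
    by_cases e : q % 4 = 1
    · simpa [e] using d1
    · simp only [e, false_or, false_iff] at d1 ⊢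
      rw [← not_iff_not, ← d1]
      omega

theorem ei_two (hq : Fintype.card F = q) (hp2 : 2 ≠ p) (hS : S.Nondeg) {d : ℕ}
    (hd : finrank F V = 2 * d) (h3 : 3 ≤ d) {HP : End F V → Prop}
    (hP : ∀ (g : End F V) (ε : F), (∀ x, g (J x) = ε • J (g x)) → HP g) :
    EI ⁅S.isom, S.isom⁆ HP 2 := by
  have h2 := two_ne_zero' (F := F) hp2
  have : Nontrivial V := nontrivial_of_finrank_pos (R := F) (by omega)
  rintro f hf ⟨z, a1⟩ a2
  have a3 := InOm.isIso hf
  rcases sq_cases (fun _ => rfl) hS a3 a1 with a4 | a4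
  · obtain ⟨s, a5, -⟩ := (inOm_invol_iff hq hp2 hS (by omega) a3 a4).1 hf
    have a6 := invol_dim hp2 a4 a2
    obtain ⟨s, rfl⟩ := Nat.exists_eq_add_one.2 (show 0 < s by omega)
    obtain ⟨U, b1, b2, b3, b4⟩ := h.exists_type hq hp2 hS s (by omega) (Plus S (Dx 2 f))
    obtain ⟨g, b5, b6, rfl, b7⟩ := exists_invol hp2 hS b1
    refine CjIn.mono (cjIn_om h2 hS (by omega) b1 (by omega) (A := (· = g)) ?_ (cjIn_of rfl
      (conj_invol hp2 hS b5 a3 b6 a4 ((FOrth.isometric_iff_type b1 (h.even b2)).2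
        ⟨by omega, nondegOn_Dx hp2 hS a3 a4, b4.symm⟩)))) ?_
    · intro y u c1 _ e
      rw [e, mul_assoc, show g * rf S u = rf S u * g from LinearMap.ext fun x => by
        simp [rf_apply, ← b5.1 x u, mem_Dx_two.1 c1, neg_div, sub_eq_add_neg], ← mul_assoc, rf_mul_rf, one_mul]
    rintro _ rfl
    refine hP _ 1 fun x => ?_
    obtain ⟨y, c1, z, c2, rfl⟩ := Submodule.mem_sup.1 (cd_sup_top hp2 b6 ▸ Submodule.mem_top (x := x))
    simp [mem_Dx_two.1 c2, mem_Dx_two.1 (b2 z c2), mem_Cx.1 c1,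
      mem_Cx.1 (b7 ▸ (h.perp (W := ⊤) (by simp) b2 y ⟨trivial, b7 ▸ c1⟩).2)]
  have a5 := S.nondegOn_top.2 hS
  obtain ⟨U, -, b1, b2, ⟨g, b3⟩, b4⟩ := h.step hq hp2 ⊤ a5 ⟨by simp,
    neg_plus hq hp2 hS a3 a4 a5 (by simp)⟩ top_ne_bot
  obtain ⟨b5, b6⟩ := b2.inf_perp a5 le_top
  obtain ⟨k, b7⟩ := exists_loc (fun W c1 c2 c3 => let ⟨U, d1, d2, d3⟩ := h.step hq hp2 W c1 c2 c3
    ⟨U, d1, ne_bot_of (by omega), d3⟩) _ b5 b4
  obtain ⟨y, b8, b9⟩ := Loc.glue b2 inf_le_right b3 b7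
  rw [b6] at b8
  have c1 : S.IsIso S y := (maxP_orth h2).isIso (by simpa using b8.top.2.2)
  refine CjIn.mono (cjIn_om h2 hS (by omega) b2 b1.ge (A := fun y => S.IsIso S y ∧
    y ^ 2 = (-1 : F) • 1 ∧ (∀ x ∈ U, y x ∈ U) ∧ ∀ x, y (J x) = (-1 : F) • J (y x)) ?_
    (cjIn_of ⟨c1, b8.top.1, fun x hx => b9 x hx ▸ (b3.1.1 x hx).2.1, b8.top.2.1⟩
      (conj_skew_orth h2 hS (by simp) hd (skew_of_neg c1 b8.top.1) (skew_of_neg a3 a4))))
    fun g hg => hP g _ hg.2.2.2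
  rintro y u d1 d2 ⟨d3, d4, d5, d6⟩
  obtain ⟨e1, e2⟩ := skew_of_neg d3 d4
  have e3 : S.B u (y u) = 0 := mul_left_cancel₀ h2
    (by linear_combination e2 u u - S.orth_B_swap u (y u))
  have e4 : S.B u u * S.B (y u) (y u) ≠ S.B u (y u) * S.B (y u) u := by
    simp [d3.1, e3, S.orth_B_self, h2, d2]
  have e5 := Submodule.eq_of_le_of_finrank_eq (plane_le d1 (d5 u d1))
    ((plane_data e4).2.2.trans b1.symm)
  have e6 : ∀ x ∈ U, (rf S u * y * rf S u) x = -y x := fun x hx => by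
    obtain ⟨s, t, rfl⟩ := Submodule.mem_span_pair.1 (e5 ▸ hx)
    simp [rf_apply, e1, e2, e3, S.orth_B_self, d2, mul_div_assoc, neg_div]
    module
  have e7 : ∀ x ∈ S.perp U, (rf S u * y * rf S u) x = y x := fun x hx => by
    simp [rf_apply, hx u d1, inv_perp hS d3 d5 x hx u d1]
  have e8 := fun x hx => (b3.1.1 x hx).1
  refine ⟨(isIso_rf_mul d3 u).comp (isIso_rf u), ?_, fun x hx => e6 x hx ▸ neg_mem (d5 x hx),
    fun x => ?_⟩
  · have e9 : ∀ x, rf S u (rf S u x) = x := LinearMap.congr_fun (rf_mul_rf u)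
    exact LinearMap.ext fun x => by simp [_root_.sq, e9, e1]
  · obtain ⟨x, f1, z, f2, rfl⟩ := Submodule.mem_sup.1 (b2.isCompl.sup_eq_top ▸ Submodule.mem_top (x := x))
    rw [map_add, map_add, map_add, e6 x f1, e6 _ (e8 x f1), e7 z f2,
      e7 _ (h.perp (W := ⊤) (by simp) e8 z ⟨trivial, f2⟩).2]
    simp [d6]

end SA

end orth

end Cfsg.Agent.H9.KF
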