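import Cfsg.Agent.H9.KF
import Cfsg.Agent.H9.FSpO

/-! Quadratic extension fields in orthogonal groups. -/

set_option autoImplicit false
set_option linter.unusedSectionVars false

namespace Cfsg.Agent.H9.KF

open Module Polynomial Cfsg.Agent.Form Cfsg.Agent.H9.FOrd Cfsg.Agent.H9.FSS Cfsg.Agent.H9.FAdapt
open Cfsg.Agent.H9.FInvol Cfsg.Agent.H9.Cj Cfsg.Agent.H9.Glue Cfsg.Agent.H9.Ext Cfsg.Agent.H9.EIs
open Cfsg.Agent.H9.FNum Cfsg.Agent.H9.FSemi Cfsg.Agent.H9.SimG Cfsg.Agent.H9.FUnip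
open scoped MatrixGroups Matrix

theorem arith_orth {q r d m k k' a b A A' : ℕ} (hr : r.Prime) (hq : 2 ≤ q) (hrq : ¬ r ∣ q)
    (hd : 0 < d) (h : b * r ∣ a) (h1 : a * A = 2 * q ^ k * Count.P (q ^ 2) d)
    (h2 : b * A' = 2 * (q ^ 2) ^ k' * Count.P ((q ^ 2) ^ 2) m) {ε η : Prop}
    (hA : (ε ∧ A = q ^ d + 1) ∨ (¬ ε ∧ A = q ^ d - 1)) (hA' : (d = 2 * m + 1 ∧ A' = 1) ∨
      (d = 2 * m ∧ ((η ∧ A' = (q ^ 2) ^ m + 1) ∨ (¬ η ∧ A' = (q ^ 2) ^ m - 1)))) :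
    r ∣ Od (q ^ 2) m ∨ (((¬ ε ∧ r ∣ q ^ d + 1) ∨ (¬ ¬ ε ∧ r ∣ q ^ d - 1)) ∧ (d = 2 * m + 1 ∨
      d = 2 * m ∧ ((η ∧ r ∣ (q ^ 2) ^ m + 1) ∨ (¬ η ∧ r ∣ (q ^ 2) ^ m - 1)))) := by
  have h3 := Nat.one_lt_pow hd.ne' hq
  have key : ∀ D, Count.P (q ^ 2) d = Count.P ((q ^ 2) ^ 2) m * D → r * A ∣ q ^ k * D * A' :=
    fun D e => Nat.dvd_of_mul_dvd_mul_left (Nat.mul_pos two_pos (Count.P_pos
      (Nat.one_lt_pow two_ne_zero (Nat.one_lt_pow two_ne_zero hq)) m)) ((Dvd.intro_left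
        ((q ^ 2) ^ k') (by rw [mul_comm A A', mul_mul_mul_comm b, h2]; ring)).trans
        ((Nat.mul_dvd_mul_right h (A * A')).trans
          (dvd_of_eq (by rw [← mul_assoc, h1, e]; ring))))
  have k2 : ∀ x y, r ∣ q ^ k * x * y → r ∣ x ∨ r ∣ y := fun x y e => (hr.dvd_mul.1 e).imp_left
    fun e => (hr.dvd_mul.1 e).resolve_left fun e => hrq (hr.dvd_of_dvd_pow e)
  rcases hA' with ⟨h4, rfl⟩ | ⟨h4, hA'⟩
  · have := key _ (h4 ▸ P_two_mul_add_one _ m)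
    rw [Od, Finset.prod_range_succ, ← Od, ← h4, pow_right_comm, FUni.sq_sub_one, mul_one,
      ← mul_assoc] at this
    rcases hA with ⟨e, rfl⟩ | ⟨e, rfl⟩
    · rw [mul_comm (_ + 1), ← mul_assoc] at this
      exact (k2 _ _ (Nat.dvd_of_mul_dvd_mul_right (by omega) this)).imp_right
        fun a => ⟨Or.inr ⟨not_not.2 e, a⟩, Or.inl h4⟩
    · rw [← mul_assoc] at this
      exact (k2 _ _ (Nat.dvd_of_mul_dvd_mul_right (by omega) this)).imp_right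
        fun a => ⟨Or.inl ⟨e, a⟩, Or.inl h4⟩
  have := key _ (h4 ▸ P_two_mul _ m)
  rw [← pow_mul q 2 m, ← h4] at hA' ⊢
  rcases hA with ⟨e, rfl⟩ | ⟨e, rfl⟩ <;> rcases hA' with ⟨e', rfl⟩ | ⟨e', rfl⟩
  · simpa [hr.ne_one] using Or.inl (k2 _ 1 (by
      simpa using Nat.dvd_of_mul_dvd_mul_right (by omega) this))
  · exact (k2 _ _ ((dvd_mul_right _ _).trans this)).imp_right
      fun a => ⟨Or.inr ⟨not_not.2 e, a⟩, Or.inr ⟨rfl, Or.inr ⟨e', a⟩⟩⟩
  · exact (k2 _ _ ((dvd_mul_right _ _).trans this)).imp_right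
      fun a => ⟨Or.inl ⟨e, a⟩, Or.inr ⟨rfl, Or.inl ⟨e', a⟩⟩⟩
  · simpa [hr.ne_one] using Or.inl (k2 _ 1 (by
      simpa using Nat.dvd_of_mul_dvd_mul_right (by omega) this))

universe u

variable {F : Type u} [Field F] [Fintype F] {q : ℕ} {ι : Type} [Fintype ι] [DecidableEq ι]

theorem orth_main (p : ℕ) [Fact p.Prime] [CharP F p] (hq : Fintype.card F = q) (hodd : Odd q) {d : ℕ} (hd : 3 ≤ d)
    (hn : finrank F (ι → F) = 2 * d) {Q : (ι → F) → F} (hQ : Geo.IsNondegenerateQuadraticForm Q)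
    {K : Subalgebra F (Matrix ι ι F)} (hK : Geo.IsFieldSubalgebra 2 K)
    (hKf : Geo.IsSelfAdjointFor (QuadraticMap.polar Q) K) {r : ℕ} [hr : Fact r.Prime]
    (hΩ : r ∣ (Geo.subalgebraNormalizer K).relIndex (Geo.omegaGL Q)) :
    (∀ x ∈ Geo.omegaGL Q, (∃ z : F, ((x ^ r : GL ι F) : Matrix ι ι F) = z • (1 : Matrix ι ι F)) →
      (∀ z : F, (x : Matrix ι ι F) ≠ z • (1 : Matrix ι ι F)) →
      ∃ g ∈ Geo.omegaGL Q, g⁻¹ * x * g ∈ Geo.subalgebraNormalizer K) ↔ r = 2 := by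
  have hS := quadPQ_nondeg hQ
  have hq2 := Arith.two_le_q hq
  have hp2 := two_ne_p (p := p) hq hodd
  have hF := two_ne_zero' (F := F) hp2
  have : Nonempty ι := Fintype.card_pos_iff.1 (by simp at hn; omega)
  obtain ⟨L, _, _, _, _, _, h1, h2, h3, -⟩ := exists_ext hK
  have := charP_of_injective_algebraMap (algebraMap F L).injective p
  have := Module.finite_of_finite F (M := L)
  have := Fintype.ofFinite L
  have : FiniteDimensional L (ι → F) := Module.Finite.right F L _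
  have hL2 := two_ne_zero' (F := L) hp2
  have hc : Fintype.card L = q ^ 2 := h1 ▸ card_ext hq
  obtain ⟨τ, hτ⟩ := FModel.exists_dual_eq_one (F := F) (one_ne_zero (α := L))
  obtain ⟨T, hL⟩ := exists_lift (PK := FP.orth L) (τ := τ) (maxP_orth hL2)
    (by rintro rfl; simp at hτ) hS (fun c x y => by
      obtain ⟨a, b1, b2⟩ := h3 c
      rw [FP.orth_σ, b2, b2]; exact hKf a b1 x y) (by simp) (Or.inl hL2)
  have h6 := Module.finrank_mul_finrank F L (ι → F)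
  rw [h1] at h6
  rw [forall_cj_iff _ _ _ (mem_omegaGL_iff hQ) _ _ h2 (fun _ => Iff.rfl)]
  change EI _ (KS L) r ↔ _
  obtain ⟨θ, c, hθ⟩ := exists_quad hq (Nat.odd_iff.1 hodd) h1
  refine ⟨fun H => by_contra fun hr2 => ?_, by
    rintro rfl; exact (hL.sa hθ hL2 h1).ei_two hq hp2 hS hn hd fun g ε => hθ.ks⟩
  have a0 := inOm_of_odd hS (by omega) (hr.out.odd_of_ne_two hr2)
  have k1 : ∀ g : End F (ι → F), KS L g → g ^ r = 1 → KL L g := fun g a b =>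
    (a.eq_of_pow (h1 ▸ Nat.prime_two) hr.out b).resolve_right (h1 ▸ hr2)
  by_cases hrp : r = p
  · subst hrp
    obtain ⟨f, a1, a2⟩ := exists_unip_orth hp2 hS (μ := sm (2 * d - 3) 0 1)
      (fun e he => by have := mem_sm.1 he; omega) (even_count_sm (by simp)) (by rw [sum_sm]; omega)
      (Or.inl ⟨3, mem_sm.2 (by simp), by decide⟩)
    have a3 := a2.pow_eq_one (p := r) fun e he => by
      have := mem_sm.1 he
      have := hr.out.two_le
      omega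
    obtain ⟨g, b1, -, b2, b3⟩ := H.elim (Subgroup.commutator_le_self _) (a0 f a1 a3) a3
      (not_scalar_of_unip a3 (a2.ne_one (e := 3) (mem_sm.2 (by simp)) (by omega)))
    have b4 := (k1 g b1 b2).dvd ((X - C 1) ^ 2)
    have b5 := a2.2.2 2
    rw [h1, (b3.aeval _).finrank_ker, aeval_N, ← top_inf_eq (LinearMap.ker _), b5] at b4
    simp [sm] at b4
    omega
  have : (⁅(quadPQ hQ).isom, (quadPQ hQ).isom⁆.subgroupOf (quadPQ hQ).isom).Normal :=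
    (Subgroup.normal_subgroupOf_iff_le_normalizer (Subgroup.commutator_le_self _)).2
      (Subgroup.le_normalizer_iff_commutator_le_left.2
        (Subgroup.commutator_mono (Subgroup.commutator_le_self _) le_rfl))
  have := Imprim.finite_linearEquiv (F := F) (V := ι → F)
  obtain ⟨N, b1, b2, b3⟩ := hL.exists_sub (maxP_orth hF)
  have b4 := mul_card_dvd b1 (hΩ.trans ((relIndex_dvd (mem_omegaGL_iff hQ) N fun x hx =>
    (h2 x).2 (glEquiv_coe x ▸ b3 _ hx)).trans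
      (relIndex_dvd_of_normal N (Subgroup.commutator_le_self _))))
  obtain ⟨k, A, c1, c2⟩ := FOrth.card_isom_orth hq hS (Or.inl hF) (d := d) (by omega)
  obtain ⟨k', A', c3, c4⟩ := FOrth.card_isom_orth hc hL.nd (Or.inl hL2) (d := d / 2) (by omega)
  have k2 : ∀ j s, 0 < j → 2 * j = (if Even (orderOf (q : ZMod r)) then orderOf (q : ZMod r)
      else 2 * orderOf (q : ZMod r)) * s → j ≤ d → (j = d → (Plus (quadPQ hQ) ⊤ ↔
        (orderOf (q : ZMod r) % 2 = 1 ∨ s % 2 = 0))) → ∃ G : End L (ι → F), T.IsIso T G ∧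
      G ^ r = 1 ∧ finrank L (Dx r G) = j ∧ 2 ∣ j := fun j s a1 a2 a3 a4 => by
    obtain ⟨g, d1, d2, d3, d4⟩ := H.blk (Subgroup.commutator_le_self _) a0 (fun _ => rfl) hS
      (models_orth hq hrp hr2 rfl rfl hS) (blk_id hq hrp hr2 (fun _ => rfl) rfl rfl) hq hrp hr2
      (s := s) (Nat.pos_of_ne_zero (by rintro rfl; omega)) ⟨by omega, fun e => a4 (by omega)⟩
    obtain ⟨G, e1, e2, e3⟩ := hL.of_kl (maxP_orth hL2) (k1 g d1 d3) d2 d3
    have e4 : finrank L (Dx r G) = j := by rw [h1] at e3; omega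
    exact ⟨G, e1, e2, e4, e4 ▸ (even_c rfl).two_dvd.trans
      ((blk_id hc hrp hr2 (fun _ => rfl) rfl rfl).dvd_Dx hc hrp hL.nd e1 e2)⟩
  rcases arith_orth hr.out hq2 (Arith.not_dvd_q hq hrp) (by omega) (b2 ▸ b4) c1 c3
    (ε := Plus (quadPQ hQ) ⊤) (η := Plus T ⊤)
    ((c2.resolve_left (by omega)).imp (·.2) fun e => ⟨e.2.1, e.2.2.2⟩)
    (c4.imp (fun e => ⟨by omega, e.2⟩) fun e => ⟨by omega, e.imp (·.2) fun e => ⟨e.2.1, e.2.2.2⟩⟩)
    with e | ⟨e1, e2⟩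
  · obtain ⟨j, j1, j2⟩ := (hr.out.prime.dvd_finsetProd_iff _).1 e
    rw [Finset.mem_range] at j1
    obtain ⟨s, j3⟩ := of_dvd_sq_sub (by omega) rfl rfl j2
    obtain ⟨-, -, -, -, j4⟩ := k2 _ s (by omega) j3 (by omega) (by omega)
    omega
  obtain ⟨s, j1, j2⟩ := FSpO.type_of_dvd hq hrp hr2 rfl rfl e1
  obtain ⟨G, j3, j4, j5, j6⟩ := k2 d s (by omega) j1 le_rfl fun _ => not_not.symm.trans (not_iff.1 j2)
  obtain ⟨e3, e2⟩ := e2.resolve_left (by omega)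
  obtain ⟨t, j7, j8⟩ := FSpO.type_of_dvd hc hrp hr2 rfl rfl e2
  exact j8 ((real_orth hc hrp hr2 rfl rfl hL.nd j3 j4 (s := t) (by omega)).2 (by omega))

end Cfsg.Agent.H9.KF
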