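import Cfsg.Agent.H9.MiB2
import Cfsg.Agent.H7.Sp1

/-! Symplectic transvections in dimension four. -/

set_option autoImplicit false

namespace Cfsg.Agent.H9.Mi

open Matrix hiding J
open Cfsg.Agent.H1.Mit

variable {T K : Type*} [Group T] [Field K] {ρ : SRep T K}

/-- `u ↦ B(u,y) v` -/
def r1 (v y : V4 K) : M4 K := vecMulVec v (J K *ᵥ y)

theorem r1_mulVec (v y u : V4 K) : r1 v y *ᵥ u = B u y • v := by
  ext i; simp [r1, J, B, mulVec, dotProduct, vecMulVec, Fin.sum_univ_four]; ring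

/-- the transvection `u ↦ u + c B(u,v) v` -/
def tv (v : V4 K) (c : K) : M4 K := 1 + c • r1 v v

theorem tv_mulVec (v : V4 K) (c : K) (u : V4 K) : tv v c *ᵥ u = u + (c * B u v) • v := by
  rw [tv, add_mulVec, one_mulVec, smul_mulVec, r1_mulVec, smul_smul]

theorem tv_mul (v : V4 K) (c d : K) : tv v c * tv v d = tv v (c + d) :=
  Matrix.ext_iff_mulVec.2 fun u => by simp [← mulVec_mulVec, tv_mulVec]; module

theorem tv_zero (v : V4 K) : tv v 0 = 1 := by simp [tv]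

theorem tv_smul (t : K) (v : V4 K) (c : K) : tv (t • v) c = tv v (t ^ 2 * c) :=
  Matrix.ext_iff_mulVec.2 fun u => by simp [tv_mulVec]; module

theorem tv_neg (v : V4 K) (c : K) : tv (-v) c = tv v c :=
  Matrix.ext_iff_mulVec.2 fun u => by simp [tv_mulVec]

theorem sp_tv (v : V4 K) (c : K) : Sp (tv v c) := sp_of_B fun u w => by
  simp [tv_mulVec, B_swap v w]; ring

theorem ad_tv (v : V4 K) (c : K) : ad (tv v c) = tv v (-c) := by
  rw [← mul_one (ad _), ← tv_zero v, ← add_neg_cancel c, ← tv_mul, ← mul_assoc, (sp_tv v c).left, one_mul]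

theorem tv_cj {P : M4 K} (hP : Sp P) (v : V4 K) (c : K) : P * tv v c * ad P = tv (P *ᵥ v) c :=
  Matrix.ext_iff_mulVec.2 fun u => by
    rw [← mulVec_mulVec, ← mulVec_mulVec, tv_mulVec, tv_mulVec, mulVec_add, mulVec_mulVec, hP.right, one_mulVec,
      mulVec_smul, B_ad, ad_ad]

theorem exists_tv {X : M4 K} (hX : Sp X) (h : Rk1 (X - 1)) (h1 : X ≠ 1) : ∃ v c, v ≠ 0 ∧ c ≠ 0 ∧ X = tv v c := by
  obtain ⟨k, l, hkl⟩ : ∃ k l, (X - 1) k l ≠ 0 := by
    by_contra hne
    push Not at hne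
    exact h1 (sub_eq_zero.1 (Matrix.ext hne))
  obtain ⟨v, hv⟩ : ∃ v : V4 K, v = fun i => (X - 1) i l := ⟨_, rfl⟩
  have v0 : v ≠ 0 := fun e => hkl (by simpa [hv] using congrFun e k)
  have e1 : ∀ u, X *ᵥ u = u + (((X - 1) *ᵥ u) k / (X - 1) k l) • v := fun u => by
    rw [← sub_eq_iff_eq_add', show X *ᵥ u - u = (X - 1) *ᵥ u by rw [sub_mulVec, one_mulVec]]
    generalize X - 1 = N at h hkl hv
    ext i
    simp only [hv, mulVec, dotProduct, Fin.sum_univ_four, Pi.smul_apply, smul_eq_mul]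
    field_simp
    linear_combination u 0 * h i 0 k l + u 1 * h i 1 k l + u 2 * h i 2 k l + u 3 * h i 3 k l
  obtain ⟨w, hw⟩ := exists_B_one v0
  have e2 : X = tv v (-(((X - 1) *ᵥ w) k / (X - 1) k l)) := Matrix.ext_iff_mulVec.2 fun u => by
    have := hX.B_eq u w
    rw [e1 u, e1 w] at this
    simp only [B_add_left, B_add_right, B_smul_left, B_smul_right, B_self, hw] at this
    rw [e1 u, tv_mulVec]
    congr 2
    linear_combination this
  refine ⟨v, _, v0, fun e => h1 ?_, e2⟩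
  rw [e2, e, tv_zero]

/-- the element acting on the plane of `x, y` by a given matrix -/
def em (x y : V4 K) (α β γ δ : K) : M4 K := 1 + r1 ((α - 1) • x + γ • y) y - r1 (β • x + (δ - 1) • y) x

theorem em_mulVec (x y : V4 K) (α β γ δ : K) (u : V4 K) :
    em x y α β γ δ *ᵥ u = u + B u y • ((α - 1) • x + γ • y) - B u x • (β • x + (δ - 1) • y) := by
  rw [em, sub_mulVec, add_mulVec, one_mulVec, r1_mulVec, r1_mulVec]

theorem em_mul {x y : V4 K} (h : B x y = 1) (α β γ δ α' β' γ' δ' : K) : em x y α β γ δ * em x y α' β' γ' δ' =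
    em x y (α * α' + β * γ') (α * β' + β * δ') (γ * α' + δ * γ') (γ * β' + δ * δ') :=
  Matrix.ext_iff_mulVec.2 fun u => by
    simp only [← mulVec_mulVec, em_mulVec, B_add_left, B_sub_left, B_smul_left, B_self, h, B_swap y x]
    module

theorem em_up (x y : V4 K) (β : K) : em x y 1 β 0 1 = tv x (-β) :=
  Matrix.ext_iff_mulVec.2 fun u => by rw [em_mulVec, tv_mulVec]; module

theorem em_lo (x y : V4 K) (γ : K) : em x y 1 0 γ 1 = tv y γ :=
  Matrix.ext_iff_mulVec.2 fun u => by rw [em_mulVec, tv_mulVec]; module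

theorem s2_em (ρ : SRep T K) {x y : V4 K} (h : B x y = 1) :
    S2 fun α β γ δ => α * δ - β * γ = 1 ∧ GG ρ (em x y α β γ δ) :=
  ⟨⟨by simp, GG.one.congr (by rw [em_up, neg_zero, tv_zero])⟩, fun {a b c d a' b' c' d'} h1 h2 =>
    ⟨by linear_combination (a' * d' - b' * c') * h1.1 + h2.1, (h1.2.mul h2.2).congr (em_mul h ..).symm⟩, fun h => h.1⟩

theorem comm_tv {w w' r : V4 K} {c : K} (h : B w r = 0) (h' : B w' r = 0)
    (k1 : GG ρ (tv (w + r) c)) (k2 : GG ρ (tv (w - r) c)) (k3 : GG ρ (tv (w' + r) c)) (k4 : GG ρ (tv (w' - r) c)) :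
    GG ρ (tv r (8 * c ^ 2 * B w' w)) := by
  have e : ∀ {w : V4 K}, B w r = 0 → ∀ u, (tv (w + r) c * ad (tv (w - r) c)) *ᵥ u =
      u + (2 * c * B u w) • r + (2 * c * B u r) • w := fun {w} h u => by
    simp only [ad_tv, ← mulVec_mulVec, tv_mulVec, B_add_left, B_sub_left, B_smul_left, B_add_right, B_sub_right,
      B_self, h, B_swap r w]
    module
  have g1 := k1.mul k2.inv
  have g2 := k3.mul k4.inv
  refine ((g1.mul g2).mul (g2.mul g1).inv).congr ?_
  rw [← mul_one (tv r _), ← (g2.mul g1).sp.right, ← mul_assoc]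
  congr 1
  refine Matrix.ext_iff_mulVec.2 fun u => ?_
  rw [← mulVec_mulVec, ← mulVec_mulVec, ← mulVec_mulVec _ (_ * _), e h, e h', e h', e h, tv_mulVec]
  simp only [B_add_left, B_smul_left, B_self, h, h', B_swap r w, B_swap r w', B_swap w w']
  module

theorem all_sp (h : ∀ v c, GG ρ (tv v c)) {X : M4 K} (hX : Sp X) : GG ρ X := by
  let S := Form.PQ.ofAlt (B (K := K)) B_add_left B_smul_left B_swap B_self
  let M : Subgroup (V4 K ≃ₗ[K] V4 K) :=
    { carrier := {g | ∃ X, GG ρ X ∧ ∀ u, g u = X *ᵥ u}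
      one_mem' := ⟨1, GG.one, by simp⟩
      mul_mem' := fun ⟨X, hX, e⟩ ⟨Y, hY, e'⟩ => ⟨_, hX.mul hY, fun u => by simp [e, e']⟩
      inv_mem' := fun {g} ⟨X, hX, e⟩ => ⟨_, hX.inv, fun u => g.injective (by
        rw [e (ad X *ᵥ u), mulVec_mulVec, hX.sp.right, one_mulVec]; exact g.apply_symm_apply u)⟩ }
  have := H7.isom_le_of_ctr (S := S) (M := M) (fun x hx => B_nd hx) fun v => H7.ctr_iff.2 fun c =>
    ⟨_, h v c, fun u => by rw [H7.tv_apply, tv_mulVec]; rfl⟩
  obtain ⟨Y, hY, e⟩ := this (x := Matrix.toLin'OfInv hX.left hX.right)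
    ⟨fun u v => hX.B_eq u v, fun _ => trivial⟩
  exact hY.congr (Matrix.ext_iff_mulVec.2 e)

theorem trace_mem (E : Subfield K) {l : K} (l0 : l ≠ 0) [Finite K] {O : Set (V4 K)} (hO : Submodule.span K O = ⊤)
    (h1 : ∀ v ∈ O, ∀ w ∈ O, l * B v w ∈ E) : ∃ S : Subring (M4 K), (∀ X ∈ S, X.trace ∈ E) ∧
      ∀ X, (∀ v ∈ O, ∀ w ∈ O, l * B v (X *ᵥ w) ∈ E) → X ∈ S := by
  let b0 := Module.Basis.ofSpan hO.ge
  let b := b0.reindex (b0.indexEquiv (Pi.basisFun K (Fin 4)))
  have hb : ∀ i, b i ∈ O := fun i => Module.Basis.ofSpan_subset hO.ge ⟨_, (b0.reindex_apply _ _).symm⟩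
  let P : M4 K := (Matrix.of b)ᵀ
  obtain ⟨U, hU⟩ : IsUnit P := linearIndependent_cols_iff_isUnit.1 b.linearIndependent
  have e : ∀ (X : M4 K) i j, (l • (Pᵀ * J K * X * P)) i j = l * B (b i) (X *ᵥ b j) := fun X i j => by
    simp [P, J, B, mul_apply, mulVec, dotProduct, Fin.sum_univ_four, -mul_eq_mul_left_iff]; ring
  have hJ : IsUnit (l • (Pᵀ * J K * P)) := by
    rw [isUnit_iff_isUnit_det, isUnit_iff_ne_zero]
    have d1 : P.det ≠ 0 := ((isUnit_iff_isUnit_det _).1 ⟨U, hU⟩).ne_zero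
    have d2 : (J K).det ≠ 0 := fun e => by
      have := congrArg det (J_mul_J (K := K))
      rw [det_mul, e, zero_mul, det_neg] at this
      norm_num at this
    simp [l0, d1, d2]
  obtain ⟨n, n0, hn⟩ := isOfFinOrder_iff_pow_eq_one.1 hJ.isOfFinOrder
  refine ⟨E.toSubring.matrix.comap (MulSemiringAction.toRingHom _ _ (ConjAct.toConjAct U⁻¹)), fun X hX => ?_,
    fun X hX => ?_⟩
  · have : (U⁻¹.val * X * U.val).trace ∈ E := sum_mem fun i _ => by simpa [ConjAct.units_smul_def] using hX i i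
    rwa [trace_mul_cycle, Units.mul_inv, one_mul] at this
  · have k1 : l • (Pᵀ * J K * P) ∈ E.toSubring.matrix := fun i j => by
      have := e 1 i j
      rw [mul_one, one_mulVec] at this
      exact this ▸ h1 _ (hb i) _ (hb j)
    have k2 : l • (Pᵀ * J K * X * P) ∈ E.toSubring.matrix := fun i j => e X i j ▸ hX _ (hb i) _ (hb j)
    have k3 := mul_mem (pow_mem k1 (n - 1)) k2
    have : l • (Pᵀ * J K * X * P) = l • (Pᵀ * J K * P) * (U⁻¹.val * X * U.val) := by
      rw [← hU]; simp [mul_assoc]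
    rw [this, ← mul_assoc, ← pow_succ, Nat.sub_add_cancel n0, hn, one_mul] at k3
    simpa [ConjAct.units_smul_def] using k3

end Cfsg.Agent.H9.Mi
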