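import Cfsg.Agent.H9.MiB1

/-! Block matrices and symplectic bases. -/

set_option autoImplicit false

namespace Cfsg.Agent.H9.Mi

open Matrix Cfsg.Agent.H1.Mit

abbrev M2 (K : Type*) := Matrix (Fin 2) (Fin 2) K

variable {T K : Type*} [Group T] [Field K]

/-- block matrix -/
def blk (a b c d : M2 K) : M4 K :=
  !![a 0 0, a 0 1, b 0 0, b 0 1; a 1 0, a 1 1, b 1 0, b 1 1;
    c 0 0, c 0 1, d 0 0, d 0 1; c 1 0, c 1 1, d 1 0, d 1 1]

/-- the adjoint involution on blocks -/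
def sg (m : M2 K) : M2 K := !![m 1 1, m 0 1; m 1 0, m 0 0]

/-- block vector -/
def v2 (p q : Fin 2 → K) : V4 K := ![p 0, p 1, q 0, q 1]

theorem blk_mul (a b c d a' b' c' d' : M2 K) : blk a b c d * blk a' b' c' d' =
    blk (a * a' + b * c') (a * b' + b * d') (c * a' + d * c') (c * b' + d * d') := by
  ext i j; fin_cases i <;> fin_cases j <;>
    simp [blk, Matrix.mul_apply, Fin.sum_univ_four, Fin.sum_univ_two] <;> ring

omit [Field K] in
theorem blk_inj {a b c d a' b' c' d' : M2 K} :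
    blk a b c d = blk a' b' c' d' ↔ a = a' ∧ b = b' ∧ c = c' ∧ d = d' := by
  constructor
  · intro h
    have k := fun i j => congrFun (congrFun h i) j
    refine ⟨?_, ?_, ?_, ?_⟩ <;> ext i j <;> fin_cases i <;> fin_cases j
    exacts [k 0 0, k 0 1, k 1 0, k 1 1, k 0 2, k 0 3, k 1 2, k 1 3, k 2 0, k 2 1, k 3 0, k 3 1,
      k 2 2, k 2 3, k 3 2, k 3 3]
  · rintro ⟨rfl, rfl, rfl, rfl⟩
    rfl

omit [Field K] in
theorem exists_blk (X : M4 K) : ∃ a b c d, X = blk a b c d :=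
  ⟨!![X 0 0, X 0 1; X 1 0, X 1 1], !![X 0 2, X 0 3; X 1 2, X 1 3], !![X 2 0, X 2 1; X 3 0, X 3 1],
    !![X 2 2, X 2 3; X 3 2, X 3 3], by ext i j; fin_cases i <;> fin_cases j <;> rfl⟩

theorem one_eq_blk : (1 : M4 K) = blk 1 0 0 1 := by
  ext i j; fin_cases i <;> fin_cases j <;> simp [blk]

theorem zero_eq_blk : (0 : M4 K) = blk 0 0 0 0 := by
  ext i j; fin_cases i <;> fin_cases j <;> simp [blk]

theorem blk_sub (a b c d a' b' c' d' : M2 K) :
    blk a b c d - blk a' b' c' d' = blk (a - a') (b - b') (c - c') (d - d') := by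
  ext i j; fin_cases i <;> fin_cases j <;> simp [blk]

theorem blk_add (a b c d a' b' c' d' : M2 K) :
    blk a b c d + blk a' b' c' d' = blk (a + a') (b + b') (c + c') (d + d') := by
  ext i j; fin_cases i <;> fin_cases j <;> simp [blk]

theorem blk_neg (a b c d : M2 K) : -blk a b c d = blk (-a) (-b) (-c) (-d) := by
  ext i j; fin_cases i <;> fin_cases j <;> simp [blk]

theorem blk_smul (t : K) (a b c d : M2 K) : t • blk a b c d = blk (t • a) (t • b) (t • c) (t • d) := by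
  ext i j; fin_cases i <;> fin_cases j <;> simp [blk]

theorem blk_eq_zero {a b c d : M2 K} : blk a b c d = 0 ↔ a = 0 ∧ b = 0 ∧ c = 0 ∧ d = 0 := by
  rw [zero_eq_blk, blk_inj]

theorem ad_blk (a b c d : M2 K) : ad (blk a b c d) = blk (sg d) (-sg b) (-sg c) (sg a) := by
  rw [ad_eq]
  ext i j; fin_cases i <;> fin_cases j <;> simp [blk, sg]

@[simp] theorem sg_mul (a b : M2 K) : sg (a * b) = sg b * sg a := by
  ext i j; fin_cases i <;> fin_cases j <;> simp [sg, Matrix.mul_apply, Fin.sum_univ_two] <;> ring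

omit [Field K] in
@[simp] theorem sg_sg (a : M2 K) : sg (sg a) = a := by
  ext i j; fin_cases i <;> fin_cases j <;> simp [sg]

@[simp] theorem sg_one : sg (1 : M2 K) = 1 := by
  ext i j; fin_cases i <;> fin_cases j <;> simp [sg]

@[simp] theorem sg_zero : sg (0 : M2 K) = 0 := by
  ext i j; fin_cases i <;> fin_cases j <;> simp [sg]

@[simp] theorem sg_add (a b : M2 K) : sg (a + b) = sg a + sg b := by
  ext i j; fin_cases i <;> fin_cases j <;> simp [sg]

@[simp] theorem sg_sub (a b : M2 K) : sg (a - b) = sg a - sg b := by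
  ext i j; fin_cases i <;> fin_cases j <;> simp [sg]

@[simp] theorem sg_neg (a : M2 K) : sg (-a) = -sg a := by
  ext i j; fin_cases i <;> fin_cases j <;> simp [sg]

@[simp] theorem sg_smul (t : K) (a : M2 K) : sg (t • a) = t • sg a := by
  ext i j; fin_cases i <;> fin_cases j <;> simp [sg]

theorem det_sg (a : M2 K) : (sg a).det = a.det := by simp [sg, det_fin_two, mul_comm]

theorem blk_mulVec (a b c d : M2 K) (p q : Fin 2 → K) :
    blk a b c d *ᵥ v2 p q = v2 (a *ᵥ p + b *ᵥ q) (c *ᵥ p + d *ᵥ q) := by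
  ext i; fin_cases i <;>
    simp [blk, v2, mulVec, dotProduct, Fin.sum_univ_four] <;> ring

omit [Field K] in
theorem v2_inj {p q p' q' : Fin 2 → K} : v2 p q = v2 p' q' ↔ p = p' ∧ q = q' := by
  constructor
  · intro h
    have k := fun i => congrFun h i
    refine ⟨?_, ?_⟩ <;> ext i <;> fin_cases i
    exacts [k 0, k 1, k 2, k 3]
  · rintro ⟨rfl, rfl⟩
    rfl

theorem v2_add (p q p' q' : Fin 2 → K) : v2 p q + v2 p' q' = v2 (p + p') (q + q') := by
  ext i; fin_cases i <;> simp [v2]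

theorem v2_smul (t : K) (p q : Fin 2 → K) : t • v2 p q = v2 (t • p) (t • q) := by
  ext i; fin_cases i <;> simp [v2]

theorem v2_eq_zero {p q : Fin 2 → K} : v2 p q = 0 ↔ p = 0 ∧ q = 0 := by
  rw [← v2_inj]
  have : v2 (0 : Fin 2 → K) 0 = 0 := by ext i; fin_cases i <;> simp [v2]
  rw [this]

omit [Field K] in
theorem exists_v2 (x : V4 K) : ∃ p q, x = v2 p q :=
  ⟨![x 0, x 1], ![x 2, x 3], by ext i; fin_cases i <;> rfl⟩

/-- upper unitriangular block matrix -/
def up (A : M2 K) : M4 K := blk 1 A 0 1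

/-- lower unitriangular block matrix -/
def lo (A : M2 K) : M4 K := blk 1 0 A 1

theorem up_mul (A B : M2 K) : up A * up B = up (A + B) := by simp [up, blk_mul, add_comm]

theorem lo_mul (A B : M2 K) : lo A * lo B = lo (A + B) := by simp [lo, blk_mul]

theorem up_zero : up (0 : M2 K) = 1 := one_eq_blk.symm

theorem lo_zero : lo (0 : M2 K) = 1 := one_eq_blk.symm

theorem up_sub_one (A : M2 K) : up A - 1 = blk 0 A 0 0 := by simp [up, one_eq_blk, blk_sub]

theorem lo_sub_one (A : M2 K) : lo A - 1 = blk 0 0 A 0 := by simp [lo, one_eq_blk, blk_sub]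

theorem ad_up (A : M2 K) : ad (up A) = up (-sg A) := by simp [up, ad_blk]

theorem ad_lo (A : M2 K) : ad (lo A) = lo (-sg A) := by simp [lo, ad_blk]

theorem up_inj {A B : M2 K} : up A = up B ↔ A = B := by simp [up, blk_inj]

theorem lo_inj {A B : M2 K} : lo A = lo B ↔ A = B := by simp [lo, blk_inj]

theorem sp_up {A : M2 K} : Sp (up A) ↔ sg A = A := by
  rw [Sp, ad_up, up_mul, ← up_zero, up_inj, neg_add_eq_zero]

theorem sp_lo {A : M2 K} : Sp (lo A) ↔ sg A = A := by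
  rw [Sp, ad_lo, lo_mul, ← lo_zero, lo_inj, neg_add_eq_zero]

theorem up_pow (A : M2 K) (n : ℕ) : up A ^ n = up ((n : K) • A) := by
  induction n with
  | zero => simp [up_zero]
  | succ n ih => rw [pow_succ, ih, up_mul, Nat.cast_succ, add_smul, one_smul]

theorem rk1_up {A : M2 K} (h : A.det = 0) : Rk1 (up A - 1) := by
  rw [det_fin_two] at h
  rw [up_sub_one]
  intro i j k l
  fin_cases i <;> fin_cases j <;> fin_cases k <;> fin_cases l <;> simp [blk] <;>
    first | ring1 | linear_combination h | linear_combination -h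

/-- the set of all lifts -/
def GG (ρ : SRep T K) (X : M4 K) : Prop := ∃ x, ρ.L x X

namespace GG

variable {ρ : SRep T K} {X Y : M4 K}

theorem one : GG ρ 1 := ⟨1, ρ.oneL⟩

theorem mul (hX : GG ρ X) (hY : GG ρ Y) : GG ρ (X * Y) :=
  hX.elim fun _ h => hY.elim fun _ h' => ⟨_, h.mul h'⟩

theorem inv (hX : GG ρ X) : GG ρ (ad X) := hX.elim fun _ h => ⟨_, h.inv⟩

theorem neg (hX : GG ρ X) : GG ρ (-X) := hX.elim fun _ h => ⟨_, h.neg⟩

theorem pow (hX : GG ρ X) (n : ℕ) : GG ρ (X ^ n) := hX.elim fun _ h => ⟨_, h.pow n⟩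

theorem sp (hX : GG ρ X) : Sp X := hX.elim fun _ h => h.sp

theorem congr (hX : GG ρ X) (e : Y = X) : GG ρ Y := e ▸ hX

theorem tv (hX : GG ρ X) (h : ρ.NoTv) (e : Rk1 (X - 1)) : X = 1 := hX.elim fun x hx => h x X hx e

theorem cj (hX : GG ρ X) {P : M4 K} (hP : Sp P) : GG (ρ.cj P hP) (ad P * X * P) :=
  hX.elim fun _ h => ⟨_, h.cj hP⟩

theorem map (hX : GG ρ X) {E : Type*} [Field E] (φ : K →+* E) : GG (ρ.map φ) (X.map φ) :=
  hX.elim fun _ h => ⟨_, h.map φ⟩

end GG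

theorem GG_cj {ρ : SRep T K} {P X : M4 K} {hP : Sp P} :
    GG (ρ.cj P hP) X ↔ GG ρ (P * X * ad P) := Iff.rfl

/-- quadratic elements -/
def Qd (X : M4 K) : Prop := (X - 1) * (X - 1) = 0

theorem Qd.ad_sub {X : M4 K} (h : Qd X) (hX : Sp X) : ad (X - 1) = -(X - 1) := by
  have h1 : (1 - (X - 1)) * X = 1 := by
    have : (1 - (X - 1)) * X = 1 - (X - 1) * (X - 1) := by noncomm_ring
    rw [this, h, sub_zero]
  have h2 : ad X = 1 - (X - 1) := by
    calc ad X = (1 - (X - 1)) * X * ad X := by rw [h1, one_mul]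
      _ = _ := by rw [mul_assoc, hX.right, mul_one]
  rw [H1.Mit.ad_sub, h2, ad_one]
  abel

theorem Qd.B_eq {X : M4 K} (h : Qd X) (hX : Sp X) (u v : V4 K) :
    B ((X - 1) *ᵥ u) v = -B u ((X - 1) *ᵥ v) := by
  rw [B_ad, h.ad_sub hX, neg_mulVec, B_neg_right]

theorem Qd.fix {X : M4 K} (h : Qd X) (u : V4 K) : X *ᵥ ((X - 1) *ᵥ u) = (X - 1) *ᵥ u := by
  have : (X - 1) *ᵥ ((X - 1) *ᵥ u) = 0 := by rw [mulVec_mulVec, h, zero_mulVec]
  rwa [sub_mulVec X, one_mulVec, sub_eq_zero] at this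

theorem cj_sub_one {P X : M4 K} (hP : Sp P) : P * X * ad P - 1 = P * (X - 1) * ad P := by
  rw [mul_sub, sub_mul, mul_one, hP.right]

theorem cj_mul {P X Y : M4 K} (hP : Sp P) : P * X * ad P * (P * Y * ad P) = P * (X * Y) * ad P := by
  calc _ = P * (X * (ad P * P) * Y) * ad P := by simp only [mul_assoc]
    _ = _ := by rw [hP.left, mul_one]

theorem Qd.cj {X P : M4 K} (h : Qd X) (hP : Sp P) : Qd (P * X * ad P) := by
  rw [Qd, cj_sub_one hP, cj_mul hP, h, mul_zero, zero_mul]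

theorem Qd.cj' {X P : M4 K} (h : Qd X) (hP : Sp P) : Qd (ad P * X * P) := by
  simpa using h.cj hP.inv

theorem cj_ne_one {X P : M4 K} (h : X ≠ 1) (hP : Sp P) : P * X * ad P ≠ 1 := fun e =>
  h (SRep.conj_cancel hP (e.trans (by rw [mul_one, hP.right])))

theorem cj_ne_one' {X P : M4 K} (h : X ≠ 1) (hP : Sp P) : ad P * X * P ≠ 1 := by
  simpa using cj_ne_one h hP.inv

theorem qd_up (A : M2 K) : Qd (up A) := by simp [Qd, up_sub_one, blk_mul, blk_eq_zero]

theorem qd_lo (A : M2 K) : Qd (lo A) := by simp [Qd, lo_sub_one, blk_mul, blk_eq_zero]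

theorem exists_B_ne {v : V4 K} (h : v ≠ 0) : ∃ w, B v w ≠ 0 := by
  by_contra h1
  push Not at h1
  exact h (B_nd h1)

theorem exists_B_one {v : V4 K} (h : v ≠ 0) : ∃ w, B v w = 1 := by
  obtain ⟨w, hw⟩ := exists_B_ne h
  exact ⟨(B v w)⁻¹ • w, by simp [hw]⟩

theorem basis3 {a b c : V4 K} (ha : a ≠ 0) (h01 : B a b = 0) (h02 : B a c = 0) (h12 : B b c = 1) :
    ∃ d, Sp (col4 a b c d) := by
  obtain ⟨y, hy⟩ := exists_B_one ha
  refine ⟨y + B c y • b - B b y • c, sp_col4 h01 h02 ?_ h12 ?_ ?_⟩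
  · simp [hy, h01, h02]
  · simp [h12]
  · simp [B_swap c b, h12]

theorem basis2 {a b : V4 K} (ha : a ≠ 0) (hb : ∀ t : K, b ≠ t • a) (h01 : B a b = 0) :
    ∃ c d, Sp (col4 a b c d) := by
  obtain ⟨y, hy⟩ := exists_B_one ha
  obtain ⟨z, hz⟩ := exists_B_one (sub_ne_zero.2 (hb (B b y)))
  refine ⟨z - B a z • y, basis3 ha h01 (by simp [hy]) ?_⟩
  simp only [B_sub_left, B_smul_left] at hz
  simp only [B_sub_right, B_smul_right]
  linear_combination hz

theorem cj_col {a b c d : V4 K} (h : Sp (col4 a b c d)) (X : M4 K) (x : V4 K) :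
    (ad (col4 a b c d) * X * col4 a b c d) *ᵥ x = x ↔
      X *ᵥ (col4 a b c d *ᵥ x) = col4 a b c d *ᵥ x := by
  constructor
  · intro e
    have := congrArg (col4 a b c d *ᵥ ·) e
    simpa only [mulVec_mulVec, ← mul_assoc, h.right, one_mul] using this
  · intro e
    rw [← mulVec_mulVec, ← mulVec_mulVec, e, mulVec_mulVec, h.left, one_mulVec]

theorem col_eq_zero {X : M4 K} {j : Fin 4} (h : X *ᵥ Pi.single j 1 = Pi.single j 1) (i : Fin 4) :
    (X - 1) i j = 0 := by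
  have := congrFun h i
  simp only [mulVec_single_one, Matrix.col_apply] at this
  simp [this, Matrix.one_apply, Pi.single_apply]

theorem eq_up {X : M4 K} (h : Qd X) (hX : Sp X) (h0 : X *ᵥ Pi.single 0 1 = Pi.single 0 1)
    (h1 : X *ᵥ Pi.single 1 1 = Pi.single 1 1) : ∃ A, X = up A := by
  have k0 := col_eq_zero h0
  have k1 := col_eq_zero h1
  have k2 := h.ad_sub hX
  generalize hN : X - 1 = N at k0 k1 k2
  rw [ad_eq] at k2
  have k := fun i j => congrFun (congrFun k2 i) j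
  refine ⟨!![N 0 2, N 0 3; N 1 2, N 1 3], ?_⟩
  rw [← sub_left_inj (a := 1), hN, up_sub_one]
  have e1 := k 0 0
  have e2 := k 0 1
  have e3 := k 1 0
  have e4 := k 1 1
  simp [k0, k1] at e1 e2 e3 e4
  ext i j; fin_cases i <;> fin_cases j <;> simp [blk, *]

theorem coords {ρ : SRep T K} (hT : ρ.NoTv) {X : M4 K} (hX : GG ρ X) (h : Qd X) (h1 : X ≠ 1) :
    ∃ P A, Sp P ∧ A ≠ 0 ∧ ad P * X * P = up A := by
  have h2 : ¬ Rk1 (X - 1) := fun e => h1 (hX.tv hT e)
  unfold Rk1 at h2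
  push Not at h2
  obtain ⟨i, j, k, l, h2⟩ := h2
  have ha : (X - 1) *ᵥ Pi.single j 1 ≠ 0 := by
    intro e
    have e1 := congrFun e i
    have e2 := congrFun e k
    simp only [mulVec_single_one, Matrix.col_apply, Pi.zero_apply] at e1 e2
    exact h2 (by rw [e1, e2, zero_mul, mul_zero])
  have hb : ∀ t : K, (X - 1) *ᵥ Pi.single l 1 ≠ t • (X - 1) *ᵥ Pi.single j 1 := by
    intro t e
    have e1 := congrFun e i
    have e2 := congrFun e k
    simp only [mulVec_single_one, Matrix.col_apply, Pi.smul_apply, smul_eq_mul] at e1 e2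
    exact h2 (by rw [e1, e2]; ring)
  have hab : B ((X - 1) *ᵥ Pi.single j 1) ((X - 1) *ᵥ Pi.single l 1) = 0 := by
    rw [h.B_eq hX.sp, mulVec_mulVec, h, zero_mulVec, B_zero_right, neg_zero]
  have fa := h.fix (Pi.single j 1)
  have fb := h.fix (Pi.single l 1)
  generalize (X - 1) *ᵥ Pi.single j 1 = a at ha hb hab fa
  generalize (X - 1) *ᵥ Pi.single l 1 = b at hb hab fb
  obtain ⟨c, d, hP⟩ := basis2 ha hb hab
  obtain ⟨A, hA⟩ := eq_up (h.cj' hP) ((hP.inv.mul hX.sp).mul hP)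
    ((cj_col hP _ _).2 (by rw [col4_mulVec]; simpa using fa))
    ((cj_col hP _ _).2 (by rw [col4_mulVec]; simpa using fb))
  refine ⟨_, A, hP, ?_, hA⟩
  rintro rfl
  exact cj_ne_one' h1 hP (hA.trans up_zero)

end Cfsg.Agent.H9.Mi
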