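import Cfsg.Agent.H9.MiB2
import Cfsg.Agent.MH.Grp

/-! The centre group of a quadratic element is a Sylow subgroup. -/

set_option autoImplicit false

namespace Cfsg.Agent.H9.Mi

open Matrix Cfsg.Agent.H1.Mit

variable {T K : Type*} [Group T] [Field K] {ρ : SRep T K}

theorem Qd.neg_false {X : M4 K} (h2 : (2 : K) ≠ 0) (h : Qd X) (h' : Qd (-X)) : False := by
  have e : (4 : K) • X = 0 := by
    have : (4 : K) • X = (-X - 1) * (-X - 1) - (X - 1) * (X - 1) := by
      rw [show (4 : K) = 1 + 1 + 1 + 1 by norm_num]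
      simp only [add_smul, one_smul]
      noncomm_ring
    rw [this, h, h', sub_zero]
  have h4 : (4 : K) ≠ 0 := by
    rw [show (4 : K) = 2 * 2 by norm_num]; exact mul_ne_zero h2 h2
  have e0 := (smul_eq_zero.1 e).resolve_left h4
  subst e0
  simp [Qd] at h

theorem inv2 {A : M2 K} (h : A.det ≠ 0) : ∃ A', A' * A = 1 ∧ A * A' = 1 :=
  ⟨A⁻¹, nonsing_inv_mul _ (Ne.isUnit h), mul_nonsing_inv _ (Ne.isUnit h)⟩

theorem cancel_r {A n : M2 K} (h : A.det ≠ 0) (e : n * A = 0) : n = 0 := by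
  obtain ⟨A', -, h2⟩ := inv2 h
  rw [← mul_one n, ← h2, ← mul_assoc, e, zero_mul]

theorem cancel_l {A n : M2 K} (h : A.det ≠ 0) (e : A * n = 0) : n = 0 := by
  obtain ⟨A', h1, -⟩ := inv2 h
  rw [← one_mul n, ← h1, mul_assoc, e, mul_zero]

theorem cancel_v {A : M2 K} {v : Fin 2 → K} (h : A.det ≠ 0) (e : A *ᵥ v = 0) : v = 0 := by
  obtain ⟨A', h1, -⟩ := inv2 h
  rw [← one_mulVec v, ← h1, ← mulVec_mulVec, e, mulVec_zero]

namespace GG

variable {A B : M2 K}

theorem up_sg (h : GG ρ (up A)) : sg A = A := sp_up.1 h.sp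

theorem up_add (h : GG ρ (up A)) (h' : GG ρ (up B)) : GG ρ (up (A + B)) := (h.mul h').congr (up_mul _ _).symm

theorem up_neg (h : GG ρ (up A)) : GG ρ (up (-A)) := h.inv.congr (by rw [ad_up, h.up_sg])

theorem up_sub (h : GG ρ (up A)) (h' : GG ρ (up B)) : GG ρ (up (A - B)) := by
  rw [sub_eq_add_neg]; exact h.up_add h'.up_neg

theorem up_half [Finite K] (h2 : (2 : K) ≠ 0) (h : GG ρ (up (A + A))) : GG ρ (up A) := by
  obtain ⟨n, hn⟩ := exists_cast_half h2
  refine (h.pow n).congr ?_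
  rw [up_pow, ← two_smul K, smul_smul, hn, one_smul]

theorem up_det (hT : ρ.NoTv) (h : GG ρ (up A)) (h0 : A ≠ 0) : A.det ≠ 0 := fun e =>
  h0 (up_inj.1 ((h.tv hT (rk1_up e)).trans up_zero.symm))

theorem lo_sg (h : GG ρ (lo A)) : sg A = A := sp_lo.1 h.sp

theorem lo_neg (h : GG ρ (lo A)) : GG ρ (lo (-A)) := h.inv.congr (by rw [ad_lo, h.lo_sg])

theorem up_conj {a b d : M2 K} (hY : GG ρ (blk a b 0 d)) (h : GG ρ (up A)) : GG ρ (up (a * A * sg a)) := by
  have e := hY.sp.right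
  rw [ad_blk, blk_mul, one_eq_blk, blk_inj] at e
  obtain ⟨e1, e2, -, e4⟩ := e
  refine ((hY.mul h).mul hY.inv).congr ?_
  simp only [sg_zero, neg_zero, mul_zero, add_zero, zero_mul, zero_add] at e1 e4
  rw [ad_blk, up, up, blk_mul, blk_mul, blk_inj]
  refine ⟨by simp [e1], ?_, by simp, by simp [e4]⟩
  calc _ = a * A * sg a + (a * -sg b + b * sg a) := by rw [e2, add_zero]
    _ = _ := by noncomm_ring

end GG

theorem blk_pow (a b d : M2 K) (n : ℕ) : ∃ b', blk a b 0 d ^ n = blk (a ^ n) b' 0 (d ^ n) := by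
  induction n with
  | zero => exact ⟨0, by simp [one_eq_blk]⟩
  | succ n ih =>
    obtain ⟨b', e⟩ := ih
    exact ⟨_, by rw [pow_succ, e, blk_mul]; simp only [mul_zero, add_zero, zero_mul, zero_add, ← pow_succ]; rfl⟩

theorem nil2 {n : M2 K} {N : ℕ} (h : n ^ N = 0) : n * n = 0 ∧ n.det = 0 := by
  have h1 : n.trace = 0 := (Matrix.isNilpotent_trace_of_isNilpotent ⟨N, h⟩).eq_zero
  have h2 : n.det = 0 := IsNilpotent.eq_zero ⟨N, by rw [← det_pow, h, det_zero]⟩
  refine ⟨?_, h2⟩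
  rw [trace_fin_two] at h1
  rw [det_fin_two] at h2
  ext i j; fin_cases i <;> fin_cases j <;> simp [mul_apply, Fin.sum_univ_two]
  · linear_combination n 0 0 * h1 - h2
  · linear_combination n 0 1 * h1
  · linear_combination n 1 0 * h1
  · linear_combination n 1 1 * h1 - h2

theorem ll_zero (h2 : (2 : K) ≠ 0) (hT : ρ.NoTv) {A A' a b c d : M2 K} (hA : GG ρ (up A)) (h0 : A ≠ 0)
    (hY : Sp (blk a b c d)) (e : blk a b c d * up A * ad (blk a b c d) = up A' ∨
      blk a b c d * up A * ad (blk a b c d) = -up A') : c = 0 := by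
  have e1 : blk a b c d * up A * ad (blk a b c d) = up A' := e.resolve_right fun e =>
    ((qd_up A).cj hY).neg_false h2 (by rw [e, neg_neg]; exact qd_up A')
  have e2 : blk a b c d * up A = up A' * blk a b c d := by
    rw [← e1, mul_assoc _ (ad _), hY.left, mul_one]
  rw [up, up, blk_mul, blk_mul, blk_inj] at e2
  exact cancel_r (hA.up_det hT h0) (by simpa using e2.2.2.2)

theorem eq_up_of_pow (h2 : (2 : K) ≠ 0) (hT : ρ.NoTv) {A a b d : M2 K} (hA : GG ρ (up A)) (h0 : A ≠ 0)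
    (hY : GG ρ (blk a b 0 d)) {N : ℕ} (hN : (a - 1) ^ N = 0) : blk a b 0 d = up b := by
  obtain ⟨n1, n2⟩ := nil2 hN
  obtain ⟨n, rfl⟩ : ∃ n, a = 1 + n := ⟨a - 1, by abel⟩
  rw [add_sub_cancel_left] at n1 n2
  have n3 : sg n * sg n = 0 := by rw [← sg_mul, n1, sg_zero]
  have k1 := (hY.up_conj hA).up_sub hA
  have k2 := (hY.up_conj k1).up_sub k1
  have e2 : (1 + n) * ((1 + n) * A * sg (1 + n) - A) * sg (1 + n) - ((1 + n) * A * sg (1 + n) - A) =
      (2 : K) • (n * A * sg n) := by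
    have : (1 + n) * ((1 + n) * A * sg (1 + n) - A) * sg (1 + n) - ((1 + n) * A * sg (1 + n) - A) =
      n * A * sg n + n * A * sg n + n * n * (A + A * sg n + A * sg n + A * sg n * sg n) +
        (A + n * A + n * A) * (sg n * sg n) := by
      rw [sg_add, sg_one]; noncomm_ring
    rw [this, n1, n3, two_smul]; simp
  rw [e2] at k2
  have e3 : n * A * sg n = 0 := by
    by_contra h
    refine k2.up_det hT (smul_ne_zero h2 h) ?_
    simp [n2]
  have e1 : (1 + n) * A * sg (1 + n) - A = n * A + A * sg n := by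
    rw [sg_add, sg_one, ← add_zero (n * A + A * sg n), ← e3]; noncomm_ring
  rw [e1] at k1
  have hn : n = 0 := by
    by_cases h : n * A + A * sg n = 0
    · refine cancel_r (hA.up_det hT h0) ?_
      have d0 : (n * A).det = 0 := by simp [n2]
      have : A * sg n = sg (n * A) := by rw [sg_mul, hA.up_sg]
      rw [this] at h
      generalize n * A = M at h d0
      have k := fun i j => congrFun (congrFun h i) j
      have k01 := k 0 1
      have k10 := k 1 0
      have k00 := k 0 0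
      simp [sg, ← two_mul, h2] at k01 k10 k00
      rw [det_fin_two, k01, zero_mul, sub_zero] at d0
      have : M 0 0 = 0 := by
        have : M 0 0 * M 0 0 = 0 := by linear_combination M 0 0 * k00 - d0
        simpa using this
      have k11 : M 1 1 = 0 := by linear_combination k00 - this
      ext i j; fin_cases i <;> fin_cases j <;> simp [*]
    · refine cancel_r (k1.up_det hT h) ?_
      rw [mul_add, ← mul_assoc, n1, ← mul_assoc, e3]; simp
  subst hn
  have e := hY.sp.right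
  rw [ad_blk, blk_mul, one_eq_blk, blk_inj] at e
  have : d = 1 := by simpa using e.2.2.2
  simp [up, this]

/-- the group of elements with an upper unitriangular lift -/
def EU (ρ : SRep T K) : Subgroup T where
  carrier := {x | ∃ A, ρ.L x (up A)}
  one_mem' := ⟨0, ρ.oneL.congr up_zero⟩
  mul_mem' := fun ⟨_, h⟩ ⟨_, h'⟩ => ⟨_, (h.mul h').congr (up_mul _ _).symm⟩
  inv_mem' := fun ⟨_, h⟩ => ⟨_, h.inv.congr (ad_up _).symm⟩

theorem exists_sylow [Finite K] (h2 : (2 : K) ≠ 0) (hT : ρ.NoTv) {A : M2 K} (hA : GG ρ (up A)) (h0 : A ≠ 0) :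
    ∃ P : Sylow (ringChar K) T, (P : Subgroup T) = EU ρ := by
  have := ρ.finite
  have hp : Fact (ringChar K).Prime := ⟨CharP.char_is_prime K _⟩
  have hE : IsPGroup (ringChar K) (EU ρ) := fun ⟨x, B, hB⟩ => ⟨1, Subtype.ext (by
    refine ((hB.pow _).eq_one_iff).2 (Or.inl ?_)
    rw [up_pow, pow_one, CharP.cast_eq_zero, zero_smul, up_zero])⟩
  obtain ⟨P, hP⟩ := hE.exists_le_sylow
  refine ⟨P, le_antisymm ?_ hP⟩
  by_contra hne
  have := P.isPGroup'.isNilpotent
  obtain ⟨x, hx, hx'⟩ := SetLike.exists_of_lt (Group.normalizerCondition_of_isNilpotent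
    ((EU ρ).subgroupOf P) (lt_top_iff_ne_top.2 fun e => hne (Subgroup.subgroupOf_eq_top.1 e)))
  obtain ⟨j, hj⟩ := P.isPGroup' x
  have hj' : x.1 ^ ringChar K ^ j = 1 := congrArg Subtype.val hj
  have hodd : Odd (ringChar K ^ j) := (hp.out.odd_of_ne_two fun e => h2 (by
    simpa [e] using CharP.cast_eq_zero K (ringChar K))).pow
  obtain ⟨Y, hY, hY1⟩ : ∃ Y, ρ.L x.1 Y ∧ Y ^ ringChar K ^ j = 1 := by
    obtain ⟨Y, hY⟩ := ρ.exL x.1
    rcases (hY.pow _).eq_one_iff.1 hj' with e | e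
    · exact ⟨Y, hY, e⟩
    · exact ⟨-Y, hY.neg, by rw [hodd.neg_pow, e, neg_neg]⟩
  obtain ⟨a, b, c, d, rfl⟩ := exists_blk Y
  obtain ⟨y, hy⟩ := id hA
  obtain ⟨A', hA'⟩ := (Subgroup.mem_normalizer_iff.1 hx ⟨y, hP ⟨A, hy⟩⟩).1 ⟨A, hy⟩
  have hc := ll_zero h2 hT hA h0 hY.sp (hA'.uniq (hY.conj hy))
  subst hc
  obtain ⟨b', e⟩ := blk_pow a b d (ringChar K ^ j)
  rw [e, one_eq_blk, blk_inj] at hY1
  refine hx' ⟨b, hY.congr (eq_up_of_pow h2 hT hA h0 ⟨_, hY⟩ (N := ringChar K ^ j) ?_).symm⟩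
  rw [sub_pow_char_pow_of_commute _ _ (Commute.one_right a), hY1.1, one_pow, sub_self]

theorem big [Finite K] (h2 : (2 : K) ≠ 0) (hT : ρ.NoTv) (hB : ¬ ((3 : K) = 0 ∧ ¬ 9 ∣ Nat.card T))
    {A : M2 K} (hA : GG ρ (up A)) (h0 : A ≠ 0) :
    ∃ A', GG ρ (up A') ∧ A' ≠ 0 ∧ A' ≠ A ∧ A' ≠ -A := by
  by_cases h3 : (3 : K) = 0
  · have := ρ.finite
    have hp : Fact (ringChar K).Prime := ⟨CharP.char_is_prime K _⟩
    obtain ⟨P, hP⟩ := exists_sylow h2 hT hA h0
    have e3 : ringChar K = 3 := CharP.ringChar_of_prime_eq_zero Nat.prime_three (by simpa using h3)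
    have h9 : ringChar K ^ 2 ∣ Nat.card T := by
      rw [e3]; by_contra h; exact hB ⟨h3, h⟩
    have h9' := Nat.le_of_dvd Nat.card_pos (P.pow_dvd_card_of_pow_dvd_card h9)
    by_contra hne
    push Not at hne
    obtain ⟨y, hy⟩ := id hA
    have : ((P : Subgroup T) : Set T) ⊆ {1, y, y⁻¹} := by
      rw [hP]
      rintro x ⟨B, hx⟩
      by_cases e0 : B = 0
      · exact Or.inl (hx.eq_one_iff.2 (Or.inl (by rw [e0, up_zero])))
      by_cases e1 : B = A
      · exact Or.inr (Or.inl (hx.inj (e1 ▸ hy)))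
      · exact Or.inr (Or.inr (hx.inj (hy.inv.congr (by rw [ad_up, hA.up_sg, hne B ⟨_, hx⟩ e0 e1]))))
    have h4 := (Set.ncard_le_ncard this).trans (Set.ncard_insert_le _ _ |>.trans
      (Nat.succ_le_succ (Set.ncard_insert_le _ _)))
    rw [MH.ncard_coe, Set.ncard_singleton] at h4
    have h5 := h9'.trans h4
    rw [e3] at h5
    omega
  · refine ⟨A + A, hA.up_add hA, ?_, by simpa using h0, ?_⟩
    · rw [← two_smul K]; exact smul_ne_zero h2 h0
    · intro e
      refine smul_ne_zero h3 h0 ?_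
      rw [show (3 : K) = 1 + 1 + 1 by norm_num, add_smul, add_smul, one_smul, e, neg_add_cancel]

theorem exists_qd_pow [Finite K] (h2 : (2 : K) ≠ 0) (hT : ρ.NoTv) {A : M2 K} (hA : GG ρ (up A)) (h0 : A ≠ 0)
    {Y : M4 K} (hY : GG ρ Y) {w : V4 K} (hw : w ≠ 0) (hYw : Y *ᵥ w = w) :
    ∃ m : ℕ, (m : K) = 1 ∧ Qd (Y ^ m) := by
  have := ρ.finite
  have := Fintype.ofFinite K
  have hp : (ringChar K).Prime := CharP.char_is_prime K _
  obtain ⟨P, hP⟩ := exists_sylow h2 hT hA h0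
  obtain ⟨y, hy⟩ := hY
  obtain ⟨k, n, hn, e⟩ := Nat.exists_eq_pow_mul_and_not_dvd (orderOf_pos y).ne' _ hp.ne_one
  have hn' : (n : K) ≠ 0 := fun e => hn ((ringChar.spec K n).1 e)
  refine ⟨n ^ (Fintype.card K - 1), by rw [Nat.cast_pow, FiniteField.pow_card_sub_one_eq_one _ hn'], ?_⟩
  obtain ⟨r, hr⟩ : n ∣ n ^ (Fintype.card K - 1) := dvd_pow_self _ (Nat.sub_ne_zero_of_lt Fintype.one_lt_card)
  generalize n ^ (Fintype.card K - 1) = m at hr
  obtain ⟨g, hg⟩ := MH.exists_conj_mem_sylow hp P (z := y ^ m) (k := k) (by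
    rw [← pow_mul, hr, show n * r * ringChar K ^ k = ringChar K ^ k * n * r by ring, ← e, pow_mul,
      pow_orderOf_eq_one, one_pow])
  have hg' : g * y ^ m * g⁻¹ ∈ EU ρ := hP.le hg
  obtain ⟨B, hB⟩ := hg'
  obtain ⟨G, hG⟩ := ρ.exL g
  have hq : Qd (ad G * up B * G) := (qd_up B).cj' hG.sp
  have e1 := (((hG.inv.mul hB).mul hG).congr' (y := y ^ m) (by group)).uniq (hy.pow m)
  rcases e1 with e1 | e1
  · rwa [e1]
  · exfalso
    have f1 : ∀ m : ℕ, Y ^ m *ᵥ w = w := fun m => by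
      induction m with
      | zero => simp
      | succ m ih => rw [pow_succ, ← mulVec_mulVec, hYw, ih]
    have f2 : (ad G * up B * G - 1) *ᵥ w = (-2 : K) • w := by
      rw [sub_mulVec, ← neg_neg (ad G * up B * G), ← e1, neg_mulVec, f1, one_mulVec, neg_smul, two_smul]
      abel
    have f3 := congrArg (· *ᵥ w) hq
    simp only [← mulVec_mulVec, f2, mulVec_smul, zero_mulVec, smul_smul, smul_eq_zero] at f3
    simp [h2, hw] at f3

end Cfsg.Agent.H9.Mi
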