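import Cfsg.Agent.H9.MiB3

/-! Two quadratic elements with a common fixed vector have the same centre. -/

set_option autoImplicit false

namespace Cfsg.Agent.H9.Mi

open Matrix Cfsg.Agent.H1.Mit

variable {T K : Type*} [Group T] [Field K] {ρ : SRep T K}

/-- symplectic matrices fixing the first basis vector -/
def fx (α β γ δ v w s : K) : M4 K :=
  !![1, γ * v - α * w, δ * v - β * w, s; 0, α, β, v; 0, γ, δ, w; 0, 0, 0, 1]

theorem fx_mul {α β γ δ v w s α' β' γ' δ' v' w' s' : K} (h : α * δ - β * γ = 1) :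
    fx α β γ δ v w s * fx α' β' γ' δ' v' w' s' =
      fx (α * α' + β * γ') (α * β' + β * δ') (γ * α' + δ * γ') (γ * β' + δ * δ')
        (α * v' + β * w' + v) (γ * v' + δ * w' + w)
        (s' + (γ * v - α * w) * v' + (δ * v - β * w) * w' + s) := by
  ext i j; fin_cases i <;> fin_cases j <;> simp [fx, Matrix.mul_apply, Fin.sum_univ_four]
  · linear_combination (α' * w' - γ' * v') * h
  · linear_combination (β' * w' - δ' * v') * h

theorem ad_fx {α β γ δ v w s : K} (h : α * δ - β * γ = 1) :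
    ad (fx α β γ δ v w s) = fx δ (-β) (-γ) α (β * w - δ * v) (γ * v - α * w) (-s) := by
  rw [ad_eq]
  ext i j; fin_cases i <;> fin_cases j <;> simp [fx]
  · linear_combination (-w) * h
  · linear_combination v * h

theorem exists_fx {X : M4 K} (hX : Sp X) (h0 : X *ᵥ Pi.single 0 1 = Pi.single 0 1) :
    ∃ α β γ δ v w s, α * δ - β * γ = 1 ∧ X = fx α β γ δ v w s := by
  have k0 := fun i => congrFun h0 i
  simp only [mulVec_single_one, Matrix.col_apply] at k0
  have a0 : X 0 0 = 1 := by simpa using k0 0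
  have a1 : X 1 0 = 0 := by simpa using k0 1
  have a2 : X 2 0 = 0 := by simpa using k0 2
  have a3 : X 3 0 = 0 := by simpa using k0 3
  have e := hX.left
  rw [ad_eq] at e
  have k := fun i j => congrFun (congrFun e i) j
  have b1 := k 3 1
  have b2 := k 3 2
  have b3 := k 3 3
  have c1 := k 1 1
  have c2 := k 0 1
  have c3 := k 0 2
  simp [Matrix.mul_apply, Fin.sum_univ_four, a0, a1, a2, a3] at b1 b2 b3
  simp [Matrix.mul_apply, Fin.sum_univ_four, b1, b2, b3] at c1 c2 c3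
  refine ⟨X 1 1, X 1 2, X 2 1, X 2 2, X 1 3, X 2 3, X 0 3, by linear_combination c1, ?_⟩
  ext i j; fin_cases i <;> fin_cases j <;> simp [fx, a0, a1, a2, a3, b1, b2, b3]
  · linear_combination c2
  · linear_combination c3

theorem up_eq_fx {A : M2 K} (h : sg A = A) : up A = fx 1 (A 1 0) 0 1 (A 0 0) 0 (A 0 1) := by
  have := congrFun (congrFun h 0) 0
  simp [sg] at this
  ext i j; fin_cases i <;> fin_cases j <;> simp [fx, up, blk, this]

theorem rk1_fx (s : K) : Rk1 (fx 1 0 0 1 0 0 s - 1) := by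
  intro i j k l
  fin_cases i <;> fin_cases j <;> fin_cases k <;> fin_cases l <;> simp [fx]

/-- the action on the middle factor together with the translation part -/
def RV (ρ : SRep T K) (α β γ δ v w : K) : Prop := α * δ - β * γ = 1 ∧ ∃ s, GG ρ (fx α β γ δ v w s)

namespace RV

variable {α β γ δ v w α' β' γ' δ' v' w' : K}

theorem mul (h : RV ρ α β γ δ v w) (h' : RV ρ α' β' γ' δ' v' w') {a b c d x y : K}
    (e1 : a = α * α' + β * γ') (e2 : b = α * β' + β * δ') (e3 : c = γ * α' + δ * γ') (e4 : d = γ * β' + δ * δ')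
    (e5 : x = α * v' + β * w' + v) (e6 : y = γ * v' + δ * w' + w) : RV ρ a b c d x y := by
  obtain ⟨h1, s, h⟩ := h
  obtain ⟨h1', s', h'⟩ := h'
  subst e1 e2 e3 e4 e5 e6
  exact ⟨by linear_combination (α' * δ' - β' * γ') * h1 + h1', _, (h.mul h').congr (fx_mul h1).symm⟩

theorem inv (h : RV ρ α β γ δ v w) : RV ρ δ (-β) (-γ) α (β * w - δ * v) (γ * v - α * w) := by
  obtain ⟨h1, s, h⟩ := h
  exact ⟨by linear_combination h1, _, h.inv.congr (ad_fx h1).symm⟩

theorem par (h2 : (2 : K) ≠ 0) (hT : ρ.NoTv) (h : RV ρ 1 0 0 1 v w) (h' : RV ρ 1 0 0 1 v' w') :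
    v * w' = w * v' := by
  obtain ⟨h1, s, h⟩ := h
  obtain ⟨-, s', h'⟩ := h'
  have k := (h.mul h').mul (h'.mul h).inv
  rw [fx_mul h1, fx_mul h1, ad_fx (by simp), fx_mul (by simp)] at k
  have k' : GG ρ (fx 1 0 0 1 0 0 (2 * (v * w' - w * v'))) := k.congr (by congr 1 <;> ring)
  have := congrFun (congrFun (k'.tv hT (rk1_fx _)) 0) 3
  simp [fx, h2] at this
  linear_combination this

theorem conj (h : RV ρ α β γ δ v w) (h' : RV ρ 1 0 0 1 v' w') :
    RV ρ 1 0 0 1 (α * v' + β * w') (γ * v' + δ * w') :=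
  (h.mul h' (a := α) (b := β) (c := γ) (d := δ) (by ring) (by ring) (by ring) (by ring) rfl rfl).mul h.inv
    (by linear_combination -h.1) (by ring) (by ring) (by linear_combination -h.1)
    (by linear_combination v * h.1) (by linear_combination w * h.1)

end RV

theorem nc_core [Finite K] (h2 : (2 : K) ≠ 0) (hT : ρ.NoTv) (hB : ¬ ((3 : K) = 0 ∧ ¬ 9 ∣ Nat.card T))
    {A : M2 K} (hA : GG ρ (up A)) (h0 : A ≠ 0) {γ w s : K} (hH : GG ρ (fx 1 0 γ 1 0 w s))
    (hw : γ ≠ 0 ∨ w ≠ 0) : False := by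
  have rA : ∀ {A : M2 K}, GG ρ (up A) → RV ρ 1 (A 1 0) 0 1 (A 0 0) 0 := fun h =>
    ⟨by simp, _, h.congr (up_eq_fx h.up_sg).symm⟩
  have rH : RV ρ 1 0 γ 1 0 w := ⟨by simp, _, hH⟩
  have dA : ∀ {A : M2 K}, GG ρ (up A) → A ≠ 0 → A 0 0 * A 0 0 - A 0 1 * A 1 0 ≠ 0 := fun {A} h h0 => by
    have := congrFun (congrFun h.up_sg 0) 0
    simp [sg] at this
    simpa [det_fin_two, this] using h.up_det hT h0
  have cA : ∀ {A : M2 K}, GG ρ (up A) → A ≠ 0 → A 1 0 ≠ 0 := fun {A} h h0 e => by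
    have r := rA h
    have a0 : A 0 0 ≠ 0 := fun e' => dA h h0 (by simp [e, e'])
    rw [e] at r
    have k := r.par h2 hT (rH.conj r)
    have g0 : γ = 0 := by simpa [a0] using k
    subst g0
    have k := r.par h2 hT rH
    simp [a0] at k
    simp [k] at hw
  have hγ : γ ≠ 0 := fun e => by
    subst e
    have k := rH.par h2 hT ((rA hA).conj rH)
    simp [cA hA h0] at k
    simp [k] at hw
  have hQ : ∀ {v w : K}, RV ρ 1 0 0 1 v w → v = 0 ∧ w = 0 := fun {v w} h => by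
    have k1 := h.par h2 hT ((rA hA).conj h)
    have k2 := h.par h2 hT (rH.conj h)
    have e1 : A 1 0 * (w * w) = 0 := by linear_combination -k1
    have e2 : γ * (v * v) = 0 := by linear_combination k2
    simp [cA hA h0, hγ] at e1 e2
    exact ⟨e2, e1⟩
  have hS : S2 fun α β γ δ => ∃ v w, RV ρ α β γ δ v w :=
    ⟨⟨0, 0, by simp, 0, GG.one.congr (by ext i j; fin_cases i <;> fin_cases j <;> simp [fx])⟩,
      fun ⟨_, _, h⟩ ⟨_, _, h'⟩ => ⟨_, _, h.mul h' rfl rfl rfl rfl rfl rfl⟩, fun ⟨_, _, h⟩ => h.1⟩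
  obtain ⟨A', hA1, n0, n1, n2⟩ := big h2 hT hB hA h0
  have m0 := cA hA1 n0
  have m1 := cA (hA1.up_sub hA) (sub_ne_zero.2 n1)
  have m2 := cA (hA1.up_add hA) fun e => n2 (eq_neg_of_add_eq_zero_left e)
  simp only [Matrix.sub_apply, Matrix.add_apply] at m1 m2
  rcases hS.dk h2 (cA hA h0) hγ ⟨_, _, rA hA⟩ ⟨_, _, rH⟩ with ⟨E, hE, -, ⟨v, w, hz⟩, hd⟩ | ⟨-, -, h⟩
  · obtain ⟨κ, hκ, k0, k1⟩ : ∃ κ ∈ E, κ ≠ 0 ∧ κ ^ 2 ≠ 1 := by
      by_cases e : (A 1 0 * γ) ^ 2 = 1
      · refine ⟨A' 1 0 * γ, (hE _).1 ⟨_, _, rA hA1⟩, mul_ne_zero m0 hγ, fun e' => ?_⟩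
        exact mul_ne_zero (mul_ne_zero m1 m2) (pow_ne_zero 2 hγ) (by linear_combination e' - e)
      · exact ⟨_, (hE _).1 ⟨_, _, rA hA⟩, mul_ne_zero (cA hA h0) hγ, e⟩
    have hc : ∀ {α β γ δ x y : K}, RV ρ α β γ δ x y →
        2 * x = v - (α * v + β * w) ∧ 2 * y = w - (γ * v + δ * w) := fun {α β γ δ x y} h => by
      have := hQ ((h.mul hz (a := -α) (b := -β) (c := -γ) (d := -δ) (by ring) (by ring) (by ring) (by ring)
        rfl rfl).mul (hz.mul h (a := -α) (b := -β) (c := -γ) (d := -δ) (x := v - x) (y := w - y) (by ring) (by ring)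
        (by ring) (by ring) (by ring) (by ring)).inv (x := α * v + β * w + x - (v - x))
        (y := γ * v + δ * w + y - (w - y)) (by linear_combination -h.1) (by ring) (by ring)
        (by linear_combination -h.1) (by linear_combination (v - x) * h.1) (by linear_combination (w - y) * h.1))
      exact ⟨by linear_combination this.1, by linear_combination this.2⟩
    obtain ⟨x, y, hd⟩ := hd κ hκ k0
    have e1 := (hc hd).2
    have e2 := (hc (rA hA)).1
    obtain ⟨-, t, hd⟩ := hd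
    have k := (GG.up_conj (a := !![1, -(κ * y); 0, κ]) (b := !![κ⁻¹ * x, t; 0, x]) (d := !![κ⁻¹, y; 0, 1])
      (hd.congr (by ext i j; fin_cases i <;> fin_cases j <;> simp [fx, blk])) hA).up_sub hA
    have s0 := congrFun (congrFun hA.up_sg 0) 0
    simp [sg] at s0
    have hk : κ * κ⁻¹ = 1 := mul_inv_cancel₀ k0
    have q1 : κ * y * 2 = (κ - 1) * w := by linear_combination κ * e1 - w * hk
    refine dA k (fun e => ?_) ?_
    · have := congrFun (congrFun e 1) 0
      simp [sg, Matrix.mul_apply, Fin.sum_univ_two, vecMul, dotProduct] at this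
      exact mul_ne_zero (cA hA h0) (sub_ne_zero.2 k1) (by linear_combination this)
    · simp [sg, Matrix.mul_apply, Fin.sum_univ_two, vecMul, dotProduct, s0]
      have ea : A 0 0 = -(A 1 0 * (w / 2)) := by field_simp; linear_combination e2
      have er : κ * y = (κ - 1) * (w / 2) := by field_simp; linear_combination q1
      rw [er, ea]
      ring
  · rcases h _ ⟨_, _, rA hA1⟩ with e | e | e
    · exact m0 e
    · exact m1 (by rw [e, sub_self])
    · exact m2 (by rw [e, neg_add_cancel])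

theorem nc [Finite K] (h2 : (2 : K) ≠ 0) (hT : ρ.NoTv) (hB : ¬ ((3 : K) = 0 ∧ ¬ 9 ∣ Nat.card T))
    {X Y : M4 K} (hX : GG ρ X) (hY : GG ρ Y) (qX : Qd X) (qY : Qd Y) {w : V4 K} (hw : w ≠ 0)
    (fX : X *ᵥ w = w) (fY : Y *ᵥ w = w) : (X - 1) * (Y - 1) = 0 := by
  by_contra hne
  obtain ⟨δ, hδ⟩ : ∃ δ, (X - 1) *ᵥ ((Y - 1) *ᵥ δ) ≠ 0 := by
    by_contra h
    push Not at h
    exact hne (Matrix.ext_iff_mulVec.2 fun v => by rw [← mulVec_mulVec, h, zero_mulVec])
  obtain ⟨z, hz⟩ := exists_B_one hδ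
  have gX : (X - 1) *ᵥ w = 0 := by rw [sub_mulVec, fX, one_mulVec, sub_self]
  have gY : (Y - 1) *ᵥ w = 0 := by rw [sub_mulVec, fY, one_mulVec, sub_self]
  have b1 : B w ((X - 1) *ᵥ z) = 0 := by rw [B_swap, qX.B_eq hX.sp, gX]; simp
  have b2 : B w ((Y - 1) *ᵥ δ) = 0 := by rw [B_swap, qY.B_eq hY.sp, gY]; simp
  have b3 : B ((X - 1) *ᵥ z) ((Y - 1) *ᵥ δ) = 1 := by rw [qX.B_eq hX.sp, B_swap, neg_neg, hz]
  have f1 := qX.fix z
  have f2 := qY.fix δ
  have n1 : X ≠ 1 := fun e => hne (by rw [e, sub_self, zero_mul])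
  have n2 : Y *ᵥ ((X - 1) *ᵥ z) ≠ (X - 1) *ᵥ z := fun e => by
    rw [B_swap, qY.B_eq hY.sp, sub_mulVec Y, e] at b3
    simp at b3
  generalize (X - 1) *ᵥ z = a at b1 b3 f1 n2
  generalize (Y - 1) *ᵥ δ = b at b2 b3 f2
  obtain ⟨d, hP⟩ := basis3 hw b1 b2 b3
  obtain ⟨A, hA⟩ := eq_up (qX.cj' hP) (hX.cj hP).sp
    ((cj_col hP _ _).2 (by rw [col4_mulVec]; simpa using fX))
    ((cj_col hP _ _).2 (by rw [col4_mulVec]; simpa using f1))
  obtain ⟨α, β, γ, δ', v, u, s, h1, hY'⟩ := exists_fx (hY.cj hP).sp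
    ((cj_col hP _ _).2 (by rw [col4_mulVec]; simpa using fY))
  have k := (cj_col hP Y (Pi.single 2 1)).2 (by rw [col4_mulVec]; simpa using f2)
  have k' := mt (cj_col hP Y (Pi.single 1 1)).1 (by rw [col4_mulVec]; simpa using n2)
  rw [hY'] at k k'
  have k0 := congrFun k 0
  have k1 := congrFun k 1
  have k2 := congrFun k 2
  simp [fx] at k0 k1 k2
  subst k1 k2
  obtain rfl : α = 1 := by linear_combination h1
  obtain rfl : v = 0 := by linear_combination k0
  refine nc_core h2 (hT.cj hP) hB (hA ▸ hX.cj hP) (fun e => cj_ne_one' n1 hP (by rw [hA, e, up_zero]))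
    (hY' ▸ hY.cj hP) ?_
  by_contra h
  push Not at h
  obtain ⟨rfl, rfl⟩ := h
  exact k' (by ext i; fin_cases i <;> simp [fx])

end Cfsg.Agent.H9.Mi
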