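import Cfsg.Agent.H9.MiB4

/-! Opposite centres: the two centre groups are inverse to each other. -/

set_option autoImplicit false

namespace Cfsg.Agent.H9.Mi

open Matrix Cfsg.Agent.H1.Mit

variable {T K : Type*} [Group T] [Field K] {ρ : SRep T K}

/-- the standing hypotheses -/
structure HH (ρ : SRep T K) : Prop where
  two : (2 : K) ≠ 0
  tv : ρ.NoTv
  nine : ¬ ((3 : K) = 0 ∧ ¬ 9 ∣ Nat.card T)
  split : ρ.Split

theorem HH.cj (h : HH ρ) {P : M4 K} (hP : Sp P) : HH (ρ.cj P hP) :=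
  ⟨h.two, h.tv.cj hP, h.nine, h.split.cj hP⟩

/-- the Weyl element -/
def wy (K : Type*) [Field K] : M4 K := blk 0 1 (-1) 0

theorem sp_wy : Sp (wy K) := by simp [Sp, wy, ad_blk, blk_mul, one_eq_blk]

theorem wy_up (A : M2 K) : wy K * up A * ad (wy K) = lo (-A) := by simp [wy, up, lo, ad_blk, blk_mul]

theorem wy_lo (A : M2 K) : wy K * lo A * ad (wy K) = up (-A) := by simp [wy, up, lo, ad_blk, blk_mul]

theorem GG.to_up {A : M2 K} (h : GG ρ (lo A)) : GG (ρ.cj _ sp_wy) (up A) := GG_cj.2 (h.lo_neg.congr (wy_up A))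

theorem GG.to_lo {A : M2 K} (h : GG ρ (up A)) : GG (ρ.cj _ sp_wy) (lo A) := GG_cj.2 (h.up_neg.congr (wy_lo A))

theorem GG.of_up {A : M2 K} (h : GG (ρ.cj _ sp_wy) (up A)) : GG ρ (lo A) := by
  simpa using ((GG_cj.1 h).congr (wy_up A).symm).lo_neg

theorem GG.lo_det {A : M2 K} (hT : ρ.NoTv) (h : GG ρ (lo A)) (h0 : A ≠ 0) : A.det ≠ 0 :=
  h.to_up.up_det (hT.cj _) h0

theorem up_v2 (A : M2 K) (p q : Fin 2 → K) : up A *ᵥ v2 p q = v2 (p + A *ᵥ q) q := by simp [up, blk_mulVec]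

theorem lo_v2 (A : M2 K) (p q : Fin 2 → K) : lo A *ᵥ v2 p q = v2 p (A *ᵥ p + q) := by simp [lo, blk_mulVec]

theorem exists_ev (hs : ρ.Split) {A B : M2 K} (hA : GG ρ (up A)) (hB : GG ρ (lo B)) (dA : A.det ≠ 0) :
    ∃ (l : K) (v : Fin 2 → K), v ≠ 0 ∧ (A * B) *ᵥ v = l • v := by
  obtain ⟨y, hy⟩ := hA.mul hB
  obtain ⟨x, hx⟩ := (hs _ _ hy).exists_eval_eq_zero (by rw [charpoly_degree_eq_dim]; simp)
  rw [eval_charpoly] at hx
  obtain ⟨u, hu, e⟩ := Matrix.exists_mulVec_eq_zero_iff.2 hx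
  have e1 : (up A * lo B) *ᵥ u = x • u := by
    rw [sub_mulVec, sub_eq_zero] at e
    rw [← e]
    ext i; simp [mulVec_diagonal]
  have x0 : x ≠ 0 := fun e => hy.sp.mulVec_ne hu (by rw [e1, e, zero_smul])
  obtain ⟨v, w, rfl⟩ := exists_v2 u
  rw [← mulVec_mulVec, lo_v2, up_v2, v2_smul, v2_inj] at e1
  obtain ⟨e1, e2⟩ := e1
  rw [e2, mulVec_smul] at e1
  have e3 : B *ᵥ v = (x - 1) • w := by rw [sub_smul, ← e2, one_smul, add_sub_cancel_right]
  have e4 : A *ᵥ w = (x⁻¹ * (x - 1)) • v := by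
    rw [mul_smul, sub_smul, ← e1, one_smul, add_sub_cancel_left, smul_smul, inv_mul_cancel₀ x0, one_smul]
  refine ⟨(x - 1) * (x⁻¹ * (x - 1)), v, fun e => hu ?_, by rw [← mulVec_mulVec, e3, mulVec_smul, e4, smul_smul]⟩
  subst e
  rw [cancel_v dA (e4.trans (smul_zero _)), v2_eq_zero]
  exact ⟨rfl, rfl⟩

theorem ev_det {R : M2 K} {l : K} {v : Fin 2 → K} (hv : v ≠ 0) (e : R *ᵥ v = l • v) :
    l ^ 2 - R.trace * l + R.det = 0 := by
  have : (R - l • (1 : M2 K)).det = 0 := Matrix.exists_mulVec_eq_zero_iff.1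
    ⟨v, hv, by rw [sub_mulVec, e, smul_mulVec, one_mulVec, sub_self]⟩
  simp [det_fin_two, trace_fin_two] at this ⊢
  linear_combination this

theorem ev_of_det {R : M2 K} {l : K} (h : l ^ 2 - R.trace * l + R.det = 0) :
    ∃ v : Fin 2 → K, v ≠ 0 ∧ R *ᵥ v = l • v := by
  have : (R - l • (1 : M2 K)).det = 0 := by
    simp [det_fin_two, trace_fin_two] at h ⊢
    linear_combination h
  obtain ⟨v, hv, e⟩ := Matrix.exists_mulVec_eq_zero_iff.2 this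
  exact ⟨v, hv, by rwa [sub_mulVec, smul_mulVec, one_mulVec, sub_eq_zero] at e⟩

variable [Finite K]

theorem HH.good_ev (h : HH ρ) {A B : M2 K} (hA : GG ρ (up A)) (hB : GG ρ (lo B)) (a0 : A ≠ 0) :
    ∃ (A : M2 K) (l : K) (v : Fin 2 → K), GG ρ (up A) ∧ A ≠ 0 ∧ v ≠ 0 ∧ (A * B) *ᵥ v = l • v ∧
      ¬ ((3 : K) = 0 ∧ l ^ 2 = -1) := by
  by_contra hne
  push Not at hne
  have key : ∀ A, GG ρ (up A) → A ≠ 0 → (3 : K) = 0 ∧ (A * B).trace ^ 2 + (A * B).det = 1 := fun A hA a0 => by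
    obtain ⟨l, v, hv, e⟩ := exists_ev h.split hA hB (hA.up_det h.tv a0)
    have e1 := ev_det hv e
    obtain ⟨v', hv', e'⟩ := ev_of_det (R := A * B) (l := (A * B).trace - l) (by linear_combination e1)
    obtain ⟨h3, e2⟩ := hne A l v hA a0 hv e
    obtain ⟨-, e3⟩ := hne A _ v' hA a0 hv' e'
    exact ⟨h3, by linear_combination e1 + e3 + (l * (A * B).trace - l ^ 2 - 1) * h3 + e2⟩
  obtain ⟨A', hA', n0, n1, n2⟩ := big h.two h.tv h.nine hA a0
  obtain ⟨h3, k1⟩ := key _ hA a0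
  have k2 := (key _ hA' n0).2
  have k3 := (key _ (hA'.up_sub hA) (sub_ne_zero.2 n1)).2
  have k4 := (key _ (hA'.up_add hA) fun e => n2 (eq_neg_of_add_eq_zero_left e)).2
  rw [sub_mul] at k3
  rw [add_mul] at k4
  generalize A * B = R at k1 k3 k4
  generalize A' * B = R' at k2 k3 k4
  simp only [det_fin_two, trace_fin_two, Matrix.sub_apply, Matrix.add_apply] at k1 k2 k3 k4
  exact h.two (by linear_combination k3 + k4 - 2 * k1 - 2 * k2)

theorem HH.eq_up (h : HH ρ) {A : M2 K} (hA : GG ρ (up A)) (a0 : A ≠ 0) {Y : M4 K} (hY : GG ρ Y) (q : Qd Y)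
    {v : Fin 2 → K} (hv : v ≠ 0) (f : Y *ᵥ v2 v 0 = v2 v 0) : ∃ A', Y = up A' := by
  have e := nc h.two h.tv h.nine hA hY (qd_up A) q (w := v2 v 0) (by simp [v2_eq_zero, hv]) (by simp [up_v2]) f
  have e' := q.ad_sub hY.sp
  obtain ⟨a, b, c, d, hN⟩ := exists_blk (Y - 1)
  rw [hN, up_sub_one, blk_mul, blk_eq_zero] at e
  rw [hN, ad_blk, blk_neg, blk_inj] at e'
  have hc : c = 0 := cancel_l (hA.up_det h.tv a0) (by simpa using e.1)
  have hd : d = 0 := cancel_l (hA.up_det h.tv a0) (by simpa using e.2.1)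
  have ha : a = 0 := by simpa [hd] using e'.1.symm
  exact ⟨b, by rw [← sub_left_inj (a := 1), hN, up_sub_one, ha, hc, hd]⟩

theorem HH.ul_zero (h : HH ρ) {B : M2 K} (hB : GG ρ (lo B)) (b0 : B ≠ 0) {a b c d : M2 K}
    (hY : GG ρ (1 + blk a b c d)) (q : Qd (1 + blk a b c d)) {v : Fin 2 → K} (hv : v ≠ 0)
    (f1 : b *ᵥ v = 0) (f2 : d *ᵥ v = 0) : a = 0 := by
  have e := nc h.two h.tv h.nine hB hY (qd_lo B) q (w := v2 0 v) (by simp [v2_eq_zero, hv]) (by simp [lo_v2])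
    (by simp [add_mulVec, blk_mulVec, f1, f2, v2_eq_zero])
  rw [add_sub_cancel_left, lo_sub_one, blk_mul, blk_eq_zero] at e
  exact cancel_l (hB.lo_det h.tv b0) (by simpa using e.2.2.1)

theorem HH.moufang (h : HH ρ) {A B : M2 K} (hA : GG ρ (up A)) (hB : GG ρ (lo B)) (a0 : A ≠ 0) (b0 : B ≠ 0) :
    ∃ A', GG ρ (up A') ∧ A' * B = 1 := by
  obtain ⟨A, l, v, hA, a0, hv, e, hl⟩ := h.good_ev hA hB a0
  have dA := hA.up_det h.tv a0
  have dB := hB.lo_det h.tv b0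
  have l0 : l ≠ 0 := fun e' => hv (cancel_v (A := A * B) (by simp [dA, dB]) (by rw [e, e', zero_smul]))
  have hS : S2 fun α β γ δ : K => α * δ - β * γ = 1 ∧ ∃ X, GG ρ X ∧
      X *ᵥ v2 v 0 = α • v2 v 0 + γ • v2 0 (B *ᵥ v) ∧ X *ᵥ v2 0 (B *ᵥ v) = β • v2 v 0 + δ • v2 0 (B *ᵥ v) := by
    refine ⟨⟨by simp, 1, GG.one, by simp, by simp⟩, ?_, fun h => h.1⟩
    rintro a b c d a' b' c' d' ⟨h1, X, hX, e1, e2⟩ ⟨h1', X', hX', e1', e2'⟩
    refine ⟨by linear_combination (a' * d' - b' * c') * h1 + h1', _, hX.mul hX', ?_, ?_⟩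
    · rw [← mulVec_mulVec, e1', mulVec_add, mulVec_smul, mulVec_smul, e1, e2]; module
    · rw [← mulVec_mulVec, e2', mulVec_add, mulVec_smul, mulVec_smul, e1, e2]; module
  rcases hS.dk h.two l0 one_ne_zero
    ⟨by simp, _, hA, by simp [up_v2], by
      simp only [up_v2, mulVec_mulVec, e, v2_smul, v2_add, one_smul, smul_zero, zero_add, add_zero]⟩
    ⟨by simp, _, hB, by simp only [lo_v2, v2_add, one_smul, add_zero, zero_add], by
      simp only [lo_v2, mulVec_zero, one_smul, zero_smul, zero_add]⟩ with ⟨E, hE, -⟩ | ⟨h3, h4, -⟩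
  swap
  · exact absurd ⟨h3, by simpa using h4⟩ hl
  obtain ⟨-, X, hX, e1, e2⟩ := (hE 1).2 (by simp)
  rw [one_smul, zero_smul, add_zero] at e1
  obtain ⟨m, hm, q⟩ := exists_qd_pow h.two h.tv hA a0 hX (by simp [v2_eq_zero, hv]) e1
  have f : ∀ m : ℕ, X ^ m *ᵥ v2 v 0 = v2 v 0 ∧
      X ^ m *ᵥ v2 0 (B *ᵥ v) = (m : K) • v2 v 0 + v2 0 (B *ᵥ v) := fun m => by
    induction m with
    | zero => simp
    | succ m ih =>
      rw [pow_succ, ← mulVec_mulVec, ← mulVec_mulVec, e1, e2, mulVec_add, mulVec_smul, mulVec_smul, ih.1, ih.2]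
      exact ⟨rfl, by push_cast; module⟩
  obtain ⟨A', hA'⟩ := h.eq_up hA a0 (hX.pow m) q hv (f m).1
  have g := (f m).2
  rw [hA', hm, one_smul, up_v2, v2_add, v2_inj, zero_add, add_zero, mulVec_mulVec] at g
  have hA2 : GG ρ (up A') := hA' ▸ hX.pow m
  refine ⟨A', hA2, ?_⟩
  have P := hA2.up_neg.mul hB
  have e3 : up (-A') * lo B * up A * ad (up (-A') * lo B) =
      1 + blk ((A' * B - 1) * (A * B)) ((A' * B - 1) * A * (B * A' - 1)) (-(B * A * B)) (B * A * (1 - B * A')) := by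
    rw [ad_mul, ad_lo, ad_up, hB.lo_sg, sg_neg, hA2.up_sg, neg_neg, one_eq_blk]
    simp only [up, lo, blk_mul, blk_add, blk_inj]
    refine ⟨?_, ?_, ?_, ?_⟩ <;> noncomm_ring
  have g1 : (B * A' - 1) *ᵥ (B *ᵥ v) = 0 := by
    rw [sub_mulVec, one_mulVec, mulVec_mulVec, mul_assoc, ← mulVec_mulVec, g.1, sub_self]
  have := h.ul_zero hB b0 (e3 ▸ (P.mul hA).mul P.inv) (e3 ▸ (qd_up A).cj P.sp) (v := B *ᵥ v)
    (fun e => hv (cancel_v dB e)) (by rw [← mulVec_mulVec, g1, mulVec_zero])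
    (by rw [← neg_sub, mul_neg, neg_mulVec, ← mulVec_mulVec, g1, mulVec_zero, neg_zero])
  exact sub_eq_zero.1 (cancel_r (by simp [dA, dB]) this)

theorem HH.moufang' (h : HH ρ) {A B : M2 K} (hA : GG ρ (up A)) (hB : GG ρ (lo B)) (a0 : A ≠ 0) (b0 : B ≠ 0) :
    ∃ B', GG ρ (lo B') ∧ B' * A = 1 := by
  obtain ⟨B', h1, h2⟩ := (h.cj sp_wy).moufang hB.to_up hA.to_lo b0 a0
  exact ⟨B', h1.of_up, h2⟩

theorem HH.claim (h : HH ρ) {A : M2 K} (hA : GG ρ (up A)) (a0 : A ≠ 0) {Y : M4 K} (hY : GG ρ Y) (q : Qd Y) :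
    (∃ A', Y = up A') ∨ ∃ Z C, sg Z = Z ∧ C ≠ 0 ∧ Y = up Z * lo C * ad (up Z) := by
  have e' := q.ad_sub hY.sp
  have q' := q
  obtain ⟨a, b, c, d, hN⟩ := exists_blk (Y - 1)
  rw [hN, ad_blk, blk_neg, blk_inj] at e'
  rw [Qd, hN, blk_mul, blk_eq_zero] at q'
  by_cases hc : c.det = 0
  · left
    obtain ⟨v, hv, e⟩ := Matrix.exists_mulVec_eq_zero_iff.2 hc
    have e1 : (Y - 1) *ᵥ v2 v 0 = v2 (a *ᵥ v) 0 := by simp [hN, blk_mulVec, e]
    by_cases ha : a *ᵥ v = 0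
    · refine h.eq_up hA a0 hY q hv ?_
      rwa [ha, v2_eq_zero.2 ⟨rfl, rfl⟩, sub_mulVec, one_mulVec, sub_eq_zero] at e1
    · exact h.eq_up hA a0 hY q ha (e1 ▸ q.fix _)
  · right
    obtain ⟨m, m1, m2⟩ := inv2 hc
    have sc : sg c = c := by simpa using e'.2.2.1
    have sm : sg m = m := by
      have : sg m * c = 1 := by rw [← sc, ← sg_mul, m2, sg_one]
      rw [← mul_one (sg m), ← m2, ← mul_assoc, this, one_mul]
    have hd : d = -(c * (a * m)) := by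
      rw [← mul_one d, ← m2, ← mul_assoc, ← mul_assoc, ← neg_mul, eq_neg_of_add_eq_zero_right q'.2.2.1]
    have hb : b = -(a * (a * m)) := by
      rw [← mul_one b, ← m2, ← mul_assoc, ← mul_assoc, ← neg_mul, eq_neg_of_add_eq_zero_right q'.1]
    have sz : sg (a * m) = a * m := by
      rw [sg_mul, sm, e'.2.2.2, hd, neg_neg, ← mul_assoc, m1, one_mul]
    have e2 : a * m * c = a := by rw [mul_assoc, m1, mul_one]
    refine ⟨a * m, c, sz, fun e => hc (by simp [e]), ?_⟩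
    rw [← sub_left_inj (a := 1), hN, ad_up, sz, one_eq_blk]
    simp only [up, lo, blk_mul, blk_sub, blk_inj, e2]
    refine ⟨by simp, ?_, by simp, by simp [hd]⟩
    rw [hb]; noncomm_ring

end Cfsg.Agent.H9.Mi
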