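import Cfsg.Agent.H9.PSu

/-! Numerics for large degrees, imprimitive stabiliser. -/

set_option autoImplicit false

namespace Cfsg.Agent.H9.PS

open Cfsg.Agent.H1.PS Finset

theorem chs (M n : ℕ) (h : 2 * M ≤ n) (i : ℕ) : 2 ^ i * M.choose i ≤ n.choose i := by
  induction i with
  | zero => simp
  | succ i ih =>
    refine Nat.le_of_mul_le_mul_right ?_ (Nat.succ_pos i)
    have a := Nat.choose_succ_right_eq M i
    have b := Nat.choose_succ_right_eq n i
    calc 2 ^ (i + 1) * M.choose (i + 1) * (i + 1) = 2 ^ i * 2 * (M.choose (i + 1) * (i + 1)) := by ring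
      _ = 2 ^ i * M.choose i * (2 * (M - i)) := by rw [a]; ring
      _ ≤ n.choose i * (n - i) := Nat.mul_le_mul ih (by omega)
      _ = _ := b.symm

theorem stepI (n i : ℕ) (hi : i + 1 < n) (p : 0 ≤ PI n i) (θ : ℚ) (h0 : 0 ≤ θ) (hθ : 1 - ((ff i : ℚ) - 1) / n ≤ θ) :
    0 ≤ PI n (i + 1) ∧ n * (n - 1) * PI n (i + 1) / (n - (i + 1 : ℕ)) ≤
      n * (n - 1) * PI n i / (n - i) * θ + 4 * (i + 2) / 2 ^ i := by
  have f1 : 4 ≤ ff i := le_max_left _ _
  have f2 : ff i ≤ i + 4 := max_le (by omega) (by omega)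
  have f1' : (4 : ℚ) ≤ ff i := by exact_mod_cast f1
  have f2' : (ff i : ℚ) ≤ i + 4 := by exact_mod_cast f2
  have j2 : (0 : ℚ) < n - (i + 1) := by
    have : ((i + 1 : ℕ) : ℚ) < n := by exact_mod_cast hi
    push_cast at this; linarith
  have i0 : (0 : ℚ) ≤ i := by positivity
  have j1 : (0 : ℚ) < n - i := by linarith
  have n0 : (0 : ℚ) < n := by linarith
  have n1 : (0 : ℚ) < n - 1 := by linarith
  have u : PI n (i + 1) = PI n i * ((n - i - ff i : ℕ) : ℚ) / (n - i) +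
      (((n - 1) / 2 - 1).choose i : ℚ) / n.choose i * (ff i - 2) / (n - i) := rfl
  have f3 : (0 : ℚ) ≤ ff i - 2 := by linarith
  have r : ((n - i - ff i : ℕ) : ℚ) / (n - (i + 1)) ≤ θ := by
    rw [div_le_iff₀ j2]
    rcases le_total (ff i) (n - i) with h | h
    · rw [Nat.cast_sub h, Nat.cast_sub (by omega)]
      have x2 : ((ff i : ℚ) - 1) / n * (n - (i + 1)) ≤ ff i - 1 := by
        rw [div_mul_eq_mul_div, div_le_iff₀ n0]
        exact mul_le_mul_of_nonneg_left (by linarith) (by linarith)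
      have x3 := mul_le_mul_of_nonneg_right hθ j2.le
      linarith
    · rw [Nat.sub_eq_zero_of_le h]; simp only [Nat.cast_zero]; positivity
  have g : n * (n - 1) / ((n - i) * (n - (i + 1))) * ((((n - 1) / 2 - 1).choose i : ℚ) / n.choose i * (ff i - 2)) ≤
      4 * (i + 2) / 2 ^ i := by
    rcases lt_or_ge ((n - 1) / 2 - 1) i with h | h
    · rw [Nat.choose_eq_zero_of_lt h]; simp only [Nat.cast_zero, zero_div, zero_mul, mul_zero]; positivity
    · have c1 : (((n - 1) / 2 - 1).choose i : ℚ) / n.choose i ≤ 1 / 2 ^ i := by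
        have c0 : (0 : ℚ) < n.choose i := by exact_mod_cast Nat.choose_pos (by omega)
        rw [div_le_div_iff₀ c0 (by positivity), one_mul, mul_comm]
        exact_mod_cast chs _ n (by omega) i
      have c2 : (n : ℚ) * (n - 1) / ((n - i) * (n - (i + 1))) ≤ 4 := by
        rw [div_le_iff₀ (mul_pos j1 j2)]
        have : 2 * (i : ℚ) + 1 ≤ n := by exact_mod_cast (by omega : 2 * i + 1 ≤ n)
        have a := mul_le_mul (show (n : ℚ) ≤ 2 * (n - i) by linarith) (show (n : ℚ) - 1 ≤ 2 * (n - (i + 1)) by linarith)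
          n1.le (by linarith)
        linarith
      have c3 := mul_le_mul c1 (show (ff i : ℚ) - 2 ≤ i + 2 by linarith) f3 (by positivity)
      refine (mul_le_mul c2 c3 (by positivity) (by norm_num)).trans (le_of_eq ?_)
      ring
  rw [u]
  refine ⟨by positivity, ?_⟩
  push_cast
  have w : 0 ≤ (n : ℚ) * (n - 1) * PI n i / (n - i) := by positivity
  calc _ = n * (n - 1) * PI n i / (n - i) * (((n - i - ff i : ℕ) : ℚ) / (n - (i + 1))) +
        n * (n - 1) / ((n - i) * (n - (i + 1))) * ((((n - 1) / 2 - 1).choose i : ℚ) / n.choose i * (ff i - 2)) := by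
        field_simp
    _ ≤ _ := add_le_add (mul_le_mul_of_nonneg_left r w) g

theorem eI (n s : ℕ) (hs : 16 * s ≤ n) (i : ℕ) (hi : i < n) :
    0 ≤ PI n i ∧ n * (n - 1) * PI n i / (n - i) + 16 * (i + 3) / 2 ^ i ≤ (n + 47) * (1 - 2 * (s : ℚ) / n) ^ (i - 3 * s) := by
  have n0 : (0 : ℚ) < n := by exact_mod_cast (by omega : 0 < n)
  have t1 : 2 * (s : ℚ) / n ≤ 1 / 8 := by
    rw [div_le_iff₀ n0]
    have : 16 * (s : ℚ) ≤ n := by exact_mod_cast hs
    linarith
  induction i with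
  | zero =>
    simp only [PI, Nat.cast_zero, sub_zero, mul_one, zero_add, pow_zero, Nat.zero_sub]
    refine ⟨by norm_num, le_of_eq ?_⟩
    field_simp; ring
  | succ i ih =>
    obtain ⟨p, e⟩ := ih (by omega)
    have key : ∀ θ : ℚ, 7 / 8 ≤ θ → 1 - ((ff i : ℚ) - 1) / n ≤ θ → 0 ≤ PI n (i + 1) ∧
        n * (n - 1) * PI n (i + 1) / (n - (i + 1 : ℕ)) + 16 * ((i + 1 : ℕ) + 3) / 2 ^ (i + 1) ≤
          (n + 47) * (1 - 2 * (s : ℚ) / n) ^ (i - 3 * s) * θ := by
      intro θ h1 h2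
      obtain ⟨a, b⟩ := stepI n i hi p θ (by linarith) h2
      refine ⟨a, ?_⟩
      have c := mul_le_mul_of_nonneg_right e (by linarith : 0 ≤ θ)
      have d : (4 * (i + 2) / 2 ^ i + 16 * ((i + 1 : ℕ) + 3) / 2 ^ (i + 1) : ℚ) ≤ 16 * (i + 3) / 2 ^ i * (7 / 8) := by
        have x : (4 * (i + 2) / 2 ^ i + 16 * ((i + 1 : ℕ) + 3) / 2 ^ (i + 1) : ℚ) = (12 * i + 40) / 2 ^ i := by
          push_cast; field_simp; ring
        have y : (16 * (i + 3) / 2 ^ i * (7 / 8) : ℚ) = (14 * i + 42) / 2 ^ i := by ring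
        rw [x, y]
        have : (0 : ℚ) ≤ i := by positivity
        exact div_le_div_of_nonneg_right (by linarith) (by positivity)
      have f : (16 * (i + 3) / 2 ^ i * (7 / 8) : ℚ) ≤ 16 * (i + 3) / 2 ^ i * θ :=
        mul_le_mul_of_nonneg_left h1 (by positivity)
      rw [add_mul] at c
      linarith
    have f1 : (4 : ℚ) ≤ ff i := by exact_mod_cast (le_max_left _ _ : 4 ≤ ff i)
    rcases lt_or_ge i (3 * s) with h | h
    · have : 0 ≤ ((ff i : ℚ) - 1) / n := div_nonneg (by linarith) n0.le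
      have k := key 1 (by norm_num) (by linarith)
      rwa [mul_one, show i - 3 * s = i + 1 - 3 * s by omega] at k
    · have f2 : 2 * s + 1 ≤ ff i := le_trans (by omega) (le_max_right _ _)
      have f2' : 2 * (s : ℚ) + 1 ≤ ff i := by exact_mod_cast f2
      have : 2 * (s : ℚ) / n ≤ ((ff i : ℚ) - 1) / n := div_le_div_of_nonneg_right (by linarith) n0.le
      have k := key (1 - 2 * (s : ℚ) / n) (by linarith) (by linarith)
      rwa [mul_assoc ((n : ℚ) + 47), ← pow_succ, show i - 3 * s + 1 = i + 1 - 3 * s by omega] at k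

theorem fin2 (n : ℕ) (hn : 4096 < n) : ((n : ℝ) + 2) ^ 2 * Real.exp (103 / 100 * n) ≤ 3 ^ n := by
  have h1 : Real.exp (109 / 100) ≤ 3 := by
    have a := Real.exp_one_lt_d9
    have b := Real.exp_bound_div_one_sub_of_interval (x := 9 / 100) (by norm_num) (by norm_num)
    rw [show (109 / 100 : ℝ) = 1 + 9 / 100 by norm_num, Real.exp_add]
    calc _ ≤ 2.7182818286 * (1 / (1 - 9 / 100)) := mul_le_mul a.le b (by positivity) (by norm_num)
      _ ≤ 3 := by norm_num
  have h2 : Real.exp (n * (109 / 100)) ≤ 3 ^ n := by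
    rw [Real.exp_nat_mul]; exact pow_le_pow_left₀ (by positivity) h1 n
  have hq : (4096 : ℝ) < n := by exact_mod_cast hn
  have h3 := Real.pow_div_factorial_le_exp (6 / 100 * (n : ℝ)) (by positivity) 4
  have h4 : ((n : ℝ) + 2) ^ 2 ≤ (6 / 100 * (n : ℝ)) ^ 4 / (Nat.factorial 4 : ℕ) := by
    have a : ((n : ℝ) + 2) ^ 2 ≤ (2 * n) ^ 2 := pow_le_pow_left₀ (by positivity) (by linarith) 2
    have b : (4096 : ℝ) ^ 2 ≤ (n : ℝ) ^ 2 := pow_le_pow_left₀ (by norm_num) hq.le 2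
    have c : (0 : ℝ) ≤ (n : ℝ) ^ 2 := by positivity
    have d := mul_le_mul_of_nonneg_left b c
    have e : (6 / 100 * (n : ℝ)) ^ 4 / (Nat.factorial 4 : ℕ) = 54 / 100000000 * ((n : ℝ) ^ 2 * (n : ℝ) ^ 2) := by
      norm_num [Nat.factorial]; ring
    rw [e]; linarith
  calc _ ≤ Real.exp (6 / 100 * (n : ℝ)) * Real.exp (103 / 100 * n) :=
        mul_le_mul_of_nonneg_right (h4.trans h3) (by positivity)
    _ = Real.exp (n * (109 / 100)) := by rw [← Real.exp_add]; congr 1; ring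
    _ ≤ _ := h2

theorem nil : NIl := by
  intro n hn
  have hq : (4096 : ℝ) < n := by exact_mod_cast hn
  have s1 := Nat.lt_succ_sqrt n
  have s2 : 64 ≤ Nat.sqrt n := Nat.le_sqrt.2 (by omega)
  have s3 := Nat.sqrt_le n
  generalize Nat.sqrt n = s at *
  have s4 : 64 * s ≤ n := (Nat.mul_le_mul_right _ s2).trans s3
  have E := eI n s (by omega)
  have b1 : (64 : ℝ) ≤ s := by exact_mod_cast s2
  have b2 : (n : ℝ) ≤ (s + 1) * (s + 1) := by exact_mod_cast s1.le
  have b5 : (s : ℝ) * s ≤ n := by exact_mod_cast s3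
  have b3 : (s : ℝ) / n ≤ 1 / 2 := by
    rw [div_le_iff₀ (by linarith)]
    have : 64 * (s : ℝ) ≤ n := by exact_mod_cast s4
    linarith
  have b4 : 0 < (s : ℝ) / n := by positivity
  obtain ⟨ρ, hρ⟩ : ∃ ρ : ℝ, ρ = 1 - s / n / 2 := ⟨_, rfl⟩
  have r0 : 0 ≤ ρ := by linarith
  have r2 : 2 * (s : ℝ) / n = 2 * (s / n) := by ring
  have r1 : 1 - 2 * (s : ℝ) / n ≤ ρ ^ 4 := by
    have := one_add_mul_le_pow (a := -(s / n / 2 : ℝ)) (by linarith) 4
    push_cast at this
    rw [hρ, sub_eq_add_neg 1 (_ / 2)]; linarith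
  have y4 : (n : ℝ) + 47 ≤ (5 / 39 * s) ^ 4 := by
    have a : (s : ℝ) + 2 ≤ (5 / 39 * s) * (5 / 39 * s) := by
      have := mul_le_mul_of_nonneg_right b1 (by linarith : (0 : ℝ) ≤ s)
      linarith
    have c := mul_self_le_mul_self (by positivity) a
    have d : (5 / 39 * s : ℝ) * (5 / 39 * s) * (5 / 39 * s * (5 / 39 * s)) = (5 / 39 * s) ^ 4 := by ring
    linarith
  have F : ∀ i ∈ range n, (((1 + n * (n - 1) * PI n i / (n - i) : ℚ)) : ℝ) ≤ Real.exp (8 / 39 * s * ρ ^ (i - 3 * s)) := by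
    intro i hi
    obtain ⟨-, e⟩ := E i (mem_range.1 hi)
    have e0 : (n * (n - 1) * PI n i / (n - i) : ℚ) ≤ (n + 47) * (1 - 2 * (s : ℚ) / n) ^ (i - 3 * s) :=
      le_trans (le_add_of_nonneg_right (by positivity)) e
    generalize i - 3 * s = j at *
    have e' : ((n * (n - 1) * PI n i / (n - i) : ℚ) : ℝ) ≤ (n + 47) * (1 - 2 * (s : ℝ) / n) ^ j := by
      have := (Rat.cast_le (K := ℝ)).2 e0
      refine this.trans (le_of_eq ?_)
      push_cast; rfl
    have e2 : ((n : ℝ) + 47) * (1 - 2 * (s : ℝ) / n) ^ j ≤ (5 / 39 * s * ρ ^ j) ^ 4 := by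
      rw [mul_pow, ← pow_mul, mul_comm j 4, pow_mul]
      exact mul_le_mul y4 (pow_le_pow_left₀ (by linarith) r1 j) (pow_nonneg (by linarith) j) (by positivity)
    have := quart (5 / 39 * s * ρ ^ j) (by positivity)
    rw [show (8 / 5 * (5 / 39 * s * ρ ^ j) : ℝ) = 8 / 39 * s * ρ ^ j by ring] at this
    rw [Rat.cast_add, Rat.cast_one]
    linarith
  have P0 : ∀ i ∈ range n, (0 : ℝ) ≤ (((1 + n * (n - 1) * PI n i / (n - i) : ℚ)) : ℝ) := by
    intro i hi
    have hi' := mem_range.1 hi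
    obtain ⟨p, -⟩ := E i hi'
    have j1 : (0 : ℚ) < n - i := by
      have : (i : ℚ) < n := by exact_mod_cast hi'
      linarith
    have n1 : (1 : ℚ) ≤ n := by exact_mod_cast (by omega : 1 ≤ n)
    have : (0 : ℚ) ≤ n * (n - 1) * PI n i / (n - i) :=
      div_nonneg (mul_nonneg (mul_nonneg (by linarith) (by linarith)) p) j1.le
    exact_mod_cast (by linarith : (0 : ℚ) ≤ 1 + n * (n - 1) * PI n i / (n - i))
  have S : ∑ i ∈ range n, (8 / 39 * s * ρ ^ (i - 3 * s) : ℝ) ≤ 103 / 100 * n := by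
    rw [← mul_sum]
    have g := geo ρ r0 (by linarith) (n - 3 * s)
    have s0 : (s : ℝ) ≠ 0 := by positivity
    have n0 : (n : ℝ) ≠ 0 := by positivity
    have : (1 : ℝ) / (1 - ρ) = 2 * n / s := by rw [hρ, sub_sub_cancel]; field_simp
    rw [this] at g
    have u : ∑ i ∈ range n, ρ ^ (i - 3 * s) = 3 * s + ∑ j ∈ range (n - 3 * s), ρ ^ j := by
      conv_lhs => rw [show n = 3 * s + (n - 3 * s) by omega, sum_range_add]
      congr 1
      · rw [sum_congr rfl fun i hi => by rw [Nat.sub_eq_zero_of_le (mem_range.1 hi).le, pow_zero]]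
        simp
      · exact sum_congr rfl fun j _ => by rw [Nat.add_sub_cancel_left]
    rw [u]
    calc _ ≤ 8 / 39 * s * (3 * s + 2 * n / s : ℝ) := mul_le_mul_of_nonneg_left (by linarith) (by positivity)
      _ = 8 / 39 * (3 * (s * s) + 2 * n) := by field_simp
      _ ≤ _ := by linarith
  have B : ((BI n : ℚ) : ℝ) ≤ Real.exp (103 / 100 * n) := by
    have u : BI n = ∏ i ∈ range n, (1 + n * (n - 1) * PI n i / (n - i) : ℚ) := rfl
    rw [u, Rat.cast_prod]
    refine (prod_le_prod P0 F).trans ?_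
    rw [← Real.exp_sum]
    exact Real.exp_le_exp.2 S
  have : ((((n : ℚ) + 2) ^ 2 * BI n : ℚ) : ℝ) ≤ ((3 ^ n : ℚ) : ℝ) := by
    push_cast
    exact (mul_le_mul_of_nonneg_left B (by positivity)).trans (fin2 n hn)
  exact_mod_cast this

end Cfsg.Agent.H9.PS
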