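import Cfsg.Agent.H1.PS0

/-! Numerics for large degrees. -/

set_option autoImplicit false

namespace Cfsg.Agent.H9.PS

open Cfsg.Agent.H1.PS Finset

theorem quart (y : ℝ) (hy : 0 ≤ y) : 1 + y ^ 4 ≤ Real.exp (8 / 5 * y) := by
  have h := Real.sum_le_exp_of_nonneg (x := 8 / 5 * y) (by positivity) 7
  simp only [sum_range_succ, range_zero, sum_empty, Nat.factorial] at h
  norm_num at h
  refine le_trans ?_ h
  obtain ⟨t, rfl⟩ : ∃ t, y = 5 / 8 * t := ⟨8 / 5 * y, by ring⟩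
  have ht : 0 ≤ t := by linarith
  have e : 8 / 5 * (5 / 8 * t) = t := by ring
  rw [e]
  nlinarith [mul_nonneg (pow_nonneg ht 3) (sq_nonneg (t - 9 / 2)), mul_nonneg (sq_nonneg t) (sq_nonneg (t ^ 2 - 19)),
    pow_nonneg ht 3, pow_nonneg ht 4, sq_nonneg t]

theorem fin3 (n : ℕ) (hn : 2048 < n) : ((n : ℝ) + 2) ^ 3 * Real.exp n ≤ 3 ^ n := by
  have h1 : Real.exp (109 / 100) ≤ 3 := by
    have a := Real.exp_one_lt_d9
    have b := Real.exp_bound_div_one_sub_of_interval (x := 9 / 100) (by norm_num) (by norm_num)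
    rw [show (109 / 100 : ℝ) = 1 + 9 / 100 by norm_num, Real.exp_add]
    calc _ ≤ 2.7182818286 * (1 / (1 - 9 / 100)) := mul_le_mul a.le b (by positivity) (by norm_num)
      _ ≤ 3 := by norm_num
  have h2 : Real.exp (n * (109 / 100)) ≤ 3 ^ n := by
    rw [Real.exp_nat_mul]; exact pow_le_pow_left₀ (by positivity) h1 n
  have hq : (2048 : ℝ) < n := by exact_mod_cast hn
  have h3 := Real.pow_div_factorial_le_exp (9 / 100 * (n : ℝ)) (by positivity) 6
  have h4 : ((n : ℝ) + 2) ^ 3 ≤ (9 / 100 * (n : ℝ)) ^ 6 / (Nat.factorial 6 : ℕ) := by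
    have a : ((n : ℝ) + 2) ^ 3 ≤ (2 * n) ^ 3 / 6 := by
      have : (n : ℝ) + 2 ≤ 11 / 10 * n := by linarith
      have := pow_le_pow_left₀ (by positivity) this 3
      nlinarith [pow_nonneg (by positivity : (0 : ℝ) ≤ n) 3]
    have b : (2048 : ℝ) ^ 3 ≤ (n : ℝ) ^ 3 := pow_le_pow_left₀ (by norm_num) hq.le 3
    have c : (0 : ℝ) ≤ (n : ℝ) ^ 3 := by positivity
    norm_num [Nat.factorial]
    nlinarith [mul_le_mul_of_nonneg_left b c]
  calc _ ≤ Real.exp (9 / 100 * (n : ℝ)) * Real.exp n := mul_le_mul_of_nonneg_right (h4.trans h3) (by positivity)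
    _ = Real.exp (n * (109 / 100)) := by rw [← Real.exp_add]; congr 1; ring
    _ ≤ _ := h2

theorem geo (r : ℝ) (h0 : 0 ≤ r) (h1 : r < 1) (m : ℕ) : ∑ j ∈ range m, r ^ j ≤ 1 / (1 - r) := by
  rw [le_div_iff₀ (by linarith)]
  have := geom_sum_mul_neg r m
  have := pow_nonneg h0 m
  linarith

theorem d0_ge (n : ℕ) (hn : 2048 < n) : Nat.sqrt (n - 2) + 1 ≤ d0 n := by
  have s1 := Nat.sqrt_le (n - 2)
  have s2 : 45 ≤ Nat.sqrt (n - 2) := Nat.le_sqrt.2 (by omega)
  refine le_min ?_ (Nat.succ_le_succ (Nat.sqrt_le_sqrt (by omega)))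
  refine Nat.lt_ceil.2 ?_
  unfold A0 k0
  generalize Nat.sqrt (n - 2) = s at *
  have a : (s : ℚ) * s + 2 ≤ n := by exact_mod_cast (by omega : s * s + 2 ≤ n)
  have b : (45 : ℚ) ≤ s := by exact_mod_cast s2
  rw [lt_div_iff₀ (by norm_num), lt_min_iff]
  constructor
  · nlinarith
  · push_cast
    have c : (0 : ℚ) < n - 1 := by nlinarith
    have : (s : ℚ) * 2 - 2 < 2 * (s + 1) * (n - 1 - (s + 1)) / (n - 1) := by
      rw [lt_div_iff₀ c]; nlinarith
    linarith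

theorem eU (n : ℕ) (hn : 2048 < n) (j : ℕ) (hj : j + 1 < n) :
    0 ≤ PU n (j + 1) ∧ n * (n - 1) * PU n (j + 1) / (n - (j + 1 : ℕ)) ≤ n * (1 - (Nat.sqrt (n - 2) : ℚ) / n) ^ j := by
  have hq : (2048 : ℚ) < n := by exact_mod_cast hn
  induction j with
  | zero =>
    have a1 : A0 n ≤ n / 2 + 1 := min_le_left _ _
    have a2 : 0 ≤ A0 n := by
      have := d0_ge n hn
      have b : 0 < ⌈A0 n / 2⌉₊ := lt_of_lt_of_le (by omega) (this.trans (min_le_left _ _))
      have := Nat.ceil_pos.1 b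
      linarith
    have a3 : A0 n / n ≤ 1 := by rw [div_le_one (by linarith)]; linarith
    have a4 : 0 ≤ A0 n / n := by positivity
    simp only [PU, zero_add, Nat.cast_one, pow_zero, mul_one]
    refine ⟨by linarith, ?_⟩
    rw [div_le_iff₀ (by linarith)]
    have : (0 : ℚ) ≤ n * (n - 1) := mul_nonneg (by linarith) (by linarith)
    nlinarith
  | succ j ih =>
    obtain ⟨p, e⟩ := ih (by omega)
    have d := d0_ge n hn
    have s1 : Nat.sqrt (n - 2) ≤ n := (Nat.sqrt_le_self _).trans (by omega)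
    generalize Nat.sqrt (n - 2) = s at *
    have j1 : (0 : ℚ) < n - (j + 1) := by
      have : ((j + 1 : ℕ) : ℚ) < n := by exact_mod_cast (by omega : j + 1 < n)
      push_cast at this; linarith
    have j2 : (0 : ℚ) < n - (j + 1 + 1) := by
      have : ((j + 1 + 1 : ℕ) : ℚ) < n := by exact_mod_cast hj
      push_cast at this; linarith
    have th : 0 ≤ 1 - (s : ℚ) / n := by
      have : (s : ℚ) / n ≤ 1 := by rw [div_le_one (by linarith)]; exact_mod_cast s1
      linarith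
    have r : ((n - (j + 1) - d0 n : ℕ) : ℚ) ≤ (1 - (s : ℚ) / n) * (n - (j + 1 + 1)) := by
      rcases le_total (d0 n) (n - (j + 1)) with h | h
      · rw [Nat.cast_sub h, Nat.cast_sub (by omega)]
        have x1 : (s : ℚ) + 1 ≤ d0 n := by exact_mod_cast d
        have x2 : (s : ℚ) / n * (n - (j + 1 + 1)) ≤ s := by
          rw [div_mul_eq_mul_div, div_le_iff₀ (by linarith)]
          have : (0 : ℚ) ≤ s := by positivity
          have : (0 : ℚ) ≤ j := by positivity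
          nlinarith
        push_cast
        nlinarith
      · rw [Nat.sub_eq_zero_of_le h]; simp only [Nat.cast_zero]; positivity
    have u : PU n (j + 1 + 1) = PU n (j + 1) * ((n - (j + 1) - d0 n : ℕ) : ℚ) / (n - (j + 1)) := rfl
    rw [u]
    refine ⟨by positivity, ?_⟩
    push_cast at e ⊢
    have w : 0 ≤ (n : ℚ) * (n - 1) * PU n (j + 1) / (n - (j + 1)) :=
      div_nonneg (mul_nonneg (mul_nonneg (by linarith) (by linarith)) p) j1.le
    have r' : ((n - (j + 1) - d0 n : ℕ) : ℚ) / (n - (j + 1 + 1)) ≤ 1 - (s : ℚ) / n := by rwa [div_le_iff₀ j2]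
    calc _ = n * (n - 1) * PU n (j + 1) / (n - (j + 1)) * (((n - (j + 1) - d0 n : ℕ) : ℚ) / (n - (j + 1 + 1))) := by
          field_simp
      _ ≤ n * (1 - (s : ℚ) / n) ^ j * (1 - (s : ℚ) / n) := mul_le_mul e r' (by positivity) (by positivity)
      _ = _ := by ring

theorem nul : NUl := by
  intro n hn
  have hq : (2048 : ℝ) < n := by exact_mod_cast hn
  obtain ⟨m, hm⟩ : ∃ m, n = m + 1 := ⟨n - 1, by omega⟩
  have s1 := Nat.lt_succ_sqrt (n - 2)
  have s2 : 45 ≤ Nat.sqrt (n - 2) := Nat.le_sqrt.2 (by omega)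
  have s3 : Nat.sqrt (n - 2) ≤ n := (Nat.sqrt_le_self _).trans (by omega)
  have E := eU n hn
  generalize Nat.sqrt (n - 2) = s at *
  have b1 : (45 : ℝ) ≤ s := by exact_mod_cast s2
  have b2 : (n : ℝ) ≤ (s + 1) * (s + 1) + 1 := by exact_mod_cast (by simp only [Nat.succ_eq_add_one] at s1; omega : n ≤ (s + 1) * (s + 1) + 1)
  have b3 : (s : ℝ) / n ≤ 1 := by rw [div_le_one (by linarith)]; exact_mod_cast s3
  have b4 : 0 < (s : ℝ) / n := by positivity
  obtain ⟨ρ, hρ⟩ : ∃ ρ : ℝ, ρ = 1 - s / n / 4 := ⟨_, rfl⟩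
  have r0 : 0 ≤ ρ := by linarith
  have r1 : 1 - (s : ℝ) / n ≤ ρ ^ 4 := by
    have := one_add_mul_le_pow (a := -(s / n / 4 : ℝ)) (by linarith) 4
    push_cast at this
    rw [hρ, sub_eq_add_neg 1 (_ / 4)]; linarith
  have y4 : (n : ℝ) ≤ (5 / 32 * s) ^ 4 := by
    have a : (s : ℝ) + 2 ≤ (5 / 32 * s) * (5 / 32 * s) := by
      have := mul_le_mul_of_nonneg_right b1 (by linarith : (0 : ℝ) ≤ s)
      linarith
    have c := mul_self_le_mul_self (by positivity) a
    have d : (5 / 32 * s : ℝ) * (5 / 32 * s) * (5 / 32 * s * (5 / 32 * s)) = (5 / 32 * s) ^ 4 := by ring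
    linarith
  have F : ∀ j ∈ range m, (((1 + n * (n - 1) * PU n (j + 1) / (n - (j + 1 : ℕ)) : ℚ)) : ℝ) ≤ Real.exp (s / 4 * ρ ^ j) := by
    intro j hj
    obtain ⟨-, e⟩ := E j (by have := mem_range.1 hj; omega)
    have e' : ((n * (n - 1) * PU n (j + 1) / (n - (j + 1 : ℕ)) : ℚ) : ℝ) ≤ n * (1 - (s : ℝ) / n) ^ j := by
      have := (Rat.cast_le (K := ℝ)).2 e
      refine this.trans (le_of_eq ?_)
      push_cast; rfl
    have e2 : (n : ℝ) * (1 - (s : ℝ) / n) ^ j ≤ (5 / 32 * s * ρ ^ j) ^ 4 := by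
      rw [mul_pow, ← pow_mul, mul_comm j 4, pow_mul]
      exact mul_le_mul y4 (pow_le_pow_left₀ (by linarith) r1 j) (pow_nonneg (by linarith) j) (by positivity)
    have := quart (5 / 32 * s * ρ ^ j) (by positivity)
    rw [show (8 / 5 * (5 / 32 * s * ρ ^ j) : ℝ) = s / 4 * ρ ^ j by ring] at this
    rw [Rat.cast_add, Rat.cast_one]
    linarith
  have P0 : ∀ j ∈ range m, (0 : ℝ) ≤ (((1 + n * (n - 1) * PU n (j + 1) / (n - (j + 1 : ℕ)) : ℚ)) : ℝ) := by
    intro j hj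
    have hj' : j + 1 < n := by have := mem_range.1 hj; omega
    obtain ⟨p, -⟩ := E j hj'
    have j1 : (0 : ℚ) < n - (j + 1 : ℕ) := by
      have : ((j + 1 : ℕ) : ℚ) < n := by exact_mod_cast hj'
      linarith
    have n1 : (1 : ℚ) ≤ n := by exact_mod_cast (by omega : 1 ≤ n)
    have : (0 : ℚ) ≤ n * (n - 1) * PU n (j + 1) / (n - (j + 1 : ℕ)) :=
      div_nonneg (mul_nonneg (mul_nonneg (by linarith) (by linarith)) p) j1.le
    exact_mod_cast (by linarith : (0 : ℚ) ≤ 1 + n * (n - 1) * PU n (j + 1) / (n - (j + 1 : ℕ)))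
  have S : ∑ j ∈ range m, (s / 4 * ρ ^ j : ℝ) ≤ n := by
    rw [← mul_sum]
    have g := geo ρ r0 (by linarith) m
    have s0 : (s : ℝ) ≠ 0 := by positivity
    have n0 : (n : ℝ) ≠ 0 := by positivity
    have : (1 : ℝ) / (1 - ρ) = 4 * n / s := by rw [hρ, sub_sub_cancel]; field_simp
    rw [this] at g
    calc _ ≤ s / 4 * (4 * n / s : ℝ) := mul_le_mul_of_nonneg_left g (by positivity)
      _ = n := by field_simp
  have B : ((BU n : ℚ) : ℝ) ≤ Real.exp n * (n + 2) := by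
    have z : (1 + n * (n - 1) * PU n 0 / (n - (0 : ℕ)) : ℚ) = n := by
      have : (n : ℚ) ≠ 0 := by positivity
      simp only [PU, Nat.cast_zero, sub_zero, mul_one]; field_simp; ring
    have u : BU n = (∏ j ∈ range m, (1 + n * (n - 1) * PU n (j + 1) / (n - (j + 1 : ℕ)) : ℚ)) *
      (1 + n * (n - 1) * PU n 0 / (n - (0 : ℕ)) : ℚ) := by
      rw [← prod_range_succ' (fun i => (1 + n * (n - 1) * PU n i / (n - (i : ℕ)) : ℚ)), ← hm]; rfl
    rw [u, z, Rat.cast_mul, Rat.cast_prod, Rat.cast_natCast]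
    refine mul_le_mul ((prod_le_prod P0 F).trans ?_) (by linarith) (by positivity) (by positivity)
    rw [← Real.exp_sum]
    exact Real.exp_le_exp.2 S
  have : ((((n : ℚ) + 2) ^ 2 * BU n : ℚ) : ℝ) ≤ ((3 ^ n : ℚ) : ℝ) := by
    push_cast
    calc _ ≤ ((n : ℝ) + 2) ^ 2 * (Real.exp n * (n + 2)) := mul_le_mul_of_nonneg_left B (by positivity)
      _ = ((n : ℝ) + 2) ^ 3 * Real.exp n := by ring
      _ ≤ _ := fin3 n hn
  exact_mod_cast this

end Cfsg.Agent.H9.PS
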