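import Cfsg.Agent.H9.MiB1

/-! Subgroups of `SL₂(K[ν])`, `ν² = δν`, without transvections. -/

set_option autoImplicit false

namespace Cfsg.Agent.H9.QB

open Cfsg.Agent.H9.Mi

variable {K : Type*} [Field K]

/-- pairs of matrices of determinant one -/
structure P2 (R : K → K → K → K → K → K → K → K → Prop) : Prop where
  one : R 1 0 0 1 1 0 0 1
  mul : ∀ {a b c d A B C D a' b' c' d' A' B' C' D'}, R a b c d A B C D → R a' b' c' d' A' B' C' D' →
    R (a * a' + b * c') (a * b' + b * d') (c * a' + d * c') (c * b' + d * d')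
      (A * A' + B * C') (A * B' + B * D') (C * A' + D * C') (C * B' + D * D')
  inv : ∀ {a b c d A B C D}, R a b c d A B C D → R d (-b) (-c) a D (-B) (-C) A
  det : ∀ {a b c d A B C D}, R a b c d A B C D → a * d - b * c = 1 ∧ A * D - B * C = 1
  tv : ∀ {C}, R 1 0 0 1 1 0 C 1 → C = 0

namespace P2

variable {R : K → K → K → K → K → K → K → K → Prop}

omit [Field K] in
theorem cg {a b c d A B C D a' b' c' d' A' B' C' D' : K} (h : R a b c d A B C D) (e1 : a' = a) (e2 : b' = b)
    (e3 : c' = c) (e4 : d' = d) (e5 : A' = A) (e6 : B' = B) (e7 : C' = C) (e8 : D' = D) :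
    R a' b' c' d' A' B' C' D' := by
  subst e1 e2 e3 e4 e5 e6 e7 e8; exact h

theorem core [Finite K] (h : P2 R) (h2 : (2 : K) ≠ 0) {γ g β : K} (hg : g ≠ 0) (hβ : β ≠ 0)
    (hb : R 1 0 γ 1 1 0 g 1) (hb' : R 1 0 γ 1 1 β 0 1) : (3 : K) = 0 ∧ β * g = -1 := by
  have hS : S2 fun A B C D => ∃ s, R 1 0 s 1 A B C D :=
    ⟨⟨0, h.one⟩, fun ⟨s, k⟩ ⟨s', k'⟩ => ⟨s + s', cg (h.mul k k') (by ring) (by ring) (by ring) (by ring)
      rfl rfl rfl rfl⟩, fun ⟨_, k⟩ => (h.det k).2⟩
  have x1 : R 1 0 (2 * γ) 1 1 β g (1 + β * g) :=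
    cg (h.mul hb hb') (by ring) (by ring) (by ring) (by ring) (by ring) (by ring) (by ring) (by ring)
  have fin : (3 : K) = 0 → ¬ R 1 0 (2 * γ) 1 1 0 0 1 := fun h3 k =>
    hg (h.tv (cg (h.mul hb k) (by ring) (by ring) (by linear_combination (-γ) * h3) (by ring) (by ring) (by ring)
      (by ring) (by ring)))
  rcases hS.dk h2 hβ hg ⟨_, hb'⟩ ⟨_, hb⟩ with ⟨E, hE, -, -, hd⟩ | ⟨h3, h4, -⟩
  · have key : ∀ κ ∈ E, κ ≠ 0 → κ ^ 2 = 1 := fun κ hκ k0 => by
      obtain ⟨s, k⟩ := hd κ hκ k0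
      have := h.tv (C := g * (κ⁻¹ * κ⁻¹ - 1)) (cg (h.mul (h.mul (h.mul k hb) (h.inv k)) (h.inv hb))
        (by ring) (by ring) (by ring) (by ring) (by field_simp; ring) (by ring) (by field_simp; ring)
        (by field_simp; ring))
      have e := (mul_eq_zero.1 this).resolve_left hg
      field_simp at e
      linear_combination -e
    have h3 : (3 : K) = 0 := by linear_combination key 2 (by simp) h2
    refine ⟨h3, ?_⟩
    have e := key _ ((hE β).1 ⟨_, hb'⟩) (mul_ne_zero hβ hg)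
    rcases sq_eq_one_iff.1 e with e | e
    · exfalso
      have x2 : R 1 0 (4 * γ) 1 (-1) 0 0 (-1) := cg (h.mul x1 x1) (by ring) (by ring) (by ring) (by ring)
        (by linear_combination -e - h3) (by linear_combination -β * e - β * h3)
        (by linear_combination -g * e - g * h3) (by linear_combination (-β * g - 4) * e - 2 * h3)
      exact fin h3 (cg (h.mul x2 x2) (by ring) (by ring) (by linear_combination (-2 * γ) * h3) (by ring) (by ring)
        (by ring) (by ring) (by ring))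
    · exact e
  · exfalso
    have x2 : R 1 0 (4 * γ) 1 (1 + β * g) (β * (β * g - 1)) (g * (β * g - 1)) 0 :=
      cg (h.mul x1 x1) (by ring) (by ring) (by ring) (by ring) (by ring) (by linear_combination -β * h3)
        (by linear_combination -g * h3) (by linear_combination -h4 - β * g * h3)
    have x4 : R 1 0 (8 * γ) 1 (2 * β * g - 1) β g (-1) :=
      cg (h.mul x2 x2) (by ring) (by ring) (by ring) (by ring) (by grind) (by grind) (by grind) (by grind)
    have x5 : R 1 0 (10 * γ) 1 (-1) 0 0 (-1) :=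
      cg (h.mul x4 x1) (by ring) (by ring) (by ring) (by ring) (by grind) (by grind) (by grind) (by grind)
    exact fin h3 (cg (h.mul x5 x5) (by ring) (by ring) (by linear_combination (-6 * γ) * h3) (by ring) (by ring)
      (by ring) (by ring) (by ring))

theorem rot (h : P2 R) (t : K) :
    P2 fun a b c d A B C D => R a b c d (A - t * B) B (t * A + C - t ^ 2 * B - t * D) (t * B + D) where
  one := cg h.one rfl rfl rfl rfl (by ring) rfl (by ring) (by ring)
  mul k k' := cg (h.mul k k') rfl rfl rfl rfl (by ring) (by ring) (by ring) (by ring)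
  inv k := cg (h.inv k) rfl rfl rfl rfl (by ring) (by ring) (by ring) (by ring)
  det k := ⟨(h.det k).1, by linear_combination (h.det k).2⟩
  tv k := h.tv (cg k rfl rfl rfl rfl (by ring) rfl (by ring) (by ring))

theorem k1 [Finite K] (h : P2 R) (h2 : (2 : K) ≠ 0) {γ g A B C D : K} (hg : g ≠ 0) (hb : R 1 0 γ 1 1 0 g 1)
    (hn : R 1 0 0 1 A B C D) (hB : B ≠ 0) : (3 : K) = 0 ∧ (g * B) ^ 2 = 1 := by
  have hd := (h.det hn).2
  obtain ⟨h3, e⟩ := (h.rot (D / B)).core h2 (γ := γ) (β := -(g * B ^ 2)) hg (by simp [hg, hB])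
    (cg hb rfl rfl rfl rfl (by ring) rfl (by ring) (by ring))
    (cg (h.mul (h.mul hn hb) (h.inv hn)) (by ring) (by ring) (by ring) (by ring)
      (by field_simp; linear_combination -hd) (by ring) (by field_simp; ring)
      (by field_simp; linear_combination -hd))
  exact ⟨h3, by linear_combination -e⟩

end P2

/-- matrices `y + y'ν` of determinant one -/
structure S8 (δ : K) (R : K → K → K → K → K → K → K → K → Prop) : Prop where
  one : R 1 0 0 1 0 0 0 0
  mul : ∀ {a b c d A B C D a' b' c' d' A' B' C' D'}, R a b c d A B C D → R a' b' c' d' A' B' C' D' →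
    R (a * a' + b * c') (a * b' + b * d') (c * a' + d * c') (c * b' + d * d')
      (a * A' + b * C' + A * a' + B * c' + δ * (A * A' + B * C'))
      (a * B' + b * D' + A * b' + B * d' + δ * (A * B' + B * D'))
      (c * A' + d * C' + C * a' + D * c' + δ * (C * A' + D * C'))
      (c * B' + d * D' + C * b' + D * d' + δ * (C * B' + D * D'))
  inv : ∀ {a b c d A B C D}, R a b c d A B C D → R d (-b) (-c) a D (-B) (-C) A
  det : ∀ {a b c d A B C D}, R a b c d A B C D →
    a * d - b * c = 1 ∧ a * D + A * d - b * C - B * c + δ * (A * D - B * C) = 0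
  tv : ∀ {A B C D}, R 1 0 0 1 A B C D → A * D - B * C = 0 → A = 0 ∧ B = 0 ∧ C = 0 ∧ D = 0

namespace S8

open P2 (cg)

variable {δ : K} {R : K → K → K → K → K → K → K → K → Prop}

theorem swap (h : S8 δ R) : S8 δ fun a b c d A B C D => R d c b a D C B A where
  one := h.one
  mul k k' := cg (h.mul k k') (by ring) (by ring) (by ring) (by ring) (by ring) (by ring) (by ring) (by ring)
  inv k := h.inv k
  det k := ⟨by linear_combination (h.det k).1, by linear_combination (h.det k).2⟩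
  tv k e := by
    obtain ⟨a, b, c, d⟩ := h.tv k (by linear_combination e)
    exact ⟨d, c, b, a⟩

theorem p2 (h : S8 δ R) (hδ : δ ≠ 0) :
    P2 fun a b c d A B C D => R a b c d ((A - a) / δ) ((B - b) / δ) ((C - c) / δ) ((D - d) / δ) where
  one := cg h.one rfl rfl rfl rfl (by simp) (by simp) (by simp) (by simp)
  mul k k' := cg (h.mul k k') rfl rfl rfl rfl (by field_simp; ring) (by field_simp; ring) (by field_simp; ring)
    (by field_simp; ring)
  inv k := cg (h.inv k) rfl rfl rfl rfl rfl (by ring) (by ring) rfl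
  det k := by
    obtain ⟨e1, e2⟩ := h.det k
    refine ⟨e1, ?_⟩
    field_simp at e2
    linear_combination e1 + e2
  tv k := by simpa [hδ] using (h.tv k (by simp)).2.2.1

theorem k1 [Finite K] (h : S8 δ R) (h2 : (2 : K) ≠ 0) (hδ : δ ≠ 0) {γ γ' A B C D : K} (hg : γ + δ * γ' ≠ 0)
    (hb : R 1 0 γ 1 0 0 γ' 0) (hn : R 1 0 0 1 A B C D) (hB : B ≠ 0) :
    (3 : K) = 0 ∧ ((γ + δ * γ') * (δ * B)) ^ 2 = 1 :=
  (h.p2 hδ).k1 h2 (γ := γ) (A := 1 + δ * A) (C := δ * C) (D := 1 + δ * D) hg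
    (cg hb rfl rfl rfl rfl (by simp) (by simp) (by simp [hδ]) (by simp))
    (cg hn rfl rfl rfl rfl (by simp [hδ]) (by simp [hδ]) (by simp [hδ]) (by simp [hδ])) (mul_ne_zero hδ hB)

/-- conjugation of a kernel element by a lower unitriangular element -/
theorem cjl (h : S8 δ R) {γ γ' A B C D : K} (hb : R 1 0 γ 1 0 0 γ' 0) (hn : R 1 0 0 1 A B C D) :
    R 1 0 0 1 (A - (γ + δ * γ') * B) B ((γ + δ * γ') * (A - D) + C - (γ + δ * γ') ^ 2 * B)
      (D + (γ + δ * γ') * B) :=
  cg (h.mul (h.mul hb hn) (h.inv hb)) (by ring) (by ring) (by ring) (by ring) (by ring) (by ring) (by ring) (by ring)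

theorem neg (h : S8 δ R) {γ γ' : K} (hb : R 1 0 γ 1 0 0 γ' 0) : R 1 0 (-γ) 1 0 0 (-γ') 0 :=
  cg (h.inv hb) rfl (by ring) rfl rfl rfl (by ring) rfl rfl

theorem pm (h : S8 δ R) (h3 : (3 : K) = 0) (hδ : δ ≠ 0) {m : K} (ha : R 1 1 0 1 0 m 0 0) (hb : R 1 0 1 1 0 0 0 0)
    (hm : 1 + δ * m = -1) : False := by
  let R' := fun a b c d A B C D => R a b c d ((A - a) / δ) ((B - b) / δ) ((C - c) / δ) ((D - d) / δ)
  have k : P2 R' := h.p2 hδ
  have a : R' 1 1 0 1 1 (-1) 0 1 :=
    cg (R := R) ha rfl rfl rfl rfl (by simp) (by field_simp; linear_combination -hm) (by simp) (by simp)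
  have b : R' 1 0 1 1 1 0 1 1 := cg (R := R) hb rfl rfl rfl rfl (by simp) (by simp) (by simp) (by simp)
  have x1 : R' 2 1 1 1 0 (-1) 1 1 :=
    cg (k.mul a b) (by ring) (by ring) (by ring) (by ring) (by ring) (by ring) (by ring) (by ring)
  have x2 : R' (-1) 0 0 (-1) (-1) (-1) 1 0 := cg (k.mul x1 x1) (by linear_combination -2 * h3)
    (by linear_combination -h3) (by linear_combination -h3) (by linear_combination -h3) (by ring) (by ring) (by ring)
    (by ring)
  have x4 : R' 1 0 0 1 0 1 (-1) (-1) :=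
    cg (k.mul x2 x2) (by ring) (by ring) (by ring) (by ring) (by ring) (by ring) (by ring) (by ring)
  simpa [hδ] using (h.tv x4 (by field_simp; linear_combination h3)).2.1

variable [Finite K] {l m : K} (h : S8 δ R) (h2 : (2 : K) ≠ 0) (ha : R 1 l 0 1 0 m 0 0) (hb : R 1 0 1 1 0 0 0 0)
  (hm : l + δ * m ≠ 0) (hg : (3 : K) = 0 → δ ≠ 0 → (l + δ * m) ^ 2 ≠ 1)
include h h2 ha hb hm hg

theorem kB {A B C D : K} (hn : R 1 0 0 1 A B C D) : B = 0 := by
  by_contra hB
  by_cases hδ : δ = 0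
  · subst hδ
    have sub : ∀ {A B C D A' B' C' D' : K}, R 1 0 0 1 A B C D → R 1 0 0 1 A' B' C' D' →
        R 1 0 0 1 (A - A') (B - B') (C - C') (D - D') := fun k k' =>
      cg (h.mul k (h.inv k')) (by ring) (by ring) (by ring) (by ring) (by linear_combination -(h.det k').2)
        (by ring) (by ring) (by linear_combination -(h.det k').2)
    have k1 := sub (h.cjl hb hn) hn
    have := (h.tv (sub (h.cjl hb k1) k1) (by ring)).2.2.1
    exact mul_ne_zero h2 hB (by linear_combination -this)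
  · obtain ⟨h3, e⟩ := h.k1 h2 hδ (by simp) hb hn hB
    have key : ∀ {A B C D : K}, R 1 0 0 1 A B C D →
        ((l + δ * m) * (δ * C)) ^ 3 = (l + δ * m) * (δ * C) := fun {A B C D} k => by
      by_cases hC : C = 0
      · simp [hC]
      · linear_combination ((l + δ * m) * (δ * C)) * (h.swap.k1 h2 hδ hm ha k hC).2
    have k0 := key hn
    have k1 := key (h.cjl hb hn)
    have k2 := key (h.cjl (h.neg hb) hn)
    refine hg h3 hδ ?_
    generalize l + δ * m = μ at *
    have : (μ * (δ * B)) ^ 3 = μ * (δ * B) := by grind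
    have e2 : μ * (δ * B) * ((μ * (δ * B)) ^ 2 - 1) = 0 := by linear_combination this
    have e3 := (mul_eq_zero.1 e2).resolve_left (mul_ne_zero hm (mul_ne_zero hδ hB))
    linear_combination e3 - μ ^ 2 * e

theorem kC {A B C D : K} (hn : R 1 0 0 1 A B C D) : B = 0 ∧ C = 0 ∧ A = D := by
  have k0 := h.kB h2 ha hb hm hg hn
  have k1 := h.kB h2 ha hb hm hg (h.swap.cjl ha hn)
  have k2 := h.kB h2 ha hb hm hg (h.swap.cjl (h.swap.neg ha) hn)
  have e : 2 * (l + δ * m) ^ 2 * C = 0 := by linear_combination 2 * k0 - k1 - k2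
  have hC : C = 0 := by simpa [h2, hm] using e
  refine ⟨k0, hC, ?_⟩
  have e : (l + δ * m) * (D - A) = 0 := by linear_combination k1 - k0 + (l + δ * m) ^ 2 * hC
  exact (sub_eq_zero.1 ((mul_eq_zero.1 e).resolve_left hm)).symm

theorem mf (hl : l ≠ 0) (hl' : ¬ ((3 : K) = 0 ∧ l ^ 2 = -1)) : R 1 1 0 1 0 0 0 0 := by
  have hS : S2 fun a b c d => ∃ A B C D, R a b c d A B C D :=
    ⟨⟨_, _, _, _, h.one⟩, fun ⟨_, _, _, _, k⟩ ⟨_, _, _, _, k'⟩ => ⟨_, _, _, _, h.mul k k'⟩,
      fun ⟨_, _, _, _, k⟩ => (h.det k).1⟩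
  rcases hS.dk h2 hl one_ne_zero ⟨_, _, _, _, ha⟩ ⟨_, _, _, _, hb⟩ with ⟨E, hE, -⟩ | ⟨h3, h4, -⟩
  swap
  · exact absurd ⟨h3, by simpa using h4⟩ hl'
  obtain ⟨p, q, r, s, hY⟩ := (hE 1).2 (by simp)
  obtain ⟨e1, e2, e3⟩ := h.kC h2 ha hb hm hg (cg (h.mul (h.mul (h.mul hY ha) (h.inv hY)) (h.inv ha))
    (by ring) (by ring) (by ring) (by ring) rfl rfl rfl rfl)
  have e4 := (h.det hY).2
  have hr : r = 0 ∧ 2 * p + δ * p ^ 2 = 0 ∧ s = p := by
    have f2 : (l + δ * m) * (δ * r ^ 2) = 0 := by linear_combination -e2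
    have f3 : 2 * (l + δ * m) * ((1 + δ * p) * r) = 0 := by linear_combination -e3 - (l + δ * m) * f2
    have g3 := (mul_eq_zero.1 f3).resolve_left (mul_ne_zero h2 hm)
    have f1 : (l + δ * m) * (2 * p + δ * p ^ 2) = 0 := by
      linear_combination e1 + (l + δ * m) * e4 - (l + δ * m) ^ 2 * g3
    have g1 := (mul_eq_zero.1 f1).resolve_left hm
    have g2 : r = 0 := by linear_combination (1 + δ * p) * g3 - δ * r * g1
    subst g2
    exact ⟨rfl, g1, by linear_combination (1 + δ * p) * (e4 - g1) - δ * (s - p) * g1⟩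
  obtain ⟨rfl, e5, rfl⟩ := hr
  have ns : ∀ {b B : K} (n : ℕ), R 1 b 0 1 0 B 0 0 → R 1 (n * b) 0 1 0 (n * B) 0 0 := fun n k => by
    induction n with
    | zero => simpa using h.one
    | succ n ih =>
      exact cg (h.mul ih k) (by ring) (by push_cast; ring) (by ring) (by ring) (by ring) (by push_cast; ring)
        (by ring) (by ring)
  obtain ⟨n, hn⟩ := exists_cast_half h2
  have k1 : R 1 1 0 1 0 (s + q + δ * s * q) 0 0 := cg (ns (b := 2) (B := 2 * (s + q + δ * s * q)) n
    (cg (h.mul hY hY) (by ring) (by ring) (by ring) (by ring) (by linear_combination -e5) (by ring) (by ring)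
      (by linear_combination -e5))) rfl hn.symm rfl rfl rfl (by linear_combination -(s + q + δ * s * q) * hn) rfl rfl
  generalize s + q + δ * s * q = σ at k1
  have a := h.inv k1
  obtain ⟨f1, f2, f3⟩ := h.kC h2 ha hb hm hg (cg (h.mul (h.mul (h.mul a hb) a) (h.inv (h.mul (h.mul hb a) hb)))
    (by ring) (by ring) (by ring) (by ring) rfl rfl rfl rfl)
  have : 2 * σ = 0 := by grind
  rwa [(mul_eq_zero.1 this).resolve_left h2] at k1

end S8

end Cfsg.Agent.H9.QB
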