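import Cfsg.Agent.H9.QB1
import Cfsg.Agent.H9.MiB5

/-! Opposite centres of quadratic elements in `GL₄`. -/

set_option autoImplicit false

namespace Cfsg.Agent.H9.QB

open Matrix Cfsg.Agent.H9.Mi Cfsg.Agent.H1.Mit

variable {K : Type*} [Field K]

/-- local hypotheses -/
structure QH (G : M4 K → Prop) : Prop where
  two : (2 : K) ≠ 0
  one : G 1
  mul : ∀ {X Y}, G X → G Y → G (X * Y)
  inv : ∀ {X}, G X → ∃ Y, G Y ∧ Y * X = 1
  tv : ∀ u v : Fin 4 → K, G (1 + vecMulVec u v) → vecMulVec u v = 0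
  ev : ∀ {X}, G X → ∃ (x : K) (u : Fin 4 → K), u ≠ 0 ∧ X *ᵥ u = x • u

/-- more than three elements with the standard centre -/
def Big (G : M4 K → Prop) : Prop := ∀ A, G (up A) → A ≠ 0 → ∃ A', G (up A') ∧ A' ≠ 0 ∧ A' ≠ A ∧ A' ≠ -A

theorem rank1 {A : M2 K} (h : A.det = 0) : ∃ p q : Fin 2 → K, A = vecMulVec p q := by
  rw [det_fin_two] at h
  by_cases h0 : A 0 0 = 0
  · rcases mul_eq_zero.1 (show A 0 1 * A 1 0 = 0 by linear_combination A 1 1 * h0 - h) with e | e
    · exact ⟨![0, 1], ![A 1 0, A 1 1], by ext i j; fin_cases i <;> fin_cases j <;> simp [vecMulVec, h0, e]⟩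
    · exact ⟨![A 0 1, A 1 1], ![0, 1], by ext i j; fin_cases i <;> fin_cases j <;> simp [vecMulVec, h0, e]⟩
  · refine ⟨![A 0 0, A 1 0], ![1, A 0 1 / A 0 0], ?_⟩
    ext i j; fin_cases i <;> fin_cases j <;> simp [vecMulVec] <;> field_simp
    linear_combination h

theorem blk_vmv (p q r s : Fin 2 → K) :
    blk ((p 0 * q 0) • vecMulVec r s) ((p 0 * q 1) • vecMulVec r s) ((p 1 * q 0) • vecMulVec r s)
      ((p 1 * q 1) • vecMulVec r s) = vecMulVec (v2 (p 0 • r) (p 1 • r)) (v2 (q 0 • s) (q 1 • s)) := by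
  ext i j; fin_cases i <;> fin_cases j <;> simp [blk, v2, vecMulVec] <;> ring

/-- matrices over `K[ν]` -/
def TT (ν : M2 K) (a b c d A B C D : K) : M4 K :=
  blk (a • 1 + A • ν) (b • 1 + B • ν) (c • 1 + C • ν) (d • 1 + D • ν)

theorem sc_mul {ν : M2 K} {δ : K} (hν : ν * ν = δ • ν) (a A a' A' : K) :
    (a • (1 : M2 K) + A • ν) * (a' • 1 + A' • ν) = (a * a') • 1 + (a * A' + A * a' + δ * (A * A')) • ν := by
  simp only [add_mul, mul_add, Matrix.smul_mul, Matrix.mul_smul, one_mul, mul_one, hν]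
  module

theorem TT_mul {ν : M2 K} {δ : K} (hν : ν * ν = δ • ν) (a b c d A B C D a' b' c' d' A' B' C' D' : K) :
    TT ν a b c d A B C D * TT ν a' b' c' d' A' B' C' D' =
    TT ν (a * a' + b * c') (a * b' + b * d') (c * a' + d * c') (c * b' + d * d')
      (a * A' + b * C' + A * a' + B * c' + δ * (A * A' + B * C'))
      (a * B' + b * D' + A * b' + B * d' + δ * (A * B' + B * D'))
      (c * A' + d * C' + C * a' + D * c' + δ * (C * A' + D * C'))
      (c * B' + d * D' + C * b' + D * d' + δ * (C * B' + D * D')) := by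
  simp only [TT, blk_mul, sc_mul hν, blk_inj]
  refine ⟨?_, ?_, ?_, ?_⟩ <;> module

namespace QH

variable {G : M4 K → Prop} (h : QH G)
include h

theorem inv' {X Y : M4 K} (hX : G X) (e : X * Y = 1) : G Y := by
  obtain ⟨Z, hZ, e'⟩ := h.inv hX
  rwa [← one_mul Y, ← e', mul_assoc, e, mul_one]

theorem cj {Q Q' : M4 K} (e : Q' * Q = 1) : QH fun X => G (Q * X * Q') where
  two := h.two
  one := by simpa [mul_eq_one_comm.1 e] using h.one
  mul {X Y} k k' := by
    have := h.mul k k'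
    rwa [show Q * X * Q' * (Q * Y * Q') = Q * (X * (Q' * Q) * Y) * Q' by simp only [mul_assoc], e, mul_one] at this
  inv {X} k := by
    obtain ⟨Y, hY, e'⟩ := h.inv k
    refine ⟨Q' * Y * Q, ?_, ?_⟩
    · rwa [show Q * (Q' * Y * Q) * Q' = Q * Q' * Y * (Q * Q') by simp only [mul_assoc], mul_eq_one_comm.1 e,
        one_mul, mul_one]
    · calc _ = Q' * (Y * (Q * X * Q')) * Q := by simp only [mul_assoc, e, mul_one]
        _ = 1 := by rw [e', mul_one, e]
  tv u v k := by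
    rw [mul_add, add_mul, mul_one, mul_eq_one_comm.1 e, mul_vecMulVec, vecMulVec_mul] at k
    have := h.tv _ _ k
    rw [← vecMulVec_mul, ← mul_vecMulVec] at this
    calc _ = Q' * Q * vecMulVec u v * (Q' * Q) := by rw [e, one_mul, mul_one]
      _ = Q' * (Q * vecMulVec u v * Q') * Q := by simp only [mul_assoc]
      _ = 0 := by rw [this, mul_zero, zero_mul]
  ev {X} k := by
    obtain ⟨x, u, hu, e'⟩ := h.ev k
    refine ⟨x, Q' *ᵥ u, fun e0 => hu ?_, ?_⟩
    · rw [← one_mulVec u, ← mul_eq_one_comm.1 e, ← mulVec_mulVec, e0, mulVec_zero]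
    · rw [← mulVec_smul, ← e', mulVec_mulVec, mulVec_mulVec, ← mul_assoc, ← mul_assoc, e, one_mul]

theorem pow {X : M4 K} (k : G X) (n : ℕ) : G (X ^ n) := by
  induction n with
  | zero => simpa using h.one
  | succ n ih => rw [pow_succ]; exact h.mul ih k

theorem tv2 {y ν : M2 K} (hy : y.det = 0) (hν : ν.det = 0)
    (k : G (1 + blk (y 0 0 • ν) (y 0 1 • ν) (y 1 0 • ν) (y 1 1 • ν))) :
    blk (y 0 0 • ν) (y 0 1 • ν) (y 1 0 • ν) (y 1 1 • ν) = 0 := by
  obtain ⟨p, q, rfl⟩ := rank1 hy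
  obtain ⟨r, s, rfl⟩ := rank1 hν
  simp only [vecMulVec_apply, blk_vmv] at k ⊢
  exact h.tv _ _ k

theorem up_det {A : M2 K} (k : G (up A)) (h0 : A ≠ 0) : A.det ≠ 0 := fun e => h0 (by
  simpa [blk_eq_zero] using h.tv2 (y := !![0, 1; 0, 0]) (by simp) e (by simpa [← up_sub_one] using k))

theorem lo_det {A : M2 K} (k : G (lo A)) (h0 : A ≠ 0) : A.det ≠ 0 := fun e => h0 (by
  simpa [blk_eq_zero] using h.tv2 (y := !![0, 0; 1, 0]) (by simp) e (by simpa [← lo_sub_one] using k))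

theorem s8 {ν : M2 K} {δ : K} (hν : ν * ν = δ • ν) (d0 : ν.det = 0) (n0 : ν ≠ 0) :
    S8 δ fun a b c d A B C D => (a * d - b * c = 1 ∧ a * D + A * d - b * C - B * c + δ * (A * D - B * C) = 0) ∧
      G (TT ν a b c d A B C D) where
  one := ⟨⟨by simp, by simp⟩, by simpa [TT, ← one_eq_blk] using h.one⟩
  mul := fun {a b c d A B C D a' b' c' d' A' B' C' D'} ⟨⟨e1, e2⟩, k⟩ ⟨⟨e1', e2'⟩, k'⟩ =>
    ⟨⟨by linear_combination (a' * d' - b' * c') * e1 + e1', by
      linear_combination (a * d - b * c) * e2' + (a' * d' - b' * c' + δ * (a' * D' + A' * d' - b' * C' - B' * c' +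
        δ * (A' * D' - B' * C'))) * e2⟩, TT_mul hν .. ▸ h.mul k k'⟩
  inv := fun {a b c d A B C D} ⟨⟨e1, e2⟩, k⟩ => ⟨⟨by linear_combination e1, by linear_combination e2⟩, h.inv' k (by
    rw [TT_mul hν, show (1 : M4 K) = TT ν 1 0 0 1 0 0 0 0 by simp [TT, ← one_eq_blk]]
    congr 1 <;> first | ring1 | linear_combination e1 | linear_combination e2)⟩
  det k := k.1
  tv := fun {A B C D} ⟨_, k⟩ e => by
    have := h.tv2 (y := !![A, B; C, D]) (by simpa using e) d0 (by simpa [TT, one_eq_blk, blk_add] using k)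
    simpa [blk_eq_zero, n0] using this

theorem up_add {A B : M2 K} (k : G (up A)) (k' : G (up B)) : G (up (A + B)) := up_mul A B ▸ h.mul k k'

theorem up_neg {A : M2 K} (k : G (up A)) : G (up (-A)) := h.inv' k (by rw [up_mul, add_neg_cancel, up_zero])

theorem lo_neg {A : M2 K} (k : G (lo A)) : G (lo (-A)) := h.inv' k (by rw [lo_mul, add_neg_cancel, lo_zero])

theorem up_sub {A B : M2 K} (k : G (up A)) (k' : G (up B)) : G (up (A - B)) := by
  rw [sub_eq_add_neg]; exact h.up_add k (h.up_neg k')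

theorem up_half [Finite K] {A : M2 K} (k : G (up (A + A))) : G (up A) := by
  obtain ⟨n, hn⟩ := exists_cast_half h.two
  have := h.pow k n
  rwa [up_pow, ← two_smul K, smul_smul, hn, one_smul] at this

theorem exists_ev {A : M2 K} (hA : G (up A)) (hB : G (lo 1)) (dA : A.det ≠ 0) :
    ∃ l : K, l ^ 2 - A.trace * l + A.det = 0 := by
  obtain ⟨x, u, hu, e1⟩ := h.ev (h.mul hA hB)
  have x0 : x ≠ 0 := fun e => hu (by
    obtain ⟨Y, -, hY⟩ := h.inv (h.mul hA hB)
    rw [← one_mulVec u, ← hY, ← mulVec_mulVec, e1, e, zero_smul, mulVec_zero])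
  obtain ⟨v, w, rfl⟩ := exists_v2 u
  rw [← mulVec_mulVec, lo_v2, up_v2, v2_smul, v2_inj] at e1
  obtain ⟨e1, e2⟩ := e1
  rw [e2, mulVec_smul] at e1
  have e3 : v = (x - 1) • w := by rw [sub_smul, ← e2, one_smul, add_sub_cancel_right, one_mulVec]
  have e4 : A *ᵥ w = (x⁻¹ * (x - 1)) • v := by
    rw [mul_smul, sub_smul, ← e1, one_smul, add_sub_cancel_left, smul_smul, inv_mul_cancel₀ x0, one_smul]
  refine ⟨(x - 1) * (x⁻¹ * (x - 1)), ev_det (v := v) (fun e => hu ?_) ?_⟩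
  · subst e
    rw [cancel_v dA (e4.trans (smul_zero _)), v2_eq_zero]
    exact ⟨rfl, rfl⟩
  · conv_lhs => rw [e3, mulVec_smul, e4, smul_smul]

variable [Finite K]

theorem mf0 {M : M2 K} (hM : G (up M)) (l1 : G (lo 1)) (d0 : M.det ≠ 0) {l l' : K} (et : M.trace = l + l')
    (ed : M.det = l * l') (hl : ¬ ((3 : K) = 0 ∧ l ^ 2 = -1)) : G (up 1) := by
  have key : ∀ {l l' : K}, M.trace = l + l' → M.det = l * l' → ∃ R m, S8 (l' - l) R ∧ R 1 l 0 1 0 m 0 0 ∧
      R 1 0 1 1 0 0 0 0 ∧ l + (l' - l) * m = l' ∧ (R 1 1 0 1 0 0 0 0 → G (up 1)) := fun {l l'} et ed => by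
    obtain ⟨ν, m, hν, n1, n0, e, e'⟩ : ∃ (ν : M2 K) (m : K), ν * ν = (l' - l) • ν ∧ ν.det = 0 ∧ ν ≠ 0 ∧
        M = l • 1 + m • ν ∧ l + (l' - l) * m = l' := by
      by_cases e : M = l • 1
      · have : l' = l := by
          rw [e] at et
          simp at et
          linear_combination -et
        refine ⟨!![0, 1; 0, 0], 0, ?_, by simp, fun e => by simpa using congrFun (congrFun e 0) 1, by simp [e],
          by simp [this]⟩
        ext i j; fin_cases i <;> fin_cases j <;> simp [this]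
      · rw [trace_fin_two] at et
        rw [det_fin_two] at ed
        refine ⟨M - l • 1, 1, ?_, ?_, sub_ne_zero.2 e, by simp, by ring⟩
        · ext i j; fin_cases i <;> fin_cases j <;> simp [mul_apply, Fin.sum_univ_two]
          · linear_combination M 0 0 * et - ed
          · linear_combination M 0 1 * et
          · linear_combination M 1 0 * et
          · linear_combination M 1 1 * et - ed
        · simp [det_fin_two]
          linear_combination ed - l * et
    exact ⟨_, m, h.s8 hν n1 n0, ⟨⟨by simp, by simp⟩, by simpa [TT, ← e, up] using hM⟩,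
      ⟨⟨by simp, by simp⟩, by simpa [TT, lo] using l1⟩, e', fun k => by simpa [TT, up] using k.2⟩
  have fin : ∀ {l l' : K}, M.trace = l + l' → M.det = l * l' → ¬ ((3 : K) = 0 ∧ l ^ 2 = -1) →
      ((3 : K) = 0 → l' ≠ l → l' ^ 2 ≠ 1) → G (up 1) := fun {l l'} et ed hl hg => by
    obtain ⟨R, m, hR, ha, hb, e, k⟩ := key et ed
    rw [ed] at d0
    exact k (hR.mf h.two ha hb (by rw [e]; exact right_ne_zero_of_mul d0)
      (fun h3 hδ => by rw [e]; exact hg h3 (sub_ne_zero.1 hδ)) (left_ne_zero_of_mul d0) hl)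
  have pm : ∀ {l l' : K}, M.trace = l + l' → M.det = l * l' → (3 : K) = 0 → l = 1 → l' = -1 → False :=
    fun {l l'} et ed h3 e1 e2 => by
      obtain ⟨R, m, hR, ha, hb, e, -⟩ := key et ed
      subst e1 e2
      exact hR.pm h3 (fun e => h.two (by linear_combination -e)) ha hb e
  by_cases c : (3 : K) = 0 → l' ≠ l → l' ^ 2 ≠ 1
  · exact fin et ed hl c
  push Not at c
  obtain ⟨h3, c1, c2⟩ := c
  by_cases c3 : l ^ 2 = 1
  · exfalso
    rcases sq_eq_one_iff.1 c3 with e | e <;> rcases sq_eq_one_iff.1 c2 with e' | e'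
    · exact c1 (e'.trans e.symm)
    · exact pm et ed h3 e e'
    · exact pm (et.trans (add_comm _ _)) (ed.trans (mul_comm _ _)) h3 e' e
    · exact c1 (e'.trans e.symm)
  · exact fin (et.trans (add_comm _ _)) (ed.trans (mul_comm _ _))
      (fun e => h.two (by linear_combination e.2 - c2)) fun _ _ => c3

theorem mf1 (hb : Big G) {A : M2 K} (hA : G (up A)) (a0 : A ≠ 0) (l1 : G (lo 1)) : G (up 1) := by
  by_contra hne
  have key : ∀ A, G (up A) → A ≠ 0 → (3 : K) = 0 ∧ A.trace ^ 2 + A.det = 1 := fun A hA a0 => by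
    have dA := h.up_det hA a0
    obtain ⟨l, e1⟩ := h.exists_ev hA l1 dA
    obtain ⟨h3, e2⟩ := not_not.1 fun k => hne (h.mf0 hA l1 dA (l := l) (l' := A.trace - l) (by ring)
      (by linear_combination e1) k)
    obtain ⟨-, e3⟩ := not_not.1 fun k => hne (h.mf0 hA l1 dA (l := A.trace - l) (l' := l) (by ring)
      (by linear_combination e1) k)
    exact ⟨h3, by linear_combination e1 + e3 + (l * A.trace - l ^ 2 - 1) * h3 + e2⟩
  obtain ⟨A', hA', n0, n1, n2⟩ := hb A hA a0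
  obtain ⟨h3, k1⟩ := key _ hA a0
  have k2 := (key _ hA' n0).2
  have k3 := (key _ (h.up_sub hA' hA) (sub_ne_zero.2 n1)).2
  have k4 := (key _ (h.up_add hA' hA) fun e => n2 (eq_neg_of_add_eq_zero_left e)).2
  simp only [det_fin_two, trace_fin_two, Matrix.sub_apply, Matrix.add_apply] at k1 k2 k3 k4
  exact h.two (by linear_combination k3 + k4 - 2 * k1 - 2 * k2)

end QH

theorem Big.dg {G : M4 K → Prop} (hb : Big G) {B B' : M2 K} (e : B' * B = 1) :
    Big fun X => G (blk 1 0 0 B * X * blk 1 0 0 B') := by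
  have k : ∀ A, blk 1 0 0 B * up A * blk 1 0 0 B' = up (A * B') := fun A => by
    simp [up, blk_mul, mul_eq_one_comm.1 e]
  have c : ∀ {A A' : M2 K}, A * B' = A' → A = A' * B := fun {A A'} e' => by rw [← e', mul_assoc, e, mul_one]
  have c' : ∀ {A A' : M2 K}, A * B = A' → A = A' * B' := fun {A A'} e' => by
    rw [← e', mul_assoc, mul_eq_one_comm.1 e, mul_one]
  intro A hA a0
  simp only [k] at hA ⊢
  obtain ⟨A', h1, h2, h3, h4⟩ := hb _ hA fun e' => a0 (by simpa using c e')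
  exact ⟨A' * B, by rwa [mul_assoc, mul_eq_one_comm.1 e, mul_one], fun e' => h2 (by simpa using c' e'),
    fun e' => h3 (c' e'), fun e' => h4 (by simpa using c' e')⟩

theorem Big.tr {G : M4 K → Prop} (hb : Big G) (Z : M2 K) : Big fun X => G (up Z * X * up (-Z)) := by
  have k : ∀ A, up Z * up A * up (-Z) = up A := fun A => by rw [up_mul, up_mul]; congr 1; abel
  intro A hA a0
  simp only [k] at hA ⊢
  exact hb A hA a0

theorem QH.moufang [Finite K] {G : M4 K → Prop} (h : QH G) (hb : Big G) {A B : M2 K} (hA : G (up A)) (a0 : A ≠ 0)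
    (hB : G (lo B)) (b0 : B ≠ 0) : ∃ A', G (up A') ∧ A' * B = 1 ∧ B * A' = 1 := by
  obtain ⟨B', e1, e2⟩ := inv2 (h.lo_det hB b0)
  have := (h.cj (Q := blk 1 0 0 B) (Q' := blk 1 0 0 B') (by simp [blk_mul, e1, one_eq_blk])).mf1 (hb.dg e1)
    (A := A * B) (by simpa [up, blk_mul, e2, mul_assoc] using hA) (fun e => a0 (cancel_r (h.lo_det hB b0) e))
    (by simpa [lo, blk_mul, e2] using hB)
  exact ⟨B', by simpa [up, blk_mul, e2] using this, e1, e2⟩

end Cfsg.Agent.H9.QB
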