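import Cfsg.Agent.H9.QB2

/-! The centre group is a field and the opposite centres form a regulus. -/

set_option autoImplicit false

namespace Cfsg.Agent.H9.QB

open Matrix Cfsg.Agent.H9.Mi Cfsg.Agent.H1.Mit Polynomial

variable {K : Type*} [Field K]

theorem comm_of_cc (h2 : (2 : K) ≠ 0) {x y : M2 K} (hx : (x * y - y * x) * x = x * (x * y - y * x))
    (hy : (x * y - y * x) * y = y * (x * y - y * x)) : x * y = y * x := by
  have k := fun i j => congrFun (congrFun hx i) j
  have k' := fun i j => congrFun (congrFun hy i) j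
  have a1 := k 0 0
  have a2 := k 0 1
  have a3 := k 1 0
  have b1 := k' 0 0
  have b2 := k' 0 1
  have b3 := k' 1 0
  simp only [mul_apply, Fin.sum_univ_two, Matrix.sub_apply] at a1 a2 a3 b1 b2 b3
  ext i j; fin_cases i <;> fin_cases j <;> simp [mul_apply, Fin.sum_univ_two] <;> grind

namespace QH

variable {G : M4 K → Prop} [Finite K] (h : QH G) (hb : Big G) (h1 : G (up 1)) (l1 : G (lo 1))
include h h1 l1

omit [Finite K] in
theorem wy_mem : G (blk 0 1 (-1) 0) := by
  simpa [up, lo, blk_mul] using h.mul (h.mul h1 (h.lo_neg l1)) h1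

omit [Finite K] in
theorem wy_mem' : G (blk 0 (-1) 1 0) := h.inv' (h.wy_mem h1 l1) (by simp [blk_mul, one_eq_blk])

omit [Finite K] in
theorem lo_of_up {A : M2 K} (hA : G (up A)) : G (lo A) := by
  simpa [up, lo, blk_mul] using h.mul (h.mul (h.wy_mem h1 l1) (h.up_neg hA)) (h.wy_mem' h1 l1)

omit [Finite K] in
theorem up_of_lo {A : M2 K} (hA : G (lo A)) : G (up A) := by
  simpa [up, lo, blk_mul] using h.mul (h.mul (h.wy_mem h1 l1) (h.lo_neg hA)) (h.wy_mem' h1 l1)

include hb

theorem inv_mem {x : M2 K} (hx : G (up x)) (x0 : x ≠ 0) : ∃ y, G (up y) ∧ y * x = 1 ∧ x * y = 1 :=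
  h.moufang hb h1 one_ne_zero (h.lo_of_up h1 l1 hx) x0

theorem tor {x y : M2 K} (hx : G (up x)) (e : y * x = 1) : G (blk x 0 0 y) := by
  have e' := mul_eq_one_comm.1 e
  obtain ⟨z, hz, e1, -⟩ := h.inv_mem hb h1 l1 hx (by rintro rfl; simp at e)
  obtain rfl : z = y := by rw [← mul_one z, ← e', ← mul_assoc, e1, one_mul]
  simpa [up, lo, blk_mul, e', e1, mul_add, add_mul] using
    h.mul (h.mul (h.mul hx (h.lo_neg (h.lo_of_up h1 l1 hz))) hx) (h.wy_mem' h1 l1)

theorem sq {x : M2 K} (hx : G (up x)) : G (up (x * x)) := by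
  by_cases x0 : x = 0
  · simpa [x0, up_zero] using h.one
  obtain ⟨y, -, e, e'⟩ := h.inv_mem hb h1 l1 hx x0
  have k := h.tor hb h1 l1 hx e
  simpa [up, blk_mul, e, e'] using h.mul (h.mul k h1) (h.inv' k (Y := blk y 0 0 x) (by simp [blk_mul, one_eq_blk, e, e']))

theorem jor {A B : M2 K} (hA : G (up A)) (hB : G (up B)) : G (up (A * B + B * A)) := by
  have := h.up_sub (h.up_sub (h.sq hb h1 l1 (h.up_add hA hB)) (h.sq hb h1 l1 hA)) (h.sq hb h1 l1 hB)
  rwa [show (A + B) * (A + B) - A * A - B * B = A * B + B * A by noncomm_ring] at this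

theorem comm {x y : M2 K} (hx : G (up x)) (hy : G (up y)) : x * y = y * x := by
  by_contra hne
  obtain ⟨c, hc⟩ : ∃ c, c = x * y - y * x := ⟨_, rfl⟩
  have hD : ∀ {z : M2 K}, G (up z) → G (up (c * z - z * c)) := fun {z} hz => by
    have := h.up_sub (h.jor hb h1 l1 hx (h.jor hb h1 l1 hy hz)) (h.jor hb h1 l1 hy (h.jor hb h1 l1 hx hz))
    rwa [show x * (y * z + z * y) + (y * z + z * y) * x - (y * (x * z + z * x) + (x * z + z * x) * y) =
      c * z - z * c by rw [hc]; noncomm_ring] at this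
  obtain ⟨z, hz, n0⟩ : ∃ z, G (up z) ∧ c * z - z * c ≠ 0 := by
    by_contra k
    push Not at k
    exact hne (comm_of_cc h.two (hc ▸ sub_eq_zero.1 (k x hx)) (hc ▸ sub_eq_zero.1 (k y hy)))
  have tc : c 1 1 = -c 0 0 := by simp [hc, mul_apply, Fin.sum_univ_two]; ring
  have c0 : c ≠ 0 := hc ▸ sub_ne_zero.2 hne
  have hA := hD hz
  have hB := hD hA
  have tA : (c * z - z * c) 1 1 = -(c * z - z * c) 0 0 := by simp [mul_apply, Fin.sum_univ_two]; ring
  have oA : 2 * c 0 0 * (c * z - z * c) 0 0 + c 0 1 * (c * z - z * c) 1 0 + c 1 0 * (c * z - z * c) 0 1 = 0 := by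
    simp [mul_apply, Fin.sum_univ_two, tc]; ring
  clear hD hc
  generalize c * z - z * c = A at n0 hA hB tA oA
  have dA := h.up_det hA n0
  let Z : Subring K :=
    { carrier := {t | G (up (t • 1))}
      one_mem' := by simpa using h1
      zero_mem' := by simpa [up_zero] using h.one
      add_mem' := fun k k' => by simpa [add_smul] using h.up_add k k'
      neg_mem' := fun k => by simpa using h.up_neg k
      mul_mem' := fun k k' => h.up_half (by simpa [smul_smul, mul_comm] using h.jor hb h1 l1 k k') }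
  have sm : ∀ t ∈ Z, ∀ {A : M2 K}, G (up A) → G (up (t • A)) := fun t k A k' =>
    h.up_half (by simpa using h.jor hb h1 l1 k k')
  have zz : ∀ {A : M2 K}, G (up A) → A 1 1 = -A 0 0 → A.det ∈ Z := fun {A} k e => by
    have := h.up_neg (h.sq hb h1 l1 k)
    rwa [show -(A * A) = A.det • (1 : M2 K) by
      ext i j; fin_cases i <;> fin_cases j <;> simp [mul_apply, Fin.sum_univ_two, det_fin_two, e] <;> ring] at this
  have z1 := zz hA tA
  have z2 := zz hB (by simp [mul_apply, Fin.sum_univ_two]; ring)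
  have := Fintype.ofFinite Z
  have := Fintype.ofFinite K
  have hodd : Fintype.card Z % 2 = 1 := by
    have k1 : Nat.card Z ∣ Nat.card K := Z.toAddSubgroup.card_addSubgroup_dvd_card
    have k2 := FiniteField.odd_card_of_char_ne_two (F := K) fun e => h.two (by
      simpa [e] using CharP.cast_eq_zero K (ringChar K))
    rw [Nat.card_eq_fintype_card, Nat.card_eq_fintype_card] at k1
    exact Nat.odd_iff.1 ((Nat.odd_iff.2 k2).of_dvd_nat k1)
  have n1 : (⟨_, z1⟩ : Z) ≠ 0 := fun e => dA (by simpa using congrArg Subtype.val e)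
  obtain ⟨s, t, e⟩ := FiniteField.exists_root_sum_quadratic (R := Z) (f := X ^ 2)
    (g := C (⟨_, z1⟩ : Z) * X ^ 2 + C 0 * X + C (⟨_, z2⟩ : Z)) (by simp) (degree_quadratic n1) hodd
  have e' : s.1 ^ 2 + A.det * t.1 ^ 2 + (c * A - A * c).det = 0 := by
    have := congrArg Subtype.val e
    simp at this
    linear_combination this
  have k := h.up_add (h.up_add (sm _ s.2 h1) (sm _ t.2 hA)) hB
  refine h.up_det k (fun e => c0 ?_) ?_
  · have e1 : (s.1 • 1 + t.1 • A + (c * A - A * c)) 0 0 + (s.1 • 1 + t.1 • A + (c * A - A * c)) 1 1 = 0 := by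
      rw [e]; simp
    have s0 : s.1 = 0 := by
      simp [mul_apply, Fin.sum_univ_two, tA] at e1
      exact (mul_eq_zero.1 (show 2 * s.1 = 0 by linear_combination e1)).resolve_left h.two
    have e2 : (t.1 • 1 + (2 : K) • c) * A = 0 := by
      rw [← e, s0]
      ext i j; fin_cases i <;> fin_cases j <;> simp [mul_apply, Fin.sum_univ_two, tA, tc]
      · linear_combination oA
      · ring
      · ring
      · linear_combination oA
    have e3 := fun i j => congrFun (congrFun (cancel_r dA e2) i) j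
    have f1 := e3 0 0
    have f2 := e3 0 1
    have f3 := e3 1 0
    have f4 := e3 1 1
    simp [h.two, tc] at f1 f2 f3 f4
    have f5 : c 0 0 = 0 := (mul_eq_zero.1 (show 2 * 2 * c 0 0 = 0 by linear_combination f1 - f4)).resolve_left
      (mul_ne_zero h.two h.two)
    ext i j; fin_cases i <;> fin_cases j <;> simp [*]
  · simp [det_fin_two, mul_apply, Fin.sum_univ_two, tA, tc] at e' ⊢
    linear_combination e'

theorem mul_mem {x y : M2 K} (hx : G (up x)) (hy : G (up y)) : G (up (x * y)) :=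
  h.up_half (by simpa [h.comm hb h1 l1 hy hx] using h.jor hb h1 l1 hx hy)

theorem exists_comm : ∃ c : M2 K, (∀ t : K, c ≠ t • 1) ∧ ∀ A, G (up A) → c * A = A * c := by
  by_cases hs : ∃ c, G (up c) ∧ ∀ t : K, c ≠ t • 1
  · obtain ⟨c, k, k'⟩ := hs
    exact ⟨c, k', fun A hA => h.comm hb h1 l1 k hA⟩
  · push Not at hs
    refine ⟨!![0, 1; 0, 0], fun t e => by simpa using congrFun (congrFun e 0) 1, fun A hA => ?_⟩
    obtain ⟨t, rfl⟩ := hs A hA
    simp

omit [Finite K] l1 in
theorem exists_g : ∃ g : M2 K, G (up g) ∧ g ≠ 0 ∧ g.det ≠ 1 ∧ 1 - g * g ≠ 0 := by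
  obtain ⟨g, hg, n0, n1, n2⟩ := hb 1 h1 one_ne_zero
  have key : ∀ {g : M2 K}, G (up g) → g ≠ 1 → g ≠ -1 → 1 - g * g ≠ 0 := fun {g} k n1 n2 e =>
    n2 (eq_neg_of_add_eq_zero_left (cancel_l (h.up_det (h.up_sub h1 k) (sub_ne_zero.2 n1.symm))
      (by rw [← e]; noncomm_ring)))
  by_cases h3 : (3 : K) = 0
  · have t : (1 : M2 K) + 1 = -1 := by
      ext i j; fin_cases i <;> fin_cases j <;> simp <;> linear_combination h3
    by_contra k
    push Not at k
    have e0 := not_not.1 fun e => key hg n1 n2 (k g hg n0 e)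
    have e1 := not_not.1 fun e => key (h.up_add hg h1) (by simpa using n0)
      (fun e => n1 (by rw [← t] at e; simpa using e))
      (k _ (h.up_add hg h1) (fun e => n2 (eq_neg_of_add_eq_zero_left e)) e)
    have e2 := not_not.1 fun e => key (h.up_sub hg h1) (fun e => n2 (by rw [← t]; exact eq_add_of_sub_eq e))
      (fun e => n0 (by simpa [sub_eq_add_neg] using e)) (k _ (h.up_sub hg h1) (sub_ne_zero.2 n1) e)
    simp [det_fin_two] at e0 e1 e2
    exact h.two (by linear_combination e1 + e2 - 2 * e0)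
  · refine ⟨1 + 1, h.up_add h1 h1, fun e => h.two ?_, fun e => h3 ?_, fun e => h3 ?_⟩
    · simpa [one_add_one_eq_two] using congrFun (congrFun e 0) 0
    · simp [det_fin_two] at e
      linear_combination e
    · have := congrFun (congrFun e 0) 0
      simp [mul_apply, Fin.sum_univ_two] at this
      linear_combination -this

theorem z_mem {Z C : M2 K} (c0 : C ≠ 0) (hY : G (up Z * lo C * up (-Z))) : G (up Z) := by
  have h' := h.cj (Q := up Z) (Q' := up (-Z)) (by rw [up_mul, neg_add_cancel, up_zero])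
  have k : ∀ A, up Z * up A * up (-Z) = up A := fun A => by rw [up_mul, up_mul]; congr 1; abel
  have k' : ∀ {A}, G (up A) → G (up Z * up A * up (-Z)) := fun hA => (k _).symm ▸ hA
  obtain ⟨D, hD, e1, e2⟩ := h'.moufang (hb.tr Z) (k' h1) one_ne_zero hY c0
  rw [k] at hD
  have l1' : G (up Z * lo 1 * up (-Z)) := by
    have w := h'.mul (h'.mul (k' hD) (h'.lo_neg hY)) (k' hD)
    have := h'.mul (h'.mul w (k' (h.up_neg (h.sq hb h1 l1 hD)))) (h'.inv' w (Y := blk 0 (-D) C 0)
      (by simp [up, lo, blk_mul, one_eq_blk, e1, e2]))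
    convert this using 3
    simp [up, lo, blk_mul, e1, e2, mul_assoc]
  obtain ⟨g, hg, g0, g1, g2⟩ := h.exists_g hb h1
  obtain ⟨g', -, f1, f2⟩ := h.inv_mem hb h1 l1 hg g0
  have t1 := h.tor hb h1 l1 hg f1
  have t2 := h'.tor (hb.tr Z) (k' h1) l1' (k' hg) f1
  have t3 : G (up (Z - g * Z * g)) := by
    have := h.mul t2 (h.inv' t1 (Y := blk g' 0 0 g) (by simp [blk_mul, one_eq_blk, f1, f2]))
    convert this using 1
    simp [up, blk_mul, f1, f2, add_mul, mul_assoc]
    abel
  have hs := h.up_sub h1 (h.sq hb h1 l1 hg)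
  obtain ⟨s, hs', s1, s2⟩ := h.inv_mem hb h1 l1 hs g2
  have t4 := h.mul_mem hb h1 l1 hs' t3
  have t5 := h.comm hb h1 l1 t4 hg
  have ds := h.up_det hs g2
  have dg := h.up_det hg g0
  have e5 : (1 - g * g) * (s * (Z - g * Z * g)) = Z - g * Z * g := by rw [← mul_assoc, s2, one_mul]
  generalize s * (Z - g * Z * g) = e at t4 t5 e5
  have e3 : Z - e = g * (Z - e) * g := by
    rw [sub_mul, one_mul, mul_assoc] at e5
    rw [mul_sub, sub_mul, mul_assoc g e, t5, ← sub_eq_zero, ← neg_eq_zero, ← sub_eq_zero.2 e5]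
    abel
  have e4 : (1 - g.trace • g + g.det • (g * g)) * ((Z - e) * (g * g)) = 0 := by
    generalize Z - e = W at e3
    have ch : g * g - g.trace • g + g.det • (1 : M2 K) = 0 := by
      ext i j; fin_cases i <;> fin_cases j <;> simp [mul_apply, Fin.sum_univ_two, det_fin_two, trace_fin_two] <;> ring
    have a1 : g * (W * (g * g)) = W * g := by conv_rhs => rw [e3]; simp only [mul_assoc]
    have a2 : g * g * (W * (g * g)) = W := by rw [mul_assoc, a1, ← mul_assoc, ← e3]
    rw [add_mul, sub_mul, Matrix.smul_mul, Matrix.smul_mul, a1, a2, one_mul, ← mul_zero W, ← ch]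
    simp [mul_add, mul_sub]
  have dN : (1 - g.trace • g + g.det • (g * g)).det = (1 - g.det) ^ 2 * (1 - g * g).det := by
    simp [det_fin_two, trace_fin_two, mul_apply, Fin.sum_univ_two]; ring
  have := cancel_r (by simp [dg]) (cancel_l (by rw [dN]; exact mul_ne_zero (pow_ne_zero 2 (sub_ne_zero.2 g1.symm)) ds) e4)
  rwa [sub_eq_zero.1 this]

end QH

end Cfsg.Agent.H9.QB
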