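import Cfsg.Agent.H9.Ext

/-! Endomorphisms that are defined, up to a scalar, over a subfield. -/

set_option autoImplicit false
set_option linter.unusedSectionVars false

namespace Cfsg.Agent.H9.Rat

open Module Polynomial Cfsg.Agent.H9.Types Cfsg.Agent.H9.Arith Cfsg.Agent.H9.OrdR
open Cfsg.Agent.H9.FSS Cfsg.Agent.H9.Cj Cfsg.Agent.H9.Der Cfsg.Agent.Form
open scoped Matrix MatrixGroups

universe u w

variable {K : Type w} [Field K] {F : Type u} [Field F] [Algebra K F] {ι : Type} [Fintype ι]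
  [DecidableEq ι] {g g' : End K (ι → K)} {f : End F (ι → F)}

variable (F) in
/-- Base change of endomorphisms. -/
noncomputable def bc : End K (ι → K) →+* End F (ι → F) :=
  ((Matrix.toLinAlgEquiv' : Matrix ι ι F ≃ₐ[F] _) : Matrix ι ι F →+* End F (ι → F)).comp
    ((algebraMap K F).mapMatrix.comp
      ((LinearMap.toMatrixAlgEquiv' : _ ≃ₐ[K] Matrix ι ι K) : End K (ι → K) →+* Matrix ι ι K))

theorem bc_eq (g : End K (ι → K)) :
    bc F g = Matrix.toLin' ((LinearMap.toMatrix' g).map (algebraMap K F)) := rfl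

theorem bc_toLin' (M : Matrix ι ι K) :
    bc F (Matrix.toLin' M) = Matrix.toLin' (M.map (algebraMap K F)) := by
  rw [bc_eq, LinearMap.toMatrix'_toLin']

theorem bc_smul (y : K) (g : End K (ι → K)) : bc F (y • g) = algebraMap K F y • bc F g := by
  rw [bc_eq, bc_eq, ← map_smul, map_smul LinearMap.toMatrix']
  congr 1; ext i j; simp

theorem bc_smul_one (y : K) : bc F (y • (1 : End K (ι → K))) = algebraMap K F y • 1 := by
  rw [bc_smul, map_one]

theorem bc_injective : Function.Injective (bc F : End K (ι → K) → End F (ι → F)) := fun _ _ h =>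
  LinearMap.toMatrix'.injective
    (Matrix.map_injective (algebraMap K F).injective (Matrix.toLin'.injective h))

theorem det_bc (g : End K (ι → K)) :
    LinearMap.det (bc F g) = algebraMap K F (LinearMap.det g) := by
  rw [bc_eq, LinearMap.det_toLin', ← LinearMap.det_toMatrix', RingHom.map_det]; rfl

theorem charpoly_bc (g : End K (ι → K)) :
    (bc F g).charpoly = g.charpoly.map (algebraMap K F) := by
  obtain ⟨M, rfl⟩ := Matrix.toLin'.surjective g
  rw [bc_toLin', Matrix.charpoly_toLin', Matrix.charpoly_toLin', Matrix.charpoly_map]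

theorem aeval_bc (g : End K (ι → K)) (P : K[X]) :
    aeval (bc F g) (P.map (algebraMap K F)) = bc F (aeval g P) := by
  induction P using Polynomial.induction_on' with
  | add P Q h1 h2 => simp only [Polynomial.map_add, map_add, h1, h2]
  | monomial k a =>
    rw [Polynomial.map_monomial, aeval_monomial, aeval_monomial, map_mul, map_pow,
      Algebra.algebraMap_eq_smul_one, Algebra.algebraMap_eq_smul_one (A := End K (ι → K)),
      bc_smul_one]

omit [Algebra K F] in
theorem rank_map (φ : K →+* F) (M : Matrix ι ι K) : (M.map φ).rank = M.rank := by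
  classical
  obtain ⟨A, B, e, a1, a2, h⟩ := Matrix.exists_rank_normal_form M
  rw [← Matrix.diagonal_one, ← Matrix.diagonal_zero, Matrix.fromBlocks_diagonal,
    Matrix.submatrix_diagonal_equiv] at h
  have h1 := congrArg (fun N : Matrix ι ι K => (N.map φ).rank) h
  have h2 := congrArg Matrix.rank h
  simp only [Matrix.map_mul] at h1
  rw [Matrix.rank_mul_eq_left_of_isUnit_det _ _
    ((Matrix.isUnit_iff_isUnit_det (B.map φ)).1 (a2.map φ.mapMatrix)),
    Matrix.rank_mul_eq_right_of_isUnit_det _ _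
    ((Matrix.isUnit_iff_isUnit_det (A.map φ)).1 (a1.map φ.mapMatrix)),
    Matrix.diagonal_map φ.map_zero, Matrix.rank_diagonal] at h1
  rw [Matrix.rank_mul_eq_left_of_isUnit_det _ _ ((Matrix.isUnit_iff_isUnit_det B).1 a2),
    Matrix.rank_mul_eq_right_of_isUnit_det _ _ ((Matrix.isUnit_iff_isUnit_det A).1 a1),
    Matrix.rank_diagonal] at h2
  rw [h1]; refine Eq.trans ?_ h2.symm
  simp only [_root_.map_ne_zero]

omit [Algebra K F] in
theorem finrank_ker_map (φ : K →+* F) (M : Matrix ι ι K) :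
    finrank F (LinearMap.ker (Matrix.toLin' (M.map φ))) =
      finrank K (LinearMap.ker (Matrix.toLin' M)) := by
  have h1 := (Matrix.toLin' M).finrank_range_add_finrank_ker
  have h2 := (Matrix.toLin' (M.map φ)).finrank_range_add_finrank_ker
  have h3 : finrank F (LinearMap.range (Matrix.toLin' (M.map φ))) =
    finrank K (LinearMap.range (Matrix.toLin' M)) := rank_map φ M
  simp only [finrank_fintype_fun_eq_card] at h1 h2
  omega

theorem finrank_ker_bc (g : End K (ι → K)) :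
    finrank F (LinearMap.ker (bc F g)) = finrank K (LinearMap.ker g) := by
  obtain ⟨M, rfl⟩ := Matrix.toLin'.surjective g
  rw [bc_toLin', finrank_ker_map]

theorem hasType_bc {μ : Multiset ℕ} (h : HasType g (jordan 1 μ)) (h0 : ∀ e ∈ μ, 0 < e) :
    HasType (bc F g) (jordan 1 μ) := by
  have h1 : ∀ k, ((bc F g - (1 : F) • 1) ^ k : End F (ι → F)) =
      bc F ((g - (1 : K) • 1) ^ k : End K (ι → K)) := fun k => by simp
  obtain ⟨ν, a1, a2⟩ := exists_hasType_jordan (bc F g) 1 (k := μ.sum)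
    (by rw [h1, Unip.sub_pow_eq_zero_of_jordan h, map_zero])
  rwa [eq_of_sum_min_eq h0 (fun e he => (a1 e he).1) fun k => by
    rw [← h.finrank_ker_jordan, ← a2.finrank_ker_jordan, h1, finrank_ker_bc]]

theorem finrank_Dx_bc (r : ℕ) (g : End K (ι → K)) :
    finrank F (Dx r (bc F g)) = finrank K (Dx r g) := by
  rw [Dx, ← map_cyclotomic r (algebraMap K F), aeval_bc, finrank_ker_bc]

variable (K) in
/-- Defined over `K` up to a scalar. -/
def Rt (f : End F (ι → F)) : Prop := ∃ c : F, c ≠ 0 ∧ ∃ g : End K (ι → K), f = c • bc F g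

theorem rt_bc (g : End K (ι → K)) : Rt K (bc F g) := ⟨1, one_ne_zero, g, (one_smul _ _).symm⟩

theorem Rt.smul (f : End F (ι → F)) (b : F) (hb : b ≠ 0) (h : Rt K f) : Rt K (b • f) :=
  let ⟨c, h1, g, h2⟩ := h; ⟨b * c, mul_ne_zero hb h1, g, by rw [h2, smul_smul]⟩

theorem mem_iff (F₀ : Subfield F) (x : GL ι F) :
    x ∈ Geo.subfieldSubgroup F₀ 1 ↔ Rt F₀ (Matrix.toLin' (x : Matrix ι ι F)) := by
  rw [Geo.subfieldSubgroup, map_one, show (1 : MulAut (GL ι F)).toMonoidHom = MonoidHom.id _ from rfl,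
    Subgroup.map_id, Subgroup.mem_sup_of_normal_right]
  constructor
  · rintro ⟨_, ⟨y, rfl⟩, z, hz, rfl⟩
    obtain ⟨c, hc⟩ := (Geo.mem_scalars_iff z).1 hz
    refine ⟨c, c.ne_zero, Matrix.toLin' (y : Matrix ι ι F₀), ?_⟩
    rw [bc_toLin', Units.val_mul, hc, Matrix.mul_smul, mul_one, map_smul]; rfl
  · rintro ⟨c, h1, g, h2⟩
    obtain ⟨M, rfl⟩ := Matrix.toLin'.surjective g
    rw [bc_toLin', ← map_smul, Matrix.toLin'.injective.eq_iff] at h2
    have h3 : M.det ≠ 0 := fun e => x.det_ne_zero (by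
      rw [h2, Matrix.det_smul, ← RingHom.mapMatrix_apply, ← RingHom.map_det, e, map_zero, mul_zero])
    refine ⟨_, ⟨Matrix.GeneralLinearGroup.mkOfDetNeZero M h3, rfl⟩, _, ⟨Units.mk0 c h1, rfl⟩,
      Units.ext ?_⟩
    rw [h2, Units.val_mul]
    change M.map _ * Matrix.scalar ι c = _
    rw [Matrix.scalar_apply, ← Matrix.smul_eq_mul_diagonal]; rfl

/-- A scalar power is a scalar of the small field. -/
theorem exists_scalar [Nonempty ι] {c : F} (h : bc F g = c • 1) :
    ∃ y : K, algebraMap K F y = c ∧ g = y • 1 := by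
  obtain ⟨M, rfl⟩ := Matrix.toLin'.surjective g
  obtain ⟨i⟩ := ‹Nonempty ι›
  have h1 := congrFun (congrFun ((toLin'_eq_smul_one_iff _ _).1 (bc_toLin' (F := F) M ▸ h)) i) i
  simp only [Matrix.map_apply, Matrix.smul_apply, Matrix.one_apply_eq, smul_eq_mul, mul_one] at h1
  exact ⟨_, h1, bc_injective (F := F) (by rw [bc_smul_one, h1, h])⟩

theorem Rt.pow [Nonempty ι] (h : Rt K f) {r : ℕ} {z : F} (hz : f ^ r = z • 1) :
    ∃ (c : F) (g : End K (ι → K)) (y : K), c ≠ 0 ∧ f = c • bc F g ∧ g ^ r = y • 1 ∧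
      c ^ r * algebraMap K F y = z := by
  obtain ⟨c, h1, g, rfl⟩ := h
  have h2 := pow_ne_zero r h1
  obtain ⟨y, a1, a2⟩ := exists_scalar (F := F) (g := g ^ r) (c := (c ^ r)⁻¹ * z) (by
    rw [map_pow, mul_smul, ← hz, _root_.smul_pow, smul_smul, inv_mul_cancel₀ h2, one_smul])
  exact ⟨c, g, y, h1, rfl, a2, by rw [a1, mul_inv_cancel_left₀ h2]⟩

theorem Rt.sym (h : Rt K f) (τ : F →+* F) (hτ : ∀ y : K, τ (algebraMap K F y) = algebraMap K F y) :
    Sym τ f := by
  obtain ⟨c, h1, g, rfl⟩ := h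
  obtain ⟨M, rfl⟩ := Matrix.toLin'.surjective g
  have key : ∀ θ, ed (bc F (Matrix.toLin' M)) (τ θ) = ed (bc F (Matrix.toLin' M)) θ := fun θ => by
    have h2 : ∀ θ : F, bc F (Matrix.toLin' M) - θ • 1 =
        Matrix.toLin' (M.map (algebraMap K F) - θ • 1) := fun θ => by
      rw [bc_toLin', map_sub, map_smul, Matrix.toLin'_one]; rfl
    rw [ed, ed, h2, h2, ← finrank_ker_map τ (_ - θ • 1), show (M.map (algebraMap K F) - θ • 1).map τ
      = M.map (algebraMap K F) - τ θ • 1 by ext i j; simp [hτ, Matrix.one_apply, apply_ite τ]]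
  refine ⟨c * (τ c)⁻¹, fun θ _ => le_of_eq ?_⟩
  have h2 : τ c ≠ 0 := (map_ne_zero τ).2 h1
  rw [show θ = c * (c⁻¹ * θ) by field_simp, ed_smul h1, ← key, ← ed_smul h1]
  congr 1; simp only [map_mul, map_inv₀]; field_simp

theorem exists_jordan_rt {μ : Multiset ℕ} (h0 : ∀ e ∈ μ, 0 < e) (hn : μ.sum = finrank F (ι → F)) :
    ∃ g : End K (ι → K), HasType g (jordan 1 μ) ∧ HasType (bc F g) (jordan 1 μ) :=
  let ⟨g, h⟩ := Unip.exists_jordan (V := ι → K) (1 : K) (μ := μ) (by simpa using hn)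
  ⟨g, h, hasType_bc h h0⟩

theorem conj_bc (e : (ι → K) ≃ₗ[K] (ι → K)) : ∃ e' : (ι → F) ≃ₗ[F] (ι → F),
    (e' : End F (ι → F)) = bc F (e : End K (ι → K)) :=
  ⟨LinearEquiv.ofBijective _ (bijective_of_det_ne_zero (f := bc F (e : End K (ι → K))) (by
    rw [det_bc]; exact (_root_.map_ne_zero _).2 (LinearEquiv.isUnit_det' e).ne_zero)), rfl⟩

/-- Adjusting the determinant of a conjugating element by an element of the small field. -/
theorem cj_rt [Nonempty ι] (hc : Conj (bc F g) f) (h : ∀ d : F, d ≠ 0 → ∃ (y : K) (k : End F (ι → F)),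
    (∀ x, k (f x) = f (k x)) ∧ LinearMap.det k * d * algebraMap K F y = 1) :
    CjIn (SLV F _) (Rt K) f := by
  obtain ⟨e, he⟩ := hc
  obtain ⟨y, k, h1, h2⟩ := h _ (LinearEquiv.isUnit_det' e).ne_zero
  have h3 : y ≠ 0 := by rintro rfl; simp at h2
  obtain ⟨D, hD⟩ := Matrix.GeneralLinearGroup.det_surjective (n := ι) (Units.mk0 y h3)
  obtain ⟨D', hD'⟩ := conj_bc (F := F) (glEquiv D)
  have h4 : ∀ x, D' (bc F ((glEquiv D).symm.conj g) x) = bc F g (D' x) := fun x => by
    change ((D' : End F (ι → F)) * _) x = (bc F g * (D' : End F (ι → F))) x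
    rw [hD', ← map_mul, ← map_mul]
    congr 2; refine LinearMap.ext fun v => ?_
    simp only [Module.End.mul_apply, LinearEquiv.conj_apply_apply, LinearEquiv.symm_symm,
      LinearEquiv.coe_coe, LinearEquiv.apply_symm_apply]
  refine cj_of_equiv (rt_bc ((glEquiv D).symm.conj g)) (e * D') (fun x => ?_) h1 ?_
  · rw [LinearEquiv.mul_apply, LinearEquiv.mul_apply, h4, he]
  · rw [← h2, LinearEquiv.coe_toLinearMap_mul, map_mul, hD', det_bc, glEquiv_coe,
      LinearMap.det_toLin', show (D : Matrix ι ι K).det = y from congrArg Units.val hD, mul_assoc]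

omit [Algebra K F] in
theorem det_sq {V : Type*} [AddCommGroup V] [Module F V] [FiniteDimensional F V] {N k : End F V}
    (h : LinearMap.ker N = LinearMap.range N) (hk : ∀ x, k (N x) = N (k x)) :
    ∃ d, LinearMap.det k = d ^ 2 := by
  have h1 : LinearMap.ker N ≤ (LinearMap.ker N).comap k := fun x hx => by
    simp only [Submodule.mem_comap, LinearMap.mem_ker] at hx ⊢
    rw [← hk, hx, map_zero]
  have h2 : Conj ((LinearMap.ker N).mapQ _ k h1) (k.restrict h1) :=
    ⟨N.quotKerEquivRange.trans (LinearEquiv.ofEq _ _ h.symm), fun x => by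
      obtain ⟨x, rfl⟩ := Submodule.Quotient.mk_surjective _ x
      exact Subtype.ext (by simp [hk])⟩
  exact ⟨_, by rw [k.det_eq_det_mul_det _ h1, h2.det, _root_.sq]⟩

variable [Fintype K] {q₀ : ℕ}

theorem exists_of_pow (h0 : Fintype.card K = q₀) {x : F} (h : x ^ q₀ = x) :
    ∃ y : K, algebraMap K F y = x := by
  have h1 := FiniteField.roots_X_pow_card_sub_X K
  have h2 : (X ^ Fintype.card K - X : K[X]).Splits := by
    rw [splits_iff_card_roots, h1, ← Finset.card_def, Finset.card_univ,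
      FiniteField.X_pow_card_sub_X_natDegree_eq _ Fintype.one_lt_card]
  have := h1 ▸ h2.roots_map (algebraMap K F) ▸ Multiset.mem_map (b := x)
  simpa [sub_eq_zero, h0, h, FiniteField.X_pow_card_sub_X_ne_zero F (two_le_q h0)] using this

variable {r p : ℕ} [hr : Fact r.Prime] [hp : Fact p.Prime] [CharP F p]

omit [Fintype K] in
theorem rt_of_charpoly (hrp : r ≠ p) (h : f ^ r = 1) (hl : f.charpoly ∈ lifts (algebraMap K F)) :
    ∃ g : End F (ι → F), Rt K g ∧ Conj g f := by
  classical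
  obtain ⟨Q, hQ⟩ := (mem_lifts _).1 hl
  have h1 : Q.Monic := monic_of_injective (algebraMap K F).injective (hQ ▸ f.charpoly_monic)
  have h2 := (aeval_X_pow_sub_one_eq_zero_iff f r).2 h
  obtain ⟨μ, a1, a2⟩ := exists_hasType_irreducible f (squarefree_X_pow_sub_one hrp) h2
  have h3 : Q ∣ (X ^ r - 1) ^ Multiset.card μ := by
    rw [← map_dvd_map _ (algebraMap K F).injective h1, hQ, a1.charpoly, Polynomial.map_pow,
      ← Multiset.prod_replicate]
    simpa using Multiset.prod_dvd_prod_of_dvd (S := μ) id (fun _ => X ^ r - 1) fun g hg => (a2 g hg).2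
  have h4 := fun g => Polynomial.mem_normalizedFactors_iff (p := g) h1.ne_zero
  have h5 := (UniqueFactorizationMonoid.prod_normalizedFactors_eq h1.ne_zero).trans
    h1.normalize_eq_self
  obtain ⟨g, hg⟩ := exists_hasType (V := ι → K) _ (fun g hg => ((h4 g).1 hg).2.1) (by
    rw [← natDegree_multiset_prod_of_monic _ fun g hg => ((h4 g).1 hg).2.1, h5,
      ← natDegree_map (algebraMap K F), hQ, f.charpoly_natDegree]; simp)
  refine ⟨_, rt_bc g, conj_of_charpoly_eq (squarefree_X_pow_sub_one hrp) ?_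
    (squarefree_X_pow_sub_one hrp) h2 (by rw [charpoly_bc, hg.charpoly, h5, hQ])⟩
  rw [aeval_X_pow_sub_one_eq_zero_iff, ← map_pow, (aeval_X_pow_sub_one_eq_zero_iff g r).1
    ((hg.aeval_eq_zero_iff _).2 fun g hg => let ⟨b1, _, b2⟩ := (h4 g).1 hg
      b1.prime.dvd_of_dvd_pow (b2.trans h3)), map_one]

theorem rt_of_roots (h0 : Fintype.card K = q₀) (hrp : r ≠ p) (h : f ^ r = 1) {A : Multiset F}
    (hA : HasType f (A.map fun a => X - C a)) (hs : A.map (· ^ q₀) = A) :
    ∃ g : End F (ι → F), Rt K g ∧ Conj g f := by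
  refine rt_of_charpoly hrp h ((lifts_iff_coeff_lifts _).2 fun j => exists_of_pow h0 ?_)
  have h1 : f.charpoly.map (FiniteField.frobeniusAlgHom K F : F →+* F) = f.charpoly := by
    rw [hA.charpoly, Polynomial.map_multiset_prod, Multiset.map_map]
    conv_rhs => rw [← hs, Multiset.map_map]
    simp [h0]
  simpa [h0] using congrArg (coeff · j) h1

variable [Fintype F] {q : ℕ}

theorem rt_of_order (h0 : Fintype.card K = q₀) (hq : Fintype.card F = q) (hrp : r ≠ p)
    (hi : orderOf (q₀ : ZMod r) ≤ orderOf (q : ZMod r)) (h : f ^ r = 1) :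
    ∃ g : End F (ι → F), Rt K g ∧ Conj g f := by
  classical
  have := (algebraMap K F).charP (algebraMap K F).injective p
  obtain ⟨e, B, a1, a2⟩ := exists_type_of_pow_eq_one hrp h
  refine rt_of_charpoly hrp h (a1.charpoly ▸ multiset_prod_mem _ fun g hg => ?_)
  rcases Multiset.mem_add.1 hg with h1 | h1
  · exact (mem_lifts _).2 ⟨X - 1, by simp [Multiset.eq_of_mem_replicate h1]⟩
  obtain ⟨b1, b2⟩ := a2 g h1
  have h2 := cyclotomic.monic r K
  have b3 := b2
  rw [← map_cyclotomic r (algebraMap K F), ← h2.normalize_eq_self,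
    ← UniqueFactorizationMonoid.prod_normalizedFactors_eq h2.ne_zero,
    Polynomial.map_multiset_prod] at b3
  obtain ⟨_, c0, c2⟩ := b1.prime.exists_mem_multiset_dvd b3
  obtain ⟨g₀, c1, rfl⟩ := Multiset.mem_map.1 c0
  obtain ⟨c3, c4, c5⟩ := (Polynomial.mem_normalizedFactors_iff h2.ne_zero).1 c1
  refine (mem_lifts _).2 ⟨g₀, eq_of_monic_of_dvd_of_natDegree_le (a1.monic g hg) (c4.map _) c2 ?_⟩
  rwa [natDegree_map, natDegree_of_dvd_cyclotomic h0 hrp c3 c5, natDegree_of_dvd_cyclotomic hq hrp b1 b2]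

omit [Algebra K F] [Fintype K] in
theorem card_sl [Nonempty ι] (hq : Fintype.card F = q) : Nat.card (Geo.specialLinear ι F) * (q - 1) =
    q ^ (Fintype.card ι).choose 2 * Count.P q (Fintype.card ι) := by
  classical
  have := card_equiv (V := ι → F) hq
  rw [finrank_fintype_fun_eq_card, ← Nat.card_congr glEquiv.toEquiv] at this
  rw [← this, ← (Geo.specialLinear ι F).card_mul_index, Geo.specialLinear, Subgroup.index_ker,
    MonoidHom.range_eq_top.2 Matrix.GeneralLinearGroup.det_surjective, Subgroup.card_top,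
    Nat.card_units, Nat.card_eq_fintype_card (α := F), hq]

theorem P_pow {q₀ : ℕ} (h : 1 ≤ q₀) (k n : ℕ) : Count.P (q₀ ^ k) n = Count.P q₀ n *
    ∏ j ∈ Finset.range n, ∑ t ∈ Finset.range k, (q₀ ^ (j + 1)) ^ t := by
  rw [Count.P, Count.P, ← Finset.prod_mul_distrib]
  refine Finset.prod_congr rfl fun j _ => ?_
  rw [mul_comm, geom_sum_mul_of_one_le (Nat.one_le_pow _ _ h), pow_right_comm]

omit [Algebra K F] [Fintype K] in
theorem exists_of_dvd_index [Nonempty ι] (F₀ : Subfield F) {k : ℕ} (h0 : Nat.card F₀ = q₀)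
    (hq : Fintype.card F = q₀ ^ k) (hrq : ¬ r ∣ q₀)
    (h : r ∣ (Geo.subfieldSubgroup F₀ 1).relIndex (Geo.specialLinear ι F)) :
    ∃ j, 2 ≤ j ∧ j ≤ Fintype.card ι ∧ r ∣ ∑ t ∈ Finset.range k, (q₀ ^ j) ^ t := by
  have := Fintype.ofFinite F₀
  rw [Nat.card_eq_fintype_card] at h0
  let φ : GL ι F₀ →* GL ι F := Matrix.GeneralLinearGroup.map F₀.subtype
  have h1 : Function.Injective φ := fun x y e =>
    Units.ext (Matrix.map_injective F₀.subtype_injective (congrArg Units.val e))
  have h2 : (Geo.specialLinear ι F₀).map φ ≤ Geo.specialLinear ι F := by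
    rintro _ ⟨x, hx, rfl⟩
    refine Units.ext ((F₀.subtype.map_det _).symm.trans ?_)
    rw [show (x : Matrix ι ι F₀).det = 1 from congrArg Units.val hx]; rfl
  have h3 := h.trans (Subgroup.relIndex_dvd_of_le_left _
    (show (Geo.specialLinear ι F₀).map φ ≤ Geo.subfieldSubgroup F₀ 1 from fun x ⟨y, _, e⟩ =>
      ⟨x, Subgroup.mem_sup_left ⟨y, e⟩, by simp⟩))
  have h4 := card_mul_relIndex h2
  rw [Subgroup.card_map_of_injective h1] at h4
  have h5 := card_sl (ι := ι) hq
  have h6 := two_le_q h0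
  obtain ⟨n, hn⟩ := Nat.exists_eq_succ_of_ne_zero (Fintype.card_ne_zero (α := ι))
  have h7 := card_sl (ι := ι) h0
  have h8 := Count.P_pos h6 (n + 1)
  have h9 : 0 < ∑ t ∈ Finset.range k, q₀ ^ t := Nat.pos_of_ne_zero fun e => by
    have := geom_sum_mul_of_one_le (by omega : 1 ≤ q₀) k
    have := two_le_q hq
    rw [e] at *; omega
  rw [← h4, ← geom_sum_mul_of_one_le (by omega : 1 ≤ q₀), mul_comm _ (q₀ - 1), mul_mul_mul_comm,
    h7, P_pow (by omega), hn, Finset.prod_range_succ', zero_add, pow_one] at h5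
  have h10 : q₀ ^ (n + 1).choose 2 * ((Geo.specialLinear ι F₀).map φ).relIndex (Geo.specialLinear ι F)
      = (q₀ ^ k) ^ (n + 1).choose 2 *
        ∏ j ∈ Finset.range n, ∑ t ∈ Finset.range k, (q₀ ^ (j + 1 + 1)) ^ t :=
    Nat.eq_of_mul_eq_mul_left (mul_pos h8 h9) (by linear_combination h5)
  obtain ⟨j, a1, a2⟩ := (hr.out.prime.dvd_finsetProd_iff _).1 ((hr.out.dvd_mul.1
    (h10 ▸ h3.mul_left _)).resolve_left fun e =>
      hrq (hr.out.dvd_of_dvd_pow (hr.out.dvd_of_dvd_pow e)))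
  exact ⟨j + 2, by omega, by have := Finset.mem_range.1 a1; omega, a2⟩

end Cfsg.Agent.H9.Rat
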