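import Cfsg.Agent.H8.L5f

/-! Overgroups of a subgroup of a Singer cycle in prime dimension. -/

set_option autoImplicit false
set_option linter.unusedSectionVars false

namespace Cfsg.Agent.H9.Sin

open Module MulAction Subgroup Cfsg.Agent.H1.C3a Cfsg.Agent.H5.Zas1 Cfsg.Agent.H4.CAG Projectivization
  Polynomial Cfsg.Agent.H8.L5f
open scoped LinearAlgebra.Projectivization

variable {F E V : Type*} [Field F] [Field E] [Algebra F E] [AddCommGroup V] [Module F V] [Module E V]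
  [IsScalarTower F E V]

/-- `X₀` is a subgroup of the Singer cycle, self-centralising modulo scalars in `M` -/
structure Sg (X₀ : Subgroup Eˣ) (M : Subgroup (V ≃ₗ[F] V)) : Prop where
  prime : (finrank F E).Prime
  one : finrank E V = 1
  ne : X₀ ≠ ⊥
  cop : ∀ c : F, c ^ Nat.card X₀ = 1 → c = 1
  le : ∀ k ∈ X₀, mu F V k ∈ M
  cen : ∀ k : Eˣ, mu F V k ∈ M → ∃ x ∈ X₀, ∃ c : F, (k : E) = c • (x : E)

/-- the projective image -/
abbrev PG (M : Subgroup (V ≃ₗ[F] V)) : Subgroup (Equiv.Perm (ℙ F V)) := M.map (pp F V)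

/-- the projection -/
abbrev pr (M : Subgroup (V ≃ₗ[F] V)) : M →* PG M := (pp F V).subgroupMap M

/-- the projective image of `X₀` -/
def XX (X₀ : Subgroup Eˣ) (M : Subgroup (V ≃ₗ[F] V)) : Subgroup (PG M) :=
  (X₀.map ((pp F V).comp (mu F V))).subgroupOf _

variable [Fintype F] [Finite E] [FiniteDimensional E V] {X₀ : Subgroup Eˣ} {M : Subgroup (V ≃ₗ[F] V)}

theorem pr_surj (M : Subgroup (V ≃ₗ[F] V)) : Function.Surjective (pr M) :=
  (pp F V).subgroupMap_surjective M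

theorem pr_eq {g h : M} : pr M g = pr M h ↔ ∃ c : F, ∀ v, g.1 v = c • h.1 v := by
  rw [Subtype.ext_iff, ← pp_eq]; rfl

theorem semi_mu (k : Eˣ) : Semi E (mu F V k) := fun e => ⟨e, fun v => by
  rw [mu_apply, mu_apply, smul_comm]⟩

theorem semi_smul {g h : V ≃ₗ[F] V} {c : F} (e : ∀ v, g v = c • h v) (hh : Semi E h) : Semi E g := fun k => by
  obtain ⟨k', hk⟩ := hh k
  exact ⟨k', fun v => by rw [e, e, hk, smul_comm]⟩

theorem semi_mul {g h : V ≃ₗ[F] V} (hg : Semi E g) (hh : Semi E h) : Semi E (g * h) := fun k => by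
  obtain ⟨k', e⟩ := hh k
  obtain ⟨k'', e'⟩ := hg k'
  exact ⟨k'', fun v => by rw [LinearEquiv.mul_apply, e, e']; rfl⟩


theorem exists_aeval' (hE : (finrank F E).Prime) {k : E} (hk : k ∉ (algebraMap F E).range) (e : E) :
    ∃ p : F[X], aeval k p = e := by
  rcases (Subalgebra.isSimpleOrder_of_finrank_prime F E hE).eq_bot_or_eq_top
    (aeval k : F[X] →ₐ[F] E).range with h | h
  · have : k ∈ (aeval k : F[X] →ₐ[F] E).range := ⟨X, by simp⟩
    rw [h, Algebra.mem_bot] at this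
    exact (hk this).elim
  · exact (h ▸ Algebra.mem_top : e ∈ (aeval k : F[X] →ₐ[F] E).range)

namespace Sg

variable (h : Sg X₀ M)
include h

theorem mono {K : Subgroup (V ≃ₗ[F] V)} (h1 : K ≤ M) (h2 : ∀ k ∈ X₀, mu F V k ∈ K) : Sg X₀ K :=
  ⟨h.prime, h.one, h.ne, h.cop, h2, fun k hk => h.cen k (h1 hk)⟩

theorem nontriv : Nontrivial V := Module.nontrivial_of_finrank_eq_succ h.one

theorem finV : Finite V := Module.finite_of_finite E

theorem inj {a b : E} (e : ∀ v : V, a • v = b • v) : a = b := by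
  have := h.nontriv
  obtain ⟨v, hv⟩ := exists_ne (0 : V)
  exact smul_left_injective E hv (e v)

theorem scal {x y : Eˣ} (hx : x ∈ X₀) (hy : y ∈ X₀) {c : F} (e : (x : E) = c • (y : E)) : x = y := by
  have a : ∀ z ∈ X₀, (z : E) ^ Nat.card X₀ = 1 := fun z hz =>
    congrArg (fun w : X₀ => ((w : Eˣ) : E)) (pow_card_eq_one' (x := (⟨z, hz⟩ : X₀)))
  have b := a x hx
  rw [e, _root_.smul_pow, a y hy, ← Algebra.algebraMap_eq_smul_one, map_eq_one_iff _
    (algebraMap F E).injective] at b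
  exact Units.ext (by rw [e, h.cop c b, one_smul])

theorem not_range {x : Eˣ} (hx : x ∈ X₀) (h1 : x ≠ 1) : (x : E) ∉ (algebraMap F E).range := by
  rintro ⟨c, hc⟩
  exact h1 (h.scal hx (one_mem _) (c := c) (by rw [← hc, Algebra.algebraMap_eq_smul_one]; rfl))

theorem mem_XX {g : M} : pr M g ∈ XX X₀ M ↔ ∃ k : Eˣ, g.1 = mu F V k := by
  constructor
  · rintro ⟨k, -, e⟩
    obtain ⟨c, hc⟩ := pp_eq.1 (e.symm : pp F V g.1 = pp F V (mu F V k))
    have := h.nontriv
    obtain ⟨v, hv⟩ := exists_ne (0 : V)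
    have c0 : c ≠ 0 := by rintro rfl; exact hv (by simpa using hc v)
    refine ⟨Units.mk0 (algebraMap F E c) (by simpa using c0) * k, ?_⟩
    ext w; simp [hc, mu_apply]
  · rintro ⟨k, e⟩
    obtain ⟨x, hx, c, hc⟩ := h.cen k (e ▸ g.2)
    refine ⟨x, hx, (pp_eq.2 ⟨c, fun v => ?_⟩ : pp F V g.1 = pp F V (mu F V x)).symm⟩
    rw [e, mu_apply, mu_apply, hc, smul_assoc]

/-- the image of an element of `X₀` -/
def nu : X₀ →* PG M := (pr M).comp (((mu F V).comp X₀.subtype).codRestrict M fun k => h.le k k.2)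

theorem nu_eq (k : X₀) : h.nu k = pr M ⟨mu F V k.1, h.le k k.2⟩ := rfl

theorem nu_inj : Function.Injective h.nu := fun x y e => by
  obtain ⟨c, hc⟩ := pr_eq.1 e
  exact Subtype.ext (h.scal x.2 y.2 (c := c) (h.inj fun v => by rw [smul_assoc]; exact hc v))

theorem range_nu : h.nu.range = XX X₀ M := by
  ext g
  exact ⟨by rintro ⟨k, rfl⟩; exact ⟨k, k.2, rfl⟩, fun ⟨k, hk, e⟩ => ⟨⟨k, hk⟩, Subtype.ext e⟩⟩

theorem card_XX : Nat.card (XX X₀ M) = Nat.card X₀ := by
  rw [← h.range_nu]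
  exact (Nat.card_congr (MonoidHom.ofInjective h.nu_inj).toEquiv).symm

theorem lin {g : V ≃ₗ[F] V} (e : ∀ (k : E) v, g (k • v) = k • g v) : ∃ k : Eˣ, g = mu F V k := by
  have := h.nontriv
  obtain ⟨v0, hv0⟩ := exists_ne (0 : V)
  obtain ⟨e0, he0⟩ := (finrank_eq_one_iff_of_nonzero' v0 hv0).1 h.one (g v0)
  have a4 : e0 ≠ 0 := by rintro rfl; exact hv0 (by simpa using he0.symm)
  refine ⟨Units.mk0 e0 a4, ?_⟩
  ext v
  obtain ⟨e1, rfl⟩ := (finrank_eq_one_iff_of_nonzero' v0 hv0).1 h.one v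
  rw [e, ← he0, mu_apply, smul_comm]; rfl

theorem key {g : M} {x y : X₀} (e : pr M g * h.nu x = h.nu y * pr M g) (v : V) :
    g.1 (((x : Eˣ) : E) • v) = ((y : Eˣ) : E) • g.1 v := by
  rw [nu_eq, nu_eq, ← map_mul, ← map_mul, pr_eq] at e
  obtain ⟨c, hc⟩ := e
  have hc : ∀ v, g.1 (((x : Eˣ) : E) • v) = (c • ((y : Eˣ) : E)) • g.1 v := fun v => by
    rw [smul_assoc]; exact hc v
  have a : ∀ z : X₀, ((z : Eˣ) : E) ^ Nat.card X₀ = 1 := fun z =>
    congrArg (fun w : X₀ => ((w : Eˣ) : E)) (pow_card_eq_one' (x := z))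
  have b : algebraMap F E (c ^ Nat.card X₀) = 1 := h.inj fun w => by
    have := aeval_smul g.1 hc (Polynomial.X ^ Nat.card X₀) (g.1.symm w)
    rw [map_pow, map_pow, aeval_X, aeval_X, _root_.smul_pow, a, a, one_smul,
      LinearEquiv.apply_symm_apply] at this
    rw [Algebra.algebraMap_eq_smul_one, ← this, one_smul]
  rw [hc, h.cop c ((map_eq_one_iff _ (algebraMap F E).injective).1 b), one_smul]

theorem ca : CA (XX X₀ M) := by
  rw [← h.range_nu]
  rintro _ ⟨k, rfl⟩ hk1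
  ext y
  rw [mem_centralizer_singleton_iff]
  constructor
  swap
  · rintro ⟨k', rfl⟩
    rw [← map_mul, ← map_mul, mul_comm]
  obtain ⟨g, rfl⟩ := pr_surj M y
  intro e
  rw [h.range_nu, h.mem_XX]
  refine h.lin fun a v => ?_
  obtain ⟨p, rfl⟩ := exists_aeval' h.prime (h.not_range k.2 fun e => hk1 (by
    rw [show k = 1 from Subtype.ext e, map_one])) a
  exact aeval_smul g.1 (h.key e) p v

theorem exists_ne : ∃ k : X₀, k ≠ 1 := by
  obtain ⟨k, hk⟩ := (ne_bot_iff_exists_ne_one.1 h.ne)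
  exact ⟨k, hk⟩

theorem mem_Nm {g : M} : pr M g ∈ Nm (XX X₀ M) ↔ Semi E g.1 := by
  have := h.finV
  constructor
  · intro hN a
    obtain ⟨k, hk⟩ := h.exists_ne
    obtain ⟨k', hk'⟩ : pr M g * h.nu k * (pr M g)⁻¹ ∈ h.nu.range := by
      rw [h.range_nu]
      exact conj_mem hN (h.range_nu ▸ ⟨k, rfl⟩)
    obtain ⟨p, rfl⟩ := exists_aeval' h.prime (h.not_range k.2 fun e => hk (Subtype.ext e)) a
    exact ⟨_, aeval_smul g.1 (h.key (y := k') (by rw [hk']; group)) p⟩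
  · intro hS
    refine mem_normalizer_fintype fun x hx => ?_
    obtain ⟨k, rfl⟩ : x ∈ h.nu.range := h.range_nu ▸ hx
    obtain ⟨k', hk⟩ := hS (k : Eˣ)
    rw [nu_eq, ← map_inv, ← map_mul, ← map_mul]
    refine h.mem_XX.2 (h.lin fun a v => ?_)
    have : ∀ w, (g * ⟨mu F V k.1, h.le k k.2⟩ * g⁻¹ : M).1 w = k' • w := fun w => by
      change g.1 (((k : Eˣ) : E) • g.1.symm w) = _
      rw [hk, LinearEquiv.apply_symm_apply]
    rw [this, this, smul_comm]

theorem exists_aut {g : V ≃ₗ[F] V} (hg : Semi E g) : ∃ α : E ≃ₐ[F] E, ∀ e v, g (e • v) = α e • g v := by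
  choose f hf using hg
  have i : ∀ {a b : E}, (∀ v, a • g v = b • g v) → a = b := fun e => h.inj fun v => by
    simpa using e (g.symm v)
  let φ : E →ₐ[F] E :=
    { toFun := f
      map_one' := i fun v => by rw [← hf, one_smul, one_smul]
      map_mul' := fun a b => i fun v => by rw [← hf, mul_smul, hf, hf, mul_smul]
      map_zero' := i fun v => by rw [← hf, zero_smul, zero_smul, map_zero]
      map_add' := fun a b => i fun v => by rw [← hf, add_smul, map_add, hf, hf, add_smul]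
      commutes' := fun c => i fun v => by rw [← hf, algebraMap_smul, algebraMap_smul, map_smul] }
  exact ⟨AlgEquiv.ofBijective φ (Finite.injective_iff_bijective.1 φ.toRingHom.injective), hf⟩

theorem wt_dvd : wt (XX X₀ M) ∣ finrank F E := by
  have := h.finV
  let N := (Nm (XX X₀ M)).comap (pr M)
  choose α hα using fun g : N => h.exists_aut (h.mem_Nm.1 g.2)
  let β : N →* (E ≃ₐ[F] E) := MonoidHom.mk' α fun a b => AlgEquiv.ext fun e => h.inj fun v => by
    obtain ⟨w, rfl⟩ := (a * b : N).1.1.surjective v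
    rw [← hα]
    change a.1.1 (b.1.1 (e • w)) = _
    rw [hα, hα]; rfl
  have e1 : β.ker = ((XX X₀ M).comap (pr M)).subgroupOf N := by
    ext g
    rw [MonoidHom.mem_ker, mem_subgroupOf, mem_comap, h.mem_XX]
    constructor
    · intro e
      exact h.lin fun k v => by rw [hα, show α g = 1 from e]; rfl
    · rintro ⟨k, e⟩
      refine AlgEquiv.ext fun a => h.inj fun v => ?_
      obtain ⟨w, rfl⟩ := g.1.1.surjective v
      change α g a • _ = a • _
      rw [← hα, e, mu_apply, mu_apply, smul_comm]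
  have e2 : wt (XX X₀ M) = β.ker.index := by
    rw [e1, ← relIndex, relIndex_comap, map_comap_eq_self_of_surjective (pr_surj M), wt]
  have : FiniteDimensional F E := Module.finite_of_finrank_pos h.prime.pos
  rw [e2, index_ker, ← IsGalois.card_aut_eq_finrank]
  exact card_subgroup_dvd_card _

theorem free {x : PG M} (hx : x ∈ XX X₀ M) (ω : ℙ F V) (e : x • ω = ω) : x = 1 := by
  obtain ⟨k, rfl⟩ : x ∈ h.nu.range := h.range_nu ▸ hx
  induction ω using Projectivization.ind with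
  | h v hv =>
  obtain ⟨c, hc⟩ := (smul_mk_eq (mu F V (k : Eˣ)) hv hv).1 e
  rw [mu_apply, ← algebraMap_smul E c] at hc
  by_contra h1
  exact h.not_range k.2 (fun e => h1 (by rw [show k = 1 from Subtype.ext e, map_one]))
    ⟨c, (smul_left_injective E hv hc).symm⟩

/-- subspaces invariant under the squares of `X₀` -/
theorem irr (Y : Submodule F V) (h0 : Y ≠ ⊥)
    (hY : ∀ k ∈ X₀, ∀ y ∈ Y, (k : E) • (k : E) • y ∈ Y) : Y = ⊤ := by
  obtain ⟨k, hk⟩ := h.exists_ne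
  have h2 : (k : Eˣ) * k ≠ 1 := fun e => by
    have := h.not_range k.2 fun e => hk (Subtype.ext e)
    rcases mul_self_eq_one_iff.1 (congrArg Units.val e) with e | e
    · exact this ⟨1, by rw [map_one]; exact e.symm⟩
    · exact this ⟨-1, by rw [map_neg, map_one]; exact e.symm⟩
  obtain ⟨y, hy, y0⟩ := (Submodule.ne_bot_iff Y).1 h0
  refine Submodule.eq_top_iff'.2 fun v => ?_
  obtain ⟨e, rfl⟩ := (finrank_eq_one_iff_of_nonzero' y y0).1 h.one v
  obtain ⟨p, rfl⟩ := exists_aeval' h.prime (h.not_range (mul_mem k.2 k.2) h2) e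
  induction p using Polynomial.induction_on with
  | C a => rw [aeval_C, algebraMap_smul]; exact Y.smul_mem a hy
  | add p q h1 h2 => rw [map_add, add_smul]; exact Y.add_mem h1 h2
  | monomial n a h1 =>
    rw [pow_succ, ← mul_assoc, map_mul, aeval_X, mul_comm, Units.val_mul, mul_smul, mul_smul]
    exact hY _ k.2 _ h1

/-- a minimal non-semilinear overgroup is the normal closure -/
theorem exists_min (hS : ∃ g ∈ M, ¬ Semi E g) : ∃ K ≤ M, Sg X₀ K ∧ (∃ g ∈ K, ¬ Semi E g) ∧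
    ∀ L : Subgroup (PG K), L.Normal → XX X₀ K ≤ L → L = ⊤ := by
  have := h.finV
  have : Finite (V ≃ₗ[F] V) := DFunLike.finite _
  obtain ⟨K, ⟨h1, h2, h3⟩, hm⟩ := (Set.toFinite {K : Subgroup (V ≃ₗ[F] V) | K ≤ M ∧
    (∀ k ∈ X₀, mu F V k ∈ K) ∧ ∃ g ∈ K, ¬ Semi E g}).exists_minimal ⟨M, le_rfl, h.le, hS⟩
  have hK := h.mono h1 h2
  refine ⟨K, h1, hK, h3, fun L hL hX => ?_⟩
  by_cases hc : ∃ g ∈ (L.comap (pr K)).map K.subtype, ¬ Semi E g
  · have := hm ⟨(map_subtype_le _).trans h1, fun k hk => ⟨⟨_, h2 k hk⟩, hX (hK.mem_XX.2 ⟨k, rfl⟩), rfl⟩, hc⟩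
      (map_subtype_le _)
    refine eq_top_iff.2 fun y _ => ?_
    obtain ⟨g, rfl⟩ := pr_surj K y
    obtain ⟨g', hg', e⟩ := this g.2
    rwa [← show g' = g from Subtype.ext e]
  push Not at hc
  obtain ⟨g, hg, hn⟩ := h3
  obtain ⟨k, hk⟩ := h.exists_ne
  have a1 : hK.nu k ∈ XX X₀ K := hK.range_nu ▸ ⟨k, rfl⟩
  refine (hn (hK.mem_Nm (g := ⟨g, hg⟩).1 (semireg hK.ca a1
    (fun e => hk (hK.nu_inj (by rw [e, map_one]))) ?_))).elim
  have a2 := hL.conj_mem' _ (hX a1) (pr K ⟨g, hg⟩)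
  rw [nu_eq, ← map_inv, ← map_mul, ← map_mul] at a2 ⊢
  exact hK.mem_Nm.2 (hc _ ⟨_, a2, rfl⟩)

end Sg

end Cfsg.Agent.H9.Sin
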