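import Cfsg.Agent.H9.Sg2

/-! The data attached to an overgroup of the Singer normaliser in `SU₅(q)`. -/

set_option autoImplicit false
set_option linter.unusedSectionVars false

namespace Cfsg.Agent.H9.Sin

open Module MulAction Subgroup Cfsg.Agent.H1.C3a Cfsg.Agent.H5.Zas1 Cfsg.Agent.H4.CAG
  Cfsg.Agent.H8.L5f Cfsg.Agent.Form Cfsg.Agent.H7 Cfsg.Agent.H6.SU Cfsg.Agent.H8.U5

universe u v

variable {F : Type u} [Field F] {σ : F →+* F} {hσ : ∀ a, σ (σ a) = a}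
  {V : Type v} [AddCommGroup V] [Module F V] {S : PQ (FP.unit σ hσ) V} {M : Subgroup (V ≃ₗ[F] V)} {q : ℕ}
  [Finite F] [FiniteDimensional F V]
  {E : Type*} [Field E] [Algebra F E] [Module E V] [IsScalarTower F E V]

theorem core (h : Un S q) (hq : 3 ≤ q) (hE : finrank F E = 5) (τ : E →+* E)
    (hadj : ∀ (k : E) x y, S.B (k • x) y = S.B x (τ k • y)) (hM : M ≤ sisom S)
    (hN : ∀ g ∈ sisom S, Semi E g → g ∈ M) (hS : ∃ g ∈ M, ¬ Semi E g) :
    ∃ K ≤ M, ∃ T X, SgD S q K T (pr K) X ∧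
      (Nat.gcd 5 (q + 1) * Nat.card (PG K) = NU q → sisom S ≤ M) := by
  have := Fintype.ofFinite F
  have : FiniteDimensional F E := Module.finite_of_finrank_eq_succ hE
  have : Finite E := Module.finite_of_finite F
  have : FiniteDimensional E V := Module.Finite.right F E V
  obtain ⟨X₀, T, h0, c1, t1, t2, t3, t4, t5, t6, t7, d1, d2⟩ := pre h hq hE τ hadj
  have := h0.finV
  have : Finite (V ≃ₗ[F] V) := DFunLike.finite _
  obtain ⟨K, hK, h1, ⟨g, hg, hn⟩, h3⟩ := (h0.mono hM fun k hk => hN _ (h0.le k hk) (semi_mu k)).exists_min hS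
  have e1 : PG K ≤ PG (sisom S) := map_mono (hK.trans hM)
  have e2 : Nat.gcd 5 (q + 1) * Nat.card (PG (sisom S)) ∣ NU q := by
    refine (Nat.mul_dvd_mul_right d2 _).trans (dvd_trans (Dvd.intro 1 ?_) d1)
    rw [mul_one, ← (pr (sisom S)).ker.card_mul_index, index_ker, MonoidHom.range_eq_top.2 (pr_surj _),
      card_top]
  refine ⟨K, hK, T, XX X₀ K, ⟨hK.trans hM, pr_surj K, fun g => ?_, h1.ca, h3,
    ⟨pr K ⟨g, hg⟩, fun e => hn (h1.mem_Nm.1 e)⟩, (Nat.dvd_prime (by norm_num)).1 (hE ▸ h1.wt_dvd),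
    by rw [h1.card_XX, c1], (Nat.mul_dvd_mul_left _ (card_dvd_of_le e1)).trans e2, t1, t2, t3, t4, t5,
    fun x hx => ?_, t7, fun Y hY e => h1.irr Y hY fun k hk => e _ (h1.le k hk)⟩, fun e g hg => ?_⟩
  · rw [← map_one (pr K), pr_eq]; rfl
  · obtain ⟨k, rfl⟩ : x ∈ h1.nu.range := h1.range_nu ▸ hx
    refine ⟨⟨_, h1.le k k.2⟩, t6 k k.2, rfl, Subtype.ext ?_⟩
    rw [h1.card_XX, SubgroupClass.coe_pow, ← map_pow, ← SubgroupClass.coe_pow, pow_card_eq_one']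
    exact map_one _
  · have e3 : PG K = PG (sisom S) := eq_of_le_of_card_ge e1 (Nat.le_of_mul_le_mul_left
      (Nat.le_of_dvd (Nat.mul_pos (Nat.gcd_pos_of_pos_left _ (by norm_num)) Nat.card_pos) (e ▸ e2))
      (Nat.gcd_pos_of_pos_left _ (by norm_num)))
    obtain ⟨k, hk, e4⟩ : pp F V g ∈ PG K := e3 ▸ ⟨g, hg, rfl⟩
    obtain ⟨c, hc⟩ := pp_eq.1 e4.symm
    have := M.mul_mem (hN (g * k⁻¹) (mul_mem hg (inv_mem (hM (hK hk)))) fun a => ⟨a, fun v => ?_⟩) (hK hk)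
    · simpa using this
    · change g (k.symm _) = a • g (k.symm _)
      rw [hc, hc, k.apply_symm_apply, k.apply_symm_apply, smul_comm]

theorem exists_sgd (h : Un S q) (hq : 3 ≤ q) (hE : finrank F E = 5) (τ : E →+* E)
    (hadj : ∀ (k : E) x y, S.B (k • x) y = S.B x (τ k • y)) (hM : M ≤ sisom S)
    (hN : ∀ g ∈ sisom S, H1.C3a.Semi E g → g ∈ M) (hS : ∃ g ∈ M, ¬ H1.C3a.Semi E g) :
    ∃ K ≤ M, ∃ (T : Subgroup (V ≃ₗ[F] V)) (Γ : Type v) (_ : Group Γ) (_ : Fintype Γ) (π : K →* Γ)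
      (X : Subgroup Γ), SgD S q K T π X := by
  obtain ⟨K, hK, T, X, H, -⟩ := core h hq hE τ hadj hM hN hS
  have : Finite V := Module.finite_of_finite F
  exact ⟨K, hK, T, PG K, inferInstance, Fintype.ofFinite _, pr K, X, H⟩

end Cfsg.Agent.H9.Sin
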