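import Cfsg.Agent.H9.Deg
import Cfsg.Agent.H9.Th2

/-! Enumeration of the degree equation for an automiser of order five. -/

set_option autoImplicit false
set_option linter.unusedSectionVars false

namespace Cfsg.Agent.H9.Sin

open MulAction Subgroup Cfsg.Agent.H5.Zas1 Cfsg.Agent.H4.CAG Cfsg.Agent.H5.Char Cfsg.Agent.H4.Util

/-- evaluate before passing on -/
noncomputable def fN {α : Type} (n : ℕ) (k : ℕ → α) : α := n.rec (k 0) fun m _ => k m.succ

/-- evaluate before passing on -/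
noncomputable def fI (z : ℤ) (k : ℤ → Bool) : Bool :=
  z.rec (fun n => fN n fun n => k (.ofNat n)) fun n => fN n fun n => k (.negSucc n)

/-- evaluate before passing on -/
noncomputable def fL (l : List ℤ) : (List ℤ → Bool) → Bool :=
  l.rec (fun k => k []) fun a _ ih k => fI a fun a => ih fun l => k (a :: l)

theorem fN_eq {α : Type} (n : ℕ) (k : ℕ → α) : fN n k = k n := by cases n <;> rfl

theorem fI_eq (z : ℤ) (k : ℤ → Bool) : fI z k = k z := by
  cases z <;> (rw [fI]; exact fN_eq _ _)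

theorem fL_eq (l : List ℤ) (k : List ℤ → Bool) : fL l k = k l := by
  induction l generalizing k with
  | nil => rfl
  | cons a l ih => exact (fI_eq a fun a => fL l fun l => k (a :: l)).trans (ih _)

/-- fold over the divisors of `M` that are `a` times a product of bounded prime powers -/
noncomputable def fd {α : Type} (M : ℕ) (f : ℕ → α → α) (l : List (ℕ × ℕ)) : ℕ → α → α :=
  l.rec f fun x _ ih a z => x.2.succ.rec z fun i w => fN (a.mul (x.1.pow i)) fun b =>
    ((M.mod b).beq 0).rec w (ih b w)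

theorem fd_cons {α : Type} (M : ℕ) (f : ℕ → α → α) (x : ℕ × ℕ) (l : List (ℕ × ℕ)) (a : ℕ) (z : α) :
    fd M f (x :: l) a z = x.2.succ.rec z fun i w => fN (a.mul (x.1.pow i)) fun b =>
      ((M.mod b).beq 0).rec w (fd M f l b w) := rfl

section fold

variable {α : Type} {M : ℕ} {f : ℕ → α → α} {P : α → Prop} (h : ∀ d z, P z → P (f d z))
include h

theorem fd_mono (l : List (ℕ × ℕ)) (a : ℕ) (z : α) (hz : P z) : P (fd M f l a z) := by
  induction l generalizing a z with
  | nil => exact h _ _ hz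
  | cons x l ih =>
    rw [fd_cons]
    induction x.2.succ with
    | zero => exact hz
    | succ j i2 =>
      change P (fN _ _)
      rw [fN_eq]
      cases (M.mod (a.mul (x.1.pow j))).beq 0
      exacts [i2, ih _ _ i2]

theorem fd_hit (l : List (ℕ × ℕ)) (hl : ∀ x ∈ l, x.1.Prime) (a d : ℕ)
    (hd : d ∣ (l.map fun x => x.1 ^ x.2).prod) (hM : a * d ∣ M) (hf : ∀ z, P (f (a * d) z)) (z : α) :
    P (fd M f l a z) := by
  induction l generalizing a d z with
  | nil =>
    obtain rfl : d = 1 := by simpa using hd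
    exact (mul_one a ▸ hf) z
  | cons x l ih =>
    rw [List.map_cons, List.prod_cons] at hd
    obtain ⟨_, d', h1, h2, rfl⟩ := (Nat.dvd_mul).1 hd
    obtain ⟨i, hi, rfl⟩ := (Nat.dvd_prime_pow (hl x (by simp))).1 h1
    rw [← mul_assoc] at hM hf
    rw [fd_cons]
    rw [← Nat.lt_succ_iff] at hi
    revert hi
    induction x.2.succ with
    | zero => simp
    | succ j i2 =>
      intro hi
      change P (fN _ _)
      rw [fN_eq]
      rcases (Nat.lt_succ_iff_lt_or_eq).1 hi with e | rfl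
      · cases (M.mod (a.mul (x.1.pow j))).beq 0
        exacts [i2 e, fd_mono h _ _ _ (i2 e)]
      · rw [show (M.mod (a.mul (x.1.pow i))).beq 0 = true from
          Nat.beq_eq ▸ Nat.mod_eq_zero_of_dvd ((Dvd.intro _ rfl).trans hM)]
        exact ih (fun y hy => hl y (by simp [hy])) _ _ h2 hM hf _

end fold

/-- signed degrees -/
noncomputable def dv (l : List (ℕ × ℕ)) (M n r : ℕ) : List ℤ :=
  fd M (fun d C => (n.ble d.succ).rec C (((d.mod n).beq r).rec
    ((((d.add r).mod n).beq 0).rec C (-(d : ℤ) :: C)) (d :: C))) l 1 []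

theorem mem_dv {l : List (ℕ × ℕ)} (hl : ∀ x ∈ l, x.1.Prime) {M n r : ℕ} (hr : 0 < r) (hn : 2 * r < n)
    (hM : M ∣ (l.map fun x => x.1 ^ x.2).prod) {e : ℤ} (h1 : e.natAbs ∣ M) (h2 : n ≤ e.natAbs + 1)
    (h3 : (n : ℤ) ∣ e - r) : e ∈ dv l M n r := by
  refine fd_hit (P := (e ∈ ·)) (fun d C hC => ?_) l hl 1 _ (h1.trans hM) (by rwa [one_mul]) (fun C => ?_) _
  · cases n.ble d.succ
    · exact hC
    cases (d.mod n).beq r
    · cases ((d.add r).mod n).beq 0
      exacts [hC, List.mem_cons_of_mem _ hC]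
    · exact List.mem_cons_of_mem _ hC
  · obtain ⟨d, rfl | rfl⟩ := e.eq_nat_or_neg
    · rw [Int.natAbs_natCast] at h2
      have : d % n = r := by
        rw [← Nat.mod_eq_of_lt (show r < n by omega)]
        exact (Nat.modEq_iff_dvd.2 h3).symm
      rw [Int.natAbs_natCast, one_mul, Nat.ble_eq_true_of_le h2, show (d.mod n).beq r = true from
        Nat.beq_eq ▸ this]
      exact List.mem_cons_self
    · rw [Int.natAbs_neg, Int.natAbs_natCast] at h2
      have a : n ∣ d + r := Int.natCast_dvd_natCast.1 (by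
        rwa [← dvd_neg, Nat.cast_add, neg_add'])
      have b : d % n ≠ r := fun e => by
        have := (Nat.dvd_add_right (Dvd.intro (d / n) rfl)).1
          (show n ∣ n * (d / n) + (r + r) by rwa [← add_assoc, ← e, Nat.div_add_mod, e])
        have := Nat.le_of_dvd (by omega) this
        omega
      rw [Int.natAbs_neg, Int.natAbs_natCast, one_mul, Nat.ble_eq_true_of_le h2,
        show (d.mod n).beq r = false from Bool.eq_false_iff.2 fun e => b (Nat.eq_of_beq_eq_true e),
        show ((d.add r).mod n).beq 0 = true from Nat.beq_eq ▸ Nat.mod_eq_zero_of_dvd a]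
      exact List.mem_cons_self

/-- the degree equation fails -/
def ok (M n : ℕ) (s Q : ℤ) : Bool :=
  M % s.natAbs != 0 || s == 5 || n * M < Q + ((n - 1) / 5 : ℕ) * (s * s)

/-- all multisets of `k` members of a list -/
noncomputable def am (p : ℤ → ℤ → Bool) (k : ℕ) : List ℤ → ℤ → ℤ → Bool :=
  k.rec (fun _ => p) fun _ ih l s Q => l.rec true fun a t w =>
    (fI (s + a) fun s => fI (Q + a * a) fun Q => ih (a :: t) s Q).rec false w

theorem am_spec {p : ℤ → ℤ → Bool} {k : ℕ} {l : List ℤ} {s Q : ℤ} (h : am p k l s Q) (A : Multiset ℤ)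
    (h1 : A.card = k) (h2 : ∀ a ∈ A, a ∈ l) : p (s + A.sum) (Q + (A.map fun a => a * a).sum) := by
  induction k generalizing l s Q A with
  | zero =>
    rw [Multiset.card_eq_zero.1 h1]
    simpa [am] using h
  | succ k ih =>
    induction l with
    | nil =>
      obtain ⟨a, ha⟩ := Multiset.card_pos_iff_exists_mem.1 (show 0 < A.card by omega)
      simpa using h2 a ha
    | cons a t i2 =>
      change ((fI _ _).rec false (am p (k + 1) t s Q) : Bool) = true at h
      rw [fI_eq, fI_eq] at h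
      change ((am p k (a :: t) _ _).rec false _ : Bool) = true at h
      rcases e : am p k (a :: t) (s + a) (Q + a * a) with _ | _ <;> rw [e] at h
      · cases h
      by_cases ha : a ∈ A
      · obtain ⟨B, rfl⟩ := Multiset.exists_cons_of_mem ha
        have := ih e B (by simpa using h1) fun b hb => h2 b (Multiset.mem_cons_of_mem hb)
        simpa [add_assoc] using this
      · exact i2 h fun b hb => (List.mem_cons.1 (h2 b hb)).resolve_left fun e => ha (e ▸ hb)

/-- the check for one order -/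
noncomputable def ck (l : List (ℕ × ℕ)) (n N M : ℕ) : Bool :=
  M % 5 != 0 || M / 5 % n != 1 || M == 5 || M == N ||
    ((fL (dv l M n 1) fun C => am (ok M n) 4 C 1 1) &&
      (dv l M n 2).all fun e => ok M n (1 + 2 * e) (1 + e * e))

/-- the check -/
noncomputable def chk (l : List (ℕ × ℕ)) (n N : ℕ) : Bool :=
  fd N (fun M b => (ck l n N M).rec false b) l 1 true

theorem chk_spec {l : List (ℕ × ℕ)} (hl : ∀ x ∈ l, x.1.Prime) {n N M : ℕ} (h : chk l n N)
    (hN : N = (l.map fun x => x.1 ^ x.2).prod) (hM : M ∣ N) : ck l n N M :=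
  fd_hit (P := fun b => b = true → ck l n N M) (fun d b hb => by cases ck l n N d; exacts [nofun, hb]) l hl 1 M
    (hN ▸ hM) (by rwa [one_mul]) (fun b => by rw [one_mul]; cases ck l n N M; exacts [nofun, fun _ => rfl]) _ h


theorem c4 : chk [(2, 20), (3, 2), (5, 4), (13, 1), (17, 1)] 41 1303511040000 := by
  decide +kernel


theorem c9 : chk [(2, 11), (3, 20), (5, 4), (41, 1), (73, 1)] 1181 13358010511607040000 := by
  decide +kernel

variable {G : Type*} [Group G] [Fintype G] {X : Subgroup G}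

theorem idx (h : CA X) : Nat.card X ∣ (Nm X).index - 1 := by
  have := card_dvd_of_free' X ({((1 : G) : G ⧸ Nm X)}ᶜ : Set (G ⧸ Nm X))
    (fun g hg ω hω e => hω (smul_left_cancel g (e.trans (fix_iff.2 (le_normalizer hg)).symm)))
    fun g hg ω hω e => free h hg hω e
  rwa [Set.ncard_compl, Set.ncard_singleton] at this

theorem full5 (h : CA X) (gen : ∀ L : Subgroup G, L.Normal → X ≤ L → L = ⊤) (ne : ∃ g, g ∉ Nm X)
    (hw : wt X = 5) {l : List (ℕ × ℕ)} (hl : ∀ x ∈ l, x.1.Prime) {n N : ℕ} (hc : chk l n N)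
    (hN : N = (l.map fun x => x.1 ^ x.2).prod) (hn : Nat.card X = n) (hp : n.Prime) (h36 : 36 < n)
    (h5 : n % 5 = 1) (hd : Nat.card G ∣ n * N) : Nat.card G = n * N := by
  classical
  obtain ⟨d, k, s, A, z, a1, a2, a3, a4, a5, a6, a7, a8⟩ := Deg.degeq h gen (by omega) (by rw [hw]; omega)
  have c1 := (Nm X).card_mul_index
  have c2 := idx h
  have c3 : (Nm X).index ≠ 1 := fun e => ne.elim fun g hg => hg (index_eq_one.1 e ▸ mem_top g)
  have c4 : (Nm X).index ≠ 0 := index_ne_zero_of_finite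
  rw [card_Nm, hw, mul_assoc] at c1
  rw [hw] at a3 a4 a7
  rw [hn] at c1 c2 a6 a7
  generalize (Nm X).index = m at *
  rw [← c1] at hd a2 a8 ⊢
  have c5 := Nat.dvd_of_mul_dvd_mul_left hp.pos hd
  have c6 : ∀ (e r : ℤ), (n : ℤ) ∣ e - r → r ≠ 0 → r.natAbs < n → e.natAbs ∣ n * (5 * m) → e.natAbs ∣ 5 * m :=
    fun e r b1 b2 b3 => Nat.Coprime.dvd_of_dvd_mul_left (Nat.Coprime.symm (hp.coprime_iff_not_dvd.2 fun b4 => by
      have := (dvd_sub_right (Int.natCast_dvd.2 b4)).1 b1
      have := Nat.le_of_dvd (by omega) (Int.natCast_dvd.1 this)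
      omega))
  have c7 : ∀ Q : ℤ, Q = 1 + ∑ φ ∈ A, (deg φ : ℤ) * deg φ → ¬ ok (5 * m) n (s * d) Q := fun Q hQ => by
    have b1 : (s * d).natAbs = d := by
      rcases mul_self_eq_one_iff.1 a1 with rfl | rfl <;> simp
    have b2 := c6 (s * d) 5 (by
      rw [← a5, show (5 : ℤ) = 1 + ∑ φ ∈ A, z φ * z φ by omega, add_sub_add_left_eq_sub,
        ← Finset.sum_sub_distrib]
      exact Finset.dvd_sum fun φ hφ => mul_sub (z φ) _ _ ▸ (a6 φ hφ).2.1.mul_left _) (by omega) (by omega)
      (b1.symm ▸ a2)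
    have b3 : (1 + ∑ φ ∈ A, deg φ * deg φ + (n - 1) / 5 * (d * d) : ℕ) ≤ n * (5 * m) :=
      le_trans (Nat.add_le_add_left (Nat.mul_le_mul_right _ (by omega)) _) a8
    rw [← Int.ofNat_le] at b3
    push_cast at b3
    simp only [ok, Nat.mod_eq_zero_of_dvd b2, hQ, mul_mul_mul_comm s d s d, a1]
    simpa using ⟨a3, b3⟩
  have c8 := chk_spec hl hc hN c5
  have c9 : m % n = 1 := by
    obtain ⟨j, hj⟩ := c2
    rw [show m = n * j + 1 by omega, Nat.mul_add_mod, Nat.mod_eq_of_lt (by omega)]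
  simp only [ck, fL_eq, Nat.mul_mod_right, Nat.mul_div_cancel_left m (show 0 < 5 by omega), c9] at c8
  by_contra hne
  obtain ⟨d1, d2⟩ : am (ok (5 * m) n) 4 (dv l (5 * m) n 1) 1 1 ∧
      ∀ e ∈ dv l (5 * m) n 2, ok (5 * m) n (1 + 2 * e) (1 + e * e) := by
    simpa [c3, show 5 * m ≠ N from fun e => hne (e ▸ rfl)] using c8
  have c10 : ∀ φ ∈ A, ∀ (r : ℕ) (u : ℤ), 0 < r → r ≤ 2 → u * u = 1 → z φ = u * r →
      u * deg φ ∈ dv l (5 * m) n r := fun φ hφ r u r0 r2 hu e => by
    have b1 : (u * deg φ).natAbs = deg φ := by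
      rcases mul_self_eq_one_iff.1 hu with rfl | rfl <;> simp
    have b2 : (n : ℤ) ∣ u * deg φ - r := by
      rw [show u * deg φ - r = u * (deg φ - z φ) by rw [e]; linear_combination r * hu]
      exact (a6 φ hφ).2.1.mul_left u
    exact mem_dv hl r0 (by omega) (hN ▸ c5) (c6 _ r b2 (by omega) (by omega)
      (b1.symm ▸ c1 ▸ H2.Tr.deg_dvd φ)) (b1.symm ▸ (a6 φ hφ).2.2) b2
  have c11 : ∀ φ ∈ A, 1 ≤ z φ * z φ := fun φ hφ => mul_self_pos.2 (a6 φ hφ).1
  by_cases hz : ∀ φ ∈ A, z φ * z φ = 1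
  · have b1 := am_spec d1 (A.val.map fun φ => z φ * deg φ) (by
      rw [Finset.sum_congr rfl hz] at a4
      simp only [Finset.sum_const, nsmul_eq_mul, mul_one] at a4
      rw [Multiset.card_map, Finset.card_val]
      omega) fun a ha => by
        obtain ⟨φ, hφ, rfl⟩ := Multiset.mem_map.1 ha
        exact c10 φ hφ 1 _ one_pos (by omega) (hz φ hφ) (by simp)
    rw [Multiset.map_map] at b1
    refine c7 _ ?_ (a5 ▸ b1)
    exact congrArg _ (Finset.sum_congr rfl fun φ hφ => by
      simp only [Function.comp]; linear_combination (deg φ * deg φ) * hz φ hφ)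
  push Not at hz
  obtain ⟨φ, hφ, hz⟩ := hz
  rw [← Finset.add_sum_erase _ _ hφ] at a4
  have b0 := Finset.card_nsmul_le_sum (A.erase φ) _ 1 fun ψ hψ => c11 ψ (Finset.mem_of_mem_erase hψ)
  have b1 := c11 φ hφ
  obtain ⟨u, hu, e⟩ : ∃ u : ℤ, u * u = 1 ∧ z φ = u * 2 := by
    have : z φ * z φ ≤ 4 := by simp at b0; omega
    have : z φ ≤ 2 := by nlinarith
    have : -2 ≤ z φ := by nlinarith
    generalize z φ = t at *
    interval_cases t <;> first | omega | exact ⟨1, rfl, rfl⟩ | exact ⟨-1, rfl, rfl⟩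
  have b2 : A.erase φ = ∅ := Finset.card_eq_zero.1 (by
    have : z φ * z φ = 4 := by rw [e]; linear_combination 4 * hu
    rw [nsmul_one] at b0
    omega)
  rw [← Finset.add_sum_erase _ _ hφ, b2] at a5 c7
  refine c7 (1 + u * deg φ * (u * deg φ)) (by
    rw [Finset.sum_empty]; linear_combination (deg φ * deg φ) * hu) ?_
  convert d2 _ (c10 φ hφ 2 u two_pos le_rfl hu e) using 2
  rw [← a5, e, Finset.sum_empty]; ring

theorem frob1 (h : CA X) (ne : ∃ g, g ∉ Nm X) (hw : wt X = 1) {n N p : ℕ} (hn : Nat.card X = n)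
    (hp : n.Prime) (hd : Nat.card G ∣ n * N)
    (hs : ∀ s a : ℕ, s.Prime → s ^ a ∣ N → s ^ a % n = 1 → a = 0 ∨ s = p) :
    ∃ Y : Subgroup G, Y.Normal ∧ IsPGroup p Y ∧ Y ≠ ⊥ := by
  have := Fact.mk hp
  have hX : Nm X = X := by
    have := card_Nm X
    rw [hw, mul_one] at this
    exact (eq_of_le_of_card_ge le_normalizer this.le).symm
  have c2 := idx h
  rw [hX, hn] at c2
  have c0 : IsPGroup n X := IsPGroup.of_card (n := 1) (by rw [hn, pow_one])
  have c1 : ¬ n ∣ X.index := fun e => hp.not_dvd_one (by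
    have := (Nat.dvd_sub e c2)
    rwa [Nat.sub_sub_self (Nat.one_le_iff_ne_zero.2 index_ne_zero_of_finite)] at this)
  obtain ⟨Y, this, c3⟩ : ∃ Y : Subgroup G, Y.Normal ∧ IsComplement' Y X := ⟨_, inferInstance,
    MonoidHom.ker_transferSylow_isComplement' (c0.toSylow c1) (hX.le.trans fun x hx y hy => h.comm hy hx)⟩
  have c4 := c3.card_mul_card
  refine ⟨Y, this, ?_, ?_⟩
  swap
  · rintro rfl
    obtain ⟨g, hg⟩ := ne
    rw [hX, isComplement'_bot_left.1 c3] at hg
    exact hg trivial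
  refine IsPGroup.of_card (Nat.eq_prime_pow_of_unique_prime_dvd Nat.card_pos.ne' fun {s} s1 s2 => ?_)
  have := Fact.mk s1
  obtain ⟨P, hP⟩ := PN.exists_inv_sylow c0 (by rwa [← c3.index_eq_card])
    ((MulAut.conjNormal (H := Y)).comp X.subtype) s
  have c5 := card_dvd_of_conj_free X (((P : Subgroup Y).map Y.subtype : Set G) \ {1}) (by
    rintro g hg _ ⟨⟨y, hy, rfl⟩, h1⟩
    exact ⟨⟨_, hP ⟨g, hg⟩ ▸ mem_map_of_mem _ hy, rfl⟩, by simpa using h1⟩) (by
    rintro g hg _ ⟨⟨y, -, rfl⟩, h1⟩ e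
    by_contra g1
    exact h1 (c3.disjoint.le_bot ⟨y.2, h.mem hg g1 (mul_inv_eq_iff_eq_mul.1 e).symm⟩))
  rw [Set.ncard_sdiff_singleton_of_mem (one_mem _), ← Nat.card_coe_set_eq, SetLike.coe_sort_coe,
    card_map_of_injective Y.subtype_injective, P.card_eq_multiplicity, hn] at c5
  rw [← c4, hn, mul_comm] at hd
  refine (hs s _ s1 ((Nat.ordProj_dvd _ s).trans (Nat.dvd_of_mul_dvd_mul_left hp.pos hd)) ?_).resolve_left
    (s1.factorization_pos_of_dvd Nat.card_pos.ne' s2).ne'
  obtain ⟨j, hj⟩ := c5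
  rw [(Nat.sub_eq_iff_eq_add (Nat.one_le_pow _ _ s1.pos)).1 hj, Nat.mul_add_mod, Nat.mod_eq_of_lt hp.one_lt]

end Cfsg.Agent.H9.Sin
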