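import Cfsg.Agent.H9.Sg3
import Cfsg.Agent.H9.Sg4

/-! The Singer normaliser is maximal in `SU₅(4)` and `SU₅(9)`; reduction of the general case. -/

set_option autoImplicit false
set_option linter.unusedSectionVars false

namespace Cfsg.Agent.H9.Sin

open Module MulAction Subgroup Cfsg.Agent.H1.C3a Cfsg.Agent.H5.Zas1 Cfsg.Agent.H4.CAG
  Cfsg.Agent.H8.L5f Cfsg.Agent.Form Cfsg.Agent.H7 Cfsg.Agent.H6.SU Cfsg.Agent.H8.U5 Projectivization
open scoped LinearAlgebra.Projectivization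

universe u v

section abstract

variable {F : Type u} [Field F] {σ : F →+* F} {hσ : ∀ a, σ (σ a) = a}
  {V : Type v} [AddCommGroup V] [Module F V] {S : PQ (FP.unit σ hσ) V} {M : Subgroup (V ≃ₗ[F] V)} {q : ℕ}
  [Finite F] [FiniteDimensional F V]
  {E : Type*} [Field E] [Algebra F E] [Module E V] [IsScalarTower F E V]

theorem no_op [Nontrivial V] (hi : Irr2 M) {p : ℕ} (hp : p.Prime) (hF : p ∣ Nat.card F) {Y : Subgroup (PG M)}
    (hY : Y.Normal) (h : IsPGroup p Y) : Y = ⊥ := by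
  have := Fact.mk hp
  have : Finite V := Module.finite_of_finite F
  have := Fintype.ofFinite F
  obtain ⟨ω, hω⟩ := h.nonempty_fixed_point_of_prime_not_dvd_card (ℙ F V) fun e => hp.not_dvd_one (by
    have := hF.trans (dvd_pow_self _ (finrank_pos (R := F) (M := V)).ne')
    rwa [← Module.natCard_eq_pow_finrank, card' F V, Nat.dvd_add_right (e.mul_right _)] at this)
  let D : Set V := {v | ∀ g : M, pr M g ∈ Y → ∃ c : F, g.1 v = c • v}
  have h1 : ∀ g ∈ M, ∀ y ∈ Submodule.span F D, g y ∈ Submodule.span F D := fun g hg y hy => by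
    refine (show Submodule.span F D ≤ (Submodule.span F D).comap g.toLinearMap from
      Submodule.span_le.2 fun v hv => Submodule.subset_span fun k hk => ?_) hy
    obtain ⟨c, hc⟩ := hv ((⟨g, hg⟩ : M)⁻¹ * k * ⟨g, hg⟩) (by
      rw [map_mul, map_mul, map_inv]; exact hY.conj_mem' _ hk _)
    exact ⟨c, by simpa using congrArg g hc⟩
  have h2 := hi (Submodule.span F D) ((Submodule.ne_bot_iff _).2 ⟨ω.rep, Submodule.subset_span fun g hg =>
    (smul_mk_eq g.1 ω.rep_nonzero ω.rep_nonzero).1 (by rw [mk_rep]; exact hω ⟨_, hg⟩), ω.rep_nonzero⟩)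
    fun g hg y hy => h1 g hg _ (h1 g hg _ hy)
  refine (eq_bot_iff_forall _).2 fun y hy => ?_
  obtain ⟨g, rfl⟩ := pr_surj M y
  obtain ⟨k, hk⟩ := h ⟨_, hy⟩
  have h3 : g ^ (Fintype.card F - 1) = 1 := Subtype.ext (LinearEquiv.toLinearMap_injective
    (LinearMap.ext_on h2 fun v hv => by
      obtain ⟨c, hc⟩ := hv g hy
      have : ∀ j, (g.1 ^ j) v = c ^ j • v := fun j => by
        induction j with
        | zero => simp
        | succ j ih => rw [pow_succ, LinearEquiv.mul_apply, hc, map_smul, ih, smul_smul, pow_succ']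
      by_cases c0 : c = 0
      · obtain rfl : v = 0 := by simpa [c0] using hc
        simp
      · exact (this _).trans (by rw [FiniteField.pow_card_sub_one_eq_one c c0]; simp)))
  have := pow_gcd_eq_one.2 ⟨congrArg Subtype.val hk, ((map_pow _ _ _).symm.trans (congrArg (pr M) h3)).trans
    (map_one _)⟩
  rwa [Nat.Coprime.pow_left _ (hp.coprime_iff_not_dvd.2 fun e => hp.not_dvd_one (by
    rw [Nat.card_eq_fintype_card] at hF
    simpa [Nat.sub_sub_self Fintype.card_pos] using Nat.dvd_sub hF e)), pow_one] at this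

theorem small0 (h : Un S q) (hq : 3 ≤ q) (hE : finrank F E = 5) (τ : E →+* E)
    (hadj : ∀ (k : E) x y, S.B (k • x) y = S.B x (τ k • y)) (hM : M ≤ sisom S)
    (hN : ∀ g ∈ sisom S, Semi E g → g ∈ M) (hS : ∃ g ∈ M, ¬ Semi E g) {l : List (ℕ × ℕ)} {n N p : ℕ}
    (h5 : Nat.gcd 5 (q + 1) = 5) (hl : ∀ x ∈ l, x.1.Prime) (hc : chk l n N)
    (e1 : N = (l.map fun x => x.1 ^ x.2).prod) (hp : n.Prime) (h36 : 36 < n) (e2 : n % 5 = 1)
    (e3 : tt q = 5 * n) (e4 : NU q = 5 * (n * N)) (e5 : p.Prime) (e6 : p ∣ q ^ 2) (e7 : 0 < N)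
    (e8 : N < 2 ^ 64) (e9 : ∀ x ∈ l, ∀ a < 64, x.1 ^ a ∣ N → x.1 ^ a % n = 1 → a = 0 ∨ x.1 = p) :
    sisom S ≤ M := by
  obtain ⟨K, hK, T, X, H, hf⟩ := core h hq hE τ hadj hM hN hS
  have : Finite V := Module.finite_of_finite F
  have := Fintype.ofFinite (PG K)
  have : Nontrivial V := Module.nontrivial_of_finrank_eq_succ h.dim
  have c1 := H.card
  have c2 := H.dvd
  rw [h5, e3] at c1
  rw [h5, e4] at c2 hf
  have c3 := Nat.dvd_of_mul_dvd_mul_left (by omega) c2
  rcases H.wt with hw | hw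
  · obtain ⟨Y, y1, y2, y3⟩ := frob1 (p := p) H.ca H.ne hw (by omega) hp c3 fun s a s1 s2 s3 => by
      refine or_iff_not_imp_left.2 fun a0 => ?_
      obtain ⟨_, hy, e⟩ := (Prime.dvd_prod_iff s1.prime).1 (e1 ▸ (dvd_pow_self s a0).trans s2)
      obtain ⟨x, hx, rfl⟩ := List.mem_map.1 hy
      obtain rfl := (Nat.prime_dvd_prime_iff_eq s1 (hl x hx)).1 (s1.dvd_of_dvd_pow e)
      exact (e9 x hx a ((Nat.pow_lt_pow_iff_right one_lt_two).1 (((Nat.pow_le_pow_left s1.two_le a).trans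
        (Nat.le_of_dvd e7 s2)).trans_lt e8)) s2 s3).resolve_left a0
    exact (y3 (no_op H.irr e5 (h.card ▸ e6) y1 y2)).elim
  · exact hf (congrArg _ (full5 H.ca H.gen H.ne hw hl hc e1 (by omega) hp h36 e2 c3))

theorem small (h : Un S q) (hq : q = 4 ∨ q = 9) (hE : finrank F E = 5) (τ : E →+* E)
    (hadj : ∀ (k : E) x y, S.B (k • x) y = S.B x (τ k • y)) (hM : M ≤ sisom S)
    (hN : ∀ g ∈ sisom S, H1.C3a.Semi E g → g ∈ M) (hS : ∃ g ∈ M, ¬ H1.C3a.Semi E g) : sisom S ≤ M := by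
  rcases hq with rfl | rfl
  · exact small0 h (by omega) hE τ hadj hM hN hS (p := 2) rfl (by simp; norm_num) c4 (by decide +kernel)
      (by norm_num) (by omega) rfl (by decide +kernel) (by decide +kernel) Nat.prime_two (by norm_num) (by omega)
      (by omega) (by decide +kernel)
  · exact small0 h (by omega) hE τ hadj hM hN hS (p := 3) rfl (by simp; norm_num) c9 (by decide +kernel)
      (by norm_num) (by omega) rfl (by decide +kernel) (by decide +kernel) Nat.prime_three (by norm_num) (by omega)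
      (by omega) (by decide +kernel)

end abstract

variable {F : Type u} [Field F] [Fintype F] {q : ℕ}

theorem un_std (hF : Fintype.card F = q ^ 2) : Un (std hF 5) q :=
  ⟨by rw [Nat.card_eq_fintype_card, hF], fun _ => rfl, std_ne hF, std_nondeg hF 5, finrank_fin_fun F⟩

theorem geo_singer (hF : Fintype.card F = q ^ 2)
    (hW : q ≠ 4 → q ≠ 9 → ∀ (K T : Subgroup ((Fin 5 → F) ≃ₗ[F] (Fin 5 → F))) (Γ : Type u) [Group Γ] [Fintype Γ]
      (π : K →* Γ) (X : Subgroup Γ), SgD (std hF 5) q K T π X → sisom (std hF 5) ≤ K)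
    (hq : 3 ≤ q) (A : Subalgebra F (Matrix (Fin 5) (Fin 5) F))
    (hA : Geo.IsFieldSubalgebra 5 A) (hac : Geo.IsAdjointClosedFor (hermForm 5 F q) A) :
    Geo.IsMaximalIn (GU 5 F q ⊓ Geo.specialLinear (Fin 5) F)
      (Geo.subalgebraNormalizer A ⊓ (GU 5 F q ⊓ Geo.specialLinear (Fin 5) F)) := by
  let _ := Asch.fieldOf A hA.comm hA.inv
  let inst : Module A (Fin 5 → F) :=
    Module.compHom _ ((Matrix.toLinAlgEquiv' (R := F)).toRingHom.comp A.val.toRingHom)
  have : @IsScalarTower F A (Fin 5 → F) Algebra.toSMul inst.toSMul _ :=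
    ⟨fun c k v => Matrix.smul_mulVec c k.1 v⟩
  have hS := std_nondeg hF 5
  have ha : Asch.AdjC (std hF 5) (A : Set (Matrix (Fin 5) (Fin 5) F)) := fun k hk => by
    obtain ⟨k', hk', e⟩ := hac k hk
    rwa [Asch.adj_unique hS e]
  refine max_of hF (KSemi A) (mem_subalgebraNormalizer_iff' A)
    (SU_not_le_subalgebraNormalizer hF (by omega) hA (by omega)) fun M h1 h2 =>
      or_iff_not_imp_left.2 fun h3 => ?_
  push Not at h3
  by_cases h4 : q = 4 ∨ q = 9
  · exact small (E := A) (un_std hF) h4 hA.finrank_eq (Asch.adjEquiv hS hA.comm ha : A →+* A)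
      (fun k x y => Asch.B_adj hS k x y) h1 h2 h3
  obtain ⟨K, hK, T, Γ, _, _, π, X, H⟩ := exists_sgd (E := A) (un_std hF) hq hA.finrank_eq
    (Asch.adjEquiv hS hA.comm ha : A →+* A) (fun k x y => Asch.B_adj hS k x y) h1 h2 h3
  exact (hW (by omega) (by omega) K T Γ π X H).trans hK

end Cfsg.Agent.H9.Sin
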