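import Cfsg.Agent.H3.SgCe
import Cfsg.Agent.Sg.R3
import Cfsg.Agent.Sg.P
import Cfsg.Agent.H1.C3d

/-! The normaliser of a Singer cycle is maximal in `SL_n(q)` for prime `n`: reduction. -/

set_option autoImplicit false
set_option linter.unusedSectionVars false

namespace Cfsg.Agent.H9.Sin

open Module Subgroup Projectivization Finset Cfsg.Agent.H8.L5f Cfsg.Agent.H1.C3a Cfsg.Agent.H3.SgC
open scoped LinearAlgebra.Projectivization

section abstract

variable {F E V : Type*} [Field F] [Field E] [Algebra F E] [AddCommGroup V] [Module F V] [Module E V]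
  [IsScalarTower F E V] [FiniteDimensional E V] [Fintype F] [Finite E] {n : ℕ} {M : Subgroup (V ≃ₗ[F] V)}

theorem sing_max (hn : n.Prime) (h7 : 7 ≤ n) (hE : finrank F E = n) (hV : finrank E V = 1)
    (hC : (∀ x y x' y' : ℙ F V, x ≠ y → x' ≠ y' → ∃ g ∈ M, g • x = x' ∧ g • y = y') →
      ∀ g : V ≃ₗ[F] V, LinearEquiv.det g = 1 → g ∈ M)
    (hdet : ∀ g ∈ M, LinearEquiv.det g = 1) (hN : ∀ g, Semi E g → LinearEquiv.det g = 1 → g ∈ M)
    (hS : ∃ g ∈ M, ¬ Semi E g) (g : V ≃ₗ[F] V) (hg : LinearEquiv.det g = 1) : g ∈ M := by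
  classical
  have hP := fun M => Sg.vec_trans (F := F) (E := E) (V := V) (by omega) hV M
  have hM : ∀ k : Eˣ, Algebra.norm F (k : E) = 1 → mu F V k ∈ M := fun k hk =>
    hN _ (semi_mu k) (Units.ext ((det_mu hV k).trans hk))
  by_cases hν : n ^ 2 ∣ Fintype.card F - 1
  swap
  · exact hC (two_trans hn h7 hE hV hν hP hdet hM hS) g hg
  have : FiniteDimensional F E := Module.finite_of_finrank_pos (hE ▸ hn.pos)
  have : Finite V := Module.finite_of_finite E
  have : Nontrivial V := Module.nontrivial_of_finrank_eq_succ hV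
  have := Fact.mk hn
  have hVn : finrank F V = n := by rw [← Module.finrank_mul_finrank F E V, hE, hV, mul_one]
  obtain ⟨κ, hκ⟩ : ∃ κ : Fˣ, orderOf κ = n ^ 2 := by
    obtain ⟨z, hz⟩ := isCyclic_iff_exists_orderOf_eq_natCard.1 (inferInstance : IsCyclic Fˣ)
    exact ⟨_, orderOf_pow_orderOf_div (orderOf_pos z).ne'
      (by rwa [hz, Nat.card_units, Nat.card_eq_fintype_card])⟩
  have k1 : IsPrimitiveRoot (κ : F) (n * n) :=
    IsPrimitiveRoot.coe_units_iff.2 (sq n ▸ hκ ▸ IsPrimitiveRoot.orderOf κ)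
  have k2 := k1.pow (Nat.mul_pos hn.pos hn.pos) rfl
  have q2 : 2 ≤ Fintype.card F := Fintype.one_lt_card
  obtain ⟨u, hu⟩ := (dvd_pow_self n two_ne_zero).trans hν
  obtain ⟨s, hs, -⟩ := lte3 hn (by omega) (u := u)
  rw [show 1 + n * u = Fintype.card F by omega] at hs
  have cX : Nat.card (powMonoidHom (n * s + 1) : Eˣ →* Eˣ).ker = n * s + 1 := by
    rw [IsCyclic.card_powMonoidHom_ker, Nat.gcd_eq_right]
    rw [Nat.card_units, Module.natCard_eq_pow_finrank (K := F) (V := E), hE, Nat.card_eq_fintype_card,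
      ← Nat.div_mul_cancel (Nat.sub_one_dvd_pow_sub_one _ n), ← Nat.geomSum_eq q2, hs]
    exact (dvd_mul_left _ n).mul_right _
  obtain ⟨v0, hv0⟩ := exists_ne (0 : V)
  have h : Sg (powMonoidHom (n * s + 1) : Eˣ →* Eˣ).ker ((powMonoidHom (n * s + 1) : Eˣ →* Eˣ).ker.map (mu F V)) := by
    refine ⟨hE ▸ hn, hV, fun e => ?_, fun c hc => ?_, fun k hk => ⟨k, hk, rfl⟩, fun k ⟨x, hx, e⟩ =>
      ⟨x, hx, 1, (smul_left_injective E hv0 (DFunLike.congr_fun e v0)).symm.trans (one_smul _ _).symm⟩⟩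
    · rw [e, Subgroup.card_bot] at cX
      have := single_le_sum (f := fun i => Fintype.card F ^ i) (fun _ _ => Nat.zero_le _)
        (mem_range.2 (show 1 < n by omega))
      have := Nat.le_of_dvd (by omega) ((dvd_pow_self n two_ne_zero).trans hν)
      rw [← cX] at hs
      rw [pow_one] at *
      omega
    · have : c ^ (n * (n * s + 1)) = c ^ n := by
        simp [← hs, ← prod_pow_eq_pow_sum, FiniteField.pow_card_pow]
      rw [cX] at hc
      rw [mul_comm, pow_mul, hc, one_pow] at this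
      rwa [pow_succ, pow_mul, ← this, one_pow, one_mul] at hc
  have : Nontrivial (E ≃ₐ[F] E) := Finite.one_lt_card_iff_nontrivial.1 (by
    rw [IsGalois.card_aut_eq_finrank, hE]; omega)
  obtain ⟨α, hα⟩ := exists_ne (1 : E ≃ₐ[F] E)
  let ι : E ≃ₗ[F] V := (LinearEquiv.ofBijective (LinearMap.toSpanSingleton E V v0)
    ⟨smul_left_injective E hv0, (finrank_eq_one_iff_of_nonzero' v0 hv0).1 hV⟩).restrictScalars F
  obtain ⟨ψ, hψ⟩ : ∃ ψ : V ≃ₗ[F] V, ∀ e : E, ψ (e • v0) = α e • v0 :=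
    ⟨(ι.symm.trans α.toLinearEquiv).trans ι, fun e => congrArg (fun x => ι (α x)) (ι.symm_apply_apply e)⟩
  obtain ⟨a, ha⟩ := FiniteField.unitsMap_norm_surjective F E (LinearEquiv.det ψ)⁻¹
  have a1 : Semi E (mu F V a * ψ) := semi_mul (semi_mu a) fun e => ⟨α e, fun v => by
    obtain ⟨x, rfl⟩ := (finrank_eq_one_iff_of_nonzero' v0 hv0).1 hV v
    rw [smul_smul, hψ, hψ, map_mul, mul_smul]⟩
  have a2 : LinearEquiv.det (mu F V a * ψ) = 1 := by
    rw [map_mul, show LinearEquiv.det (mu F V a) = (LinearEquiv.det ψ)⁻¹ from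
      Units.ext ((det_mu hV a).trans (congrArg Units.val ha)), inv_mul_cancel]
  obtain ⟨b, φ, e, b1, b2, b3, b4, -⟩ := exists_frame h hE (by omega) k2 a1 (fun k e => hα (by
    have : ∀ x : E, α x = x * ((a⁻¹ * k : Eˣ) : E) := fun x => smul_left_injective E hv0 (by
      change α x • v0 = (_ : E) • v0
      rw [← hψ, eq_inv_mul_iff_mul_eq.2 e, ← map_inv, ← map_mul, mu_apply, smul_smul, mul_comm])
    ext x
    rw [this, ← one_mul ((a⁻¹ * k : Eˣ) : E), ← this]
    simp)) a2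
  refine Sg.FR (b := e) hn (by omega) (Fintype.card_fin n) ?_ hdet (hP M hM hS)
    (by simpa [b2] using M.mul_mem (M.inv_mem (hM b b1)) (hN _ a1 a2)) b4
    (fun i j e => Fin.ext (k2.pow_inj i.2 j.2 e)) (k := 1) (by rwa [pow_one]) (κ := κ)
    (by rw [sq, k1.pow_eq_one]) (k2.ne_one hn.one_lt) g hg
  rw [card_of_finrank F V hVn, Nat.card_eq_fintype_card, hs]
  exact dvd_mul_right _ _

end abstract

open H7 in
/-- field extension subgroups of `SL_n(q)`; `hC` is the classification of doubly transitive groups -/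
theorem ext_all {F : Type*} [Field F] [Fintype F] {n r : ℕ} (hr : r.Prime) (h7 : 7 ≤ n)
    {K : Subalgebra F (Matrix (Fin n) (Fin n) F)} (hK : Geo.IsFieldSubalgebra r K)
    (hC : n.Prime → ∀ M : Subgroup ((Fin n → F) ≃ₗ[F] (Fin n → F)),
      (∀ x y x' y' : ℙ F (Fin n → F), x ≠ y → x' ≠ y' → ∃ g ∈ M, g • x = x' ∧ g • y = y') →
      ∀ g, LinearEquiv.det g = 1 → g ∈ M) :
    Geo.IsMaximalIn (Geo.specialLinear (Fin n) F) (Geo.subalgebraNormalizer K ⊓ Geo.specialLinear (Fin n) F) := by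
  by_cases hlt : r < n
  · exact (H1.C3d.ext_max hr (by simpa) hK).2
  have : Nonempty (Fin n) := ⟨⟨0, by omega⟩⟩
  let _ := Asch.fieldOf K hK.comm hK.inv
  let inst : Module K (Fin n → F) :=
    Module.compHom _ ((Matrix.toLinAlgEquiv' (R := F)).toRingHom.comp K.val.toRingHom)
  have : @IsScalarTower F K (Fin n → F) Algebra.toSMul inst.toSMul _ :=
    ⟨fun c k v => Matrix.smul_mulVec c k.1 v⟩
  have : FiniteDimensional K (Fin n → F) := Module.Finite.right F K _
  have h1 := Module.finrank_mul_finrank F K (Fin n → F)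
  rw [finrank_pi', hK.finrank_eq, Fintype.card_fin] at h1
  obtain rfl : n = r := le_antisymm (by omega) (Nat.le_of_dvd (by omega) ⟨_, h1.symm⟩)
  have hm : finrank K (Fin n → F) = 1 := Nat.eq_of_mul_eq_mul_left hr.pos (by omega)
  have h2 := SL_not_le_subalgebraNormalizer (by simp; omega) hK hr.one_lt
  have h3 : ∀ g, g ∈ Geo.subalgebraNormalizer K ↔ Semi K (H7.toLE g) := mem_subalgebraNormalizer_iff' K
  refine isMaximalIn_of_equiv H7.toLE _ _ (fun g => LinearEquiv.det g = 1)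
    (fun g => Semi K g ∧ LinearEquiv.det g = 1) mem_SL_iff (fun g => ?_) (fun g h => h.2)
    (not_le_inf_of_not_le h2) (fun M h4 h5 => ?_)
  · rw [Subgroup.mem_inf, mem_SL_iff, h3]
  by_cases hS : ∀ g ∈ M, Semi K g
  · exact .inl fun g hg => ⟨hS g hg, h5 g hg⟩
  push Not at hS
  exact .inr (sing_max hr h7 hK.finrank_eq hm (hC hr M) h5 (fun g a b => h4 g ⟨a, b⟩) hS)

end Cfsg.Agent.H9.Sin
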