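import Cfsg.Agent.H9.Der
import Cfsg.Agent.H9.Glue
import Cfsg.Agent.H9.FPair
import Cfsg.Agent.H9.FUnipO

/-! Elements of prime order of the special linear group and similarities of forms. -/

set_option autoImplicit false
set_option linter.unusedSectionVars false

namespace Cfsg.Agent.H9.SimG

open Module Polynomial Cfsg.Agent.Form Cfsg.Agent.Form.PQ Cfsg.Agent.H9.FIdx
open Cfsg.Agent.H9.FClass Cfsg.Agent.H9.FOrd Cfsg.Agent.H9.Types Cfsg.Agent.H9.FInv
open Cfsg.Agent.H9.FSS Cfsg.Agent.H9.FModel Cfsg.Agent.H9.FAdapt Cfsg.Agent.H9.FInvol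
open Cfsg.Agent.H9.FUnip Cfsg.Agent.H9.FNum Cfsg.Agent.H9.Cj Cfsg.Agent.H9.Der
open Cfsg.Agent.H9.Glue Cfsg.Agent.H9.FSemi

universe u v

variable {F : Type u} [Field F] {P : FP F} {V : Type v} [AddCommGroup V] [Module F V]
  {S : PQ P V} {f : End F V}

/-- Similarities. -/
def Sim (S : PQ P V) (f : End F V) : Prop := ∃ c : Fˣ, ∀ x y, S.B (f x) (f y) = c * S.B x y

theorem sim_of_isIso (h : S.IsIso S f) : Sim S f := ⟨1, fun x y => by simp [h.1]⟩

theorem Sim.smul (f : End F V) (b : F) (hb : b ≠ 0) (h : Sim S f) : Sim S (b • f) :=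
  let ⟨c, h⟩ := h
  ⟨Units.mk0 (b * P.σ b) (mul_ne_zero hb (P.σ_ne_zero hb)) * c, fun x y => by simp [h]; ring⟩

theorem sim_iff_quad {S : PQ (FP.orth F) V} (h2 : (2 : F) ≠ 0) :
    (∃ c : Fˣ, ∀ v, S.Q (f v) = c * S.Q v) ↔ Sim S f :=
  exists_congr fun c => ⟨fun h x y => by
    have := h (x + y)
    rw [map_add, S.orth_Q_add, S.orth_Q_add, h, h] at this
    linear_combination this, fun h x => mul_left_cancel₀ h2 (by
      rw [← S.orth_B_self, h, S.orth_B_self]; ring)⟩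

theorem mult_pow {c : F} (h : ∀ x y, S.B (f x) (f y) = c * S.B x y) (k : ℕ) (x y : V) :
    S.B ((f ^ k) x) ((f ^ k) y) = c ^ k * S.B x y := by
  induction k with
  | zero => simp
  | succ k ih => rw [pow_succ', End.mul_apply, End.mul_apply, h, ih]; ring

theorem mult_eq [Nontrivial V] (hS : S.Nondeg) {c z : F} (h : ∀ x y, S.B (f x) (f y) = c * S.B x y)
    {k : ℕ} (hk : f ^ k = z • 1) : c ^ k = z * P.σ z := by
  obtain ⟨x, hx⟩ := exists_ne (0 : V)
  obtain ⟨y, hy⟩ := hS.exists_ne hx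
  have := mult_pow h k y x
  rw [hk] at this
  simp only [LinearMap.smul_apply, End.one_apply, S.B_smul_left, S.B_smul_right] at this
  exact mul_right_cancel₀ hy (by linear_combination -this)

theorem Sim.isIso [Nontrivial V] (hP : MaxP P) (hS : S.Nondeg) (h : Sim S f) {k : ℕ}
    (hk : f ^ k = 1) (h1 : ∀ c : F, c ^ k = 1 → c = 1) : S.IsIso S f :=
  let ⟨c, h⟩ := h
  hP.isIso fun x y => by
    rw [h, h1 c (by simpa using mult_eq hS h (z := 1) (by simpa using hk)), one_mul]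

variable [FiniteDimensional F V]

theorem ed_le_of_mult (hS : S.Nondeg) {c θ : F} (h : ∀ x y, S.B (f x) (f y) = c * S.B x y)
    (h0 : θ ≠ 0) : ed f θ ≤ ed f (P.σ c * (P.σ θ)⁻¹) := by
  have h1 := hS.finrank_perp (LinearMap.range (f - (P.σ c * (P.σ θ)⁻¹) • 1))
  have h2 := LinearMap.finrank_range_add_finrank_ker (f - (P.σ c * (P.σ θ)⁻¹) • 1)
  have h3 : LinearMap.ker (f - θ • 1) ≤ S.perp (LinearMap.range (f - (P.σ c * (P.σ θ)⁻¹) • 1)) := by
    rintro x hx _ ⟨y, rfl⟩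
    have a1 := h x y
    rw [show f x = θ • x by simpa [sub_eq_zero] using hx, S.B_smul_left] at a1
    simp only [LinearMap.sub_apply, LinearMap.smul_apply, End.one_apply, S.B_sub_right,
      S.B_smul_right, map_mul, map_inv₀, P.σσ]
    field_simp
    linear_combination a1
  have := Submodule.finrank_mono h3
  simp only [ed]
  omega

theorem Sim.sym (hS : S.Nondeg) (h : Sim S f) : Sym (fun θ => (P.σ θ)⁻¹) f :=
  let ⟨_, h⟩ := h; ⟨_, fun _ => ed_le_of_mult hS h⟩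

/-- Gluing similarities of planes. -/
theorem exists_sim_sq (hS : S.Nondeg) (he : Even (finrank F V)) {μ c : F} (h0 : μ ≠ 0)
    (H : ∀ W : Submodule F V, S.NondegOn W → 2 ≤ finrank F W → ∃ v ∈ W, ∃ w ∈ W,
      S.B v v * S.B w w ≠ S.B v w * S.B w v ∧ S.B w w = μ * S.B v v ∧
      S.B w (c • v) = μ * S.B v w ∧ S.B (c • v) w = μ * S.B w v ∧
      S.B (c • v) (c • v) = μ * S.B w w) : ∃ g : End F V, Sim S g ∧ g ^ 2 = c • 1 := by
  obtain ⟨g, hg⟩ := exists_loc (S := S) (J := 0) (ε := 1) (μ := μ) (c := c)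
    (I := fun W => Even (finrank F W)) (fun W h1 h2 h3 => by
      have h4 := Submodule.finrank_eq_zero.not.2 h3
      obtain ⟨v, a1, w, a2, a3, a4, a5, a6, a7⟩ := H W h1 (by obtain ⟨k, e⟩ := h2; omega)
      obtain ⟨b1, b2, b3⟩ := plane_data a3
      obtain ⟨g, c1, c2⟩ := exists_map_pair b2 w (c • v)
      have b4 := finrank_inf_perp h1 (plane_le a1 a2)
      refine ⟨_, plane_le a1 a2, FSpin.ne_bot_of (by omega), b1, ⟨g, loc_span (tw_span ?_ ?_) ?_⟩,
        by obtain ⟨k, e⟩ := h2; exact ⟨k - 1, by omega⟩⟩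
      · simp [c1, c2, Submodule.mem_span_of_mem, Submodule.smul_mem]
      · simp only [Set.mem_insert_iff, Set.mem_singleton_iff, forall_eq_or_imp, forall_eq, c1, c2]
        exact ⟨⟨a4, a5⟩, a6, a7⟩
      · simp [c1, c2]) ⊤ (S.nondegOn_top.2 hS) (by simpa using he)
  exact ⟨g, ⟨Units.mk0 μ h0, hg.top.2.2⟩, hg.top.1⟩

theorem exists_sim_symp {S : PQ (FP.symp F) V} (hS : S.Nondeg) {c : F} (hc : c ≠ 0) :
    ∃ g : End F V, Sim S g ∧ g ^ 2 = c • 1 := by
  refine exists_sim_sq hS ⟨_, by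
    rw [← finrank_top, ← even_finrank_symp (S.nondegOn_top.2 hS), two_mul]⟩ (neg_ne_zero.2 hc)
    fun W h1 h2 => ?_
  obtain ⟨v, a1, a2⟩ := W.exists_mem_ne_zero_of_ne_bot (FSpin.ne_bot_of (by omega))
  obtain ⟨w, a3, a4⟩ := nondegOn_iff'.1 h1 v a1 a2
  exact ⟨v, a1, w, a3, by simp [S.symp_B_self, S.symp_B_swap v w, a4]⟩

theorem exists_sim_orth [Finite F] {S : PQ (FP.orth F) V} (hS : S.Nondeg)
    (he : Even (finrank F V)) {c : F} (hc : ∀ b : F, b ^ 2 ≠ c) (h2 : (2 : F) ≠ 0) :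
    ∃ g : End F V, Sim S g ∧ g ^ 2 = c • 1 := by
  refine exists_sim_sq hS he (μ := c) (fun e => hc 0 (by simp [e])) fun W h1 h3 => ?_
  obtain ⟨v, a1, a2⟩ := exists_value h1 h3 1
  obtain ⟨w, a3, a4⟩ := exists_value h1 h3 c
  refine ⟨v, a1, w, a3, fun e => hc (S.B v w / 2) ?_, ?_⟩
  · simp only [S.orth_B_self, a2, a4, S.orth_B_swap v w] at e
    field_simp
    linear_combination -e
  · simp [S.orth_B_self, S.orth_Q_smul, a2, a4, S.orth_B_swap v w]; constructor <;> ring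

omit [FiniteDimensional F V] in
theorem real_pairs {A : Multiset F} (hA : ∀ a ∈ A, a ≠ 0 ∧ P.σ a = a) :
    Real P ((A + A.map (·⁻¹)).map fun a => X - C a) := by
  induction A using Multiset.induction with
  | empty => exact real_zero
  | cons a A ih =>
    obtain ⟨h1, h2⟩ := hA a (by simp)
    have h3 := (hasType_smul_one (V := F) a).prodMap (hasType_smul_one (V := F) a⁻¹)
    have h4 : Real P {X - C a, X - C a⁻¹} := ⟨F × F, _, _, hypPlane P,
      LinearMap.prodMap (a • (1 : End F F)) (a⁻¹ • (1 : End F F)), fun x hx => by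
      have a1 := hx (1, 0)
      have a2 := hx (0, 1)
      exact Prod.ext (by simpa [hypPlane] using a2) (by simpa [hypPlane, P.ε_ne_zero] using a1),
      ⟨fun x y => by simp [hypPlane, h2]; field_simp, fun x => by
        convert P.Λ.zero_mem using 1
        simp [hypPlane, h2]; field_simp; ring⟩, by simpa using h3⟩
    simpa [Multiset.cons_swap] using h4.add (ih fun b hb => hA b (by simp [hb]))

omit [FiniteDimensional F V] in
theorem real_transv [CharP F 2] : Real (FP.symp F) (jordan 1 {2}) := by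
  have hS : (hypPlane (FP.symp F)).Nondeg := fun x hx =>
    Prod.ext (by simpa [hypPlane] using hx (0, 1)) (by simpa [hypPlane] using hx (1, 0))
  obtain ⟨f, a1, -, a2, a3, -⟩ := FPair.tau_data 2 hS (d := (1, 0)) trivial (by simp) (c := 1)
    trivial one_ne_zero
  obtain ⟨μ, b1, b2⟩ := exists_hasType_jordan f 1 (k := 2)
    (by rw [one_smul]; exact pow_eq_one_iff_N.1 a2)
  obtain ⟨a, b, rfl⟩ := Unip.eq_replicate_add_of_le_two b1
  have b3 := b2.finrank_jordan
  have b4 := (b2.pow_eq_zero_iff_jordan 1).not.1 (by simpa [sub_eq_zero] using a3)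
  obtain ⟨rfl, rfl⟩ : a = 0 ∧ b = 1 := by
    rcases b.eq_zero_or_pos with rfl | h
    · exact (b4 fun e he => (Multiset.eq_of_mem_replicate (by simpa using he)).le).elim
    · simp at b3; omega
  exact ⟨_, _, _, _, f, hS, a1, by simpa using b2⟩

variable [Fintype F] {q r p : ℕ} [hr : Fact r.Prime] [hp : Fact p.Prime] [CharP F p] [Nontrivial V]

omit hr in
theorem el_unip (hP : MaxP P) (hS : S.Nondeg) (h2 : (2 : F) ≠ 0) (H : El (Sim S) p) {a : ℕ}
    (ha : 0 < a) (h1 : a < p) (hn : a < finrank F V) : ¬ Sk P a := fun hk => by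
  obtain ⟨g, a1, a2, a3⟩ := H.unip (μ := (a + 1) ::ₘ Multiset.replicate (finrank F V - (a + 1)) 1)
    (fun e he => by
      rcases Multiset.mem_cons.1 he with rfl | he
      exacts [h1, by rw [Multiset.eq_of_mem_replicate he]; omega])
    (by simp; omega) (Multiset.mem_cons_self _ _) (by omega)
  have := (jt_top a2 fun e he => by
    rcases Multiset.mem_cons.1 he with rfl | he
    exacts [by omega, by rw [Multiset.eq_of_mem_replicate he]; omega]).even_count hS
    (a1.isIso hP hS a3 fun c hc => frobenius_inj F p (by simpa [frobenius_def] using hc))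
    (fun _ _ => h2) (S.nondegOn_top.2 hS) (fun _ _ => trivial) a hk
  simp [Multiset.count_replicate, ha.ne'] at this

theorem el_fixed (hP : MaxP P) (hS : S.Nondeg) (hq : Fintype.card F = q) (hrp : r ≠ p)
    (h1 : ¬ r ∣ q - 1) (H : El (Sim S) r) {s : ℕ} (hs : s ≠ 0)
    (hn : orderOf (q : ZMod r) * s ≤ finrank F V) :
    ∃ g : End F V, S.IsIso S g ∧ g ^ r = 1 ∧ finrank F (Dx r g) = orderOf (q : ZMod r) * s :=
  let ⟨g, a1, a2, a3⟩ := H.fixed hq hrp h1 hs hn
  ⟨g, a1.isIso hP hS a2 fun _ hc => by_contra fun e => h1 (Arith.dvd_of_root hq hc e), a2, a3⟩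

theorem el_blk (hP : MaxP P) (hS : S.Nondeg) (hq : Fintype.card F = q) (hrp : r ≠ p)
    (h1 : ¬ r ∣ q - 1) (H : El (Sim S) r) {c j : ℕ} (hb : Blk P q r p c) (h0 : j ≠ 0)
    (hn : j ≤ finrank F V) (hj : r ∣ q ^ j - 1) : c ∣ j := by
  have h2 := (Arith.orderOf_dvd_iff (one_le_two.trans (Arith.two_le_q hq))).2 hj
  obtain ⟨g, a1, a2, a3⟩ := el_fixed hP hS hq hrp h1 H one_ne_zero
    (by have := Nat.le_of_dvd (by omega) h2; omega)
  exact (hb.dvd_Dx hq hrp hS a1 a2).trans (by rwa [a3, mul_one])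

omit hp [CharP F p] in
theorem el_derange (hS : S.Nondeg) (hq : Fintype.card F = q) (hr2 : r ≠ 2) (h1 : r ∣ q - 1)
    (hσ : ∀ a : F, a ^ r = 1 → P.σ a = a) {n : ℕ} (hn : finrank F V = n) (h3 : 3 ≤ n)
    (h6 : ¬ (n = 6 ∧ r = 3)) (H : El (Sim S) r) :
    (r = 3 ∨ r = 5) ∧ n = r ∧ padicValNat r (q - 1) = 1 := by
  by_contra h5
  obtain ⟨ω, hω⟩ := Arith.exists_root_of_dvd hq h1
  have h7 := hσ ω hω.pow_eq_one
  obtain ⟨f, a1, ⟨c, a2⟩, a3, a4⟩ := exists_derange hq hr2 hω hn (by omega) h6 h5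
    (τ := fun θ => (P.σ θ)⁻¹) (fun a b => by simp [mul_comm]) (by simp)
    (by simpa [h7] using hω.ne_one hr.out.one_lt) (fun e => hr2 (by
      rw [h7, inv_eq_iff_eq_inv, ← mul_eq_one_iff_eq_inv₀ (hω.ne_zero hr.out.ne_zero), ← sq] at e
      exact (Nat.prime_dvd_prime_iff_eq hr.out Nat.prime_two).1 (hω.dvd_of_pow_eq_one 2 e)))
    (by omega)
  obtain ⟨g, b1, b2, -⟩ := H.elim a1 a2 a3
  exact a4 ((b1.sym hS).of_conj b2)

theorem el_small (hq : Fintype.card F = q) (hrp : r ≠ p) (h3 : r = 3 ∨ r = 5)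
    (hn : finrank F V = r) (hv : padicValNat r (q - 1) = 1)
    (hσ : ∀ a : F, a ^ r = 1 → P.σ a = a)
    (hE : ∀ μ, Real P μ → (μ.map natDegree).sum + 1 = finrank F V →
      ∃ f : End F V, S.IsIso S f ∧ HasType f ((X - 1) ::ₘ μ)) : El (Sim S) r := by
  rintro f hd ⟨c, h⟩ -
  obtain ⟨b, A, a1, a2, a3, a4⟩ := split_sym hq hrp h3 hn hv hd h
  obtain ⟨g, b1, b2⟩ := hE _ (real_pairs fun a ha => ⟨fun e => by
    simpa [e, hr.out.ne_zero] using a3 a ha, hσ a (a3 a ha)⟩)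
    (by simpa [Function.comp_def] using card_of_roots a4)
  exact CjIn.of_smul Sim.smul f b a1 (cj_of_ne hrp (by simp [hd, a1]) (c := 1) (by simpa using a2)
    (sim_of_isIso b1) (b2.conj (by simpa using a4)))

omit hr in
theorem el_two_sim (hp2 : 2 ≠ p) (hS : S.Nondeg)
    (h1 : ∀ (f : End F V) (b : F), LinearMap.det f = 1 → (b • f) ^ 2 = 1 →
      ∃ U, S.NondegOn U ∧ finrank F U = finrank F (Dx 2 (b • f)))
    (h2 : ∀ (f : End F V) (c : F), LinearMap.det f = 1 → f ^ 2 = c • 1 → (∀ b : F, b ^ 2 ≠ c) →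
      ∃ g, Sim S g ∧ g ^ 2 = c • 1) : El (Sim S) 2 :=
  el_two hp2 Sim.smul (fun f b _ a2 a3 _ =>
    let ⟨_, b1, b2⟩ := h1 f b a2 a3
    let ⟨g, c1, c2, c3, _⟩ := exists_invol hp2 hS b1
    ⟨g, sim_of_isIso c1, c2, c3 ▸ b2⟩) h2

omit hr hp [CharP F p] in
theorem el_char_two_sim [CharP F 2] (h1 : Real P (jordan 1 {2}))
    (hE : ∀ μ, Real P μ → (μ.map natDegree).sum ≤ finrank F V → ∃ f : End F V, S.IsIso S f ∧
      HasType f (Multiset.replicate (finrank F V - (μ.map natDegree).sum) (X - 1) + μ)) :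
    El (Sim S) 2 := el_char_two Sim.smul fun μ a1 a2 _ => by
  obtain ⟨a, b, rfl⟩ := Unip.eq_replicate_add_of_le_two a1
  have h2 : b • jordan (1 : F) {2} = jordan 1 (Multiset.replicate b 2) := by
    simp [jordan, Multiset.nsmul_singleton]
  obtain ⟨g, b1, b2⟩ := hE _ (h2 ▸ h1.nsmul b) (by rw [jordan_natDegree, ← a2]; simp)
  refine ⟨g, sim_of_isIso b1, ?_⟩
  rw [jordan_natDegree, ← a2] at b2
  simpa [jordan] using b2

omit [Nontrivial V] hp [CharP F p] in
theorem dvd_of_index (hq : Fintype.card F = q) (hrq : ¬ r ∣ q) (L : Subgroup (V ≃ₗ[F] V))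
    (h : r ∣ L.index) {A B D : ℕ} (hB : 0 < B) (h1 : B ∣ Nat.card L * A)
    (h2 : Count.P q (finrank F V) = B * D) : r ∣ D * A := by
  obtain ⟨k, h1⟩ := h1
  have h3 := congrArg (· * A) (L.card_mul_index.trans (card_equiv hq))
  simp only [h2] at h3
  rw [mul_right_comm, h1, mul_assoc, mul_left_comm _ B, mul_assoc B] at h3
  have := Nat.eq_of_mul_eq_mul_left hB h3 ▸ h.mul_left k
  rw [mul_assoc] at this
  exact (hr.out.dvd_mul.1 this).resolve_left fun e => hrq (hr.out.dvd_of_dvd_pow e)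

/-- The product of the factors `q ^ j - 1` with `j` odd. -/
def Od (q d : ℕ) : ℕ := ∏ j ∈ Finset.range d, (q ^ (2 * j + 1) - 1)

theorem P_two_mul (q d : ℕ) : Count.P q (2 * d) = Count.P (q ^ 2) d * Od q d := by
  induction d with
  | zero => simp [Count.P, Od]
  | succ d ih =>
    rw [mul_add, mul_one, Count.P_succ, Count.P_succ, Count.P_succ, ih, Od, Od,
      Finset.prod_range_succ, ← pow_mul, mul_add 2, mul_one]
    ring

theorem P_two_mul_add_one (q d : ℕ) : Count.P q (2 * d + 1) = Count.P (q ^ 2) d * Od q (d + 1) := by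
  rw [Count.P_succ, P_two_mul, Od, Od, Finset.prod_range_succ, mul_assoc]

/-- The factors of the index of the unitary group. -/
def uf' (q j : ℕ) : ℕ := if Even j then q ^ j + 1 else q ^ j - 1

theorem uf_mul (q j : ℕ) : uf q j * uf' q j = (q ^ 2) ^ j - 1 := by
  rw [← pow_mul, mul_comm 2, pow_mul, FUni.sq_sub_one, uf, uf']
  split_ifs <;> ring

theorem P_sq (q n : ℕ) : Count.P (q ^ 2) n = PU q n * ∏ j ∈ Finset.range n, uf' q (j + 1) := by
  simp only [Count.P, PU, ← Finset.prod_mul_distrib, uf_mul]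

theorem not_dvd_uf {j : ℕ} (hr2 : r ≠ 2) (hq : q ≠ 0) (h : r ∣ uf' q j) : ¬ r ∣ uf q j := fun e => by
  have := Nat.one_le_pow j q hq.bot_lt
  unfold uf at e
  unfold uf' at h
  split_ifs at e h
  exacts [FUni.not_dvd_sub_one this hr2 h e, FUni.not_dvd_sub_one this hr2 e h]

theorem not_el_odd (hσ : ∀ a, P.σ a = a) (hP : MaxP P) (hS : S.Nondeg) (hq : Fintype.card F = q)
    (hrp : r ≠ p) (hr2 : r ≠ 2) (h1 : ¬ r ∣ q - 1) {d : ℕ} (hd : 2 * d ≤ finrank F V + 1)
    (h : r ∣ Od q d) : ¬ El (Sim S) r := fun H => by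
  obtain ⟨j, a1, a2⟩ := (hr.out.prime.dvd_finsetProd_iff _).1 h
  have := (even_c rfl).two_dvd.trans (el_blk hP hS hq hrp h1 H (blk_id hq hrp hr2 hσ rfl rfl)
    (by omega) (by have := Finset.mem_range.1 a1; omega) a2)
  omega

end Cfsg.Agent.H9.SimG
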