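import Cfsg.Agent.H6.SUMono1
import Cfsg.Agent.H6.SUThree

/-! A four-dimensional unitary group generated by full groups of transvections. -/

set_option autoImplicit false

namespace Cfsg.Agent.H9.TU

open Module Cfsg.Agent.Form Cfsg.Agent.H7 Cfsg.Agent.H6.SU

variable {F : Type*} [Field F] {σ : F →+* F} {hσ : ∀ a, σ (σ a) = a}
  {V : Type*} [AddCommGroup V] [Module F V] {S : PQ (FP.unit σ hσ) V} {M : Subgroup (V ≃ₗ[F] V)}
  [FiniteDimensional F V] [Finite F]

theorem ext1 (hne : ∃ a, σ a ≠ a) (hS : S.Nondeg) {U : Submodule F V} (hU : S.NondegOn U) {k : ℕ}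
    (h1 : finrank F U ≤ k) (h2 : k < finrank F V) :
    ∃ v, v ∈ S.perp U ∧ S.B v v = 1 ∧ S.NondegOn (U ⊔ F ∙ v) ∧ finrank F (U ⊔ F ∙ v : Submodule F V) ≤ k + 1 := by
  have hP := PQ.NondegOn.perp hS hU
  obtain ⟨w, hw, w0⟩ : ∃ w ∈ S.perp U, S.B w w ≠ 0 := by
    by_contra hc
    push Not at hc
    have : S.perp U = ⊥ := (Submodule.eq_bot_iff _).2 fun x hx => hP x hx fun y hy => by
      have k : ∀ a : F, σ a * S.B x y + a * S.B y x = 0 := fun a => by
        have := hc _ (add_mem hx (Submodule.smul_mem _ a hy))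
        simp only [PQ.B_add_left, PQ.B_add_right, PQ.B_smul_left, Bsr, hc x hx, hc y hy] at this
        linear_combination this
      obtain ⟨a, ha⟩ := hne
      exact (mul_eq_zero.1 (show (σ a - a) * S.B x y = 0 by
        linear_combination k a - a * k 1 + a * S.B x y * map_one σ)).resolve_left (sub_ne_zero.2 ha)
    have e := hU.isCompl.sup_eq_top
    rw [this, sup_bot_eq] at e
    rw [e, finrank_top] at h1
    omega
  obtain ⟨b, hb⟩ := exists_norm_mul hne hσ (Bs S w w) w0 (c := 1) (map_one σ)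
  have e : S.B (b • w) (b • w) = 1 := by rw [PQ.B_smul_left, Bsr, ← mul_assoc, hb]
  have m := (S.perp U).smul_mem b hw
  exact ⟨b • w, m, e, hU.sup (S.nondegOn_span_singleton (by rw [e]; exact one_ne_zero))
    ((Submodule.span_singleton_le_iff_mem _ _).2 m), (finrank_sup_span_le _ _).trans (by omega)⟩

theorem ext2 (hne : ∃ a, σ a ≠ a) (hS : S.Nondeg) (h4 : 4 ≤ finrank F V) {a n : V} (ha : S.B a a = 1)
    (hn : S.B n n = 1) (h : S.B n a = 0) :
    ∃ b c : V, ∀ i j, S.B (![a, b, c, n] i) (![a, b, c, n] j) = if i = j then 1 else 0 := by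
  have n1 := (S.nondegOn_span_singleton (v := a) (by rw [ha]; exact one_ne_zero)).sup
    (S.nondegOn_span_singleton (v := n) (by rw [hn]; exact one_ne_zero))
    ((Submodule.span_singleton_le_iff_mem _ _).2 (S.mem_perp_span_singleton.2 h))
  obtain ⟨b, b1, b2, b3, b4⟩ := ext1 hne hS n1 (k := 2)
    ((finrank_sup_span_le _ _).trans (by have := finrank_span_singleton_le (F := F) a; omega)) (by omega)
  obtain ⟨c, c1, c2, -⟩ := ext1 hne hS b3 b4 (by omega)
  simp only [PQ.perp_sup, Submodule.mem_inf, PQ.mem_perp_span_singleton] at b1 c1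
  obtain ⟨⟨c1, c3⟩, c4⟩ := c1
  refine ⟨b, c, fun i j => ?_⟩
  fin_cases i <;> fin_cases j <;>
    simp [*, S.B_comm_zero h, S.B_comm_zero b1.1, S.B_comm_zero b1.2, S.B_comm_zero c1, S.B_comm_zero c3,
      S.B_comm_zero c4]

theorem orth4 (hne : ∃ a, σ a ≠ a) (hS : S.Nondeg) (h4 : 4 ≤ finrank F V) :
    ∃ e : Fin 4 → V, ∀ i j, S.B (e i) (e j) = if i = j then 1 else 0 := by
  obtain ⟨a, -, a2, a3, a4⟩ := ext1 hne hS S.nondegOn_bot (k := 0) (by simp) (by omega)
  obtain ⟨n, n1, n2, -⟩ := ext1 hne hS a3 a4 (by omega)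
  obtain ⟨b, c, h⟩ := ext2 hne hS h4 a2 n2 (n1 a (Submodule.mem_sup_right (Submodule.mem_span_singleton_self a)))
  exact ⟨_, h⟩

omit [Finite F] in
theorem perp_eq_zero (hS : S.Nondeg) (h4 : finrank F V = 4) {U : Submodule F V} (h3 : finrank F U = 3) {y n : V}
    (hy : y ∉ U) (hn : n ∈ S.perp U) (h : S.B n y = 0) : n = 0 := by
  have e : U ⊔ F ∙ y = ⊤ := Submodule.eq_top_of_finrank_eq (le_antisymm (Submodule.finrank_le _) (by
    have := Submodule.finrank_lt_finrank_of_lt (show U < U ⊔ F ∙ y from lt_of_le_of_ne le_sup_left fun e =>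
      hy (e.ge (Submodule.mem_sup_right (Submodule.mem_span_singleton_self y))))
    omega))
  refine hS n fun x => ?_
  obtain ⟨u, hu, a, rfl⟩ := mem_sup_span_iff.1 (e.ge (Submodule.mem_top (x := x)))
  simp [hn u hu, h]

omit [FiniteDimensional F V] [Finite F] in
theorem full_two (h2 : ∀ a : F, σ a = a → a = 0 ∨ a = 1) {e : Fin 4 → V} (h : ON S e)
    (hU : ∀ v, S.B v (e 3) = 0 → S.B v v = 0 → Ctr S M v) (h03 : Ctr S M (e 0 + e 3)) :
    Full S M ⊤ ∨ ∀ z, Ctr S M z → ∀ c, c + σ c = 0 → ∀ i, ∃ j, ∃ a : F, e i + (c * S.B (e i) z) • z = a • e j := by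
  have two : (2 : F) = 0 := (h2 2 (map_ofNat σ 2)).resolve_right fun e' => one_ne_zero (α := F) (by
    linear_combination e')
  have nm : ∀ {a : F}, a ≠ 0 → a * σ a = 1 := fun {a} a0 =>
    (h2 _ (by rw [map_mul, hσ, mul_comm])).resolve_left (mul_ne_zero a0 (σ_ne a0))
  have sg : ∀ {a : F}, a ≠ 0 → σ a = a⁻¹ := fun a0 => eq_inv_of_mul_eq_one_right (nm a0)
  let P : F → F → F → F → V := fun a b c d => a • e 0 + b • e 1 + c • e 2 + d • e 3
  have BP : ∀ a b c d a' b' c' d', S.B (P a b c d) (P a' b' c' d') = a * σ a' + b * σ b' + c * σ c' + d * σ d' :=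
    fun a b c d a' b' c' d' => by simp [P, h.B_e]; ring
  have ex : ∀ v, ∃ a b c d, v = P a b c d := fun v => ⟨_, _, _, _, (h.sum v).symm.trans (Fin.sum_univ_four _)⟩
  have step : ∀ {a b c d a' b' c' d' x y z w β : F}, Ctr S M (P a b c d) → Ctr S M (P a' b' c' d') →
      β = a * σ a' + b * σ b' + c * σ c' + d * σ d' → x = a + β * a' → y = b + β * b' → z = c + β * c' →
      w = d + β * d' → Ctr S M (P x y z w) := fun {a b c d a' b' c' d' x y z w β} k k' e0 e1 e2 e3 e4 => by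
    have t : (1 : F) + σ 1 = 0 := by rw [map_one, one_add_one_eq_two, two]
    obtain ⟨g, hg, hg', e'⟩ := (Ctr.ht k' t).exists k'.1.B_self t
    have := k.map hg hg'
    rw [e', BP, ← e0] at this
    convert this using 1
    simp only [P, e1, e2, e3, e4]
    module
  have sm : ∀ {a b c d x y z w : F} (s : F), Ctr S M (P a b c d) → x = s * a → y = s * b → z = s * c → w = s * d →
      Ctr S M (P x y z w) := fun {a b c d x y z w} s k e1 e2 e3 e4 => by
    convert k.smul s using 1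
    simp only [P, e1, e2, e3, e4]
    module
  have u : ∀ {a b c : F}, a * σ a + b * σ b + c * σ c = 0 → Ctr S M (P a b c 0) := fun k =>
    hU _ (by simp [P, h.B_e]) (by rw [BP, k]; simp)
  have u01 : ∀ {a b : F}, a ≠ 0 → b ≠ 0 → Ctr S M (P a b 0 0) := fun a0 b0 =>
    u (by rw [nm a0, nm b0]; linear_combination two)
  have u02 : ∀ {a b : F}, a ≠ 0 → b ≠ 0 → Ctr S M (P a 0 b 0) := fun a0 b0 =>
    u (by rw [nm a0, nm b0]; linear_combination two)
  have w0 : Ctr S M (P 1 0 0 1) := by simpa [P] using h03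
  have u13 : ∀ {a b : F}, a ≠ 0 → b ≠ 0 → Ctr S M (P 0 a 0 b) := fun {a b} a0 b0 =>
    sm b (step (x := 0) (y := a / b) (z := 0) (w := 1) (β := 1) w0 (u01 one_ne_zero (div_ne_zero a0 b0)) (by simp)
      (by linear_combination -two) (by simp) (by simp) (by simp)) (by simp) (by field_simp) (by simp) (by simp)
  have u23 : ∀ {a b : F}, a ≠ 0 → b ≠ 0 → Ctr S M (P 0 0 a b) := fun {a b} a0 b0 =>
    sm b (step (x := 0) (y := 0) (z := a / b) (w := 1) (β := 1) w0 (u02 one_ne_zero (div_ne_zero a0 b0)) (by simp)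
      (by linear_combination -two) (by simp) (by simp) (by simp)) (by simp) (by simp) (by field_simp) (by simp)
  have u03 : ∀ {a b : F}, a ≠ 0 → b ≠ 0 → Ctr S M (P a 0 0 b) := fun {a b} a0 b0 =>
    step (β := 1) (u13 one_ne_zero b0) (u01 a0 one_ne_zero) (by simp) (by simp) (by linear_combination -two) (by simp)
      (by simp)
  have pat : ∀ a b c d : F, a * σ a + b * σ b + c * σ c + d * σ d = 0 → (a ≠ 0 ∧ b ≠ 0 ∧ c ≠ 0 ∧ d ≠ 0) ∨
      (a = 0 ∧ b = 0 ∧ c = 0 ∧ d = 0) ∨ (a ≠ 0 ∧ b ≠ 0 ∧ c = 0 ∧ d = 0) ∨ (a ≠ 0 ∧ b = 0 ∧ c ≠ 0 ∧ d = 0) ∨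
      (a ≠ 0 ∧ b = 0 ∧ c = 0 ∧ d ≠ 0) ∨ (a = 0 ∧ b ≠ 0 ∧ c ≠ 0 ∧ d = 0) ∨ (a = 0 ∧ b ≠ 0 ∧ c = 0 ∧ d ≠ 0) ∨
      (a = 0 ∧ b = 0 ∧ c ≠ 0 ∧ d ≠ 0) := fun a b c d k => by
    have t3 : (1 : F) + 1 + 1 ≠ 0 := fun e' => one_ne_zero (α := F) (by linear_combination e' - two)
    by_cases a0 : a = 0 <;> by_cases b0 : b = 0 <;> by_cases c0 : c = 0 <;> by_cases d0 : d = 0 <;>
      simp [a0, b0, c0, d0, nm, t3] at k ⊢
  by_cases hw : ∃ a b c d, Ctr S M (P a b c d) ∧ a ≠ 0 ∧ b ≠ 0 ∧ c ≠ 0 ∧ d ≠ 0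
  · left
    obtain ⟨a', b', c', d', k, a1, b1, c1, d1⟩ := hw
    intro v _ hv
    obtain ⟨a, b, c, d, rfl⟩ := ex v
    rcases pat a b c d (by rwa [BP] at hv) with ⟨a0, b0, c0, d0⟩ | ⟨rfl, rfl, rfl, rfl⟩ | ⟨a0, b0, rfl, rfl⟩ |
      ⟨a0, rfl, c0, rfl⟩ | ⟨a0, rfl, rfl, d0⟩ | ⟨rfl, b0, c0, rfl⟩ | ⟨rfl, b0, rfl, d0⟩ | ⟨rfl, rfl, c0, d0⟩
    · have s1 : ∀ {a b c d t : F}, a ≠ 0 → t ≠ 0 → Ctr S M (P a b c d) → Ctr S M (P (a * b / t) t c d) :=
        fun {a b c d t} a0 t0 k => step (β := a + a * b / t) k (u01 one_ne_zero (div_ne_zero t0 a0))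
          (by rw [sg (div_ne_zero t0 a0)]; simp; field_simp) (by linear_combination -a * two)
          (by field_simp; linear_combination -b * two) (by simp) (by simp)
      have s2 : ∀ {a b c d t : F}, a ≠ 0 → t ≠ 0 → Ctr S M (P a b c d) → Ctr S M (P (a * c / t) b t d) :=
        fun {a b c d t} a0 t0 k => step (β := a + a * c / t) k (u02 one_ne_zero (div_ne_zero t0 a0))
          (by rw [sg (div_ne_zero t0 a0)]; simp; field_simp) (by linear_combination -a * two) (by simp)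
          (by field_simp; linear_combination -c * two) (by simp)
      have s3 : ∀ {a b c d t : F}, a ≠ 0 → t ≠ 0 → Ctr S M (P a b c d) → Ctr S M (P (a * d / t) b c t) :=
        fun {a b c d t} a0 t0 k => step (β := a + a * d / t) k (u03 one_ne_zero (div_ne_zero t0 a0))
          (by rw [sg (div_ne_zero t0 a0)]; simp; field_simp) (by linear_combination -a * two) (by simp) (by simp)
          (by field_simp; linear_combination -d * two)
      obtain ⟨s, hs⟩ : ∃ s, s = a * b * c * d / (a' * b' * c' * d') := ⟨_, rfl⟩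
      have s0 : s ≠ 0 := by rw [hs]; positivity
      have cube : s ^ 3 = 1 := by
        rcases h2 (s + σ s) (by rw [map_add, hσ, add_comm]) with e' | e'
        · rcases h2 s (by linear_combination e' - s * two) with e'' | e''
          · exact absurd e'' s0
          · rw [e'', one_pow]
        · linear_combination (s + 1) * s * e' - (s + 1) * nm s0 - two
      have := s3 (by positivity) d0 (s2 (by positivity) c0 (s1 (mul_ne_zero s0 a1) b0 (sm s k rfl rfl rfl rfl)))
      convert this using 2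
      field_simp
      rw [show s ^ 4 = s by linear_combination s * cube, hs]
      field_simp
    · simpa [P] using ctr_zero
    · exact u01 a0 b0
    · exact u02 a0 c0
    · exact u03 a0 d0
    · exact u (by rw [nm b0, nm c0]; linear_combination two)
    · exact u13 b0 d0
    · exact u23 c0 d0
  · right
    intro z hz t ht i
    rcases h2 t (by linear_combination ht - t * two) with rfl | rfl
    · exact ⟨i, 1, by simp⟩
    have key : ∀ {k l : Fin 4} {a b : F}, k ≠ l → a ≠ 0 → b ≠ 0 → ∃ j, ∃ c : F,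
        e i + (1 * S.B (e i) (a • e k + b • e l)) • (a • e k + b • e l) = c • e j := fun {k l a b} kl a0 b0 => by
      by_cases ik : i = k
      · subst ik
        refine ⟨l, σ a * b, ?_⟩
        simp only [PQ.B_add_right, Bsr, h.self, h.ne kl]
        match_scalars
        · linear_combination nm a0 + two
        · ring
      by_cases il : i = l
      · subst il
        refine ⟨k, σ b * a, ?_⟩
        simp only [PQ.B_add_right, Bsr, h.self, h.ne ik]
        match_scalars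
        · linear_combination nm b0 + two
        · ring
      exact ⟨i, 1, by simp [h.ne ik, h.ne il]⟩
    obtain ⟨a, b, c, d, rfl⟩ := ex z
    rcases pat a b c d (by rw [← BP]; exact hz.1.B_self) with k | ⟨rfl, rfl, rfl, rfl⟩ | ⟨a0, b0, rfl, rfl⟩ |
      ⟨a0, rfl, c0, rfl⟩ | ⟨a0, rfl, rfl, d0⟩ | ⟨rfl, b0, c0, rfl⟩ | ⟨rfl, b0, rfl, d0⟩ | ⟨rfl, rfl, c0, d0⟩
    · exact absurd ⟨a, b, c, d, hz, k⟩ hw
    · exact ⟨i, 1, by simp [P]⟩
    · simpa [P] using key (k := 0) (l := 1) (by decide) a0 b0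
    · simpa [P] using key (k := 0) (l := 2) (by decide) a0 c0
    · simpa [P] using key (k := 0) (l := 3) (by decide) a0 d0
    · simpa [P] using key (k := 1) (l := 2) (by decide) b0 c0
    · simpa [P] using key (k := 1) (l := 3) (by decide) b0 d0
    · simpa [P] using key (k := 2) (l := 3) (by decide) c0 d0

theorem su4 (hne : ∃ a, σ a ≠ a) (hS : S.Nondeg) (h4 : finrank F V = 4)
    (on : ∀ e : Fin 4 → V, (∀ i j, S.B (e i) (e j) = if i = j then 1 else 0) → ON S e)
    (hsp : ∀ Y : Submodule F V, (∀ z, Ctr S M z → z ∈ Y) → Y = ⊤) {d e x : V} (cd : Ctr S M d) (ce : Ctr S M e)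
    (cx : Ctr S M x) (hde : S.B d e ≠ 0) (hg : S.B d e * S.B e x * S.B x d + S.B d x * S.B x e * S.B e d ≠ 0) :
    sisom S ≤ M ∨ ∃ b : Fin 4 → V, ON S b ∧
      ∀ z, Ctr S M z → ∀ c, c + σ c = 0 → ∀ i, ∃ j, ∃ a : F, b i + (c * S.B (b i) z) • z = a • b j := by
  have dd := cd.1.B_self
  have ee := ce.1.B_self
  have xx := cx.1.B_self
  have key : ∀ a b c : F, S.B (a • d + b • e + c • x) d = 0 → S.B (a • d + b • e + c • x) e = 0 →
      S.B (a • d + b • e + c • x) x = 0 → a = 0 ∧ b = 0 ∧ c = 0 := fun a b c e1 e2 e3 => by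
    simp only [PQ.B_add_left, PQ.B_smul_left, dd, ee, xx] at e1 e2 e3
    refine ⟨?_, ?_, ?_⟩ <;> refine (mul_eq_zero.1 ?_).resolve_right hg
    · linear_combination (-(S.B e x * S.B x e)) * e1 + S.B e x * S.B x d * e2 + S.B x e * S.B e d * e3
    · linear_combination (S.B d x * S.B x e) * e1 - S.B d x * S.B x d * e2 + S.B d e * S.B x d * e3
    · linear_combination (S.B d e * S.B e x) * e1 + S.B d x * S.B e d * e2 - S.B d e * S.B e d * e3
  have li : LinearIndependent F ![d, e, x] := Fintype.linearIndependent_iff.2 fun g hg' i => by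
    rw [Fin.sum_univ_three] at hg'
    change g 0 • d + g 1 • e + g 2 • x = 0 at hg'
    obtain ⟨a, b, c⟩ := key (g 0) (g 1) (g 2) (by simp [hg']) (by simp [hg']) (by simp [hg'])
    fin_cases i <;> assumption
  let U := Submodule.span F (Set.range ![d, e, x])
  have md : d ∈ U := Submodule.subset_span ⟨0, rfl⟩
  have me : e ∈ U := Submodule.subset_span ⟨1, rfl⟩
  have mx : x ∈ U := Submodule.subset_span ⟨2, rfl⟩
  have h3 : finrank F U = 3 := by rw [finrank_span_eq_card li]; simp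
  have hU : S.NondegOn U := fun u hu k => by
    obtain ⟨g, rfl⟩ := (Submodule.mem_span_range_iff_exists_fun F).1 hu
    rw [Fin.sum_univ_three] at k ⊢
    obtain ⟨a, b, c⟩ := key (g 0) (g 1) (g 2) (k d md) (k e me) (k x mx)
    simp [a, b, c]
  have hF : Full S M U := full_three hne hU h3 md me mx cd ce cx hde (by
    rw [Submodule.mem_span_pair]
    rintro ⟨a, b, k⟩
    have k' : a • d + b • e + (-1 : F) • x = 0 := by rw [k]; simp
    simpa using (key a b (-1) (by rw [k']; simp) (by rw [k']; simp) (by rw [k']; simp)).2.2)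
  have ps : ∀ {n}, n ∈ S.perp U → S.B n n = 0 → n = 0 := fun {n} hn k => by
    by_contra n0
    exact n0 (perp_eq_zero hS h4 h3 (fun m => n0 (hU n m hn)) hn k)
  by_cases hq : ∃ a : F, σ a = a ∧ a ≠ 0 ∧ a ≠ 1
  · left
    obtain ⟨Y, h1, h2, k⟩ := core hne hU h3.ge (hF.ef hne hq hU)
    obtain rfl := hsp Y fun z hz => (k z hz).elim id fun m => by
      rw [ps (S.perp_anti h1 m) hz.1.B_self]; exact zero_mem _
    exact h2.sisom_le hne hS h4.ge
  have h2 : ∀ a : F, σ a = a → a = 0 ∨ a = 1 := fun a k => by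
    by_contra k'
    push Not at k'
    exact hq ⟨a, k, k'⟩
  obtain ⟨y, cy, hy⟩ : ∃ y, Ctr S M y ∧ y ∉ U := by
    by_contra k
    push Not at k
    rw [hsp U k, finrank_top] at h3
    omega
  obtain ⟨a, ha, n, hn, rfl⟩ := Submodule.mem_sup.1 (hU.isCompl.sup_eq_top.ge (Submodule.mem_top (x := y)))
  have n0 : n ≠ 0 := fun e' => hy (by simpa [e'] using ha)
  have nU : n ∉ U := fun m => n0 (hU n m hn)
  have nn : S.B n n = 1 := (h2 _ (Bs S n n)).resolve_left fun e' => n0 (ps hn e')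
  have na := hn a ha
  have aa : S.B a a = 1 := (h2 _ (Bs S a a)).resolve_left fun e' => by
    simpa [e', nn, na, S.B_comm_zero na] using cy.1.B_self
  obtain ⟨b, c, k⟩ := ext2 hne hS h4.ge aa nn na
  refine (full_two h2 (on _ k) (fun v h1 h2 => hF v ?_ h2) cy).imp (fun k' => k'.sisom_le hne hS h4.ge)
    fun k' => ⟨_, on _ k, k'⟩
  obtain ⟨u, hu, n', hn', rfl⟩ := Submodule.mem_sup.1 (hU.isCompl.sup_eq_top.ge (Submodule.mem_top (x := v)))
  rw [perp_eq_zero hS h4 h3 nU hn' (by simpa [S.B_comm_zero (hn u hu)] using h1), add_zero]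
  exact hu

end Cfsg.Agent.H9.TU
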