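import Cfsg.Agent.H5.TA0
import Cfsg.Agent.H9.TU1
import Cfsg.Agent.MH.SU3

/-! Invariant forms from triangles of transvections. -/

set_option autoImplicit false

namespace Cfsg.Agent.H9.TU

open Module Cfsg.Agent.H7 Cfsg.Agent.H5.TA Cfsg.Agent.Form Cfsg.Agent.H6.SU Matrix

variable {K V : Type*} [Field K] [AddCommGroup V] [Module K V]

/-- normalised pairs -/
def Gen (O : Dual K V → V → Prop) (φ0 : Dual K V) (v0 : V) (x : V) (ξ : Dual K V) : Prop :=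
  (x = v0 ∧ ξ = φ0) ∨ ∃ φ v, O φ v ∧ φ0 v ≠ 0 ∧ x = (φ0 v)⁻¹ • v ∧ ξ = -(φ v0)⁻¹ • φ

/-- the semilinear span of the normalised pairs -/
inductive Gm (O : Dual K V → V → Prop) (φ0 : Dual K V) (v0 : V) (σ : K →+* K) (E1 : Subfield K) :
    V → Dual K V → Prop
  | gen {x ξ} : Gen O φ0 v0 x ξ → Gm O φ0 v0 σ E1 x ξ
  | zero : Gm O φ0 v0 σ E1 0 0
  | add {x ξ y η} : Gm O φ0 v0 σ E1 x ξ → Gm O φ0 v0 σ E1 y η → Gm O φ0 v0 σ E1 (x + y) (ξ + η)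
  | smul {x ξ} (a : K) : a ∈ E1 → Gm O φ0 v0 σ E1 x ξ → Gm O φ0 v0 σ E1 (a • x) (σ a • ξ)

/-- the triangle condition at a base point -/
structure TC (M : Subgroup (V ≃ₗ[K] V)) (O : Dual K V → V → Prop) (φ0 : Dual K V) (v0 : V) (σ : K →+* K)
    (E0 E1 : Subfield K) : Prop where
  hy : Hy M
  uq : Uq M
  cls : Cls M O
  o0 : O φ0 v0
  le : E0 ≤ E1
  fix : ∀ a ∈ E0, σ a = a
  inv : ∀ a ∈ E1, σ (σ a) = a
  mem : ∀ a ∈ E1, σ a ∈ E1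
  pair : ∀ φ v, O φ v → φ0 v * φ v0 ∈ E0
  tri : ∀ φ v ψ w, O φ v → O ψ w → φ0 v ≠ 0 → φ0 w ≠ 0 →
    φ w / (φ v0 * φ0 w) ∈ E1 ∧ ψ v / (ψ v0 * φ0 v) = -σ (φ w / (φ v0 * φ0 w))

namespace TC

variable {M : Subgroup (V ≃ₗ[K] V)} {O : Dual K V → V → Prop} {φ0 : Dual K V} {v0 : V} {σ : K →+* K}
  {E0 E1 : Subfield K} (h : TC M O φ0 v0 σ E0 E1)
include h

local notation "Γ" => Gm O φ0 v0 σ E1

theorem ne {φ ψ : Dual K V} {v w : V} (h1 : O φ v) (h2 : O ψ w) (e : φ w ≠ 0) : ψ v ≠ 0 :=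
  fun e' => e (h.uq.ns (h.cls.tv h1) (h.cls.tv h2) e')

theorem gen_gen {x y : V} {ξ η : Dual K V} (h1 : Gen O φ0 v0 x ξ) (h2 : Gen O φ0 v0 y η) :
    η x ∈ E1 ∧ ξ y = -σ (η x) := by
  rcases h1 with ⟨rfl, rfl⟩ | ⟨φ, v, o1, n1, rfl, rfl⟩ <;> rcases h2 with ⟨e1, e2⟩ | ⟨ψ, w, o2, n2, rfl, rfl⟩
  · simp [e1, e2, (h.cls.tv h.o0).zero]
  · simp [n2, h.ne h.o0 o2 n2]
  · simp [e1, e2, n1, h.ne h.o0 o1 n1]
  · obtain ⟨k1, k2⟩ := h.tri _ _ _ _ o2 o1 n2 n1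
    have e1 : (-(ψ v0)⁻¹ • ψ) ((φ0 v)⁻¹ • v) = -(ψ v / (ψ v0 * φ0 v)) := by simp; ring
    have e2 : (-(φ v0)⁻¹ • φ) ((φ0 w)⁻¹ • w) = -(φ w / (φ v0 * φ0 w)) := by simp; ring
    rw [e1, e2, k2, map_neg]
    exact ⟨neg_mem k1, rfl⟩

theorem pr {x y : V} {ξ η : Dual K V} (h1 : Γ x ξ) (h2 : Γ y η) : η x ∈ E1 ∧ ξ y = -σ (η x) := by
  have key : ∀ {y : V} {η : Dual K V}, (∀ {x ξ}, Gen O φ0 v0 x ξ → η x ∈ E1 ∧ ξ y = -σ (η x)) → ∀ {x ξ}, Γ x ξ →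
      η x ∈ E1 ∧ ξ y = -σ (η x) := fun {y η} k x ξ h1 => by
    induction h1 with
    | gen g => exact k g
    | zero => simp
    | add _ _ a b => exact ⟨by simpa using add_mem a.1 b.1, by simp [a.2, b.2, add_comm]⟩
    | smul a ha _ b => exact ⟨by simpa using mul_mem ha b.1, by simp [b.2]⟩
  refine key (fun g => ?_) h1
  obtain ⟨a, b⟩ := key (fun g' => h.gen_gen g' g) h2
  exact ⟨b ▸ neg_mem (h.mem _ a), by rw [b, map_neg, neg_neg, h.inv _ a]⟩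

/-- pairs proportional to a rational pair -/
def Sc (_ : TC M O φ0 v0 σ E0 E1) (ψ : Dual K V) (w : V) : Prop :=
  ∃ x ξ, ∃ s t : K, Γ x ξ ∧ w = s • x ∧ ψ = t • ξ ∧ s * t ∈ E0

theorem tr {ψ η : Dual K V} {w y : V} (k : h.Sc ψ w) (hy : Γ y η) : Γ (y + ψ y • w) (η - η w • ψ) := by
  obtain ⟨x, ξ, s, t, g, rfl, rfl, e⟩ := k
  obtain ⟨a, b⟩ := h.pr hy g
  convert hy.add (g.smul (s * t * ξ y) (mul_mem (h.le e) a)) using 1
  · simp [smul_smul]; congr 1; ring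
  · rw [map_mul, h.fix _ e, sub_eq_add_neg, map_smul, b, smul_smul, ← neg_smul]
    congr 2; simp; ring

omit h in
theorem Sc.neg {h : TC M O φ0 v0 σ E0 E1} {ψ : Dual K V} {w : V} (k : h.Sc ψ w) : h.Sc (-ψ) w := by
  obtain ⟨x, ξ, s, t, g, rfl, rfl, e⟩ := k
  exact ⟨x, ξ, s, -t, g, rfl, (neg_smul t ξ).symm, by simpa using e⟩

theorem sc1 {ψ : Dual K V} {w : V} (o : O ψ w) (n : φ0 w ≠ 0) : h.Sc ψ w :=
  ⟨_, _, φ0 w, -ψ v0, .gen (Or.inr ⟨ψ, w, o, n, rfl, rfl⟩), by simp [smul_smul, n],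
    by simp [smul_smul, h.ne h.o0 o n], by simpa using h.pair _ _ o⟩

theorem sc2 {ψ : Dual K V} {w : V} (o : O ψ w) : h.Sc ψ w ∨ ∀ x ξ, Γ x ξ → ψ x = 0 := by
  by_cases n : φ0 w = 0
  swap
  · exact Or.inl (h.sc1 o n)
  by_cases k : ∃ φ v, O φ v ∧ φ0 v ≠ 0 ∧ ψ v ≠ 0
  · left
    obtain ⟨φ, v, o1, n1, n2⟩ := k
    have z := (h.cls.tv o1).zero
    obtain ⟨x, ξ, s, t, g, e1, e2, e⟩ := h.sc1 (h.cls.conj o (h.cls.tv o1).has z)
      (by simp [n, n1, h.ne o o1 n2])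
    refine ⟨_, _, s, t, h.tr (h.sc1 o1 n1).neg g, ?_, ?_, e⟩
    · have : φ w = s * φ x := by simpa [z] using congrArg φ e1
      rw [smul_add, ← e1, this]; simp [smul_smul]
    · have : ψ v = t * ξ v := by simpa [z] using LinearMap.congr_fun e2 v
      rw [smul_sub, ← e2, this]; simp [smul_smul]
  · right
    push Not at k
    intro x ξ g
    induction g with
    | gen g =>
      rcases g with ⟨rfl, -⟩ | ⟨φ, v, o1, n1, rfl, -⟩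
      · exact h.uq.ns (h.cls.tv o) (h.cls.tv h.o0) n
      · simp [k φ v o1 n1]
    | zero => simp
    | add _ _ a b => simp [a, b]
    | smul a _ _ b => simp [b]

theorem ker_zero {ψ : Dual K V} (k : ∀ x ξ, Γ x ξ → ψ x = 0) : ψ = 0 := by
  let W := Submodule.span K {x | ∃ ξ, Γ x ξ}
  have kW : ∀ {ψ : Dual K V}, (∀ x ξ, Γ x ξ → ψ x = 0) → W ≤ LinearMap.ker ψ := fun k =>
    Submodule.span_le.2 fun x ⟨ξ, g⟩ => k x ξ g
  rcases h.hy.irr' h.cls W (fun φ v o x hx => by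
    rcases h.sc2 o with ⟨y, η, s, t, g, rfl, -⟩ | k'
    · exact W.smul_mem _ (W.smul_mem _ (Submodule.subset_span ⟨_, g⟩))
    · rw [show φ x = 0 from kW k' hx, zero_smul]; exact zero_mem _) with e | e
  · exact absurd ((Submodule.mem_bot K).1 (e.le (Submodule.subset_span ⟨_, .gen (Or.inl ⟨rfl, rfl⟩)⟩)))
      (h.cls.tv h.o0).v0
  · exact LinearMap.ext fun x => kW k (e.ge trivial)

theorem sc {ψ : Dual K V} {w : V} (o : O ψ w) : h.Sc ψ w :=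
  (h.sc2 o).resolve_right fun k => (h.cls.tv o).φ0 (h.ker_zero k)

theorem eq_zero {y : V} (k : ∀ x ξ, Γ x ξ → ξ y = 0) : y = 0 := by
  let Z : Submodule K V := ⨅ φ, ⨅ v, ⨅ _ : O φ v, LinearMap.ker φ
  have mZ : ∀ {y}, y ∈ Z ↔ ∀ φ v, O φ v → φ y = 0 := by simp [Z]
  rcases h.hy.irr' h.cls Z (fun φ v o x hx => by rw [mZ.1 hx φ v o, zero_smul]; exact zero_mem _) with e | e
  · refine (Submodule.mem_bot K).1 (e.le (mZ.2 fun φ v o => ?_))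
    obtain ⟨x, ξ, s, t, g, -, rfl, -⟩ := h.sc o
    simp [k x ξ g]
  · exact absurd (LinearMap.ext fun x => mZ.1 (e.ge trivial) _ _ h.o0) (h.cls.tv h.o0).φ0

theorem uniq {x : V} {ξ ξ' : Dual K V} (g : Γ x ξ) (g' : Γ x ξ') : ξ = ξ' :=
  sub_eq_zero.1 (h.ker_zero fun y η k => by simp [(h.pr g k).2, (h.pr g' k).2])

theorem inv_gm {g : V ≃ₗ[K] V} (hg : g ∈ M) :
    LinearEquiv.det g = 1 ∧ ∀ {x ξ}, Γ x ξ → Γ (g x) (ξ ∘ₗ (g.symm : V →ₗ[K] V)) := by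
  have : FiniteDimensional K V := Module.finite_of_finrank_pos (by rw [h.hy.dim]; norm_num)
  let N : Subgroup (V ≃ₗ[K] V) :=
    { carrier := {g | LinearEquiv.det g = 1 ∧ (∀ x ξ, Γ x ξ → Γ (g x) (ξ ∘ₗ (g.symm : V →ₗ[K] V))) ∧
        ∀ x ξ, Γ x ξ → Γ (g.symm x) (ξ ∘ₗ (g : V →ₗ[K] V))}
      one_mem' := ⟨map_one _, fun _ _ k => k, fun _ _ k => k⟩
      mul_mem' := fun {a b} ha hb => ⟨by rw [map_mul, ha.1, hb.1, one_mul],
        fun x ξ k => ha.2.1 _ _ (hb.2.1 x ξ k), fun x ξ k => hb.2.2 _ _ (ha.2.2 x ξ k)⟩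
      inv_mem' := fun {a} ha => ⟨by rw [map_inv, ha.1, inv_one], ha.2.2, ha.2.1⟩ }
  have := h.hy.gen _ _ (h.cls.tv h.o0) N (fun g hg => by
    have o := h.cls.map h.o0 hg
    generalize φ0 ∘ₗ (g.symm : V →ₗ[K] V) = ψ at o
    generalize g v0 = w at o
    have z := (h.cls.tv o).zero
    obtain ⟨t, -, e⟩ := (h.cls.tv o).has
    refine ⟨t, ⟨Units.ext (by rw [det_of_rank_one e, z]; simp), fun x ξ k => ?_, fun x ξ k => ?_⟩, e⟩
    · convert h.tr (h.sc o) k using 1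
      · exact e x
      · ext y; simp [symm_apply_of_tr e z, mul_comm]
    · convert h.tr (h.sc o).neg k using 1
      · simp [symm_apply_of_tr e z, sub_eq_add_neg]
      · ext y; simp [e, mul_comm]) hg
  exact ⟨this.1, this.2.1 _ _⟩

end TC

theorem TC.sd {M : Subgroup (V ≃ₗ[K] V)} {O : Dual K V → V → Prop} {φ0 : Dual K V} {v0 : V} {E0 : Subfield K}
    (h : TC M O φ0 v0 (RingHom.id K) E0 ⊤) : SD M := by
  have : FiniteDimensional K V := Module.finite_of_finrank_pos (by rw [h.hy.dim]; norm_num)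
  let W : Submodule K V :=
    { carrier := {x | ∃ ξ, Gm O φ0 v0 (RingHom.id K) ⊤ x ξ}
      zero_mem' := ⟨_, .zero⟩
      add_mem' := fun ⟨_, a⟩ ⟨_, b⟩ => ⟨_, a.add b⟩
      smul_mem' := fun c _ ⟨_, a⟩ => ⟨_, a.smul c trivial⟩ }
  have hW : ∀ x, x ∈ W := fun x => by
    by_contra hx
    obtain ⟨φ, h1, h2⟩ := exists_dual_one hx
    simp [h.ker_zero (ψ := φ) fun x ξ g => h2 x ⟨ξ, g⟩] at h1
  choose L hL using hW
  refine ⟨⟨⟨L, fun x y => h.uniq (hL _) ((hL x).add (hL y))⟩, fun c x => h.uniq (hL _) ((hL x).smul c trivial)⟩,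
    fun x hx => h.eq_zero fun y η g => ?_, fun g hg x y => ?_⟩
  · rw [(h.pr g (hL x)).2, show L x y = 0 from hx y]; simp
  · change L (g x) (g y) = L x y
    rw [h.uniq (hL _) ((h.inv_gm hg).2 (hL x))]; simp

theorem sd_of_sym {M : Subgroup (V ≃ₗ[K] V)} {O : Dual K V → V → Prop} (h : Hy M) (u : Uq M) (c : Cls M O)
    (hs : Sym O) : SD M := by
  obtain ⟨φ0, v0, o⟩ := c.ex
  refine TC.sd (E0 := ⊤) ⟨h, u, c, o, le_rfl, fun _ _ => rfl, fun _ _ => rfl, fun _ _ => trivial,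
    fun _ _ _ => trivial, fun φ v ψ w o1 o2 n1 n2 => ⟨trivial, ?_⟩⟩
  have m1 : φ v0 ≠ 0 := fun e => n1 (u.ns (c.tv o) (c.tv o1) e)
  have m2 : ψ v0 ≠ 0 := fun e => n2 (u.ns (c.tv o) (c.tv o2) e)
  rw [RingHom.id_apply]
  field_simp
  linear_combination hs _ _ _ _ _ _ o o1 o2

end Cfsg.Agent.H9.TU
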