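import Cfsg.Agent.H9.Sim
import Cfsg.Agent.H9.Ext
import Cfsg.Agent.H7.Tensor

/-! Elements of prime order in stabilisers of tensor decompositions. -/

set_option autoImplicit false
set_option linter.unusedSectionVars false

namespace Cfsg.Agent.H9.Ten

open Module Polynomial Cfsg.Agent.Form Cfsg.Agent.H7 Cfsg.Agent.H9.Types Cfsg.Agent.H9.FSS
open Cfsg.Agent.H9.Der Cfsg.Agent.H9.Glue Cfsg.Agent.H9.SimG Cfsg.Agent.H9.FAdapt
open scoped MatrixGroups

universe u

variable {F : Type u} [Field F] {V : Type*} [AddCommGroup V] [Module F V]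
  {A : Type*} [AddCommGroup A] [Module F A] {B : Type*} [AddCommGroup B] [Module F B]
  {τ : A →ₗ[F] B →ₗ[F] V} (h : IsTens τ) {a : End F A} {b : End F B} {θ : F}

/-- Pure tensors of endomorphisms. -/
def TP (f : End F V) : Prop := ∃ (a : End F A) (b : End F B), f = h.tmap a b

theorem tmap_flip (a : End F A) (b : End F B) : h.flip.tmap b a = h.tmap a b :=
  h.ext fun u w => (h.flip.tmap_apply b a w u).trans (h.tmap_apply a b u w).symm

theorem tmap_smul (c : F) (a : End F A) (b : End F B) : h.tmap (c • a) b = c • h.tmap a b :=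
  h.ext fun u w => by simp

theorem tmap_smul' (c : F) (a : End F A) (b : End F B) : h.tmap a (c • b) = c • h.tmap a b :=
  h.ext fun u w => by simp

theorem TP.smul (f : End F V) (c : F) (_ : c ≠ 0) (hf : TP h f) : TP h (c • f) :=
  let ⟨a, b, e⟩ := hf; ⟨c • a, b, by rw [tmap_smul, e]⟩

theorem tmap_pow (a : End F A) (b : End F B) (k : ℕ) :
    (h.tmap a b : End F V) ^ k = h.tmap (a ^ k) (b ^ k) := by
  induction k with
  | zero => exact h.ext fun u w => by simp
  | succ k ih => exact h.ext fun u w => by simp [pow_succ, ih]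

theorem tmap_one : h.tmap (1 : End F A) (1 : End F B) = (1 : End F V) := h.ext fun u w => by simp

theorem scalar_left [Nontrivial A] [Nontrivial B] {c : F} (hc : c ≠ 0)
    (e : h.tmap a b = c • (1 : End F V)) : ∃ z : F, z ≠ 0 ∧ a = z • 1 := by
  obtain ⟨w, hw⟩ := exists_ne (0 : B)
  obtain ⟨ψ, h1, -⟩ := exists_dual_one (W := (⊥ : Submodule F B)) (x := w) (by simpa using hw)
  have h2 : ∀ u, ψ (b w) • a u = c • u := fun u => by
    simpa [h1] using congrArg (h.ctr ψ) (LinearMap.congr_fun e (τ u w))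
  have h3 : ψ (b w) ≠ 0 := fun e => by
    obtain ⟨u, hu⟩ := exists_ne (0 : A)
    simpa [e, hc, hu] using (h2 u).symm
  exact ⟨(ψ (b w))⁻¹ * c, by simp [h3, hc], LinearMap.ext fun u => by
    simp [mul_smul, ← h2, h3]⟩

theorem exists_sep (hb : ∀ c : F, b ≠ c • 1) : ∃ (w : B) (φ : Dual F B), φ w = 1 ∧ φ (b w) = 0 := by
  obtain ⟨w, hw⟩ : ∃ w, b w ∉ F ∙ w := by
    by_contra! e
    obtain ⟨c, hc⟩ := scalar_of_forall_mem_span b e
    exact hb c (LinearMap.ext hc)
  obtain ⟨φ, h1, h2⟩ := exists_dual_one (W := F ∙ b w) (x := w) fun e => by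
    obtain ⟨c, hc⟩ := Submodule.mem_span_singleton.1 e
    by_cases h0 : c = 0
    · exact hw (by rw [h0, zero_smul] at hc; simp [← hc])
    · exact hw (Submodule.mem_span_singleton.2 ⟨c⁻¹, by rw [inv_smul_eq_iff₀ h0, hc]⟩)
  exact ⟨w, φ, h1, h2 _ (Submodule.mem_span_singleton_self _)⟩

variable [FiniteDimensional F A] [FiniteDimensional F B] [FiniteDimensional F V]

theorem ed_add_le {f : End F V} (j : A →ₗ[F] V) (hj : ∀ x, f (j x) = θ • j x → x = 0) :
    ed f θ + finrank F A ≤ finrank F V := by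
  have h1 := LinearMap.finrank_range_add_finrank_ker (f - θ • 1)
  have h2 := LinearMap.finrank_range_of_inj (f := (f - θ • 1) ∘ₗ j)
    ((injective_iff_map_eq_zero _).2 fun x hx => hj x (by simpa [sub_eq_zero] using hx))
  have h3 := Submodule.finrank_mono (LinearMap.range_comp_le_range j (f - θ • 1))
  rw [ed]; omega

theorem ed_tmap_le (a : End F A) (hb : ∀ c : F, b ≠ c • 1) (h0 : θ ≠ 0) :
    ed (h.tmap a b) θ + finrank F A ≤ finrank F V := by
  obtain ⟨w, φ, h1, h2⟩ := exists_sep hb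
  exact ed_add_le (τ.flip w) fun u e => by simpa [h1, h2, h0] using (congrArg (h.ctr φ) e).symm

theorem ed_tmap_lt (ha : ∀ c : F, a ≠ c • 1) (hb : ∀ c : F, b ≠ c • 1) (h0 : θ ≠ 0)
    (h3 : 3 ≤ finrank F B) : ed (h.tmap a b) θ + finrank F A < finrank F V := by
  obtain ⟨w, φ, h1, h2⟩ := exists_sep hb
  obtain ⟨v, χ, h4, h5⟩ := exists_sep ha
  obtain ⟨z, hz⟩ : ∃ z, z ∉ Submodule.span F {w, b w} := by
    classical
    by_contra! e
    have := (finrank_span_finset_le_card (R := F) ({w, b w} : Finset B)).trans Finset.card_le_two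
    rw [Set.finrank, Finset.coe_insert, Finset.coe_singleton, Submodule.eq_top_iff'.2 e,
      finrank_top] at this
    omega
  obtain ⟨ψ, h6, h7⟩ := exists_dual_one hz
  have := ed_add_le (θ := θ) (f := h.tmap a b) ((τ.flip w).coprod
    (LinearMap.toSpanSingleton F V (τ v z))) fun ⟨u, s⟩ e => by
      have e1 := congrArg (fun x => χ (h.ctr ψ x)) e
      simp [h4, h5, h6, h0, h7 w (Submodule.subset_span (by simp)),
        h7 (b w) (Submodule.subset_span (by simp))] at e1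
      subst e1
      simpa [h1, h2, h0] using (congrArg (h.ctr φ) e).symm
  simp at this
  omega

theorem TP.ed_le {f : End F V} (hf : TP h f) (hs : ed f θ ≠ finrank F V) (h1 : ed f θ ≠ 0)
    (h0 : θ ≠ 0) :
    ed f θ + finrank F A ≤ finrank F V ∨ ed f θ + finrank F B ≤ finrank F V := by
  obtain ⟨a, b, rfl⟩ := hf
  by_cases hb : ∀ c : F, b ≠ c • 1
  · exact Or.inl (ed_tmap_le h a hb h0)
  by_cases ha : ∀ c : F, a ≠ c • 1
  · exact Or.inr (tmap_flip h a b ▸ ed_tmap_le h.flip b ha h0)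
  push Not at ha hb
  obtain ⟨⟨c, rfl⟩, d, rfl⟩ := And.intro ha hb
  rw [tmap_smul, tmap_smul', tmap_one, smul_smul] at hs h1
  by_cases e : θ = c * d
  · exact absurd (e ▸ ed_scalar _) hs
  · have := ed_add_le (θ := θ) (f := ((c * d) • 1 : End F V)) LinearMap.id fun x hx => by
      by_contra e'
      exact e (smul_left_injective F e' hx).symm
    omega

theorem finrank_ker_tmap (b : End F B) (P : F[X]) :
    finrank F (LinearMap.ker (aeval (h.tmap (1 : End F A) b : End F V) P)) =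
      finrank F A * finrank F (LinearMap.ker (aeval b P)) := by
  have : Conj ((aeval b P).lTensor A) (aeval (h.tmap (1 : End F A) b : End F V) P) :=
    ⟨h.equiv, fun x => by
      induction x using TensorProduct.induction_on with
      | zero => simp
      | tmul u w => simpa using aeval_intertwine (τ u) (by simp) P w
      | add x y hx hy => simp only [map_add, hx, hy]⟩
  rw [← this.finrank_ker, (Module.Flat.lTensor_exact A
    (LinearMap.exact_subtype_ker_map _)).linearMap_ker_eq, LinearMap.finrank_range_of_inj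
    (Module.Flat.lTensor_preserves_injective_linearMap _ (Submodule.injective_subtype _)),
    finrank_tensorProduct]

theorem mem_iff {ι : Type} [Fintype ι] [DecidableEq ι] {n₁ n₂ : ℕ} (h1 : 0 < n₁) (h2 : 0 < n₂)
    (e : ι ≃ Fin n₁ × Fin n₂) (P x : GL ι F) : x ∈ Geo.tensorProductSubgroup n₁ n₂ e P ↔
      TP (isTens_tensOf e P) (Matrix.toLin' (x : Matrix ι ι F)) := by
  have h := isTens_tensOf e P
  rw [mem_tensorProductSubgroup_iff', mem_TStab, ← toLE_coe]
  refine ⟨fun ⟨a, b, k⟩ => ⟨a, b, h.ext (by simpa using k)⟩, fun ⟨a, b, k⟩ => ?_⟩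
  have k' : ∀ u w, toLE x (tensOf e P u w) = tensOf e P (a u) (b w) := fun u w => by
    simpa using LinearMap.congr_fun k (tensOf e P u w)
  have : Nonempty (Fin n₁) := ⟨⟨0, h1⟩⟩
  have : Nonempty (Fin n₂) := ⟨⟨0, h2⟩⟩
  refine ⟨LinearEquiv.ofInjectiveEndo a ((injective_iff_map_eq_zero _).2 fun u hu => ?_),
    LinearEquiv.ofInjectiveEndo b ((injective_iff_map_eq_zero _).2 fun u hu => ?_), k'⟩
  · exact (h.eq_zero (by simpa [hu] using k' u 1)).resolve_right one_ne_zero
  · exact (h.eq_zero (by simpa [hu] using k' 1 u)).resolve_left one_ne_zero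

variable {P P₁ P₂ : FP F} {S : PQ P V} {S₁ : PQ P₁ A} {S₂ : PQ P₂ B} {κ : F}
  (hB : ∀ u w u' w', S.B (τ u w) (τ u' w') = κ * (S₁.B u u' * S₂.B w w'))
include hB

theorem isIso_tmap (hP : MaxP P) (ha : S₁.IsIso S₁ a) (hb : S₂.IsIso S₂ b) :
    S.IsIso S (h.tmap a b) := hP.isIso fun x y =>
  h.induction x (by simp) (fun u w => h.induction y (by simp) (fun u' w' => by
    simp [hB, ha.1, hb.1]) fun y z h1 h2 => by simp only [map_add, S.B_add_right, h1, h2])
    fun y z h1 h2 => by simp only [map_add, S.B_add_left, h1, h2]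

theorem exists_norm [Nontrivial A] [Nontrivial B] (hκ : κ ≠ 0) (h1 : S₁.Nondeg) (h2 : S₂.Nondeg)
    (p1 : MaxP P₁) (p2 : MaxP P₂) (hσ : ∀ c, P₂.σ c = c) {f : End F V} (hf : TP h f)
    (hi : S.IsIso S f) {r : ℕ} (hr : Odd r) (e : f ^ r = 1) : ∃ (a : End F A) (b : End F B),
      f = h.tmap a b ∧ S₁.IsIso S₁ a ∧ S₂.IsIso S₂ b ∧ a ^ r = 1 ∧ b ^ r = 1 := by
  obtain ⟨a, b, rfl⟩ := hf
  obtain ⟨k, rfl⟩ := hr
  have k1 : ∀ (a : End F A) (b : End F B), S.IsIso S (h.tmap a b) → ∀ u w u' w',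
      S₁.B (a u) (a u') * S₂.B (b w) (b w') = S₁.B u u' * S₂.B w w' := fun a b k u w u' w' =>
    mul_left_cancel₀ hκ (by rw [← hB, ← hB, ← k.1 (τ u w), h.tmap_apply, h.tmap_apply])
  obtain ⟨u, hu⟩ := exists_ne (0 : A)
  obtain ⟨w, hw⟩ := exists_ne (0 : B)
  obtain ⟨u', hu'⟩ : ∃ u', S₁.B u u' ≠ 0 := by by_contra! e; exact hu (h1 u e)
  obtain ⟨w', hw'⟩ : ∃ w', S₂.B w w' ≠ 0 := by by_contra! e; exact hw (h2 w e)
  have k2 : S₁.B (a u) (a u') ≠ 0 := fun e => by simpa [e, hu', hw'] using k1 a b hi u w u' w'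
  obtain ⟨μ, k3⟩ : ∃ μ, ∀ x y, S₂.B (b x) (b y) = μ * S₂.B x y :=
    ⟨S₁.B u u' / S₁.B (a u) (a u'), fun x y => by field_simp; exact (mul_comm _ _).trans (k1 a b hi u x u' y)⟩
  obtain ⟨z, k4, k5⟩ := scalar_left h.flip (c := 1) (a := b ^ (2 * k + 1)) (b := a ^ (2 * k + 1))
    one_ne_zero (by rw [tmap_flip h, ← tmap_pow, e, one_smul])
  have k6 := mult_eq h2 k3 k5
  rw [hσ] at k6
  have k7 : μ ^ k / z ≠ 0 := fun e => k4 (mul_self_eq_zero.1 (by
    rw [← k6, pow_succ, two_mul, pow_add, (div_eq_zero_iff.1 e).resolve_right k4]; simp))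
  have k8 : h.tmap a b = h.tmap ((μ ^ k / z)⁻¹ • a) ((μ ^ k / z) • b) := by
    rw [tmap_smul, tmap_smul', inv_smul_smul₀ k7]
  have k9 : S₂.IsIso S₂ ((μ ^ k / z) • b : End F B) := p2.isIso fun x y => by
    simp only [LinearMap.smul_apply, S₂.B_smul_left, S₂.B_smul_right, hσ, k3]
    field_simp
    linear_combination S₂.B x y * k6
  have k10 : ((μ ^ k / z) • b) ^ (2 * k + 1) = 1 := by
    rw [_root_.smul_pow, k5, smul_smul, div_pow, ← pow_mul, mul_comm k, pow_mul, k6]
    convert one_smul F _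
    field_simp
    ring
  refine ⟨_, _, k8, p1.isIso fun x y => mul_right_cancel₀ hw' ?_, k9,
    LinearMap.ext fun x => h.left_inj hw ?_, k10⟩
  · rw [← k1 _ _ (k8 ▸ hi) x w y w', k9.1]
  · simpa [k8, tmap_pow, k10] using LinearMap.congr_fun e (τ x w)

end Cfsg.Agent.H9.Ten
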