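import Cfsg.Agent.H8.U5d
import Mathlib.GroupTheory.FiniteAbelian.Duality

/-!
Orbits of a subgroup of `GU₇(q)` on which parts of the Weil representation stay irreducible.
-/

set_option autoImplicit false
set_option linter.unusedSectionVars false

namespace Cfsg.Agent.H9.U7

open Finset Module Cfsg.Agent.Form Cfsg.Agent.H6.SU Cfsg.Agent.H8.U5
open scoped ComplexConjugate Classical

variable {F : Type*} [Field F] [Fintype F] {σ : F →+* F} {hσ : ∀ a, σ (σ a) = a}
  {V : Type*} [AddCommGroup V] [Module F V] [Fintype V] {S : PQ (FP.unit σ hσ) V} {q : ℕ} {χ : AddChar F ℂ}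
  {M : Subgroup (V ≃ₗ[F] V)}

theorem two_eq_zero (hF : Fd σ q) (he : Even q) : (2 : F) = 0 := by
  have := (FiniteField.even_card_iff_char_two (F := F)).2 (by
    rw [hF.card]; exact Nat.even_iff.1 (he.pow_of_ne_zero two_ne_zero))
  exact_mod_cast (ringChar.spec F 2).2 (this ▸ dvd_rfl)

theorem exists_third (hF : Fd σ q) (l : ZZ σ →* ℂ) : ∃ l' : ZZ σ →* ℂ, l' ≠ 1 ∧ l' ≠ l := by
  by_contra! hc
  have h1 := CommGroup.card_monoidHom_of_hasEnoughRootsOfUnity (ZZ σ) ℂ
  rw [Nat.card_eq_fintype_card (α := ZZ σ), hF.cZ] at h1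
  have h2 := hF.two_le
  have h3 := Nat.card_le_card_of_injective (β := Prop) (fun φ : ZZ σ →* ℂˣ => (Units.coeHom ℂ).comp φ = 1)
    fun φ ψ e => MonoidHom.ext fun c => Units.ext (DFunLike.congr_fun (show (Units.coeHom ℂ).comp φ =
      (Units.coeHom ℂ).comp ψ by
        by_cases a : (Units.coeHom ℂ).comp φ = 1
        · exact a.trans (e.to_iff.1 a).symm
        · exact (hc _ a).trans (hc _ fun b => a (e.to_iff.2 b)).symm) c)
  rw [h1, Nat.card_eq_fintype_card, Fintype.card_prop] at h3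
  omega

variable (H : Wd S q χ) (hM : M ≤ S.isom)
include hM

theorem ind_e7 (h7 : finrank F V = 7) (hs : Sc H M 1) (v : V) : ∃ s : ℂ, ∀ w, w ≠ 0 →
    ∑ y with y + σ y = S.B w w + S.B v v, nw S M v w y * χ (y - S.B v v) =
      q ^ 6 * ind H M v w + if S.B w w = 0 then s else 0 := by
  obtain ⟨s, hs⟩ := hs v
  refine ⟨s, fun w hw => ?_⟩
  have e := congrFun hs w
  rw [ind_ee H hM, smul_ap, ee_ap, if_neg hw, add_zero, EE_one H _ (Bs S w w), h7, sum_congr rfl fun y _ => by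
    rw [EE_one H _ (by simp [Bs, hσ, add_comm])]] at e
  simp only [sub_eq_zero, ite_mul, zero_mul, mul_ite, mul_zero, ← sum_filter, eq_comm (a := S.B w w + S.B v v),
    mul_left_comm (nw S M v w _ : ℂ), ← mul_sum] at e
  have h0 := neg_ne_zero.1 H.q0
  have h1 := H.q1
  split_ifs at e ⊢
  · field_simp at e
    linear_combination -e
  · field_simp at e
    linear_combination -e

theorem line7 (h7 : finrank F V = 7) (hs : ∀ χ (H : Wd S q χ), Sc H M 1) (hF : Fd σ q) (hS : S.Nondeg) (v : V) {w : V}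
    (hw : S.B w w ≠ 0) {y₁ y₂ : F} (h1 : y₁ + σ y₁ = S.B w w + S.B v v) (h2 : y₂ + σ y₂ = S.B w w + S.B v v) :
    (nw S M v w y₁ : ℂ) - (if w ∈ Orb σ M v ∧ y₁ = S.B v v then q ^ 6 else 0) =
      (nw S M v w y₂ : ℂ) - if w ∈ Orb σ M v ∧ y₂ = S.B v v then q ^ 6 else 0 := by
  refine fourier (m := fun y => (nw S M v w y : ℂ) - (if w ∈ Orb σ M v ∧ y = S.B v v then q ^ 6 else 0))
    (fun χ hχ => ?_) h1 h2
  obtain ⟨s, e⟩ := ind_e7 ⟨hF, hS, hχ⟩ hM h7 (hs χ _) v
  have e := congrArg (· * χ (S.B v v)) (e w (by rintro rfl; simp at hw))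
  simp only [if_neg hw, add_zero, sum_mul, mul_assoc, ← AddChar.map_add_eq_mul, sub_add_cancel, ind] at e
  simp only [sub_mul, sum_sub_distrib, e]
  split_ifs with h
  · simp [h, orb_norm hM h, Bs]
  · simp [h]

theorem G17 (h7 : finrank F V = 7) (hs : ∀ χ (H : Wd S q χ), Sc H M 1) (H : Wd S q χ) (v : V) (a : F)
    (hv : S.B v v = 0) (ha : σ a = a) (a0 : a ≠ 0) : a • v ∈ Orb σ M v := by
  by_cases v0 : v = 0
  · simpa [v0] using self_orb (0 : V)
  have H' : Wd S q (χ.mulShift a) := ⟨H.fd, H.nd, by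
    obtain ⟨y, hy, y1⟩ := H.adm
    exact ⟨y / a, by rw [map_div₀, ha, ← add_div, hy, zero_div], by simpa [mul_div_cancel₀ _ a0] using y1⟩⟩
  obtain ⟨s, e⟩ := ind_e7 H hM h7 (hs _ _) v
  obtain ⟨s', e'⟩ := ind_e7 H' hM h7 (hs _ _) v
  have key : ∀ w, w ≠ 0 → S.B w w = 0 → q ^ 6 * ind H M v (a • w) + s = q ^ 6 * ind H M v w + s' := fun w w0 hw => by
    have hw' : S.B (a • w) (a • w) = 0 := by simp [S.B_smul_left, hw]
    have e1 := e (a • w) (smul_ne_zero a0 w0)
    have e2 := e' w w0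
    simp only [hw, hw', hv, if_true, sub_zero, add_zero] at e1 e2
    refine e1.symm.trans (Eq.trans ?_ e2)
    refine (sum_bij' (fun y _ => a * y) (fun y _ => y / a) (fun y hy => ?_) (fun y hy => ?_) (by simp [a0])
      (fun y _ => mul_div_cancel₀ y a0) fun y _ => ?_).symm
    · simp only [mem_filter, mem_univ, true_and, map_mul, ha] at hy ⊢
      rw [← mul_add, hy, mul_zero]
    · simp only [mem_filter, mem_univ, true_and, map_div₀, ha] at hy ⊢
      rw [← add_div, hy, zero_div]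
    · rw [← nw_smul v w a0, ha, AddChar.mulShift_apply]
  by_contra hc
  have e1 := key v v0 hv
  have e2 := key (a • v) (smul_ne_zero a0 v0) (by simp [S.B_smul_left, hv])
  simp only [ind, if_neg hc, if_pos (self_orb v)] at e1 e2
  have h0 := pow_ne_zero 6 (neg_ne_zero.1 H.q0)
  split_ifs at e2
  · exact mul_ne_zero two_ne_zero h0 (by linear_combination e2 - e1)
  · exact h0 (by linear_combination e2 - e1)

theorem reg7 (h7 : finrank F V = 7) (hs : ∀ χ (H : Wd S q χ), Sc H M 1) {v w : V} (hv : S.B v v ≠ 0)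
    (hw : S.B w w ≠ 0) (hn : ∀ κ : F, κ ≠ 0 → κ • w ∉ Orb σ M v) (l : ZZ σ →* ℂ) : (ind H M v * ee H l) w = 0 := by
  have e1 : ∀ κ : F, κ ≠ 0 → ∀ y y', y + σ y = κ * σ κ * S.B w w + S.B v v →
      y' + σ y' = κ * σ κ * S.B w w + S.B v v → nw S M v w (y / σ κ) = nw S M v w (y' / σ κ) := fun κ κ0 y y' h1 h2 => by
    have e : S.B (κ • w) (κ • w) = κ * σ κ * S.B w w := by rw [S.B_smul_left, Bsr, mul_assoc]
    have := line7 hM h7 hs H.fd H.nd v (w := κ • w) (by rw [e]; exact mul_ne_zero (mul_ne_zero κ0 (σ_ne κ0)) hw)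
      (h1.trans (by rw [e])) (h2.trans (by rw [e]))
    rw [← nw_smul v w κ0, ← nw_smul v w κ0, mul_div_cancel₀ _ (σ_ne κ0), mul_div_cancel₀ _ (σ_ne κ0)]
    simpa [hn κ κ0] using this
  have e2 : ∀ y, ∃ κ : F, κ ≠ 0 ∧ σ κ * y + σ (σ κ * y) = κ * σ κ * S.B w w + S.B v v := fun y => by
    obtain ⟨a, ha⟩ := exists_norm H.fd.ne hσ (c := (y * σ y - S.B v v * S.B w w) / S.B w w ^ 2)
      (by simp [Bs, hσ, mul_comm])
    have e : σ (a + y / S.B w w) * y + σ (σ (a + y / S.B w w) * y) =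
        (a + y / S.B w w) * σ (a + y / S.B w w) * S.B w w + S.B v v := by
      simp only [map_add, map_mul, map_div₀, hσ, Bs]
      field_simp at ha ⊢
      linear_combination -ha
    exact ⟨_, fun h => hv (by simpa [h] using e.symm), e⟩
  have e3 : ∀ y, nw S M v w y = nw S M v w 0 := fun y => by
    rcases Nat.even_or_odd q with he | ho
    · have h2 := two_eq_zero H.fd he
      obtain ⟨κ, hκ⟩ := exists_norm H.fd.ne hσ (c := S.B v v / S.B w w) (by simp [Bs])
      have κ0 : κ ≠ 0 := by rintro rfl; exact div_ne_zero hv hw (by simpa using hκ.symm)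
      have inj : Function.Injective fun x : F => x * x := fun x y e => by
        rw [← sub_eq_zero, ← mul_self_eq_zero]
        linear_combination e + (y * y - x * y) * h2
      obtain ⟨b, hb⟩ := Finite.injective_iff_surjective.1 inj (y * σ y * (κ * σ κ))
      replace hb : b * b = y * σ y * (κ * σ κ) := hb
      have hb' : σ b = b := inj (by simp only [← map_mul]; rw [hb]; simp only [map_mul, hσ]; ring)
      have e : κ * σ κ * S.B w w + S.B v v = 0 := by rw [hκ, div_mul_cancel₀ _ hw]; linear_combination S.B v v * h2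
      have a1 := e1 κ κ0 b 0 (by rw [e, hb']; linear_combination b * h2) (by rw [e]; simp)
      rw [zero_div] at a1
      rw [← a1]
      refine nw_rot v w ?_
      rw [map_div₀, hσ, hb', div_mul_div_comm, hb, mul_comm (σ κ), mul_div_cancel_right₀ _ (mul_ne_zero κ0 (σ_ne κ0))]
    obtain ⟨κ, κ0, hκ⟩ := e2 y
    obtain ⟨μ, μ0, hμ⟩ := e2 0
    obtain ⟨z, z', hz, hz', e⟩ := H.fd.pigeon ho (β := κ * σ κ * S.B w w + S.B v v) (β' := μ * σ μ * S.B w w + S.B v v)
      (a := (κ * σ κ)⁻¹) (a' := (μ * σ μ)⁻¹) (by simp [Bs, hσ, mul_comm]) (by simp [Bs, hσ, mul_comm])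
      (by simp [hσ, mul_comm]) (by simp [hσ, mul_comm]) (by simp [κ0]) (by simp [μ0])
    have a1 := e1 κ κ0 _ _ hκ hz
    have a2 := e1 μ μ0 _ _ hμ hz'
    rw [mul_div_cancel_left₀ _ (σ_ne κ0)] at a1
    rw [mul_div_cancel_left₀ _ (σ_ne μ0)] at a2
    rw [a1, a2]
    refine nw_rot v w ?_
    rw [map_div₀, map_div₀, hσ, hσ, div_mul_div_comm, div_mul_div_comm, div_eq_inv_mul, div_eq_inv_mul, mul_comm (σ κ),
      mul_comm (σ μ), e]
  rw [ind_ee H hM, ind, if_neg (by simpa using hn 1 one_ne_zero), mul_zero, zero_add]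
  simp only [e3, ← mul_sum]
  rw [← sum_fiberwise (g := fun y => y + σ y), sum_eq_zero, mul_zero]
  intro β _
  rw [sum_congr rfl fun y hy => by rw [(mem_filter.1 hy).2, sub_eq_add_neg y, AddChar.map_add_eq_mul], ← mul_sum,
    ← sum_mul, H.fd.sumL H.adm, zero_mul, mul_zero]

theorem TR7 (h7 : finrank F V = 7) (hs : ∀ χ (H : Wd S q χ), Sc H M 1) {l : ZZ σ →* ℂ} (hl : Sc H M l)
    (l1 : l ≠ 1) (e00 : ∀ l, ee H l ≠ 0) (v w : V) (hv : S.B v v ≠ 0)
    (hw : S.B w w = S.B v v) : w ∈ Orb σ M v := by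
  by_contra hc
  obtain ⟨l', l2, l3⟩ := exists_third H.fd l
  have e0 := e00 l
  have e0' := e00 l'
  have key : ∀ c, σ c = c → c ≠ 0 → EE χ q 7 l c = 0 := fun c hc1 c0 => by
    obtain ⟨κ, hκ⟩ := exists_norm H.fd.ne hσ (c := c / S.B v v) (by simp [Bs, hc1])
    have e : ∀ u, S.B u u = S.B v v → S.B (κ • u) (κ • u) = c := fun u hu => by
      rw [S.B_smul_left, Bsr, ← mul_assoc, hκ, hu, div_mul_cancel₀ _ hv]
    have κ0 : κ ≠ 0 := by rintro rfl; exact c0 (by simpa using (e v rfl).symm)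
    obtain ⟨s, hs'⟩ := hl (κ • v)
    have e1 := reg7 H hM h7 hs (v := κ • v) (w := κ • w) (by rwa [e v rfl]) (by rwa [e w hw]) (fun μ μ0 hμ => by
      have h1 := orb_norm hM hμ
      rw [S.B_smul_left, Bsr, ← mul_assoc, e w hw, e v rfl, mul_eq_right₀ c0] at h1
      obtain ⟨g, hg, d, hd, e⟩ := hμ
      refine hc ⟨g, hg, μ⁻¹ * d, by rw [map_mul, map_inv₀, mul_mul_mul_comm, ← mul_inv, h1, hd, inv_one, one_mul], ?_⟩
      rw [mul_smul, eq_inv_smul_iff₀ μ0]
      exact smul_right_injective V κ0 (by simpa [smul_comm κ] using e)) l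
    rw [hs', smul_ap, ee_ap, e w hw, h7, if_neg (by rintro h; simp [h] at e1; exact c0 (by simpa [h] using (e w hw).symm)),
      add_zero, mul_eq_zero] at e1
    refine e1.elim (fun s0 => ?_) id
    have e2 := congrFun hs' 0
    rw [ind_ee H hM, s0, zero_smul, zero_ap, ind, if_neg fun h => c0 (by simpa [e v rfl] using (orb_norm hM h).symm),
      sum_eq_single 0 (fun y _ y0 => by simp [nw, y0.symm]) (by simp), e v rfl, h7] at e2
    have e3 : nw S M (κ • v) 0 0 ≠ 0 := card_ne_zero_of_mem (a := κ • v) (by simp [self_orb])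
    simpa [e3, (χ.val_isUnit _).ne_zero] using e2
  have h0 := H.q0
  have h1 := H.q1
  have e : ee H l = (EE χ q 7 l 0 / EE χ q 7 (1 : ZZ σ →* ℂ) 0) • ee H 1 +
      ((1 - EE χ q 7 l 0 / EE χ q 7 (1 : ZZ σ →* ℂ) 0) * (q + 1 : ℂ)⁻¹) • (1 : TA (bi H)) := funext fun u => by
    rw [add_ap, smul_ap, smul_ap, ee_ap, ee_ap, one_eq, rho_ap, h7]
    have e5 : EE χ q 7 (1 : ZZ σ →* ℂ) 0 ≠ 0 := by simp [EE_one H, h1, neg_ne_zero.1 h0]
    by_cases hu : S.B u u = 0
    · rw [hu]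
      split_ifs <;> field_simp <;> ring
    · rw [key _ (Bs S u u) hu, EE_one H _ (Bs S u u), if_neg hu]
      simp [show u ≠ 0 by rintro rfl; simp at hu]
  have e1 := congrArg (ee H l' * ·) e
  simp only [mul_add, mul_smul_comm, ee_mul, if_neg l2, if_neg l3, smul_zero, zero_add, mul_one] at e1
  rw [(smul_eq_zero_iff_left e0').1 e1.symm, zero_smul, add_zero] at e
  have e2 := congrArg (ee H l * ·) e
  simp only [mul_smul_comm, ee_mul, if_neg l1, if_true, smul_zero] at e2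
  exact e0 e2

end Cfsg.Agent.H9.U7
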