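import Cfsg.Agent.H8.U5h
import Cfsg.Agent.H1.U7Ra
import Cfsg.Agent.Sg.U7f

/-!
The restriction of the Weil characters of `SU₇(q)` to an overgroup of the Singer cycle.
-/

set_option autoImplicit false
set_option linter.unusedSectionVars false

namespace Cfsg.Agent.H9.U7

open Finset Subgroup Cfsg Cfsg.Agent.H5.Char Cfsg.Agent.H2.Tr Cfsg.Agent.H5.Zas1 Cfsg.Agent.H4.CAG Cfsg.Agent.H5.TI
  Cfsg.Agent.H8.L5c Cfsg.Agent.H8.U5
open scoped Classical

theorem ne_six {p f q : ℕ} (hp : p.Prime) (hq : q = p ^ f) : q ≠ 6 := by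
  rintro rfl
  have h2 := (Nat.prime_dvd_prime_iff_eq Nat.prime_two hp).1 (Nat.prime_two.dvd_of_dvd_pow (n := f) (by rw [← hq]; norm_num))
  have h3 := (Nat.prime_dvd_prime_iff_eq Nat.prime_three hp).1 (Nat.prime_three.dvd_of_dvd_pow (n := f) (by rw [← hq]; norm_num))
  omega

theorem n_big7 {q n : ℕ} (h3 : 2 ≤ q) (h4 : q ≠ 6) (h : Nat.gcd 7 (q + 1) * n = t7 q) : q ^ 5 + 8 ≤ n := by
  have e := t7_eq q
  have e1 : q * 2 ≤ q ^ 2 := by nlinarith
  have e2 : q ^ 3 * 2 ≤ q ^ 4 := by rw [pow_succ q 3]; exact Nat.mul_le_mul_left _ h3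
  have e3 := Nat.pow_le_pow_left h3 3
  rcases U7.w_cases q with ⟨h1, -⟩ | ⟨h1, h2⟩
  · have : q ^ 5 * 2 ≤ q ^ 6 := by rw [pow_succ q 5]; exact Nat.mul_le_mul_left _ h3
    rw [h1] at h
    omega
  · have : q ^ 5 * 13 ≤ q ^ 6 := by rw [pow_succ q 5]; exact Nat.mul_le_mul_left _ (by omega)
    have := Nat.pow_le_pow_left h3 5
    rw [h1] at h
    omega

variable {Γ : Type*} [Group Γ] [Fintype Γ] {X : Subgroup Γ} {p f q : ℕ} {ζ : Γ → ℂ} {m : Irr Γ → ℕ}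

attribute [local instance] ftSub

theorem big_deg7 (hp : p.Prime) (hq : q = p ^ f) (card : Nat.gcd 7 (q + 1) * Nat.card X = t7 q)
    (dvd : Nat.gcd 7 (q + 1) * Nat.card Γ ∣ NU7 q) {χ : Irr Γ} {a c : ℕ} (h1 : a < c) (h2 : c ≤ Nat.gcd 7 (q + 1))
    (h : deg χ = a + c * (Nat.card X - 1)) : deg χ + 1 = t7 q := by
  have := Nat.card_pos (α := X)
  rcases U7.w_cases q with ⟨e, -⟩ | ⟨e, e'⟩ <;> rw [e] at card h2
  · rw [h, show c = 1 by omega]
    omega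
  · obtain ⟨rfl, rfl⟩ := H1.U7R.A1 hp hq e' a c h1 h2 (by
      rw [show t7 q / 7 = Nat.card X by omega, ← h]
      exact (deg_dvd χ).trans ((Dvd.intro_left _ rfl).trans dvd))
    omega

theorem le_w7 (h : ∀ ψ : Irr X, ∑ φ, m φ * mult φ ψ = Nat.gcd 7 (q + 1)) {χ : Irr Γ} (hχ : m χ ≠ 0) (ψ : Irr X) :
    mult χ ψ ≤ Nat.gcd 7 (q + 1) :=
  (Nat.le_mul_of_pos_left _ (Nat.pos_of_ne_zero hχ)).trans (h ψ ▸ single_le_sum (f := fun φ => m φ * mult φ ψ)
    (fun _ _ => Nat.zero_le _) (mem_univ χ))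

theorem flat_w7 (h3 : 2 ≤ q) (h4 : q ≠ 6) (ca : CA X) (gen : ∀ L : Subgroup Γ, L.Normal → X ≤ L → L = ⊤) (hw : wt X = 7)
    (card : Nat.gcd 7 (q + 1) * Nat.card X = t7 q) (h : ∀ ψ : Irr X, ∑ φ, m φ * mult φ ψ = Nat.gcd 7 (q + 1))
    {χ : Irr Γ} (hχ : m χ ≠ 0) : Flat X χ := by
  have := n_big7 h3 h4 card
  have := Nat.pow_le_pow_left h3 5
  refine Sg.U7f.all_flat7 ca gen h (by omega) ?_ ?_ hχ
  · rcases U7.w_cases q with ⟨e, -⟩ | ⟨e, e'⟩ <;> rw [hw, e]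
    · omega
    · have := Nat.pow_le_pow_left (show 3 ≤ q by omega) 5
      omega
  · rcases h3.eq_or_lt with rfl | h5
    · exact Or.inr ⟨hw, by simpa [t7] using card⟩
    · have := Nat.pow_le_pow_left (show 3 ≤ q by omega) 5
      rw [hw]
      omega

theorem CH07 (hp : p.Prime) (hq : q = p ^ f) (h3 : 2 ≤ q) (ca : CA X)
    (gen : ∀ L : Subgroup Γ, L.Normal → X ≤ L → L = ⊤) (ne : ∃ g, g ∉ Nm X) (hw : wt X = 1 ∨ wt X = 7)
    (card : Nat.gcd 7 (q + 1) * Nat.card X = t7 q) (dvd : Nat.gcd 7 (q + 1) * Nat.card Γ ∣ NU7 q)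
    (hm : Ch ζ m) (h1 : ζ 1 = t7 q - 1) (hX : ∀ x ∈ X, x ≠ 1 → ζ x = -1) (hb : ∀ g, g ≠ 1 → (ζ g).re ≤ q ^ 5) :
    wt X = 7 ∧ classInner ζ ζ = 1 ∧ q * (q - 1) * (q ^ 4 + q ^ 2 + 1) ∣ Nat.card Γ := by
  have h4 := ne_six hp hq
  have hm' : Ch (fun g => ζ g + 1) (fun φ => m φ + if φ = triv Γ then 1 else 0) := fun g => by
    simp [hm g, add_mul, sum_add_distrib, triv_apply]
  have hX' : ∀ x ∈ X, x ≠ 1 → ζ x + 1 = 0 := fun x hx x1 => by rw [hX x hx x1, neg_add_cancel]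
  have p2 := ch_reg ca hm' (j := Nat.gcd 7 (q + 1)) (by rw [h1, card, sub_add_cancel]) hX'
  have nb := n_big7 h3 h4 card
  have w5 := Nat.gcd_le_left (m := 7) (q + 1) (by omega)
  have q3 := Nat.pow_le_pow_left h3 5
  have hw5 : wt X = 7 := hw.resolve_left fun hw => by
    have c1 := sum_Cl ca (fun _ => 1) fun _ _ => rfl
    simp only [card_Nm, hw, mul_one, sum_const, card_univ, nsmul_eq_mul, ← Nat.card_eq_fintype_card] at c1
    have c2 := card_filter_add_card_filter_not (s := univ) (· ∈ Cl X)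
    rw [card_univ, ← Nat.card_eq_fintype_card] at c2
    have c3 : Nat.card X * Nat.card X ≤ Nat.card Γ := by
      obtain ⟨g, hg⟩ := ne
      rw [← Nat.card_prod]
      refine Nat.card_le_card_of_injective (fun x : X × X => x.1 * g * x.2 * g⁻¹) fun x y e => ?_
      have e1 : x.2 = y.2 := by
        by_contra hc
        refine hg ((Nm X).inv_mem_iff.1 (ca.mem_norm (x.2 * y.2⁻¹).2 (fun e => hc (mul_inv_eq_one.1 (Subtype.ext e))) ?_))
        have : g⁻¹⁻¹ * (x.2 * y.2⁻¹ : X) * g⁻¹ = x.1⁻¹ * y.1 := by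
          simp only [mul_left_inj] at e
          simp [eq_inv_mul_iff_mul_eq, ← mul_assoc, e]
        rw [this]
        exact (x.1⁻¹ * y.1).2
      exact Prod.ext (by simpa [e1] using e) e1
    have c4 : (Nat.card Γ : ℝ) ≤ ∑ g, (ζ g + 1).re := by
      have e := hm'.inner (triv Γ)
      simp only [classInner, triv_apply, map_one, mul_one, if_true, inv_mul_eq_iff_eq_mul₀ card_ne] at e
      rw [← Complex.re_sum, e, ← Nat.cast_mul, Complex.natCast_re]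
      exact_mod_cast Nat.le_mul_of_pos_right _ (by omega)
    have c5 : (1 : Γ) ∈ univ.filter fun g => ¬ g ∈ Cl X := by simp [Cl]
    rw [← sum_filter_add_sum_filter_not univ (· ∈ Cl X), sum_eq_zero fun z hz => by
      obtain ⟨z1, g, hg⟩ := (mem_filter.1 hz).2
      rw [← cl' hm'.cl z g, hX' _ hg (by simpa [mul_assoc, inv_mul_eq_one] using z1), Complex.zero_re], zero_add,
      ← add_sum_erase _ _ c5, h1, sub_add_cancel, Complex.natCast_re] at c4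
    have c6 := c4.trans (add_le_add_right (sum_le_card_nsmul _ _ ((q : ℝ) ^ 5 + 1) fun g hg => by
      simpa using hb g (ne_of_mem_erase hg)) _)
    rw [card_erase_of_mem c5, nsmul_eq_mul, ← card] at c6
    have c7 := card_pos.2 ⟨_, c5⟩
    generalize (univ.filter fun g => ¬ g ∈ Cl X).card = y at *
    obtain ⟨y, rfl⟩ : ∃ k, y = k + 1 := ⟨y - 1, by omega⟩
    have c8 : Nat.card Γ = Nat.card X * (y + 1) := by
      have : (Nat.card Γ : ℝ) = Nat.card X * (y + 1) := by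
        rw [← c2] at c1 ⊢
        push_cast at c1 ⊢
        linear_combination c1
      exact_mod_cast this
    rw [c8] at c3 c6
    have c9 : Nat.card X * (y + 1) ≤ Nat.gcd 7 (q + 1) * Nat.card X + y * (q ^ 5 + 1) := by exact_mod_cast c6
    have := Nat.le_of_mul_le_mul_left c3 (by omega)
    nlinarith [Nat.mul_le_mul_right (Nat.card X) w5, Nat.mul_le_mul_left y nb]
  obtain ⟨ψ, hψ⟩ := ex_psi ca (by omega)
  obtain ⟨χ, c1, c2⟩ : ∃ χ, m χ ≠ 0 ∧ mult χ (triv X) < mult χ ψ := by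
    by_contra! hc
    have := sum_le_sum (s := univ) (f := fun φ => m φ * mult φ ψ) (g := fun φ => m φ * mult φ (triv X)) fun φ _ => by
      by_cases e : m φ = 0
      · simp [e]
      · exact Nat.mul_le_mul_left _ (hc φ e)
    have e1 := p2 ψ
    have e2 := p2 (triv X)
    simp [add_mul, sum_add_distrib, mult_triv, hψ.symm] at e1 e2
    omega
  have c3 : (m χ + if χ = triv Γ then 1 else 0) ≠ 0 := by omega
  have c4 := big_deg7 hp hq card dvd c2 (le_w7 p2 c3 ψ) ((flat_w7 h3 h4 ca gen hw5 card p2 c3).deg_eq ca hψ)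
  obtain rfl := ch_irr hm c1 (by rw [h1, ← c4]; simp)
  refine ⟨hw5, by simp [inner_irr], ?_⟩
  convert deg_dvd χ
  have := t7_eq q
  obtain ⟨k, rfl⟩ : ∃ k, q = k + 1 := ⟨q - 1, by omega⟩
  rw [← c4] at this
  rw [Nat.add_sub_cancel]
  linarith

theorem CH17 (hp : p.Prime) (hq : q = p ^ f) (h3 : 2 ≤ q) (ca : CA X)
    (gen : ∀ L : Subgroup Γ, L.Normal → X ≤ L → L = ⊤) (hw : wt X = 7)
    (card : Nat.gcd 7 (q + 1) * Nat.card X = t7 q) (dvd : Nat.gcd 7 (q + 1) * Nat.card Γ ∣ NU7 q)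
    (hR : q % 7 = 6 → ∃ ρ : ℕ, 50 ≤ ρ ∧ ρ ∣ q ^ 2 + q + 1 ∧ ∀ χ : Irr Γ, ∃ D : ℤ, |D| ≤ 6 ∧ (ρ : ℤ) ∣ (deg χ : ℤ) - D)
    (hm : Ch ζ m) (h1 : ζ 1 = t7 q) (hX : ∀ x ∈ X, x ≠ 1 → ζ x = 0) :
    classInner ζ ζ = 1 ∨ ∃ χ : Irr Γ, χ ≠ triv Γ ∧ ∀ g, ζ g = 1 + χ.1 g := by
  have h4 := ne_six hp hq
  have p2 := ch_reg ca hm (j := Nat.gcd 7 (q + 1)) (by rw [h1, card]) hX
  have nb := n_big7 h3 h4 card
  have hF := fun χ => flat_w7 h3 h4 ca gen hw card p2 (χ := χ)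
  obtain ⟨ψ, hψ⟩ := ex_psi ca (by omega)
  have ex : ∀ {ζ : Γ → ℂ} {m : Irr Γ → ℕ}, Ch ζ m → ζ 1 ≠ 0 → ∃ φ, m φ ≠ 0 := fun h h1 => by
    by_contra! hc
    simp [h.one, hc] at h1
  by_cases hc : ∃ χ, m χ ≠ 0 ∧ mult χ (triv X) < mult χ ψ
  · obtain ⟨χ, c1, c2⟩ := hc
    have c4 := big_deg7 hp hq card dvd c2 (le_w7 p2 c1 ψ) ((hF χ c1).deg_eq ca hψ)
    have c5 : ζ 1 - χ.1 1 = 1 := by rw [h1, ← c4, deg_eq]; simp
    obtain ⟨φ, hφ⟩ := ex (ch_sub hm c1) (by rw [c5]; exact one_ne_zero)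
    have c6 : deg φ = 1 := by
      have e := (ch_sub hm c1).one
      simp only [c5] at e
      have := (Nat.le_mul_of_pos_left _ (Nat.pos_of_ne_zero hφ)).trans (single_le_sum
        (f := fun φ => (m φ - if φ = χ then 1 else 0) * deg φ) (fun _ _ => Nat.zero_le _) (mem_univ φ))
      have := deg_pos φ
      have : ∑ φ, (m φ - if φ = χ then 1 else 0) * deg φ = 1 := by exact_mod_cast e.symm
      omega
    have c7 := hF φ (by omega)
    have c8 := c7.deg_eq ca hψ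
    obtain rfl := c7.eq_triv ca gen hψ (by
      by_contra h0
      have := Nat.le_mul_of_pos_left (Nat.card X - 1) (Nat.pos_of_ne_zero h0)
      omega)
    refine Or.inr ⟨χ, ?_, fun g => eq_add_of_sub_eq (congrFun (ch_irr (ch_sub hm c1) hφ (by rw [c6, c5]; simp)) g)⟩
    rintro rfl
    have := Nat.le_mul_of_pos_left (Nat.card X) (Nat.gcd_pos_of_pos_left (q + 1) (by omega : 0 < 7))
    omega
  push Not at hc
  have t0 := Nat.le_mul_of_pos_left (Nat.card X) (Nat.gcd_pos_of_pos_left (q + 1) (by omega : 0 < 7))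
  obtain ⟨χ, c1⟩ := ex hm (by rw [h1, Nat.cast_ne_zero]; omega)
  have c2 : mult χ ψ = mult χ (triv X) := by
    have := (sum_eq_sum_iff_of_le (s := univ) (f := fun φ => m φ * mult φ ψ) (g := fun φ => m φ * mult φ (triv X))
      fun φ _ => by
        by_cases e : m φ = 0
        · simp [e]
        · exact Nat.mul_le_mul_left _ (hc φ e)).1 (by rw [p2, p2]) χ (mem_univ _)
    exact Nat.eq_of_mul_eq_mul_left (Nat.pos_of_ne_zero c1) this
  have c3 : deg χ = mult χ ψ * Nat.card X := by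
    rw [(hF χ c1).deg_eq ca hψ, ← c2, add_comm, ← mul_add_one, Nat.sub_add_cancel (by omega)]
  have c4 := le_w7 p2 c1 ψ
  have c5 : mult χ ψ ≠ 0 := fun e => (deg_pos χ).ne' (by rw [c3, e, zero_mul])
  have c6 : mult χ ψ = Nat.gcd 7 (q + 1) := by
    rcases U7.w_cases q with ⟨e, -⟩ | ⟨e, e'⟩ <;> rw [e] at card c4 ⊢
    · omega
    obtain ⟨ρ, r1, r2, r3⟩ := hR e'
    obtain ⟨D, d1, d2⟩ := r3 χ
    have e1 : (7 * Nat.card X + q ^ 5 + q ^ 3 + q : ℤ) = q ^ 6 + q ^ 4 + q ^ 2 + 1 := by exact_mod_cast card ▸ t7_eq q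
    have r4 : (ρ : ℤ) ∣ q ^ 2 + q + 1 := by exact_mod_cast r2
    have d3 : (ρ : ℤ) ∣ mult χ ψ - 7 * D := by
      have := (d2.mul_left 7).sub (r4.mul_left (mult χ ψ * (q * (q - 1) * (q ^ 2 - q + 1))))
      rwa [show 7 * ((deg χ : ℤ) - D) - mult χ ψ * (q * (q - 1) * (q ^ 2 - q + 1)) * (q ^ 2 + q + 1) = mult χ ψ - 7 * D by
        rw [c3]; push_cast; linear_combination (mult χ ψ : ℤ) * e1] at this
    have := Int.eq_zero_of_abs_lt_dvd d3 (by rw [abs_le] at d1; rw [abs_lt]; omega)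
    omega
  obtain rfl := ch_irr hm c1 (by rw [h1, c3, c6, card])
  exact Or.inl (by simp [inner_irr])

/-- a prime dividing `|X|`, prime to the index, to `q` and to `q + 1` -/
theorem CH27 (h3 : 2 ≤ q) (h4 : q ≠ 6) (ca : CA X) (card : Nat.gcd 7 (q + 1) * Nat.card X = t7 q) :
    ∃ r : ℕ, r.Prime ∧ r ∣ Nat.card X ∧ ¬ r ∣ X.index ∧ ¬ r ∣ q ∧ ¬ r ∣ q + 1 := by
  have nb := n_big7 h3 h4 card
  obtain ⟨r, hr, h⟩ := Nat.exists_prime_and_dvd (n := Nat.card X) (by omega)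
  have := Fact.mk hr
  have ht : r ∣ t7 q := card ▸ h.mul_left _
  have e := t7_eq q
  refine ⟨r, hr, h, ?_, fun h' => hr.not_dvd_one ?_, fun ⟨k, hk⟩ => ?_⟩
  · obtain ⟨x, hx⟩ := exists_prime_orderOf_dvd_card' r h
    have x1 : (x : Γ) ≠ 1 := fun e => hr.ne_one (by rw [← hx, ← orderOf_coe, e, orderOf_one])
    obtain ⟨P, hP⟩ := (IsPGroup.of_card (p := r) (n := 1) (G := zpowers (x : Γ)) (by
      rw [Nat.card_zpowers, orderOf_coe, hx, pow_one])).exists_le_sylow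
    have : Nontrivial P := ⟨⟨⟨x, hP (mem_zpowers _)⟩, 1, fun e => x1 (congrArg Subtype.val e)⟩⟩
    have := P.2.center_nontrivial
    obtain ⟨⟨z, hz⟩, z1⟩ := exists_ne (1 : center P)
    have z2 : (z : Γ) ≠ 1 := fun e => z1 (Subtype.ext (Subtype.ext e))
    have key : ∀ y ∈ P.1, y * z = z * y := fun y hy => congrArg Subtype.val (mem_center_iff.1 hz ⟨y, hy⟩)
    have z3 := ca.mem x.2 x1 (key _ (hP (mem_zpowers _))).symm
    exact fun h' => P.not_dvd_index (h'.trans (index_dvd_of_le fun y hy => ca.mem z3 z2 (key y hy)))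
  · exact (Nat.dvd_add_right (dvd_pow h' (by omega : 7 ≠ 0))).1 (t7_mul q ▸ ht.mul_left _)
  · have e1 : (t7 q : ℤ) = 7 + (r * k) * (-21 + (r * k) * (35 + (r * k) * (-35 + (r * k) * (21 + (r * k) * (r * k - 7))))) := by
      have e2 : (t7 q + q ^ 5 + q ^ 3 + q : ℤ) = q ^ 6 + q ^ 4 + q ^ 2 + 1 := by exact_mod_cast e
      have e3 : (q : ℤ) = r * k - 1 := by rw [eq_sub_iff_add_eq]; exact_mod_cast hk
      rw [e3] at e2
      linear_combination e2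
    have h5 : (r : ℤ) ∣ 7 := (dvd_add_left ((dvd_mul_right _ _).mul_right _)).1 (e1 ▸ Int.natCast_dvd_natCast.2 ht)
    obtain rfl : r = 7 := (Nat.prime_dvd_prime_iff_eq hr (by norm_num)).1 (by exact_mod_cast h5)
    obtain ⟨j, hj⟩ := h
    rw [Nat.gcd_eq_left ⟨k, hk⟩, hj] at card
    rw [← card] at e1
    push_cast at e1
    have : (49 : ℤ) ∣ 7 := ⟨j - k * (-3 + k * (35 + 7 * k * (-35 + 7 * k * (21 + 7 * k * (7 * k - 7))))), by linear_combination -e1⟩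
    omega

end Cfsg.Agent.H9.U7
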