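import Cfsg.Agent.H9.Sg2
import Cfsg.Agent.H9.U7Defs

/-! The Singer cycle of `SU₇(q)`. -/

set_option autoImplicit false
set_option linter.unusedSectionVars false

namespace Cfsg.Agent.H9.U7

open Module MulAction Subgroup Cfsg.Agent.H1.C3a Cfsg.Agent.H5.Zas1 Cfsg.Agent.H4.CAG
  Cfsg.Agent.H8.L5f Cfsg.Agent.Form Cfsg.Agent.H7 Cfsg.Agent.H6.SU Cfsg.Agent.H9.Sin

universe u v

theorem arith {q : ℕ} (hq : 1 ≤ q) : ∃ m, Nat.gcd 7 (q + 1) * m = t7 q ∧ Nat.Coprime m (q ^ 2 - 1) := by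
  have e1 : (t7 q : ℤ) = (q + 1) * (q ^ 5 - 2 * q ^ 4 + 3 * q ^ 3 - 4 * q ^ 2 + 5 * q - 6) + 7 := by
    rw [t7_int]; ring
  obtain ⟨m, hm⟩ : Nat.gcd 7 (q + 1) ∣ t7 q := by
    rw [← Int.natCast_dvd_natCast, e1]
    exact dvd_add (Dvd.dvd.mul_right (by exact_mod_cast Nat.gcd_dvd_right 7 (q + 1)) _)
      (by exact_mod_cast Nat.gcd_dvd_left 7 (q + 1))
  refine ⟨m, hm.symm, Nat.coprime_of_dvd fun r hr h1 h2 => ?_⟩
  have h3 : (r : ℤ) ∣ t7 q := Int.natCast_dvd_natCast.2 (hm ▸ Dvd.dvd.mul_left h1 _)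
  have h4 : (r : ℤ) ∣ (q - 1) * (q + 1) := by
    have := Int.natCast_dvd_natCast.2 h2
    rw [Nat.cast_sub (Nat.one_le_pow _ _ hq)] at this
    convert this using 1
    push_cast; ring
  rcases (Nat.prime_iff_prime_int.1 hr).dvd_or_dvd h4 with h5 | h5
  · rw [show (t7 q : ℤ) = (q - 1) * (q ^ 5 + q ^ 3 + q) + 1 by rw [t7_int]; ring,
      dvd_add_right (h5.mul_right _)] at h3
    exact hr.one_lt.ne' (by exact_mod_cast Int.eq_one_of_dvd_one (Int.natCast_nonneg r) h3)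
  · have h6 := h3
    rw [e1, dvd_add_right (h5.mul_right _)] at h6
    obtain rfl : r = 7 := (Nat.prime_dvd_prime_iff_eq hr (by norm_num)).1 (by exact_mod_cast h6)
    obtain ⟨k, hk⟩ := h5
    obtain ⟨j, rfl⟩ := h1
    rw [Nat.gcd_eq_left (Int.natCast_dvd_natCast.1 ⟨k, by exact_mod_cast hk⟩)] at hm
    have h7 := congrArg (Nat.cast : ℕ → ℤ) hm
    rw [t7_int, show (q : ℤ) = 7 * k - 1 by push_cast at hk; omega] at h7
    push_cast at h7
    have : (49 : ℤ) ∣ 7 := ⟨j - (2401 * k ^ 6 - 2401 * k ^ 5 + 1029 * k ^ 4 - 245 * k ^ 3 + 35 * k ^ 2 - 3 * k), by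
      linear_combination h7⟩
    omega

variable {F : Type u} [Field F] {σ : F →+* F} {hσ : ∀ a, σ (σ a) = a}
  {V : Type v} [AddCommGroup V] [Module F V] {S : PQ (FP.unit σ hσ) V} {q : ℕ} [FiniteDimensional F V]
  {E : Type*} [Field E] [Algebra F E] [Module E V] [IsScalarTower F E V]
  [Fintype F] [Finite E] [FiniteDimensional E V]

theorem pre (h : Un7 S q) (hq : 2 ≤ q) (hE : finrank F E = 7) (τ : E →+* E)
    (hadj : ∀ (k : E) x y, S.B (k • x) y = S.B x (τ k • y)) :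
    ∃ (X₀ : Subgroup Eˣ) (T : Subgroup (V ≃ₗ[F] V)), Sg X₀ (sisom S) ∧
      Nat.gcd 7 (q + 1) * Nat.card X₀ = t7 q ∧ IsCyclic T ∧ T ≤ S.isom ∧ Nat.card T = q ^ 7 + 1 ∧
      (∀ x ∈ T, ∀ v, x v = v → x = 1 ∨ v = 0) ∧
      (∀ x : V ≃ₗ[F] V, ∀ c : F, c * σ c = 1 → (∀ v, x v = c • v) → x ∈ T) ∧
      (∀ k ∈ X₀, mu F V k ∈ T) ∧ (∃ φ ∈ S.isom, ∀ g ∈ T, φ * g * φ⁻¹ = g ^ q ^ 2) ∧
      Nat.card (sisom S) ∣ NU7 q ∧ Nat.gcd 7 (q + 1) ∣ Nat.card (pr (sisom S)).ker := by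
  classical
  have : FiniteDimensional F E := Module.finite_of_finrank_eq_succ hE
  have := Fintype.ofFinite E
  have hV : finrank E V = 1 := by
    have := Module.finrank_mul_finrank F E V
    rw [hE, h.dim] at this
    omega
  have : Nontrivial V := Module.nontrivial_of_finrank_eq_succ hV
  have : Finite V := Module.finite_of_finite E
  have : Finite (V ≃ₗ[F] V) := DFunLike.finite _
  obtain ⟨v0, hv0⟩ := exists_ne (0 : V)
  have hF : Fintype.card F = q ^ 2 := by rw [← Nat.card_eq_fintype_card, h.card]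
  have cE : Nat.card E = (q ^ 7) ^ 2 := by
    rw [Module.natCard_eq_pow_finrank (K := F) (V := E), hE, h.card]; ring
  have t1 : ∀ a, τ (τ a) = a := fun a => smul_left_injective E hv0 (h.nd.ext_left fun y => by
    change S.B (τ (τ a) • v0) y = S.B (a • v0) y
    rw [← Bs, ← hadj, Bs, hadj])
  have t2 : ∀ c, τ (algebraMap F E c) = algebraMap F E (σ c) := fun c =>
    smul_left_injective E hv0 (h.nd.ext_right fun y => by
      change S.B y (_ • v0) = S.B y (_ • v0)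
      rw [← hadj, algebraMap_smul, algebraMap_smul, Bsr, hσ, S.B_smul_left])
  have t3 : ∃ a, τ a ≠ a := by
    obtain ⟨a, ha⟩ := h.ne
    exact ⟨algebraMap F E a, fun e => ha ((algebraMap F E).injective ((t2 a).symm.trans e))⟩
  have mi : Function.Injective (mu F V : Eˣ → _) := fun a b e =>
    Units.ext (smul_left_injective E hv0 (DFunLike.congr_fun e v0))
  have i1 : ∀ k : Eˣ, mu F V k ∈ S.isom ↔ (k : E) * τ k = 1 := fun k => by
    rw [S.unit_mem_isom]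
    simp only [mu_apply, hadj, smul_smul, mul_comm (τ _)]
    refine ⟨fun e => smul_left_injective E hv0 (h.nd.ext_right fun y => ?_), fun e x y => by rw [e, one_smul]⟩
    change S.B y (_ • v0) = S.B y (_ • v0)
    rw [e, one_smul]
  let P : ℕ → Subgroup Eˣ := fun m => (powMonoidHom m : Eˣ →* Eˣ).ker
  have p1 : ∀ m (k : Eˣ), k ∈ P m ↔ k ^ m = 1 := fun m k => Iff.rfl
  have p2 : ∀ m, m ∣ q ^ 7 + 1 → Nat.card (P m) = m := fun m hm => by
    rw [IsCyclic.card_powMonoidHom_ker, Nat.card_units, cE, Nat.sq_sub_sq (q ^ 7) 1]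
    exact Nat.gcd_eq_right (hm.mul_right _)
  have i2 : S.isom.comap (mu F V) = P (q ^ 7 + 1) := by
    have c1 : Nat.card (S.isom.comap (mu F V : Eˣ →* _)) = q ^ 7 + 1 := by
      rw [← H9.FOrd.card_norm_one (by rw [← Nat.card_eq_fintype_card, cE]) t1 t3]
      exact Nat.card_congr
        { toFun := fun k => ⟨k.1, (i1 _).1 k.2⟩
          invFun := fun a => ⟨Units.mk0 a.1 (left_ne_zero_of_mul_eq_one a.2), (i1 _).2 a.2⟩
          left_inv := fun k => Subtype.ext (Units.ext rfl)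
          right_inv := fun a => rfl }
    refine eq_of_le_of_card_ge (fun k hk => (p1 _ k).2 ?_) (by rw [c1, p2 _ dvd_rfl])
    rw [← c1]
    exact congrArg Subtype.val (pow_card_eq_one' (x := (⟨k, hk⟩ : S.isom.comap (mu F V : Eˣ →* _))))
  have i3 : ∀ k : Eˣ, mu F V k ∈ S.isom ↔ k ^ (q ^ 7 + 1) = 1 := fun k => by
    rw [← p1, ← i2]; rfl
  have i4 : ∀ k : Eˣ, k ^ (q ^ 7 + 1) = 1 → Algebra.norm F (k : E) = 1 → k ^ t7 q = 1 := fun k a b => by
    have := FiniteField.algebraMap_norm_eq_pow_sum F E (k : E)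
    rw [b, map_one, hE, h.card, show ∑ i ∈ Finset.range 7, (q ^ 2) ^ i =
      (q ^ 7 + 1) * (q ^ 5 + q ^ 3 + q) + t7 q by
        zify; rw [t7_int]; simp [Finset.sum_range_succ]; ring, ← Units.val_pow_eq_pow_val, pow_add,
      pow_mul, a, one_pow, one_mul] at this
    exact Units.ext this.symm
  obtain ⟨m, m1, m2⟩ := arith (q := q) (by omega)
  have m3 : m ∣ q ^ 7 + 1 := ⟨(q + 1) * Nat.gcd 7 (q + 1), by rw [← t7_mul, ← m1]; ring⟩
  have m4 : ∀ k ∈ P m, k ^ (q ^ 7 + 1) = 1 := fun k hk => by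
    obtain ⟨c, hc⟩ := m3
    rw [hc, pow_mul, (p1 _ _).1 hk, one_pow]
  have m5 : ∀ c : F, c ^ m = 1 → c = 1 := fun c hc => by
    have c0 : c ≠ 0 := by
      rintro rfl
      rw [zero_pow (by rintro rfl; simp at m3)] at hc
      exact zero_ne_one hc
    have := pow_gcd_eq_one.2 ⟨hc, hF ▸ FiniteField.pow_card_sub_one_eq_one c c0⟩
    rwa [m2, pow_one] at this
  have d1 : Nat.gcd 7 (q + 1) ∣ q ^ 2 - 1 := by
    rw [Nat.sq_sub_sq q 1]; exact (Nat.gcd_dvd_right _ _).mul_right _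
  have d2 : ∀ y : Eˣ, y ^ Nat.gcd 7 (q + 1) = 1 → ∃ c, algebraMap F E c = y := fun y hy =>
    mem_range_of_pow (by
      obtain ⟨c, hc⟩ := d1
      rw [hF, show q ^ 2 = Nat.gcd 7 (q + 1) * c + 1 by have := Nat.one_le_pow 2 q (by omega); omega,
        ← Units.val_pow_eq_pow_val, pow_succ, pow_mul, hy, one_pow, one_mul])
  refine ⟨P m, (P (q ^ 7 + 1)).map (mu F V), ⟨by rw [hE]; norm_num, hV, fun e => ?_, ?_, fun k hk => ?_,
    fun k hk => ?_⟩, by rw [p2 _ m3, m1], isCyclic_of_surjective _ ((mu F V).subgroupMap_surjective _), ?_,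
    by rw [card_map_of_injective mi, p2 _ dvd_rfl], ?_, fun x c h1 h2 => ?_,
    fun k hk => ⟨k, m4 k hk, rfl⟩, ?_, ?_, ?_⟩
  · have := p2 _ m3
    rw [e, card_bot] at this
    have a := t7_mul q
    have b := Nat.gcd_le_left (q + 1) (show 0 < 7 by norm_num)
    have c : 2 ^ 6 ≤ q ^ 6 := Nat.pow_le_pow_left hq 6
    rw [← m1, ← this, mul_one, pow_succ] at a
    nlinarith
  · rwa [p2 _ m3]
  · refine ⟨(i3 k).2 (m4 k hk), Units.ext ((det_mu hV k).trans (m5 _ ?_))⟩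
    rw [← map_pow, ← Units.val_pow_eq_pow_val, (p1 _ _).1 hk, Units.val_one, map_one]
  · have a := i4 k ((i3 k).1 hk.1) ((det_mu hV k).symm.trans (congrArg Units.val hk.2))
    have b := Nat.gcd_eq_gcd_ab m (Nat.gcd 7 (q + 1))
    rw [Nat.Coprime.of_dvd_right d1 m2] at b
    generalize Nat.gcdA _ _ = i at b
    generalize Nat.gcdB _ _ = j at b
    obtain ⟨c, hc⟩ := d2 ((k ^ m) ^ i) (by
      rw [← zpow_natCast, ← zpow_mul, mul_comm, zpow_mul, zpow_natCast, ← pow_mul, mul_comm, m1, a, one_zpow])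
    refine ⟨(k ^ Nat.gcd 7 (q + 1)) ^ j, (p1 _ _).2 ?_, c, ?_⟩
    · rw [← zpow_natCast, ← zpow_mul, mul_comm, zpow_mul, zpow_natCast, ← pow_mul, m1, a, one_zpow]
    · rw [Algebra.smul_def, hc, ← Units.val_mul, ← zpow_natCast, ← zpow_natCast, ← zpow_mul, ← zpow_mul,
        ← zpow_add, ← b, Nat.cast_one, zpow_one]
  · rintro _ ⟨k, hk, rfl⟩
    exact (i3 k).2 hk
  · rintro _ ⟨k, -, rfl⟩ v e
    by_contra hc
    rw [not_or] at hc
    exact hc.1 (by rw [show k = 1 from Units.ext (smul_left_injective E hc.2 (e.trans (one_smul E v).symm)),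
      map_one])
  · have e : x = mu F V (Units.mk0 (algebraMap F E c) (by simpa using left_ne_zero_of_mul_eq_one h1)) := by
      ext v; simp [h2, mu_apply]
    refine ⟨_, (i3 _).1 ((i1 _).2 ?_), e.symm⟩
    rw [Units.val_mk0, t2, ← map_mul, h1, map_one]
  · let ι : E ≃ₗ[F] V := (LinearEquiv.ofBijective (LinearMap.toSpanSingleton E V v0)
      ⟨smul_left_injective E hv0, (finrank_eq_one_iff_of_nonzero' v0 hv0).1 hV⟩).restrictScalars F
    have hι : ∀ e, ι e = e • v0 := fun e => rfl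
    let l : E →ₗ[F] F := S.lin v0 ∘ₗ ι.toLinearMap
    have l1 : ∀ e, l e = S.B (e • v0) v0 := fun e => rfl
    have l2 : ∀ e, l (τ e) = σ (l e) := fun e => by rw [l1, l1, hadj, t1, Bs]
    let Fr := FiniteField.frobeniusAlgEquivOfAlgebraic F E
    have f1 : ∀ e, Fr e = e ^ q ^ 2 := fun e => by rw [← hF]; rfl
    have f2 : ∀ e, Fr.symm (τ e) = τ (Fr.symm e) := fun e => by
      rw [AlgEquiv.symm_apply_eq, f1, ← map_pow, ← f1, AlgEquiv.apply_symm_apply]
    let D : E →ₗ[F] Dual F E := (LinearMap.mul F E).compr₂ l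
    have D1 : ∀ a e, D a e = l (a * e) := fun a e => rfl
    have l3 : ¬ ∀ e, l e = 0 := fun e => hv0 (h.nd.right _ fun y => by
      obtain ⟨a, rfl⟩ := ι.surjective y
      exact e a)
    have D2 : Function.Injective D := (injective_iff_map_eq_zero D).2 fun a ha => by
      by_contra a0
      exact l3 fun e => by rw [← mul_inv_cancel_left₀ a0 e, ← D1, ha]; rfl
    obtain ⟨δ, hδ⟩ := (LinearMap.injective_iff_surjective_of_finrank_eq_finrank
      Subspace.dual_finrank_eq.symm).1 D2 (l ∘ₗ Fr.symm.toLinearMap)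
    have hδ : ∀ e, l (δ * e) = l (Fr.symm e) := fun e => LinearMap.congr_fun hδ e
    obtain ⟨γ, hγ⟩ := exists_norm t3 t1 (c := δ) (D2 (LinearMap.ext fun e => by
      rw [D1, D1, ← t1 e, ← map_mul, l2, hδ, hδ, t1, f2, l2, hσ]))
    have γ0 : γ ≠ 0 := by
      rintro rfl
      exact l3 fun e => by rw [← Fr.symm_apply_apply e, ← hδ, ← hγ, zero_mul, zero_mul, map_zero]
    obtain ⟨φ, hφ⟩ : ∃ φ : V ≃ₗ[F] V, ∀ e : E, φ (e • v0) = (γ * Fr e) • v0 :=
      ⟨mu F V (Units.mk0 γ γ0) * ((ι.symm.trans Fr.toLinearEquiv).trans ι), fun e => by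
        change γ • ι (Fr (ι.symm (ι e))) = _
        rw [ι.symm_apply_apply, hι, mul_smul]⟩
    have b1 : ∀ a b : E, S.B (a • v0) (b • v0) = l (τ b * a) := fun a b => by
      rw [l1, mul_smul, hadj (τ b), t1]
    refine ⟨φ, (S.unit_mem_isom φ).2 fun x y => ?_, ?_⟩
    · obtain ⟨a, rfl⟩ := ι.surjective x
      obtain ⟨b, rfl⟩ := ι.surjective y
      rw [hι, hι, hφ, hφ, b1, b1, ← Fr.symm_apply_apply (τ b * a), ← hδ, ← hγ, f1, f1, f1, map_mul τ,
        map_pow τ, mul_pow]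
      congr 1; ring
    · rintro _ ⟨k, -, rfl⟩
      rw [mul_inv_eq_iff_eq_mul, ← map_pow]
      ext v
      obtain ⟨a, rfl⟩ := ι.surjective v
      rw [LinearEquiv.mul_apply, LinearEquiv.mul_apply, mu_apply, mu_apply, hι, smul_smul, hφ, hφ, smul_smul,
        map_mul, f1 k, Units.val_pow_eq_pow_val, mul_left_comm]
  · let f : S.isom →* Fˣ := LinearEquiv.det.comp S.isom.subtype
    let g : P (q ^ 7 + 1) →* Fˣ := (LinearEquiv.det.comp (mu F V)).comp (P _).subtype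
    have c1 := f.ker.card_mul_index
    have c2 := g.ker.card_mul_index
    rw [index_ker, H9.FOrd.card_isom_unit hF hσ h.ne 7 h.nd h.dim,
      show Nat.card f.ker = Nat.card (sisom S) from
        Nat.card_congr (subgroupOfEquivOfLe (H := sisom S) inf_le_left).toEquiv ▸ by
          congr 2; ext x; simp [f, mem_subgroupOf, mem_sisom]] at c1
    rw [index_ker, p2 _ dvd_rfl] at c2
    obtain ⟨a, ha⟩ : Nat.card g.range ∣ Nat.card f.range := card_dvd_of_le (by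
      rintro _ ⟨k, rfl⟩
      exact ⟨⟨_, (i3 k).2 k.2⟩, rfl⟩)
    obtain ⟨b, hb⟩ : Nat.card g.ker ∣ t7 q := by
      rw [← p2 (t7 q) ⟨q + 1, by rw [← t7_mul, mul_comm]⟩,
        ← card_map_of_injective (K := g.ker) (P (q ^ 7 + 1)).subtype_injective]
      refine card_dvd_of_le ?_
      rintro _ ⟨k, hk, rfl⟩
      exact i4 k k.2 ((det_mu hV k).symm.trans (congrArg Units.val hk))
    have c3 : Nat.card g.range = (q + 1) * b := Nat.eq_of_mul_eq_mul_left (Nat.card_pos (α := g.ker)) (by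
      rw [c2, mul_left_comm, ← hb, t7_mul])
    refine ⟨b * a, Nat.eq_of_mul_eq_mul_left (show 0 < q + 1 by omega) ?_⟩
    rw [ha, c3] at c1
    rw [show (q + 1) * NU7 q = q ^ Nat.choose 7 2 * H9.FOrd.PU q 7 by
      simp +decide [NU7, H9.FOrd.PU, H9.FOrd.uf, Finset.prod_range_succ, Nat.choose]; ring, ← c1]
    ring
  · have d3 : Nat.gcd 7 (q + 1) ∣ q ^ 7 + 1 := t7_mul q ▸ (Nat.gcd_dvd_right _ _).mul_right _
    rw [← p2 _ d3, ← card_map_of_injective (K := P _) mi,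
      ← card_map_of_injective (K := (pr (sisom S)).ker) (sisom S).subtype_injective]
    refine card_dvd_of_le ?_
    rintro _ ⟨k, hk, rfl⟩
    have a : ∀ n, Nat.gcd 7 (q + 1) ∣ n → k ^ n = 1 := fun n ⟨c, hc⟩ => by
      rw [hc, pow_mul, (p1 _ _).1 hk, one_pow]
    obtain ⟨c, hc⟩ := d2 k hk
    refine ⟨⟨_, (i3 k).2 (a _ d3), Units.ext ((det_mu hV k).trans ?_)⟩,
      Subtype.ext ((pp_mu_eq_one hV).2 ⟨c, hc⟩), rfl⟩
    rw [← hc, Algebra.norm_algebraMap, hE]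
    apply (algebraMap F E).injective
    rw [map_pow, hc, ← Units.val_pow_eq_pow_val, a _ (Nat.gcd_dvd_left _ _)]
    simp

end Cfsg.Agent.H9.U7
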