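import Cfsg.Agent.H9.U7s1

/-! The data attached to an overgroup of the Singer normaliser in `SU₇(q)`. -/

set_option autoImplicit false
set_option linter.unusedSectionVars false

namespace Cfsg.Agent.H9.U7

open Module MulAction Subgroup Cfsg.Agent.H1.C3a Cfsg.Agent.H5.Zas1 Cfsg.Agent.H4.CAG
  Cfsg.Agent.H8.L5f Cfsg.Agent.Form Cfsg.Agent.H7 Cfsg.Agent.H6.SU Cfsg.Agent.H9.Sin

universe u v

theorem exists_min' {F E V : Type*} [Field F] [Field E] [Algebra F E] [AddCommGroup V] [Module F V] [Module E V]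
    [IsScalarTower F E V] [Fintype F] [Finite E] [FiniteDimensional E V] {X₀ : Subgroup Eˣ}
    {M : Subgroup (V ≃ₗ[F] V)} (h : Sg X₀ M) (hS : ∃ g ∈ M, ¬ Semi E g) :
    ∃ K ≤ M, ∃ hK : Sg X₀ K, (∃ g ∈ K, ¬ Semi E g) ∧
      ∀ L : Subgroup K, L.Normal → (∀ k (hk : k ∈ X₀), (⟨_, hK.le k hk⟩ : K) ∈ L) → L = ⊤ := by
  have := h.finV
  have : Finite (V ≃ₗ[F] V) := DFunLike.finite _
  obtain ⟨K, ⟨h1, h2, h3⟩, hm⟩ := (Set.toFinite {K : Subgroup (V ≃ₗ[F] V) | K ≤ M ∧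
    (∀ k ∈ X₀, mu F V k ∈ K) ∧ ∃ g ∈ K, ¬ Semi E g}).exists_minimal ⟨M, le_rfl, h.le, hS⟩
  have hK := h.mono h1 h2
  refine ⟨K, h1, hK, h3, fun L hL hX => ?_⟩
  by_cases hc : ∃ g ∈ L.map K.subtype, ¬ Semi E g
  · have := hm ⟨(map_subtype_le _).trans h1, fun k hk => ⟨_, hX k hk, rfl⟩, hc⟩ (map_subtype_le _)
    refine eq_top_iff.2 fun g _ => ?_
    obtain ⟨g', hg', e⟩ := this g.2
    rwa [← show g' = g from Subtype.ext e]
  push Not at hc
  obtain ⟨g, hg, hn⟩ := h3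
  obtain ⟨k, hk⟩ := h.exists_ne
  have a1 : hK.nu k ∈ XX X₀ K := hK.range_nu ▸ ⟨k, rfl⟩
  refine (hn (hK.mem_Nm (g := ⟨g, hg⟩).1 (semireg hK.ca a1
    (fun e => hk (hK.nu_inj (by rw [e, map_one]))) ?_))).elim
  have a2 := hL.conj_mem' _ (hX k k.2) ⟨g, hg⟩
  rw [Sg.nu_eq, ← map_inv, ← map_mul, ← map_mul]
  exact hK.mem_Nm.2 (hc _ ⟨_, a2, rfl⟩)

section abstract

variable {F : Type u} [Field F] {σ : F →+* F} {hσ : ∀ a, σ (σ a) = a}
  {V : Type v} [AddCommGroup V] [Module F V] {S : PQ (FP.unit σ hσ) V} {M : Subgroup (V ≃ₗ[F] V)} {q : ℕ}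
  [Finite F] [FiniteDimensional F V]
  {E : Type*} [Field E] [Algebra F E] [Module E V] [IsScalarTower F E V]

theorem core (h : Un7 S q) (hq : 2 ≤ q) (hE : finrank F E = 7) (τ : E →+* E)
    (hadj : ∀ (k : E) x y, S.B (k • x) y = S.B x (τ k • y)) (hM : M ≤ sisom S)
    (hN : ∀ g ∈ sisom S, Semi E g → g ∈ M) (hS : ∃ g ∈ M, ¬ Semi E g) :
    ∃ K ≤ M, ∃ T X, SgD7 S q K T (pr K) X ∧
      (Nat.gcd 7 (q + 1) * Nat.card (PG K) = NU7 q → sisom S ≤ M) := by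
  have := Fintype.ofFinite F
  have : FiniteDimensional F E := Module.finite_of_finrank_eq_succ hE
  have : Finite E := Module.finite_of_finite F
  have : FiniteDimensional E V := Module.Finite.right F E V
  obtain ⟨X₀, T, h0, c1, t1, t2, t3, t4, t5, t6, t7, d1, d2⟩ := pre h hq hE τ hadj
  have := h0.finV
  have : Finite (V ≃ₗ[F] V) := DFunLike.finite _
  obtain ⟨K, hK, h1, ⟨g, hg, hn⟩, h4⟩ := exists_min' (h0.mono hM fun k hk => hN _ (h0.le k hk) (semi_mu k)) hS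
  have h5 : ∀ k (hk : k ∈ X₀), (⟨_, h1.le k hk⟩ : K) ^ Nat.card (XX X₀ K) = 1 := fun k hk => Subtype.ext (by
    rw [h1.card_XX, SubgroupClass.coe_pow, ← map_pow, show k ^ Nat.card X₀ = 1 from
      congrArg Subtype.val (pow_card_eq_one' (x := (⟨k, hk⟩ : X₀)))]
    exact map_one _)
  have h3 : ∀ L : Subgroup (PG K), L.Normal → XX X₀ K ≤ L → L = ⊤ := fun L hL hX => by
    have := h4 (L.comap (pr K)) (hL.comap _) fun k hk => hX (h1.mem_XX.2 ⟨k, rfl⟩)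
    refine eq_top_iff.2 fun y _ => ?_
    obtain ⟨g, rfl⟩ := pr_surj K y
    exact (this.ge (mem_top g) :)
  have e1 : PG K ≤ PG (sisom S) := map_mono (hK.trans hM)
  have e2 : Nat.gcd 7 (q + 1) * Nat.card (PG (sisom S)) ∣ NU7 q := by
    refine (Nat.mul_dvd_mul_right d2 _).trans (dvd_trans (Dvd.intro 1 ?_) d1)
    rw [mul_one, ← (pr (sisom S)).ker.card_mul_index, index_ker, MonoidHom.range_eq_top.2 (pr_surj _),
      card_top]
  refine ⟨K, hK, T, XX X₀ K, ⟨hK.trans hM, pr_surj K, fun g => ?_, h1.ca, h3, fun L hL e => h4 L hL fun k hk => e _ (t6 k hk) (h5 k hk),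
    ⟨pr K ⟨g, hg⟩, fun e => hn (h1.mem_Nm.1 e)⟩, (Nat.dvd_prime (by norm_num)).1 (hE ▸ h1.wt_dvd),
    by rw [h1.card_XX, c1], (Nat.mul_dvd_mul_left _ (card_dvd_of_le e1)).trans e2, t1, t2, t3, t4, t5,
    fun x hx => ?_, t7, fun Y hY e => h1.irr Y hY fun k hk y hy => e _ (h1.le k hk) _ (e _ (h1.le k hk) y hy)⟩, fun e g hg => ?_⟩
  · rw [← map_one (pr K), pr_eq]; rfl
  · obtain ⟨k, rfl⟩ : x ∈ h1.nu.range := h1.range_nu ▸ hx
    exact ⟨⟨_, h1.le k k.2⟩, t6 k k.2, rfl, h5 k k.2⟩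
  · have e3 : PG K = PG (sisom S) := eq_of_le_of_card_ge e1 (Nat.le_of_mul_le_mul_left
      (Nat.le_of_dvd (Nat.mul_pos (Nat.gcd_pos_of_pos_left _ (by norm_num)) Nat.card_pos) (e ▸ e2))
      (Nat.gcd_pos_of_pos_left _ (by norm_num)))
    obtain ⟨k, hk, e4⟩ : pp F V g ∈ PG K := e3 ▸ ⟨g, hg, rfl⟩
    obtain ⟨c, hc⟩ := pp_eq.1 e4.symm
    have := M.mul_mem (hN (g * k⁻¹) (mul_mem hg (inv_mem (hM (hK hk)))) fun a => ⟨a, fun v => ?_⟩) (hK hk)
    · simpa using this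
    · change g (k.symm _) = a • g (k.symm _)
      rw [hc, hc, k.apply_symm_apply, k.apply_symm_apply, smul_comm]

end abstract

variable {F : Type u} [Field F] [Fintype F] {q : ℕ}

theorem un7_std (hF : Fintype.card F = q ^ 2) : Un7 (std hF 7) q :=
  ⟨by rw [Nat.card_eq_fintype_card, hF], fun _ => rfl, std_ne hF, std_nondeg hF 7, finrank_fin_fun F⟩

theorem geo_singer7 (hF : Fintype.card F = q ^ 2)
    (hW : ∀ (K T : Subgroup ((Fin 7 → F) ≃ₗ[F] (Fin 7 → F))) (Γ : Type u) [Group Γ] [Fintype Γ]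
      (π : K →* Γ) (X : Subgroup Γ), SgD7 (std hF 7) q K T π X →
        sisom (std hF 7) ≤ K ∨ Nat.gcd 7 (q + 1) * Nat.card Γ = NU7 q)
    (A : Subalgebra F (Matrix (Fin 7) (Fin 7) F))
    (hA : Geo.IsFieldSubalgebra 7 A) (hac : Geo.IsAdjointClosedFor (hermForm 7 F q) A) :
    Geo.IsMaximalIn (GU 7 F q ⊓ Geo.specialLinear (Fin 7) F)
      (Geo.subalgebraNormalizer A ⊓ (GU 7 F q ⊓ Geo.specialLinear (Fin 7) F)) := by
  let _ := Asch.fieldOf A hA.comm hA.inv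
  let inst : Module A (Fin 7 → F) :=
    Module.compHom _ ((Matrix.toLinAlgEquiv' (R := F)).toRingHom.comp A.val.toRingHom)
  have : @IsScalarTower F A (Fin 7 → F) Algebra.toSMul inst.toSMul _ :=
    ⟨fun c k v => Matrix.smul_mulVec c k.1 v⟩
  have hS := std_nondeg hF 7
  have ha : Asch.AdjC (std hF 7) (A : Set (Matrix (Fin 7) (Fin 7) F)) := fun k hk => by
    obtain ⟨k', hk', e⟩ := hac k hk
    rwa [Asch.adj_unique hS e]
  refine max_of hF (KSemi A) (mem_subalgebraNormalizer_iff' A)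
    (SU_not_le_subalgebraNormalizer hF (by omega) hA (by omega)) fun M h1 h2 =>
      or_iff_not_imp_left.2 fun h3 => ?_
  push Not at h3
  have hq : 2 ≤ q := by
    have := Fintype.one_lt_card (α := F)
    rw [hF] at this
    by_contra hc
    interval_cases q <;> simp at this
  obtain ⟨K, hK, T, X, H, hf⟩ := core (E := A) (un7_std hF) hq hA.finrank_eq
    (Asch.adjEquiv hS hA.comm ha : A →+* A) (fun k x y => Asch.B_adj hS k x y) h1 h2 h3
  have := Fintype.ofFinite (PG K)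
  exact (hW K T _ _ X H).elim (fun e => e.trans hK) hf

end Cfsg.Agent.H9.U7
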