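import Cfsg.Agent.H8.U5w
import Cfsg.Agent.H9.U7d
import Cfsg.Agent.H9.U7h
import Cfsg.Agent.H2.U7G
import Cfsg.Agent.H1.U7Rc

/-!
Overgroups of the Singer normaliser in `SU₇(q)`: the Weil characters.
-/

set_option autoImplicit false
set_option linter.unusedSectionVars false

namespace Cfsg.Agent.H9.U7

open Finset Module Cfsg.Agent.Form Cfsg.Agent.H6.SU Cfsg.Agent.H7 Cfsg.Agent.H5.Char Cfsg.Agent.H2.Tr
  Cfsg.Agent.H4.CAG Cfsg.Agent.H8.U5
open scoped ComplexConjugate Classical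

universe u v

variable {F : Type u} [Field F] [Fintype F] {σ : F →+* F} {hσ : ∀ a, σ (σ a) = a}
  {V : Type v} [AddCommGroup V] [Module F V] [Fintype V] {S : PQ (FP.unit σ hσ) V} {q : ℕ} {χ : AddChar F ℂ}

variable (H : Wd S q χ) (h7 : finrank F V = 7)
include h7

theorem zeta7 {g : V ≃ₗ[F] V} (hg : g ∈ S.isom) (l : ZZ σ →* ℂ) : (q ^ 7 : ℕ) * (WW H g * ee H l) 0 =
    (q + 1 : ℂ)⁻¹ * ∑ c, l c⁻¹ * -(-q) ^ fx (g * scl V c) := by
  have := zeta_eq H hg l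
  rw [h7] at this
  simpa [Odd.neg_one_pow (n := 7) (by decide)] using this

theorem ee_zero7 (l : ZZ σ →* ℂ) : (q ^ 7 : ℕ) * ee H l 0 = t7 q - if l = 1 then 1 else 0 := by
  have e := zeta7 H h7 S.isom.one_mem l
  have e1 : ∀ c : ZZ σ, l c⁻¹ * -(-q : ℂ) ^ fx (1 * scl V c) = (if c = 1 then ((q + 1) * t7 q : ℂ) else 0) - l c⁻¹ := fun c => by
    split_ifs with h
    · have : fx (1 : V ≃ₗ[F] V) = 7 := by
        rw [fx, show ((1 : V ≃ₗ[F] V) : V →ₗ[F] V) - 1 = 0 from sub_self _, LinearMap.ker_zero, finrank_top, h7]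
      have e2 : ((q + 1) * t7 q : ℂ) = q ^ 7 + 1 := by exact_mod_cast t7_mul q
      rw [h, map_one, one_mul, this, e2, inv_one, map_one]
      ring
    · have h2 := σ_ne (σ := σ) (sub_ne h)
      rw [map_sub, map_one, hσ] at h2
      rw [one_mul, fx_eq_zero fun v hv => (smul_eq_zero_iff_right h2).1 (by rw [sub_smul, one_smul, ← scl_ap, hv, sub_self])]
      simp
  rw [W_one, one_mul] at e
  simp only [e, e1, sum_sub_distrib, mul_sub, sum_l' H, sum_ite_eq', mem_univ, if_true, inv_mul_cancel_left₀ H.q1]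

theorem ee_ne7 (l : ZZ σ →* ℂ) : ee H l ≠ 0 := fun e => by
  have e1 := ee_zero7 H h7 l
  have e2 := t7_eq q
  have h2 := H.fd.two_le
  have : q ^ 5 * 2 ≤ q ^ 6 := by rw [pow_succ q 5]; exact Nat.mul_le_mul_left _ h2
  have : q ^ 3 * 2 ≤ q ^ 4 := by rw [pow_succ q 3]; exact Nat.mul_le_mul_left _ h2
  have : q * 2 ≤ q ^ 2 := by nlinarith
  rw [e, zero_ap, mul_zero, eq_comm, sub_eq_zero] at e1
  split_ifs at e1 <;> norm_cast at e1 <;> omega

theorem parity7 {z : V ≃ₗ[F] V} (hz : z ∈ S.isom) (z1 : z ≠ 1) (z2 : z * z = 1) {i j : ZZ σ →* ℂ} (hi : i ≠ 1) (hj : j ≠ 1)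
    (hij : i (mone σ) ≠ j (mone σ)) : (WW H z * ee H i) 0 ≠ (WW H z * ee H j) 0 := fun e => by
  have e1 := congrArg (((q ^ 7 : ℕ) : ℂ) * ·) e
  simp only [zeta7 H h7 hz, mul_right_inj' (inv_ne_zero H.q1)] at e1
  have e2 : ∑ c : ZZ σ, (i c⁻¹ - j c⁻¹) * (1 - (-q : ℂ) ^ fx (z * scl V c)) = 0 := by
    simp only [sub_mul, mul_sub, mul_one, sum_sub_distrib, sum_l hi, sum_l hj]
    simp only [mul_neg, sum_neg_distrib] at e1
    linear_combination e1
  rw [sum_eq_single (mone σ) (fun c _ hc => ?_) (by simp), mul_eq_zero, sub_eq_zero, sub_eq_zero,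
    show (mone σ)⁻¹ = mone σ from Subtype.ext (by simp [mone])] at e2
  · refine e2.elim hij fun e3 => ?_
    obtain ⟨x, hx⟩ : ∃ x, z x ≠ x := by_contra fun hc => z1 (LinearEquiv.ext (by simpa using hc))
    have e4 : fx (z * scl V (mone σ)) ≠ 0 := by
      rw [fx, Ne, Submodule.finrank_eq_zero, Submodule.eq_bot_iff]
      intro hc
      refine hx (sub_eq_zero.1 (hc _ ?_))
      have : z (z x) = x := congrArg (· x) z2
      simp [scl_ap, mone, this]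
    have := congrArg norm e3
    rw [norm_one, norm_pow, norm_neg, Complex.norm_natCast, eq_comm, pow_eq_one_iff_of_nonneg q.cast_nonneg e4] at this
    have h2 := H.fd.two_le
    norm_cast at this
    omega
  · by_cases c1 : c = 1
    · simp [c1]
    rw [fx_eq_zero fun v hv => ?_, pow_zero, sub_self, mul_zero]
    have e3 : ((c : Fˣ) : F) • z v = v := by simpa [scl_ap] using hv
    have e4 : ((c : Fˣ) : F) • v = z v := by
      have := congrArg z e3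
      rwa [map_smul, show z (z v) = v from congrArg (· v) z2] at this
    rw [← e4, smul_smul, ← sub_eq_zero, ← one_smul F v, smul_smul, mul_one, ← sub_smul, smul_eq_zero, sub_eq_zero,
      mul_self_eq_one_iff] at e3
    exact e3.resolve_left (not_or.2 ⟨fun e => c1 (Subtype.ext (Units.ext e)), fun e => hc (Subtype.ext (Units.ext e))⟩)

omit h7 in
theorem exists_ij7 (hF : Fd σ q) (ho : Odd q) (h9 : q ≠ 13) : ∃ i j : ZZ σ →* ℂ, i ≠ 1 ∧ j ≠ 1 ∧ i (mone σ) ≠ j (mone σ) ∧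
    (∀ c, c ^ 7 = 1 → i c = 1) ∧ ∀ c, c ^ 7 = 1 → j c = 1 := by
  have h2 := hF.two_le
  obtain ⟨φ, hφ⟩ := CommGroup.exists_apply_ne_one_of_hasEnoughRootsOfUnity (ZZ σ) ℂ (a := mone σ) fun e => by
    have e1 : (-1 : F) = 1 := congrArg (fun c : ZZ σ => ((c : Fˣ) : F)) e
    have := FiniteField.even_card_of_char_two (F := F) (CharP.ringChar_of_prime_eq_zero Nat.prime_two (by
      push_cast; linear_combination -e1))
    rw [hF.card] at this
    have := Nat.odd_iff.1 (ho.pow (n := 2))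
    omega
  obtain ⟨c, hc⟩ : ∃ c : ZZ σ, c ^ 14 ≠ 1 := by
    by_contra! hc
    have := Monoid.exponent_dvd_of_forall_pow_eq_one hc
    rw [IsCyclic.exponent_eq_card, Nat.card_eq_fintype_card, hF.cZ] at this
    have h3 := Nat.le_of_dvd (by omega) this
    obtain ⟨k, rfl⟩ := ho
    have : k ≤ 6 := by omega
    interval_cases k <;> omega
  obtain ⟨ψ, hψ⟩ := CommGroup.exists_apply_ne_one_of_hasEnoughRootsOfUnity (ZZ σ) ℂ hc
  have m2 : mone σ ^ 2 = 1 := Subtype.ext (by simp [mone])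
  have m5 : mone σ ^ 7 = mone σ := by rw [show 7 = 2 * 3 + 1 from rfl, pow_succ, pow_mul, m2, one_pow, one_mul]
  have m10 : mone σ ^ 14 = 1 := by rw [show 14 = 2 * 7 from rfl, pow_mul, m2, one_pow]
  refine ⟨(Units.coeHom ℂ).comp (φ.comp (powMonoidHom 7)), (Units.coeHom ℂ).comp (ψ.comp (powMonoidHom 14)),
    fun e => hφ ?_, fun e => hψ ?_, ?_, fun c hc => ?_, fun c hc => ?_⟩
  · simpa only [MonoidHom.comp_apply, powMonoidHom_apply, m5, Units.coeHom_apply, MonoidHom.one_apply, Units.val_eq_one]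
      using DFunLike.congr_fun e (mone σ)
  · simpa only [MonoidHom.comp_apply, powMonoidHom_apply, Units.coeHom_apply, MonoidHom.one_apply, Units.val_eq_one]
      using DFunLike.congr_fun e c
  · simpa only [MonoidHom.comp_apply, powMonoidHom_apply, m5, m10, Units.coeHom_apply, map_one, Ne, Units.val_eq_one]
      using hφ
  · simp only [MonoidHom.comp_apply, powMonoidHom_apply, hc, map_one]
  · simp only [MonoidHom.comp_apply, powMonoidHom_apply, show 14 = 7 * 2 from rfl, pow_mul, hc, one_pow, map_one]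

section sgd
variable {K T : Subgroup (V ≃ₗ[F] V)} {Γ : Type*} [Group Γ] [Fintype Γ] {π : K →* Γ} {X : Subgroup Γ}
  (D : SgD7 S q K T π X)
include D

omit h7 in
theorem SgD7.iso (g : K) : g.1 ∈ S.isom := (D.le g.2).1

include H in
theorem SgD7.ker' {g : K} (hg : π g = 1) : ∃ c : ZZ σ, c ^ 7 = 1 ∧ g.1 = scl V c := by
  obtain ⟨c, hc⟩ := (D.ker g).1 hg
  have : Nontrivial V := Module.nontrivial_of_finrank_pos (R := F) (by omega)
  obtain ⟨v, hv⟩ := exists_ne (0 : V)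
  obtain ⟨u, hu⟩ := H.nd.exists_ne hv
  have e := PQ.B_isom (D.iso g) u v
  rw [hc, hc, S.B_smul_left, Bsr, ← mul_assoc, mul_eq_right₀ hu] at e
  refine ⟨⟨Units.mk0 c (left_ne_zero_of_mul_eq_one e), e⟩, Subtype.ext (Units.ext ?_), LinearEquiv.ext hc⟩
  have e1 : LinearMap.det (g.1 : V →ₗ[F] V) = 1 := by
    rw [← LinearEquiv.coe_det, (mem_sisom.1 (D.le g.2)).2, Units.val_one]
  rw [show (g.1 : V →ₗ[F] V) = c • LinearMap.id from LinearMap.ext hc, LinearMap.det_smul, h7] at e1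
  simpa using e1

theorem SgD7.fam {l : ZZ σ →* ℂ} (hl : ∀ c, c ^ 7 = 1 → l c = 1) : ∃ (s : Γ → TA (bi H)) (m : Irr Γ → ℕ),
    (∀ g : K, s (π g) = WW H g.1 * ee H l) ∧ Ch (fun γ => (q ^ 7 : ℕ) * s γ 0) m ∧
    (q ^ 7 : ℕ) * s 1 0 = (t7 q - if l = 1 then 1 else 0) ∧
    (∀ x ∈ X, x ≠ 1 → (q ^ 7 : ℕ) * s x 0 = -if l = 1 then 1 else 0) ∧
    (classInner (fun γ => (q ^ 7 : ℕ) * s γ 0) (fun γ => (q ^ 7 : ℕ) * s γ 0) = 1 → Sc H K l) := by
  have e0 : ee H l * ee H l = ee H l := by simp [ee_mul]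
  have e1 : ∀ g : K, WW H (Function.surjInv D.surj (π g)).1 * ee H l = WW H g.1 * ee H l := fun g => by
    obtain ⟨c, c1, c2⟩ := D.ker' H h7 (g := g⁻¹ * Function.surjInv D.surj (π g)) (by simp [Function.surjInv_eq])
    rw [Subgroup.coe_mul, Subgroup.coe_inv, inv_mul_eq_iff_eq_mul] at c2
    rw [c2, W_mul H (D.iso g) (scl_mem S c), mul_assoc, W_ee, hl c c1, one_smul]
  have hs : ∀ γ δ, WW H (Function.surjInv D.surj (γ * δ)).1 * ee H l =
      WW H (Function.surjInv D.surj γ).1 * ee H l * (WW H (Function.surjInv D.surj δ).1 * ee H l) := fun γ δ => by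
    obtain ⟨g, rfl⟩ := D.surj γ
    obtain ⟨h, rfl⟩ := D.surj δ
    rw [← map_mul, e1, e1, e1, Subgroup.coe_mul, W_mul H (D.iso g) (D.iso h), mul_assoc, mul_assoc, ← mul_assoc (ee H l),
      ← ee_comm H (D.iso h), mul_assoc, e0]
  have hn : q ^ 7 * q ^ 7 = Fintype.card V := h7 ▸ H.sq
  have e2 : WW H (Function.surjInv D.surj 1).1 * ee H l = ee H l := by
    rw [← map_one π, e1, OneMemClass.coe_one, W_one, one_mul]
  obtain ⟨m, hm⟩ := ch_fam hn (fun γ => WW H (Function.surjInv D.surj γ).1 * ee H l) hs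
  refine ⟨_, m, e1, hm, by rw [e2, ee_zero7 H h7], fun x hx x1 => ?_, fun h0 v => ?_⟩
  · obtain ⟨g, g1, rfl, -⟩ := D.lift x hx
    rw [e1, zeta7 H h7 (D.iso g), ← sum_l' H, ← mul_neg, ← sum_neg_distrib]
    congr 1
    refine sum_congr rfl fun c _ => ?_
    rw [fx_eq_zero fun v hv => (D.free _ (T.mul_mem g1 (D.sc _ _ (zz c) (scl_ap c))) v hv).resolve_left fun e => x1 ?_]
    · simp
    · rw [mul_eq_one_iff_eq_inv, ← map_inv] at e
      exact (D.ker g).2 ⟨_, fun v => by rw [e, scl_ap]⟩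
  · have c1 : ∀ g ∈ S.isom, (∀ w ∈ Orb σ K v, g w ∈ Orb σ K v) → (∀ w ∈ Orb σ K v, g⁻¹ w ∈ Orb σ K v) →
        WW H g * ind H K v = ind H K v * WW H g := fun g hg a b => (itw_W H hg).act _ _ fun w =>
      if_congr ⟨fun h => by simpa using b _ h, a w⟩ rfl rfl
    have c2 : ee H l * ind H K v = ind H K v * ee H l := by
      simp only [ee, mul_smul_comm, smul_mul_assoc, mul_sum, sum_mul, fun c => c1 _ (scl_mem S c)
        (fun w => orb_smul (zz c)) fun w => by rw [← map_inv]; exact orb_smul (zz c⁻¹)]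
    simpa only [e2] using hom_one hn hs h0 (a := ind H K v * ee H l) (fun γ => by
      rw [mul_assoc, ← mul_assoc (ee H l), c2, ← mul_assoc, ← mul_assoc, c1 _ (D.iso _) (fun w => orb_map (Subtype.prop _))
        fun w => orb_map (K.inv_mem (Subtype.prop _)), mul_assoc _ (WW H _), ee_comm H (D.iso _)]
      simp only [mul_assoc, ee_comm H (D.iso _)]) (by rw [e2, mul_assoc, e0])

include H in
theorem main07 {p f : ℕ} (hp : p.Prime) (hq : q = p ^ f)  :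
    wt X = 7 ∧ Sc H K 1 ∧ q * (q - 1) * (q ^ 4 + q ^ 2 + 1) ∣ Nat.card Γ ∧
      ∃ (ζ : Γ → ℂ) (m : Irr Γ → ℕ), (∀ g : K, ζ (π g) = (q ^ 7 : ℕ) * (WW H g.1 * ee H 1) 0) ∧ Ch ζ m ∧
        ζ 1 = t7 q - 1 ∧ (∀ x ∈ X, x ≠ 1 → ζ x = -1) ∧ classInner ζ ζ = 1 := by
  have h3 := H.fd.two_le
  obtain ⟨s, m, s1, s2, s3, s4, s5⟩ := D.fam H h7 (l := 1) fun _ _ => rfl
  obtain ⟨a, b, c⟩ := CH07 hp hq h3 D.ca D.gen D.ne D.wt D.card D.dvd s2 (by simpa using s3) (by simpa using s4)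
    fun γ γ1 => by
      obtain ⟨g, rfl⟩ := D.surj γ
      have e : ∀ c : ZZ σ, (-(-q : ℂ) ^ fx (g.1 * scl V c)).re ≤ q ^ 5 := fun c => by
        have := fx_lt (g := g.1 * scl V c) fun e => γ1 (by
          rw [mul_eq_one_iff_eq_inv, ← map_inv] at e
          exact (D.ker g).2 ⟨_, fun v => by rw [e, scl_ap]⟩)
        rw [show (-(-q : ℂ) ^ fx (g.1 * scl V c)) = ((-(-q : ℝ) ^ fx (g.1 * scl V c) : ℝ) : ℂ) by simp, Complex.ofReal_re]
        have h3' : (2 : ℝ) ≤ q := by exact_mod_cast h3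
        generalize fx (g.1 * scl V c) = k at this
        rw [h7] at this
        have h1' : (1 : ℝ) ≤ q := by linarith
        rcases Nat.even_or_odd k with hk | hk
        · rw [hk.neg_pow]
          exact (neg_nonpos.2 (by positivity)).trans (by positivity)
        · rw [hk.neg_pow, neg_neg]
          exact pow_le_pow_right₀ h1' (by obtain ⟨j, rfl⟩ := hk; omega)
      simp only [s1, zeta7 H h7 (D.iso g), MonoidHom.one_apply, one_mul]
      rw [show (q + 1 : ℂ)⁻¹ = ((q + 1 : ℝ)⁻¹ : ℝ) by simp, Complex.re_ofReal_mul, Complex.re_sum,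
        inv_mul_le_iff₀ (by positivity)]
      simpa [H.fd.cZ] using sum_le_card_nsmul univ _ _ fun c _ => e c
  exact ⟨a, s5 b, c, _, m, fun g => by rw [s1], s2, by simpa using s3, by simpa using s4, b⟩

include H in
theorem SgD7.red0 (h4 : q ≠ 6) {i j : ZZ σ →* ℂ} (hi : i ≠ 1) (hj : j ≠ 1) (α β : K →* ℂˣ)
    {φ ψ : Irr Γ} (φ1 : φ ≠ triv Γ) (ψ1 : ψ ≠ triv Γ)
    (hφ : ∀ g : K, (q ^ 7 : ℕ) * (WW H g.1 * ee H i) 0 = α g * (1 + φ.1 (π g)))
    (hψ : ∀ g : K, (q ^ 7 : ℕ) * (WW H g.1 * ee H j) 0 = β g * (1 + ψ.1 (π g))) : φ = ψ := by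
  by_contra hne
  have h3 := H.fd.two_le
  have := Fintype.ofFinite K
  obtain ⟨r, hr, r1, r2, r3, r4⟩ := CH27 h3 h4 D.ca D.card
  obtain ⟨R, R1, R2, R3⟩ := exists_R hr
  obtain ⟨i1, i2⟩ := W_int H R3 (R2 q r3) (R2 _ r4)
  have hT : ∀ a : X.comap π, a.1.1 ∈ T := fun a => by
    obtain ⟨g, g1, g2, -⟩ := D.lift _ a.2
    obtain ⟨c, -, c2⟩ := D.ker' H h7 (g := g⁻¹ * a.1) (by simp [g2])
    rw [Subgroup.coe_mul, Subgroup.coe_inv, inv_mul_eq_iff_eq_mul] at c2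
    exact c2 ▸ T.mul_mem g1 (D.sc _ _ (zz c) (scl_ap c))
  obtain ⟨k, hk⟩ : Nat.card (X.comap π) ∣ (q + 1) * t7 q := by
    rw [t7_mul, ← D.tcard]
    exact Subgroup.card_dvd_of_injective ((K.subtype.comp (X.comap π).subtype).codRestrict T hT) fun a b e =>
      Subtype.ext (Subtype.ext (congrArg (Subtype.val : T → _) e))
  have key : ∀ l : ZZ σ →* ℂ, l ≠ 1 → (∀ g h : K, WW H (g * h).1 * ee H l = WW H g.1 * ee H l * (WW H h.1 * ee H l)) ∧
      ∃ θ : TA (bi H), (∀ w, θ w ∈ R) ∧ WW H (1 : K).1 * ee H l =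
        ∑ a : X.comap π, WW H a.1.1 * ee H l * θ * (WW H (a.1⁻¹).1 * ee H l) := fun l hl => by
    refine ⟨fun g h => by rw [Subgroup.coe_mul, W_mul H (D.iso g) (D.iso h), mul_assoc, mul_assoc, ← mul_assoc (ee H l),
      ← ee_comm H (D.iso h), mul_assoc, ee_mul, if_pos rfl], ?_⟩
    obtain ⟨θ, t1, t2⟩ := exists_theta H (K.subtype.comp (X.comap π).subtype) (fun a => D.iso a.1)
      (fun a v e => (D.free _ (hT a) v e).imp_left fun e => Subtype.ext (Subtype.ext e)) l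
    refine ⟨θ, fun w => ?_, by rw [OneMemClass.coe_one, W_one, one_mul]; exact t2⟩
    rcases t1 w with e | e | e <;> rw [e]
    · have e1 := ee_zero7 H h7 l
      have e2 : ((q + 1) * t7 q : ℂ) = Nat.card (X.comap π) * k := by exact_mod_cast hk
      have h0 := neg_ne_zero.1 H.q0
      have h1 := H.q1
      have h2 : (Nat.card (X.comap π) : ℂ) ≠ 0 := card_ne
      rw [show ee H l 0 / Nat.card (X.comap π) = k * ((q + 1 : ℕ) : ℂ)⁻¹ * (q : ℂ)⁻¹ ^ 7 by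
        rw [if_neg hl] at e1
        push_cast at e1 ⊢
        field_simp
        linear_combination (q + 1) * e1 + e2]
      exact mul_mem (mul_mem (natCast_mem R k) (R2 _ r4)) (pow_mem (R2 q r3) 7)
    · simpa [W_one] using i2 1 l w
    · exact zero_mem R
  obtain ⟨a1, θ, a2, a3⟩ := key i hi
  obtain ⟨b1, θ', b2, b3⟩ := key j hj
  have nt : ∀ {φ : Irr Γ}, φ ≠ triv Γ → (⟨_, isIrr_comp π D.surj φ⟩ : Irr K) ≠ triv K := fun h e =>
    h (Subtype.ext (funext fun γ => by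
      obtain ⟨g, rfl⟩ := D.surj γ
      exact congrFun (congrArg Subtype.val e) g))
  have u1 : ∀ (α : K →* ℂˣ) g, ((α g : ℂˣ) : ℂ)⁻¹ ∈ R := fun α g => R3 _ (Fintype.card K) Fintype.card_ne_zero (by
    rw [inv_pow, ← Units.val_pow_eq_pow_val, ← map_pow, pow_card_eq_one, map_one, Units.val_one, inv_one])
  have u2 : ∀ (α : K →* ℂˣ) {s : K → TA (bi H)}, (∀ g h, s (g * h) = s g * s h) → ∀ g h,
      ((α (g * h) : ℂˣ) : ℂ)⁻¹ • s (g * h) = ((α g : ℂˣ) : ℂ)⁻¹ • s g * ((α h : ℂˣ) : ℂ)⁻¹ • s h := fun α s hs g h => by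
    rw [hs, smul_mul_smul_comm, map_mul, Units.val_mul, mul_inv]
  have u3 : ∀ (α : K →* ℂˣ) {s : K → TA (bi H)} {θ : TA (bi H)}, s 1 = ∑ a : X.comap π, s a * θ * s a.1⁻¹ →
      ((α 1 : ℂˣ) : ℂ)⁻¹ • s 1 = ∑ a : X.comap π, ((α a : ℂˣ) : ℂ)⁻¹ • s a * θ * ((α a.1⁻¹ : ℂˣ) : ℂ)⁻¹ • s a.1⁻¹ :=
    fun α s θ e => by
      rw [map_one, Units.val_one, inv_one, one_smul, e]
      exact sum_congr rfl fun a _ => by simp [smul_smul]
  refine val_contra (s := fun g : K => ((α g : ℂˣ) : ℂ)⁻¹ • (WW H g.1 * ee H i))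
    (s' := fun g : K => ((β g : ℂˣ) : ℂ)⁻¹ • (WW H g.1 * ee H j)) (h7 ▸ H.sq)
    (u2 α (s := fun g : K => WW H g.1 * ee H i) a1) (u2 β (s := fun g : K => WW H g.1 * ee H j) b1) (nt φ1)
    (fun e => hne (Subtype.ext (funext fun γ => ?_)))
    (fun g => by rw [smul_ap, mul_left_comm, hφ, inv_mul_cancel_left₀ (Units.ne_zero _)])
    (fun g => by rw [smul_ap, mul_left_comm, hψ, inv_mul_cancel_left₀ (Units.ne_zero _)]) (nt ψ1) (X.comap π) R i1
    ?_ ?_ ?_ (fun g w => mul_mem (u1 α g) (i2 _ i w)) (fun g w => mul_mem (u1 β g) (i2 _ j w)) a2 b2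
    (u3 α (s := fun g : K => WW H g.1 * ee H i) a3) (u3 β (s := fun g : K => WW H g.1 * ee H j) b3)
  · obtain ⟨g, rfl⟩ := D.surj γ
    exact congrFun (congrArg Subtype.val e) g
  · rw [← H.sq]
    exact R2 _ fun h => r3 (hr.dvd_of_dvd_pow (pow_add q _ _ ▸ h))
  · exact R2 _ (by rwa [Subgroup.index_comap_of_surjective _ D.surj])
  · obtain ⟨a, ha⟩ := r1.trans (Subgroup.card_dvd_of_surjective (π.subgroupComap X)
      (π.subgroupComap_surjective_of_surjective X D.surj))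
    rw [ha, R.mem_nonunits_iff, Nat.cast_mul, map_mul]
    exact (mul_le_of_le_one_right' ((R.valuation_le_one_iff _).2 (natCast_mem R a))).trans_lt (R.mem_nonunits_iff.1 R1)

include H in
theorem SgD7.red (h4 : q ≠ 6) (h2 : 2 ∣ Nat.card K) {i j : ZZ σ →* ℂ} (hi : i ≠ 1) (hj : j ≠ 1)
    (hij : i (mone σ) ≠ j (mone σ)) {φ ψ : Irr Γ} (φ1 : φ ≠ triv Γ) (ψ1 : ψ ≠ triv Γ)
    (hφ : ∀ g : K, (q ^ 7 : ℕ) * (WW H g.1 * ee H i) 0 = 1 + φ.1 (π g))
    (hψ : ∀ g : K, (q ^ 7 : ℕ) * (WW H g.1 * ee H j) 0 = 1 + ψ.1 (π g)) : False := by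
  obtain rfl := D.red0 H h7 h4 hi hj 1 1 φ1 ψ1 (by simpa using hφ) (by simpa using hψ)
  obtain ⟨z, hz⟩ := exists_prime_orderOf_dvd_card' (hp := ⟨Nat.prime_two⟩) 2 h2
  refine parity7 H h7 (D.iso z) (fun e => by simp [show z = 1 from Subtype.ext e] at hz)
    (congrArg Subtype.val (show z * z = 1 by rw [← sq, ← hz, pow_orderOf_eq_one])) hi hj hij ?_
  refine mul_left_cancel₀ (a := ((q ^ 7 : ℕ) : ℂ)) (by simpa using neg_ne_zero.1 H.q0) ?_
  rw [hφ, hψ]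

theorem SgD7.key (h : Un7 S q) {p f : ℕ} (hp : p.Prime) (hf : q = p ^ f) {l : ZZ σ →* ℂ} (hl : l ≠ 1)
    (l5 : ∀ c, c ^ 7 = 1 → l c = 1) : Sc H K l ∨
      ∃ φ : Irr Γ, φ ≠ triv Γ ∧ ∀ g : K, (q ^ 7 : ℕ) * (WW H g.1 * ee H l) 0 = 1 + φ.1 (π g) := by
  have := Fintype.ofFinite K
  obtain ⟨hw, -, hd, -⟩ := main07 H h7 D hp hf
  obtain ⟨s, m, s1, s2, s3, s4, s5⟩ := D.fam H h7 l5
  refine (CH17 hp hf H.fd.two_le D.ca D.gen hw D.card D.dvd (fun h6 => ?_) s2 (by simpa [hl] using s3)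
    (by simpa only [if_neg hl, neg_zero] using s4)).imp s5 fun ⟨φ, a, b⟩ => ⟨φ, a, fun g => s1 g ▸ b (π g)⟩
  obtain ⟨r, k, r1, r2, r3, r4⟩ := H1.U7R.A3 h6 (ne_six hp hf)
  refine ⟨_, r4, r3, fun φ => ?_⟩
  obtain ⟨d, d1, d2⟩ := H1.U7R.rtrick h (fun g hg => (D.le hg).1) r1 r2 r3 (((r3.trans ⟨q ^ 2 - q + 1, by
    zify [show q ≤ q ^ 2 by nlinarith]; ring⟩).mul_left _).trans (hd.trans (Subgroup.card_dvd_of_surjective π D.surj)))
    r4 ⟨_, isIrr_comp π D.surj φ⟩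
  refine ⟨d, d1, ?_⟩
  rwa [show deg φ = deg (⟨_, isIrr_comp π D.surj φ⟩ : Irr K) from Nat.cast_injective (R := ℂ) (by
    rw [← deg_eq, ← deg_eq]; simp)]

theorem SgD7.odd (h : Un7 S q) {p f : ℕ} (hp : p.Prime) (hf : q = p ^ f) (ho : Odd q) (h13 : q ≠ 13) :
    ∃ l, l ≠ 1 ∧ Sc H K l := by
  obtain ⟨-, -, hd, -⟩ := main07 H h7 D hp hf
  obtain ⟨i, j, hi, hj, hij, i5, j5⟩ := exists_ij7 H.fd ho h13
  rcases D.key H h7 h hp hf hi i5 with a | ⟨φ, a, a'⟩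
  · exact ⟨i, hi, a⟩
  rcases D.key H h7 h hp hf hj j5 with b | ⟨ψ, b, b'⟩
  · exact ⟨j, hj, b⟩
  exact (D.red H h7 (ne_six hp hf) ((((Nat.even_mul_pred_self q).mul_right _).two_dvd).trans
    (hd.trans (Subgroup.card_dvd_of_surjective π D.surj))) hi hj hij a b a' b').elim

theorem SgD7.fin (h : Un7 S q) {p f : ℕ} (hp : p.Prime) (hf : q = p ^ f) (h3 : 3 ≤ q) {l : ZZ σ →* ℂ} (hl : l ≠ 1)
    (a : Sc H K l) : sisom S ≤ K := by
  have hM : K ≤ S.isom := fun g hg => (D.le hg).1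
  have hs : ∀ χ (H : Wd S q χ), Sc H K 1 := fun χ H => (main07 H h7 D hp hf).2.1
  obtain ⟨d, d0, hd⟩ := H2.U7G.GD h hM (H2.U7G.GB h hM (TR7 H hM h7 hs a hl (ee_ne7 H h7))) (G17 hM h7 hs H)
  exact H2.U7G.GC h h3 hM D.irr d0 hd

end sgd

end Cfsg.Agent.H9.U7
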