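import Cfsg.Agent.H9.U7w
import Cfsg.Agent.H9.U7s2
import Cfsg.Agent.H2.U7e1
import Cfsg.Agent.Sg.U7two

/-!
An overgroup of the Singer normaliser in `SU₇(q)` is the whole group.
-/

set_option autoImplicit false
set_option linter.unusedSectionVars false

namespace Cfsg.Agent.H9.U7

open Finset Module Cfsg.Agent.Form Cfsg.Agent.H6.SU Cfsg.Agent.H7 Cfsg.Agent.H5.Char Cfsg.Agent.H2.Tr
  Cfsg.Agent.H4.CAG Cfsg.Agent.H8.U5
open scoped Classical

universe u v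

variable {F : Type u} [Field F] [Fintype F] {σ : F →+* F} {hσ : ∀ a, σ (σ a) = a}
  {V : Type v} [AddCommGroup V] [Module F V] [Fintype V] {S : PQ (FP.unit σ hσ) V} {q : ℕ} {χ : AddChar F ℂ}
  {K T : Subgroup (V ≃ₗ[F] V)} {Γ : Type*} [Group Γ] [Fintype Γ] {π : K →* Γ} {X : Subgroup Γ}

theorem two_pow_mod (f : ℕ) : 2 ^ f % 7 = 1 ∨ 2 ^ f % 7 = 2 ∨ 2 ^ f % 7 = 4 := by
  induction f with
  | zero => simp
  | succ f ih => rw [pow_succ]; omega

theorem SgD7.even (H : Wd S q χ) (D : SgD7 S q K T π X) (h : Un7 S q) {p f : ℕ} (hp : p.Prime) (hf : q = p ^ f)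
    (he : Even q) (h4 : 4 ≤ q) : ∃ l, l ≠ 1 ∧ Sc H K l := by
  by_contra! hc
  obtain rfl := (Nat.prime_dvd_prime_iff_eq Nat.prime_two hp).1 (Nat.prime_two.dvd_of_dvd_pow (hf ▸ he.two_dvd))
  have h1 : ∀ c : ZZ σ, c ^ 7 = 1 → c = 1 := fun c e => by
    have := pow_gcd_eq_one.2 ⟨e, pow_card_eq_one (x := c)⟩
    rwa [H.fd.cZ, ((w_cases q).resolve_right fun e => by have := two_pow_mod f; omega).1, pow_one] at this
  have key := fun l hl => (D.key H h.dim h hp hf (l := l) hl fun c e => by rw [h1 c e, map_one]).resolve_left (hc l hl)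
  obtain ⟨l, hl, -⟩ := exists_third H.fd 1
  obtain ⟨φ, a, b⟩ := key l hl
  obtain ⟨hw, -, -, ζ, m, z1, z2, -, z3, z4⟩ := main07 H h.dim D hp hf
  have := n_big7 H.fd.two_le (ne_six hp hf) D.card
  refine H2.U7e.even_core H h.dim h4 (fun g hg => (D.le hg).1) D.surj D.ca hw (by omega) z2 (fun g => (z1 g).symm)
    z4 z3 a fun l' hl' => ?_
  obtain ⟨ψ, a', b'⟩ := key l' hl'
  rwa [D.red0 H h.dim (ne_six hp hf) hl hl' 1 1 a a' (by simpa using b) (by simpa using b')]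

omit [Fintype F] [Fintype V] in
theorem weil7 [Finite F] [FiniteDimensional F V] (h : Un7 S q) (D : SgD7 S q K T π X)
    (h13 : ∀ [Fintype F] [Fintype V] (χ : AddChar F ℂ) (H : Wd S q χ), q = 13 → ∃ l, l ≠ 1 ∧ Sc H K l) :
    sisom S ≤ K := by
  have := Fintype.ofFinite F
  have := Module.finite_of_finite F (M := V)
  have := Fintype.ofFinite V
  have hF : Fd σ q := ⟨by rw [← h.card, Nat.card_eq_fintype_card], hσ, h.ne⟩
  obtain ⟨δ, δ0, hδ⟩ := exists_tr_zero h.ne hσ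
  obtain ⟨χ, hχ⟩ := AddChar.exists_apply_ne_zero.2 δ0
  have H : Wd S q χ := ⟨hF, h.nd, δ, hδ, hχ⟩
  obtain ⟨p, _, n, hp, hn⟩ := FiniteField.card' F
  obtain ⟨f, -, hf⟩ := (Nat.dvd_prime_pow hp).1 (hn ▸ hF.card ▸ dvd_pow_self q two_ne_zero)
  rcases hF.two_le.eq_or_lt with rfl | h3
  · exact Sg.U7.two h H D (main07 H h.dim D hp hf).2.1 (H2.U7G.GB h fun g hg => (D.le hg).1)
  obtain ⟨l, hl, a⟩ : ∃ l, l ≠ 1 ∧ Sc H K l := by
    rcases Nat.even_or_odd q with he | ho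
    · exact D.even H h hp hf he (by obtain ⟨k, rfl⟩ := he; omega)
    by_cases e : q = 13
    · exact h13 χ H e
    · exact D.odd H h.dim h hp hf ho e
  exact D.fin H h.dim h hp hf h3 hl a

end Cfsg.Agent.H9.U7
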